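import Cfsg.Agent.Lib.O7.T1

/-!
# `A₈`, ..., `A₁₁` (BRANCH STUB of `docs/O7.md`; the filler may add files `O7/Alt1 ...` and imports)
-/

set_option autoImplicit false

namespace Cfsg.Lib.O7

open QuadraticMap Module Matrix Cfsg.Lib.Orth
open scoped MatrixGroups

theorem alt_emb {m n : ℕ} (h : m ≤ n) :
    ∃ θ : alternatingGroup (Fin m) →* alternatingGroup (Fin n), Function.Injective θ := by
  classical
  let j : Fin m ↪ Fin n := Fin.castLEEmb h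
  refine ⟨((Equiv.Perm.viaEmbeddingHom j).comp (alternatingGroup _).subtype).codRestrict _ fun g => ?_, fun a b e =>
    Subtype.ext (Equiv.Perm.viaEmbeddingHom_injective j (congrArg Subtype.val e))⟩
  refine Equiv.Perm.mem_alternatingGroup.2 (Eq.trans ?_ g.2)
  exact @Equiv.Perm.sign_extendDomain _ _ _ _ _ _ g.1 _ (fun _ => Classical.propDecidable _) (Equiv.ofInjective _ j.2)

/-- an even permutation given by its table and the table of its inverse -/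
def altMk {n : ℕ} (f g : Fin n → Fin n) (h1 : ∀ i, g (f i) = i := by decide) (h2 : ∀ i, f (g i) = i := by decide)
    (h : Equiv.Perm.sign (⟨f, g, h1, h2⟩ : Equiv.Perm (Fin n)) = 1 := by decide +kernel) : alternatingGroup (Fin n) :=
  ⟨⟨f, g, h1, h2⟩, Equiv.Perm.mem_alternatingGroup.2 h⟩

theorem alt_nine : ∃ a b x y : alternatingGroup (Fin 9), a ^ 3 = 1 ∧ a ≠ 1 ∧ a * b = b * a ∧ x * a * x⁻¹ = b ∧
    x * b * x⁻¹ = a⁻¹ ∧ y * a * y⁻¹ = a * b ∧ y * b * y⁻¹ = a * b⁻¹ :=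
  ⟨altMk ![3, 4, 5, 6, 7, 8, 0, 1, 2] ![6, 7, 8, 0, 1, 2, 3, 4, 5], altMk ![1, 2, 0, 4, 5, 3, 7, 8, 6] ![2, 0, 1, 5, 3, 4, 8, 6, 7],
    altMk ![0, 6, 3, 1, 7, 4, 2, 8, 5] ![0, 3, 6, 2, 5, 8, 1, 4, 7], altMk ![0, 5, 7, 4, 6, 2, 8, 1, 3] ![0, 7, 5, 8, 3, 1, 4, 2, 6],
    by decide +kernel⟩

theorem alt_ten : ∃ a b x : alternatingGroup (Fin 10), a ^ 5 = 1 ∧ a * b = b * a ∧ x * a * x⁻¹ = b ∧
    x * b * x⁻¹ = a ^ 2 * b ^ 0 ∧ x ^ 4 * a ≠ a * x ^ 4 ∧ x ^ 6 * a ≠ a * x ^ 6 :=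
  ⟨altMk ![1, 2, 3, 4, 0, 5, 6, 7, 8, 9] ![4, 0, 1, 2, 3, 5, 6, 7, 8, 9],
    altMk ![0, 1, 2, 3, 4, 6, 7, 8, 9, 5] ![0, 1, 2, 3, 4, 9, 5, 6, 7, 8],
    altMk ![5, 6, 7, 8, 9, 0, 2, 4, 1, 3] ![5, 8, 6, 9, 7, 0, 1, 2, 3, 4], by decide +kernel⟩

variable {K : Type*} [Field K] [IsAlgClosed K] {M : Subgroup (O (Q K))}

/-- `3² : Q₈ = PSU₃(2) ≤ A₉` (affine maps of `F₃²`): `t1_nine`. -/
theorem Pre.three_of_A9 (h : Pre M) (e : M ≃* alternatingGroup (Fin 9)) : (3 : K) = 0 := by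
  obtain ⟨a, b, x, y, h1, h2, h3, h4, h5, h6, h7⟩ := alt_nine
  exact t1_nine h.two (a := emb e a) (b := emb e b) (x := emb e x) (y := emb e y) (by rw [← map_pow, h1, map_one])
    (fun k => h2 (emb_injective e (k.trans (map_one _).symm))) ((show Commute a b from h3).map _)
    (by simp only [← map_inv, ← map_mul, h4]) (by simp only [← map_inv, ← map_mul, h5])
    (by simp only [← map_inv, ← map_mul, h6]) (by simp only [← map_inv, ← map_mul, h7])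

/-- `A₉ ≤ A_n` gives `3 = 0` (`Pre.sub`).  `a = (0 1 2 3 4)`, `b = (5 6 7 8 9)`, `x : i ↦ i + 5`, `i + 5 ↦ 2 i mod 5` (even), `x a x⁻¹ = b`, `x b x⁻¹ = a²`: `t1_sq` gives `5 = 0`. -/
theorem Pre.no_A10 (h : Pre M) {n : ℕ} (hn : 10 ≤ n) (e : M ≃* alternatingGroup (Fin n)) : False := by
  obtain ⟨θ, hθ⟩ := alt_emb (show 9 ≤ n by omega)
  obtain ⟨M', h', ⟨e'⟩⟩ := h.sub e hθ
  have h3 := h'.three_of_A9 e'
  obtain ⟨θ, hθ⟩ := alt_emb hn
  obtain ⟨M', h', ⟨e⟩⟩ := h.sub e hθ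
  obtain ⟨a, b, x, h1, h2, h4, h5, h6, h7⟩ := alt_ten
  have k (n : ℕ) (c : Commute (emb e x ^ n) (emb e a)) : x ^ n * a = a * x ^ n :=
    emb_injective e (by rw [map_mul, map_mul, map_pow, c.eq])
  have := t1_sq h.two (a := emb e a) (b := emb e b) (x := emb e x) (r := 5) (i := 2) (j := 0) (by decide)
    (by rw [← map_pow, h1, map_one]) ((show Commute a b from h2).map _) (by simp only [← map_inv, ← map_mul, h4])
    (by simp only [← map_inv, ← map_mul, ← map_pow, h5]) (fun c => h6 (k 4 c)) (fun c => h7 (k 6 c)) (by decide)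
  exact h.two (by rw [Nat.cast_ofNat] at this; linear_combination this - h3)

end Cfsg.Lib.O7
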