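import Mathlib

/-!
# The supports of the roots form the simplex code (STUB file of `docs/O7.md`, pure combinatorics)
-/

set_option autoImplicit false

namespace Cfsg.Lib.O7

/-- The field with four elements. -/
abbrev F4 : Type := QuadraticAlgebra (ZMod 2) 1 1

/-- The words of the simplex code. -/
def wd (k : Fin 7) : Finset (Fin 7) := {k + 2, k + 4, k + 5, k + 6}

/-- Four coordinates `1`, the others `0`. -/
def PQ (x : Fin 7 → F4) (S : Finset (Fin 7)) : Prop := S.card = 4 ∧ ∀ i, x i = if i ∈ S then 1 else 0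

/-- Coordinates `1, ω, ω²`, the others `0`. -/
def PG (x : Fin 7 → F4) : Prop := ∃ i j k, x i = 1 ∧ x j = ⟨0, 1⟩ ∧ x k = ⟨1, 1⟩ ∧
  ∀ l, l ≠ i → l ≠ j → l ≠ k → x l = 0

/-- The reductions modulo two of the coordinate vectors of the roots. -/
structure Cd (C : Set (Fin 7 → F4)) : Prop where
  pat : ∀ x ∈ C, x = 0 ∨ (∃ S, PQ x S) ∨ PG x
  orth : ∀ x ∈ C, ∀ y ∈ C, ∑ i, x i * y i = 0
  add : ∀ x ∈ C, ∀ y ∈ C, (∃ i, x i ≠ 0 ∧ y i ≠ 0) → ∃ c : F4, c ≠ 0 ∧ y + c • x ∈ C
  conn : ∀ T : Finset (Fin 7), T.Nonempty → T ≠ Finset.univ →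
    ∃ x ∈ C, (∃ i ∈ T, x i ≠ 0) ∧ ∃ i ∉ T, x i ≠ 0

theorem Cd.comp {C : Set (Fin 7 → F4)} (h : Cd C) (π : Equiv.Perm (Fin 7)) : Cd {x | x ∘ π ∈ C} where
  pat x hx := by
    rcases h.pat _ hx with e | ⟨S, hS, e⟩ | ⟨i, j, k, e1, e2, e3, e⟩
    · exact .inl (funext fun i => by simpa using congrFun e (π.symm i))
    · exact .inr (.inl ⟨S.map π.toEmbedding, by rwa [Finset.card_map], fun i => by simpa using e (π.symm i)⟩)
    · refine .inr (.inr ⟨π i, π j, π k, e1, e2, e3, fun l a b c => ?_⟩)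
      simpa using e (π.symm l) (by rwa [ne_eq, Equiv.symm_apply_eq]) (by rwa [ne_eq, Equiv.symm_apply_eq])
        (by rwa [ne_eq, Equiv.symm_apply_eq])
  orth x hx y hy := (Equiv.sum_comp π fun i => x i * y i).symm.trans (h.orth _ hx _ hy)
  add x hx y hy := fun ⟨i, hi⟩ => h.add _ hx _ hy ⟨π.symm i, by simpa using hi⟩
  conn T h1 h2 := by
    obtain ⟨x, hx, ⟨i, hi, a⟩, j, hj, b⟩ := h.conn (T.map π.symm.toEmbedding) (by simpa using h1)
      (fun e => h2 (Finset.eq_univ_of_forall fun i => by simpa using e.ge (Finset.mem_univ (π.symm i))))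
    refine ⟨x ∘ π.symm, ?_, ⟨π i, by simpa using hi, by simpa using a⟩, π j, by simpa using hj, by simpa using b⟩
    rwa [Set.mem_ofPred_eq, Function.comp_assoc, Equiv.symm_comp_self, Function.comp_id]

/-- the vector with a given code -/
def dec (m : ℕ) : Fin 7 → F4 := fun i => ⟨if m.testBit (2 * i) then 1 else 0, if m.testBit (2 * i + 1) then 1 else 0⟩

/-- the patterns orthogonal to `dec 57 = (1, ω, ω², 0, 0, 0, 0)` -/
def orL : List ℕ := [85, 277, 1045, 4117, 5440, 57, 225, 801, 3105, 12321, 141, 525, 2061, 8205, 198, 774, 3078, 12294, 39, 180,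
  564, 2100, 8244, 30, 216, 792, 3096, 12312, 147, 531, 2067, 8211, 114, 75, 108, 3648, 12864, 2880, 14400, 9024, 11328, 306, 267,
  300, 3456, 12672, 2496, 14592, 8640, 11520, 1074, 1035, 1068, 1920, 13440, 1728, 13824, 9408, 9984, 4146, 4107, 4140, 4992,
  7296, 4800, 7680, 6336, 6912]

theorem PG.eq {x : Fin 7 → F4} (h : PG x) : ∃ i j k : Fin 7, i ≠ j ∧ i ≠ k ∧ j ≠ k ∧
    x = fun l => if l = i then 1 else if l = j then ⟨0, 1⟩ else if l = k then ⟨1, 1⟩ else 0 := by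
  obtain ⟨i, j, k, e1, e2, e3, e⟩ := h
  refine ⟨i, j, k, fun e => ?_, fun e => ?_, fun e => ?_, funext fun l => ?_⟩
  · exact absurd (e1.symm.trans (e ▸ e2)) (by decide)
  · exact absurd (e1.symm.trans (e ▸ e3)) (by decide)
  · exact absurd (e2.symm.trans (e ▸ e3)) (by decide)
  · split_ifs with a b c
    exacts [a ▸ e1, b ▸ e2, c ▸ e3, e l a b c]

theorem Cd.mem_orL {C : Set (Fin 7 → F4)} (h : Cd C) (h0 : dec 57 ∈ C) {y : Fin 7 → F4} (hy : y ∈ C) {i : Fin 7} (hi : y i ≠ 0) :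
    ∃ m ∈ orL, y = dec m := by
  have o := h.orth _ h0 _ hy
  rcases h.pat _ hy with rfl | ⟨S, hS, e⟩ | e
  · exact (hi rfl).elim
  · obtain rfl := funext e
    clear hy hi e
    revert S
    decide +kernel
  · obtain ⟨a, b, c, h1, h2, h3, rfl⟩ := e.eq
    clear hy hi e
    revert a b c
    decide +kernel

set_option synthInstance.maxSize 2000 in
theorem orL_key : ∀ m ∈ orL, (∃ i ∈ ({0, 1, 2} : Finset (Fin 7)), dec m i ≠ 0) → (∃ i ∉ ({0, 1, 2} : Finset (Fin 7)), dec m i ≠ 0) →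
    ∃ j : Fin 7, insert j {0, 1, 2} ≠ (Finset.univ : Finset (Fin 7)) ∧ ∀ n ∈ orL,
      (∃ i ∈ (insert j {0, 1, 2} : Finset (Fin 7)), dec n i ≠ 0) → (∃ i ∉ (insert j {0, 1, 2} : Finset (Fin 7)), dec n i ≠ 0) →
      ∑ i, dec m i * dec n i ≠ 0 := by
  decide +kernel

/-- By `orth` two supports never meet in exactly one point, and the support of a `PQ` vector contains the support of a `PG` vector or is
disjoint from it.  Let `x` be `PG` with support `T = {1,2,3}`; `conn` gives `y` with support meeting `T`, not inside `T`.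
If `y` is `PQ`, its support is `R = {1,2,3,4}` and `y + c x` has support `R ∖ {i}`, `i ∈ T`, so is `PG`.  If `y` is `PG` its support is, say, `{1,2,4}`; `z = y + c x ∈ C` has `z 3, z 4 ≠ 0`, and `z 1`, `z 2` do not both vanish (`pat`: weights 0, 3, 4):
`z` is `PG` with support `{1,3,4}` or `{2,3,4}`, or `PQ` with support `R`.  So there are two different `PG` supports `A, B ⊆ R`, and a third one or a `PQ` vector on `R`.
Let `w` be given by `conn` for `R`.  It is not `PQ` (its support would contain `A` or `B`, then both).  If it is `PG` its support meets `R` in `A ∩ B` exactly (else it meets `A` or `B` in one point); this meets a third `PG` support in one point, and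
`orth` with a `PQ` vector on `R` fails (two different coordinates of `w` do not add up to zero). -/
theorem Cd.not_PG {C : Set (Fin 7 → F4)} (h : Cd C) {x : Fin 7 → F4} (hx : x ∈ C) : ¬ PG x := by
  intro hp
  obtain ⟨i, j, k, h1, h2, h3, rfl⟩ := hp.eq
  obtain ⟨π, hπ⟩ := Equiv.Perm.exists_extending_pair (f := ![i, j, k]) (g := (![0, 1, 2] : Fin 3 → Fin 7))
    (by intro a b; fin_cases a <;> fin_cases b <;> simp [*, h1.symm, h2.symm, h3.symm]) (by decide)
  have h' := h.comp π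
  have h0 : dec 57 ∈ {x | x ∘ π ∈ C} := by
    have a0 : π i = 0 := hπ 0
    have a1 : π j = 1 := hπ 1
    have a2 : π k = 2 := hπ 2
    change dec 57 ∘ π ∈ C
    convert hx using 1
    funext l
    simp only [Function.comp, ← π.apply_eq_iff_eq (x := l), a0, a1, a2]
    generalize π l = t
    revert t
    decide
  obtain ⟨y, hy, ⟨a, ha, a'⟩, hb⟩ := h'.conn {0, 1, 2} (by decide) (by decide)
  obtain ⟨m, hm, rfl⟩ := h'.mem_orL h0 hy a'
  obtain ⟨t, ht, H⟩ := orL_key m hm ⟨a, ha, a'⟩ hb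
  obtain ⟨w, hw, ⟨c, hc, c'⟩, hd⟩ := h'.conn _ (Finset.insert_nonempty _ _) ht
  obtain ⟨n, hn, rfl⟩ := h'.mem_orL h0 hw c'
  exact H n hn ⟨c, hc, c'⟩ hd (h'.orth _ hy _ hw)

theorem Cd.ev {C : Set (Fin 7 → F4)} (h : Cd C) {S T : Finset (Fin 7)} (hS : ∃ x ∈ C, PQ x S) (hT : ∃ x ∈ C, PQ x T) :
    (S ∩ T).card % 2 = 0 := by
  obtain ⟨x, hx, -, e⟩ := hS
  obtain ⟨y, hy, -, e'⟩ := hT
  have := h.orth _ hx _ hy
  have k : ∑ i, x i * y i = (S ∩ T).card := by
    simp only [e, e', mul_ite, mul_one, mul_zero, ← ite_and, ← Finset.mem_inter, Finset.sum_boole, Finset.filter_mem_eq_inter,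
      Finset.univ_inter, Finset.inter_comm]
  have := congrArg QuadraticAlgebra.re (k.symm.trans this)
  exact Nat.mod_eq_zero_of_dvd ((ZMod.natCast_eq_zero_iff _ 2).1 (by simpa using this))

theorem Cd.symm {C : Set (Fin 7 → F4)} (h : Cd C) {S T : Finset (Fin 7)} (hS : ∃ x ∈ C, PQ x S) (hT : ∃ x ∈ C, PQ x T)
    (hn : S ≠ T) : ∃ x ∈ C, PQ x (symmDiff S T) := by
  obtain ⟨x, hx, c, e⟩ := hS
  obtain ⟨y, hy, c', e'⟩ := hT
  obtain ⟨i, hi⟩ : (S ∩ T).Nonempty := Finset.card_pos.1 (by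
    have := Finset.card_union_add_card_inter S T
    have := (S ∪ T).card_le_univ
    rw [Fintype.card_fin] at this
    omega)
  obtain ⟨j, hj, hj'⟩ : ∃ j ∈ S, j ∉ T := by
    by_contra! a
    exact hn (Finset.eq_of_subset_of_card_le a (by omega))
  obtain ⟨a, ha, hz⟩ := h.add _ hx _ hy ⟨i, by rw [e, if_pos (Finset.mem_inter.1 hi).1]; decide,
    by rw [e', if_pos (Finset.mem_inter.1 hi).2]; decide⟩
  have ej : (y + a • x) j = a := by simp [e, e', hj, hj']
  rcases h.pat _ hz with z | ⟨R, r, z⟩ | z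
  · exact (ha (ej.symm.trans (congrFun z j))).elim
  · obtain rfl : a = 1 := by
      have := ej.symm.trans (z j)
      split_ifs at this
      exacts [this, (ha this).elim]
    obtain rfl : R = symmDiff S T := Finset.ext fun l => by
      have := z l
      rw [one_smul, Pi.add_apply, e, e'] at this
      rw [Finset.mem_symmDiff]
      by_cases a : l ∈ S <;> by_cases b : l ∈ T <;> by_cases c : l ∈ R <;> simp only [a, b, c, if_true, if_false] at this ⊢ <;>
        first | decide | exact absurd this (by decide)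
    exact ⟨_, hz, r, z⟩
  · exact (h.not_PG hz z).elim

theorem Cd.conn' {C : Set (Fin 7 → F4)} (h : Cd C) {T : Finset (Fin 7)} (h1 : T.Nonempty) (h2 : T ≠ Finset.univ) :
    ∃ S, (∃ x ∈ C, PQ x S) ∧ ¬ S ⊆ T := by
  obtain ⟨x, hx, -, i, hi, a⟩ := h.conn T h1 h2
  rcases h.pat _ hx with rfl | ⟨S, hS⟩ | z
  · exact (a rfl).elim
  · exact ⟨S, ⟨x, hx, hS⟩, fun e => a (by rw [hS.2, if_neg fun b => hi (e b)])⟩
  · exact (h.not_PG hx z).elim

/-- the six codes through `wd 0` -/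
def pmL : List (Equiv.Perm (Fin 7)) := [1, Equiv.swap 5 6, Equiv.swap 4 5, Equiv.swap 4 6, Equiv.swap 4 5 * Equiv.swap 5 6,
  Equiv.swap 5 6 * Equiv.swap 4 5]

set_option maxRecDepth 100000 in
theorem pmL_gen : ∀ S : Finset (Fin 7), S.card = 4 → (wd 0 ∩ S).card % 2 = 0 → ¬ S ⊆ wd 0 → wd 0 ∪ S ≠ Finset.univ ∧
    ∀ T : Finset (Fin 7), T.card = 4 → (wd 0 ∩ T).card % 2 = 0 → (S ∩ T).card % 2 = 0 → ¬ T ⊆ wd 0 ∪ S →
      T ≠ symmDiff (wd 0) S ∧ ∃ π ∈ pmL, ∀ k, (wd k).map π.toEmbedding ∈ [wd 0, S, symmDiff (wd 0) S, T, symmDiff T (wd 0), symmDiff T S,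
        symmDiff T (symmDiff (wd 0) S)] := by
  decide +kernel

set_option maxRecDepth 100000 in
theorem pmL_max : ∀ π ∈ pmL, ∀ S : Finset (Fin 7), S.card = 4 → (∀ k, (S ∩ (wd k).map π.toEmbedding).card % 2 = 0) →
    ∃ k, S = (wd k).map π.toEmbedding := by
  decide +kernel

theorem Cd.exists_perm' {C : Set (Fin 7 → F4)} (h : Cd C) (h0 : ∃ x ∈ C, PQ x (wd 0)) : ∃ π : Equiv.Perm (Fin 7),
    ∀ S, (∃ x ∈ C, PQ x S) ↔ ∃ k, S = (wd k).map π.toEmbedding := by
  have cd {S} (hS : ∃ x ∈ C, PQ x S) : S.card = 4 := hS.choose_spec.2.1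
  obtain ⟨S, hS, n⟩ := h.conn' (T := wd 0) (by decide) (by decide)
  obtain ⟨a, H⟩ := pmL_gen S (cd hS) (h.ev h0 hS) n
  obtain ⟨T, hT, n'⟩ := h.conn' (Finset.Nonempty.inl (by decide)) a
  obtain ⟨b, π, hπ, H⟩ := H T (cd hT) (h.ev h0 hT) (h.ev hS hT) n'
  have s := h.symm h0 hS fun e => n e.ge
  have m (k) : ∃ x ∈ C, PQ x ((wd k).map π.toEmbedding) := by
    have := H k
    simp only [List.mem_cons, List.not_mem_nil, or_false] at this
    rcases this with e | e | e | e | e | e | e <;> rw [e]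
    exacts [h0, hS, s, hT, h.symm hT h0 fun e => n' (e.le.trans Finset.subset_union_left),
      h.symm hT hS fun e => n' (e.le.trans Finset.subset_union_right), h.symm hT s b]
  exact ⟨π, fun R => ⟨fun hR => pmL_max π hπ R (cd hR) fun k => h.ev hR (m k), fun ⟨k, e⟩ => e ▸ m k⟩⟩

/-- Two supports meet in 2 or 4 points (`orth`, and `4 + 4 > 7`); `y + c x ∈ C` forces `c = 1` (weight), so the supports with `∅` are closed under
symmetric difference.  `conn` gives `S₁`, then `S₂ ≠ S₁` (`|S₁ ∪ S₂| = 6`), then `S₃` containing the seventh point; up to a permutation `S₁, S₂, S₃` are three independent words of `wd`; any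
further support would have to meet all seven words in two points, which is impossible. -/
theorem Cd.exists_perm {C : Set (Fin 7 → F4)} (h : Cd C) : ∃ π : Equiv.Perm (Fin 7),
    ∀ S, (∃ x ∈ C, PQ x S) ↔ ∃ k, S = (wd k).map π.toEmbedding := by
  obtain ⟨S, ⟨x, hx, hS⟩, -⟩ := h.conn' (T := {0}) (by decide) (by decide)
  obtain ⟨σ, hσ⟩ := Equiv.Perm.exists_map_finset_eq S (wd 0) (hS.1.trans (by decide))
  have k (R : Finset (Fin 7)) : (∃ x ∈ C, PQ x R) ↔ ∃ x ∈ {x | x ∘ σ ∈ C}, PQ x (R.map σ.toEmbedding) :=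
    ⟨fun ⟨y, hy, c, e⟩ => ⟨y ∘ σ.symm, by rwa [Set.mem_ofPred_eq, Function.comp_assoc, Equiv.symm_comp_self, Function.comp_id],
      by rwa [Finset.card_map], fun i => by simpa using e (σ.symm i)⟩,
    fun ⟨y, hy, c, e⟩ => ⟨y ∘ σ, hy, by rwa [Finset.card_map] at c, fun i => by simpa using e (σ i)⟩⟩
  obtain ⟨π, hπ⟩ := (h.comp σ).exists_perm' (hσ ▸ (k S).1 ⟨x, hx, hS⟩)
  refine ⟨π.trans σ.symm, fun R => (k R).trans ((hπ _).trans (exists_congr fun j => ?_))⟩
  rw [Equiv.trans_toEmbedding, ← Finset.map_map]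
  constructor
  · intro e
    rw [← e, Finset.map_map]
    simp
  · rintro rfl
    rw [Finset.map_map, Finset.map_map]
    ext; simp

end Cfsg.Lib.O7
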