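import Cfsg.Agent.Lib.O7.T1

/-!
# `SL₃(q)` occurs only in the defining characteristic
-/

set_option autoImplicit false

namespace Cfsg.Lib.O7

open QuadraticMap Module Matrix Cfsg.Lib.Orth
open scoped MatrixGroups

variable {K : Type*} [Field K] [IsAlgClosed K] {M : Subgroup (O (Q K))}
  {E : Type*} [Field E] [Fintype E]

omit [IsAlgClosed K] [Fintype E] in
/-- An explicit element of `SL₃`. -/
def x3 (a b c : E) : SL(3, E) := ⟨!![1, a, c; 0, 1, b; 0, 0, 1], by simp [det_fin_three]⟩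

omit [IsAlgClosed K] [Fintype E] in
theorem coe_x3 (a b c : E) : (x3 a b c).1 = !![1, a, c; 0, 1, b; 0, 0, 1] := rfl

omit [IsAlgClosed K] [Fintype E] in
theorem x3_mul (a b c a' b' c' : E) : x3 a b c * x3 a' b' c' = x3 (a + a') (b + b') (c + c' + a * b') :=
  Subtype.ext (by
    change (x3 a b c).1 * (x3 a' b' c').1 = (x3 _ _ _).1
    ext i j; fin_cases i <;> fin_cases j <;> simp [coe_x3, mul_apply, Fin.sum_univ_three] <;> ring)

omit [IsAlgClosed K] [Fintype E] in
theorem x3_zero : x3 (0 : E) 0 0 = 1 := Subtype.ext one_fin_three.symm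

omit [IsAlgClosed K] [Fintype E] in
theorem x3_pow (a b c : E) (h : a * b = 0) (n : ℕ) : x3 a b c ^ n = x3 (n * a) (n * b) (n * c) := by
  induction n with
  | zero => simp [x3_zero]
  | succ n ih => rw [pow_succ, ih, x3_mul, mul_assoc, h]; simp [add_mul]

omit [IsAlgClosed K] [Fintype E] in
theorem x3_not_mem : x3 (0 : E) 0 1 ∉ Subgroup.center SL(3, E) := fun h => by
  obtain ⟨r, -, e⟩ := Matrix.SpecialLinearGroup.mem_center_iff.1 h
  simpa [coe_x3] using congrFun (congrFun e 0) 2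

/-- Let `r` be the characteristic of `E`.  `r ≥ 5`: `t1_heis`; `r = 3`: `t1_nine`. -/
theorem char_of_SL3 (h2 : (2 : K) ≠ 0) (ho : Odd (Fintype.card E)) (f : SL(3, E) →* O (Q K))
    (hf : f.ker ≤ Subgroup.center _) : (Fintype.card E : K) = 0 := by
  obtain ⟨n, hr, hc⟩ := FiniteField.card E (ringChar E)
  have h1 : f (x3 0 0 1) ≠ 1 := fun e => x3_not_mem (hf e)
  have pw : ∀ a b c : E, a * b = 0 → f (x3 a b c) ^ ringChar E = 1 := fun a b c h => by
    rw [← map_pow, x3_pow _ _ _ h, CharP.cast_eq_zero E, zero_mul, zero_mul, zero_mul, x3_zero, map_one]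
  have cj : ∀ {x y z : SL(3, E)}, x.1 * y.1 = z.1 * x.1 → f x * f y * (f x)⁻¹ = f z := fun {x y z} h => by
    rw [mul_inv_eq_iff_eq_mul, ← map_mul, ← map_mul]; exact congrArg f (Subtype.ext h)
  have cm : ∀ {x y : SL(3, E)}, x.1 * y.1 = y.1 * x.1 → Commute (f x) (f y) := fun {x y} h =>
    Commute.map (show Commute x y from Subtype.ext h) f
  suffices (ringChar E : K) = 0 by rw [hc, Nat.cast_pow, this, zero_pow n.ne_zero]
  by_contra h0
  have o : Odd (ringChar E) := (Nat.odd_pow_iff n.ne_zero).1 (hc ▸ ho)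
  by_cases h3 : ringChar E = 3
  · have e3 : (3 : E) = 0 := by exact_mod_cast h3 ▸ CharP.cast_eq_zero E (ringChar E)
    have iv : (x3 (0 : E) 0 1)⁻¹ = x3 0 0 (-1) := inv_eq_of_mul_eq_one_right (by simp [x3_mul, x3_zero])
    have iw : (x3 (0 : E) 1 0)⁻¹ = x3 0 (-1) 0 := inv_eq_of_mul_eq_one_right (by simp [x3_mul, x3_zero])
    rw [h3] at h0 pw
    refine h0 ?_
    exact_mod_cast t1_nine h2 (a := f (x3 0 0 1)) (b := f (x3 0 1 0))
      (x := f ⟨!![0, -1, 0; 1, 0, 0; 0, 0, 1], by simp [det_fin_three]⟩)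
      (y := f ⟨!![1, 1, 0; 1, -1, 0; 0, 0, 1], by simp [det_fin_three]; linear_combination -e3⟩)
      (pw _ _ _ (by simp)) h1 (cm (by simp [coe_x3, x3_mul])) (cj (by simp [coe_x3, x3_mul]))
      (by rw [← map_inv, iv]; exact cj (by simp [coe_x3, x3_mul])) (by rw [← map_mul]; exact cj (by simp [coe_x3, x3_mul]))
      (by rw [← map_inv, iw, ← map_mul]; exact cj (by simp [coe_x3, x3_mul]))
  · have h5 : 5 ≤ ringChar E := by
      have := hr.two_le
      obtain ⟨k, hk⟩ := o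
      omega
    exact h1 (t1_heis h2 hr h5 h0 (x := f (x3 1 0 0)) (y := f (x3 0 1 0)) (z := f (x3 0 0 1)) (pw _ _ _ (by simp)) (pw _ _ _ (by simp))
      (by rw [← map_mul (x := x3 0 1 0), x3_mul]; exact cj (by simp [coe_x3])) (cm (by simp [coe_x3])) (cm (by simp [coe_x3])))

omit [IsAlgClosed K] in
/-- `|E|` is a power of the characteristic of `E`. -/
theorem charP_of_card (p : ℕ) [Fact p.Prime] [CharP K p] (h : (Fintype.card E : K) = 0) : CharP E p := by
  obtain ⟨n, hr, hc⟩ := FiniteField.card E (ringChar E)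
  rw [hc, Nat.cast_pow, pow_eq_zero_iff n.ne_zero, CharP.cast_eq_zero_iff K p,
    Nat.prime_dvd_prime_iff_eq Fact.out hr] at h
  exact h ▸ inferInstance

end Cfsg.Lib.O7
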