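import Cfsg.Agent.Lib.O7.Tri
import Cfsg.Agent.Lib.O7.X3
import Cfsg.Agent.Lib.Hex.Inst

/-!
# `³D₄(q)`, `q` odd (BRANCH STUB of `docs/O7.md`; the filler may add files `O7/D41 ...` and imports)
-/

set_option autoImplicit false

namespace Cfsg.Lib.O7

open QuadraticMap Module Matrix Cfsg.Lib.Orth
open scoped MatrixGroups

section Abs

open Cfsg.Lib.Root Subgroup Cfsg.Lib.Chev Cfsg.Lib.Chev.RootSys Cfsg.Lib.Twisted Cfsg.Lie Cfsg.Lib.Hex

theorem d4_nT {ι Φ : Type} [Fintype ι] [DecidableEq ι] {R : RootSys ι Φ} {F G : Type*} [Field F] [Group G] {C : ChevSys R F G}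
    (hM : C.HMul) (i : ι) (c : ι → Fˣ) : C.n (R.simple i) 1 * hM.torus c * (C.n (R.simple i) 1)⁻¹ =
      hM.torus (c * Pi.mulSingle i (∏ j, c j ^ (-R.A j i))) := by
  induction c using Pi.mulSingle_induction with
  | one => simp
  | mul a b ha hb =>
    rw [map_mul, ← conj_mul, ha, hb, ← map_mul, mul_mul_mul_comm, ← Pi.mulSingle_mul, ← Finset.prod_mul_distrib]
    simp only [Pi.mul_apply, mul_zpow]
  | mulSingle j t =>
    rw [map_mul, hM.torus_mulSingle, hM.torus_mulSingle, hM.conj_h (C.acts_n_simple i), hM.h_sref, pair_simple_simple,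
      Finset.prod_eq_single j (fun k _ n => by simp [n]) (by simp), Pi.mulSingle_eq_same]

theorem d4_rho {G : Type*} [Group G] {t u n w k : G} (t2 : t * t = 1) (u2 : u * u = 1) (c : Commute t u) (wt : w * t * w⁻¹ = t)
    (wu : w * u * w⁻¹ = u * t) (nt : n * t * n⁻¹ = t * u) (nu : n * u * n⁻¹ = u) (kt : Commute k t) (ku : Commute k u) :
    n * (w * n * w⁻¹) * k * t * (n * (w * n * w⁻¹) * k)⁻¹ = u ∧ n * (w * n * w⁻¹) * k * u * (n * (w * n * w⁻¹) * k)⁻¹ = t * u := by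
  have e : ∀ x, Commute k x → n * (w * n * w⁻¹) * k * x * (n * (w * n * w⁻¹) * k)⁻¹ =
      n * (w * (n * (w⁻¹ * x * w) * n⁻¹) * w⁻¹) * n⁻¹ := fun x h => by
    calc _ = n * (w * (n * (w⁻¹ * (k * x * k⁻¹) * w) * n⁻¹) * w⁻¹) * n⁻¹ := by group
      _ = _ := by rw [h.eq, mul_inv_cancel_right]
  have wt' : w⁻¹ * t * w = t := by nth_rw 1 [← wt]; group
  have wu' : w⁻¹ * u * w = u * t := by
    have : w * (u * t) * w⁻¹ = u := by rw [← conj_mul, wt, wu, mul_assoc, t2, mul_one]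
    nth_rw 1 [← this]; group
  constructor
  · rw [e t kt, wt', nt, ← conj_mul (b := w), wt, wu, ← mul_assoc t, c.eq, mul_assoc u, t2, mul_one, nu]
  · rw [e u ku, wu', ← conj_mul (a := u), nt, nu, c.eq, ← mul_assoc u, u2, one_mul, wt, nt, c.eq]

/-- The local data. -/
structure D4L {K G : Type*} [Field K] [Group G] (q : ℕ) (a : SL(2, K) →* G) (r : G) : Prop where
  inj : Function.Injective a
  cube : r ^ 3 = 1
  comm : Commute (a (-1)) (r * a (-1) * r⁻¹)
  eb : r * (r * a (-1) * r⁻¹) * r⁻¹ = a (-1) * (r * a (-1) * r⁻¹)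
  cen : ∀ l : Kˣ, l ^ (q ^ 2 + q + 1) = 1 → Commute (a (dS l)) r

theorem D4L.map {K G G' : Type*} [Field K] [Group G] [Group G'] {q : ℕ} {a : SL(2, K) →* G} {r : G} (h : D4L q a r) {j : G →* G'}
    (i : Function.Injective j) : D4L q (j.comp a) (j r) :=
  ⟨i.comp h.inj, by rw [← map_pow, h.cube, map_one], by simpa only [map_mul, map_inv, MonoidHom.comp_apply] using h.comm.map j,
    by simpa only [map_mul, map_inv, MonoidHom.comp_apply] using congrArg j h.eb, fun l e => (h.cen l e).map j⟩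

theorem D4L.res {K G : Type*} [Field K] [Group G] {q : ℕ} {a : SL(2, K) →* G} {r : G} (h : D4L q a r) {Y : Subgroup G}
    (ma : ∀ g, a g ∈ Y) (mr : r ∈ Y) : D4L q (a.codRestrict Y ma) ⟨r, mr⟩ :=
  ⟨fun _ _ e => h.inj (congrArg Subtype.val e :), Subtype.ext h.cube, Subtype.ext h.comm.eq, Subtype.ext h.eb,
    fun l e => Subtype.ext (h.cen l e).eq⟩

theorem d4_perm : RD4.sref 1 * (RD4.sref 0 * (RD4.sref 2 * RD4.sref 3) * RD4.sref 1 * (RD4.sref 0 * (RD4.sref 2 * RD4.sref 3))⁻¹) *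
    (RD4.sref 1 * (RD4.sref 0 * (RD4.sref 2 * RD4.sref 3) * RD4.sref 1 * (RD4.sref 0 * (RD4.sref 2 * RD4.sref 3))⁻¹) *
    (RD4.sref 1 * (RD4.sref 0 * (RD4.sref 2 * RD4.sref 3) * RD4.sref 1 * (RD4.sref 0 * (RD4.sref 2 * RD4.sref 3))⁻¹))) = 1 := by
  have hv : ∀ (i : Fin 4) (r : Fin 24), (RD4.sref i r).val = t8 (wT certD4 i) r := checkedD4.sref_val
  ext s
  simp only [_root_.mul_inv_rev, sref_inv, Equiv.Perm.mul_apply, hv, Equiv.Perm.one_apply]
  revert s
  decide +kernel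

theorem d4_gen {K G : Type*} [Field K] [Group G] {C : ChevSys RD4 K G} (hF : C.Faithful) (hA : C.Adjoint) {q : ℕ} {θ : K →+* K}
    (hS' : ∀ t, θ t = t ^ q) (h2 : (2 : K) ≠ 0) {Y : Subgroup G}
    (g1 : ∀ t, C.x (RD4.simple 0) t * (C.x (RD4.simple 2) (θ t) * C.x (RD4.simple 3) (θ (θ t))) ∈ Y)
    (g2 : ∀ t, C.x (RD4.neg (RD4.simple 0)) t * (C.x (RD4.neg (RD4.simple 2)) (θ t) * C.x (RD4.neg (RD4.simple 3)) (θ (θ t))) ∈ Y)
    (gn : C.n (RD4.simple 1) 1 ∈ Y) : ∃ (a : SL(2, K) →* G) (r : G), (∀ g, a g ∈ Y) ∧ r ∈ Y ∧ D4L q a r := by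
  have hM : C.HMul := hA.hMul
  obtain ⟨φ0, i0, a1, a2, a3, a4⟩ := exists_sl2' hF hM h2 (i := 0) (j := 1) (by rw [RD4_A]; decide)
  obtain ⟨φ2, -, c1, c2, c3, c4⟩ := exists_sl2' hF hM h2 (i := 2) (j := 1) (by rw [RD4_A]; decide)
  obtain ⟨φ3, -, d1, d2, d3, d4⟩ := exists_sl2' hF hM h2 (i := 3) (j := 1) (by rw [RD4_A]; decide)
  have l0 : φ0.range ≤ Lv C 0 := range_le (fun t => a1 t ▸ x_mem_Lv 0 t) fun t => a2 t ▸ x_neg_mem_Lv 0 t
  have l2 : φ2.range ≤ Lv C 2 := range_le (fun t => c1 t ▸ x_mem_Lv 2 t) fun t => c2 t ▸ x_neg_mem_Lv 2 t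
  have l3 : φ3.range ≤ Lv C 3 := range_le (fun t => d1 t ▸ x_mem_Lv 3 t) fun t => d2 t ▸ x_neg_mem_Lv 3 t
  have k02 : ∀ A B, Commute (φ0 A) (φ2 B) := fun A B =>
    commute_of_orth (by decide) (by rw [RD4_A]; rfl) (l0 ⟨A, rfl⟩) (l2 ⟨B, rfl⟩)
  have k03 : ∀ A B, Commute (φ0 A) (φ3 B) := fun A B =>
    commute_of_orth (by decide) (by rw [RD4_A]; rfl) (l0 ⟨A, rfl⟩) (l3 ⟨B, rfl⟩)
  have k23 : ∀ A B, Commute (φ2 A) (φ3 B) := fun A B =>
    commute_of_orth (by decide) (by rw [RD4_A]; rfl) (l2 ⟨A, rfl⟩) (l3 ⟨B, rfl⟩)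
  let m := (SpecialLinearGroup.map θ : SL(2, K) →* SL(2, K))
  let a : SL(2, K) →* G := MonoidHom.mk' (fun A => φ0 A * (φ2 (m A) * φ3 (m (m A))))
    fun A B => by
      simp only [map_mul]
      rw [(k23 _ _).mul_mul_mul_comm, ((k02 _ _).mul_right (k03 _ _)).mul_mul_mul_comm]
  have ha : ∀ A, a A = φ0 A * (φ2 (m A) * φ3 (m (m A))) := fun _ => rfl
  have e1 : ∀ t, a (xU t) = C.x (RD4.simple 0) t *
      (C.x (RD4.simple 2) (θ t) * C.x (RD4.simple 3) (θ (θ t))) := fun t => by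
    rw [ha, map_xU, map_xU, a1, c1, d1]
  have e2 : ∀ t, a (xL t) = C.x (RD4.neg (RD4.simple 0)) t * (C.x (RD4.neg (RD4.simple 2)) (θ t) *
      C.x (RD4.neg (RD4.simple 3)) (θ (θ t))) := fun t => by
    rw [ha, map_xL, map_xL, a2, c2, d2]
  have e3 : a (Root.wS 1) = C.n (RD4.simple 0) 1 * (C.n (RD4.simple 2) 1 * C.n (RD4.simple 3) 1) := by
    rw [ha, map_w, map_w, a3, c3, d3]
  let ϑ := Units.map (θ : K →* K)
  have e4 : ∀ v, a (dg v) = hM.torus ![v, 1, ϑ v, ϑ (ϑ v)] := fun v => by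
    rw [ha, map_dg, map_dg, a4, c4, d4, hM.torus_eq_prod (l := [0, 1, 2, 3]) (by decide) (by decide)]
    simp [ϑ, C.h_one]
  have et : a (-1) = hM.torus ![-1, 1, -1, -1] := by
    rw [← dg_neg_one, e4]; congr 1; ext i; fin_cases i <;> simp [ϑ]
  have ga : a.range ≤ Y := range_le (fun t => e1 t ▸ g1 t) fun t => e2 t ▸ g2 t
  set n := C.n (RD4.simple 1) 1
  set w := a (Root.wS 1)
  have gr := mul_mem gn (mul_mem (mul_mem (ga ⟨_, rfl⟩ : w ∈ _) gn) (inv_mem (ga ⟨_, rfl⟩ : w ∈ _)))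
  let P : G → Equiv.Perm (Fin 24) → Prop := fun g π => C.NW g π ∧ ∃ c, (∀ s, c s * c s = 1) ∧ C.Acts g π c
  have Pm : ∀ {g g' π π'}, P g π → P g' π' → P (g * g') (π * π') := fun ⟨h, c, e, k⟩ ⟨h', c', e', k'⟩ =>
    ⟨h.mul h', _, fun s => by rw [mul_mul_mul_comm, e, e', mul_one], k.mul k'⟩
  have Pi' : ∀ {g π}, P g π → P g⁻¹ π⁻¹ := fun ⟨h, c, e, k⟩ => ⟨h.inv, _, fun s => by rw [← mul_inv, e, inv_one], k.inv⟩
  have Pn : ∀ i, P (C.n (RD4.simple i) 1) (RD4.sref i) := fun i => ⟨C.nw_simple i, _, C.η_sq i, C.acts_n_simple i⟩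
  have Pw : P w _ := e3 ▸ Pm (Pn 0) (Pm (Pn 2) (Pn 3))
  have Pr := Pm (Pn 1) (Pm (Pm Pw (Pn 1)) (Pi' Pw))
  set r := n * (w * n * w⁻¹)
  obtain ⟨h3, c, c2, k3⟩ : P (r * (r * r)) 1 := d4_perm ▸ Pm Pr (Pm Pr Pr)
  replace h3 := h3.mem_H
  have r6 := hA _ (mul_mem h3 h3) ((k3.mul k3).congr (one_mul _) c2)
  have ck : ∀ c, Commute (r * (r * r)) (hM.torus c) := fun c => hM.H_comm h3 (hM.torus_mem_H c)
  have nT := d4_nT hM
  simp only [RD4_A] at nT
  obtain ⟨r1, r2⟩ := d4_rho (t := a (-1)) (u := hM.torus ![1, -1, 1, 1]) (n := n) (w := w) (k := r * (r * r))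
    (by rw [← map_mul]; simp) (by rw [← map_mul, ← map_one hM.torus]; congr 1; ext i; fin_cases i <;> simp)
    (et ▸ (Commute.all _ _).map _) (by rw [← map_mul, ← map_inv, ← map_mul]; simp)
    (by
      rw [e3, et, ← map_mul, ← MulAut.conj_apply, map_mul, map_mul]
      simp only [MulAut.mul_apply, MulAut.conj_apply, nT]
      congr 1; ext i; fin_cases i <;> simp [Fin.prod_univ_four])
    (by rw [et, nT, ← map_mul]; congr 1; ext i; fin_cases i <;> simp [Fin.prod_univ_four])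
    (by rw [nT]; congr 1; ext i; fin_cases i <;> simp [Fin.prod_univ_four]) (et ▸ ck _) (ck _)
  refine ⟨a, r * (r * (r * r)), fun g => ga ⟨g, rfl⟩, mul_mem gr (mul_mem gr (mul_mem gr gr)),
    (injective_iff_map_eq_one a).2 fun g hg => ?_, ?_, by rw [r1, et]; exact (Commute.all _ _).map _, by rw [r1, r2],
    fun l hl => ?_⟩
  · have hc : g ∈ center SL(2, K) := mem_center_iff.2 fun s => i0 (by
      have : φ0 g = (φ2 (m g) * φ3 (m (m g)))⁻¹ := eq_inv_of_mul_eq_one_left hg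
      rw [map_mul, map_mul, this]
      exact ((k02 _ _).mul_right (k03 _ _)).inv_right)
    refine (mem_center_sl2 hc).resolve_right ?_
    rintro rfl
    have := (hM.acts_torus ![-1, 1, -1, -1]).conj (RD4.simple 1) 1
    rw [← et, hg, RootSys.chr_simple] at this
    have := hF.x_inj (by simpa [RD4_A, Fin.prod_univ_four] using this : C.x (RD4.simple 1) 1 = C.x (RD4.simple 1) (-1))
    exact h2 (by linear_combination this)
  · rw [← pow_three] at r6
    rw [← pow_three, ← pow_succ', ← pow_mul, show (3 + 1) * 3 = (3 + 3) * 2 from rfl, pow_mul, pow_add, r6, one_pow]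
  · have c1 : ∀ l : Kˣ, l ^ (q ^ 2 + q + 1) = 1 → Commute (a (dg l)) n := fun l hl => by
      refine (mul_inv_eq_iff_eq_mul.1 ?_).symm
      have : ϑ (ϑ l) * (ϑ l * l) = 1 := Units.ext (by
        rw [← hl]; simp only [ϑ, Units.val_mul, Units.coe_map, MonoidHom.coe_coe, hS', Units.val_pow_eq_pow_val]; ring)
      rw [e4, nT]; congr 1; funext i; fin_cases i <;> simp [Fin.prod_univ_four, this]
    have c2 : Commute (a (dg l)) (w * n * w⁻¹) := by
      have := (c1 l⁻¹ (by rw [inv_pow, hl, inv_one])).map (MulAut.conj w)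
      rwa [MulAut.conj_apply, ← map_mul, ← map_inv, ← map_mul, show Root.wS 1 * dg l⁻¹ * (Root.wS 1)⁻¹ = dg l from
        mul_inv_eq_iff_eq_mul.2 (by apply sl2_ext <;> simp [wS_coe (one_ne_zero (α := K))])] at this
    have c3 : Commute (a (dg l)) r := (c1 l hl).mul_right c2
    rw [show dS l = dg l by apply sl2_ext <;> simp]
    exact c3.mul_right (c3.mul_right (c3.mul_right c3))

theorem d4_data {K : Type*} [Field K] [Fintype K] {q : ℕ} (hq : IsPrimePow q) (hK : Fintype.card K = q ^ 3) (h2 : (2 : K) ≠ 0) :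
    ∃ (a : SL(2, K) →* twistedD4 K q) (r : twistedD4 K q), D4L q a r := by
  obtain ⟨S, hS⟩ := exists_twist_D4 hq hK
  obtain ⟨a, r, ma, mr, h⟩ := d4_gen faithful_D4 adjoint_D4 (hS 0) h2 (Y := KD4 K q)
    (fun t => by rw [xp_D4, xp_D4, xp_D4, hS, hS]; exact triple_mem_KD4 (by simp) t)
    (fun t => by rw [xm_D4, xm_D4, xm_D4, hS, hS]; exact triple_mem_KD4 (by simp) t) (by
      have x1 : (CD4 K).x (RD4.simple 1) 1 ∈ KD4 K q := by rw [xp_D4]; exact single_mem_KD4 (by simp) (one_pow _)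
      refine mul_mem (mul_mem x1 ?_) x1
      rw [xm_D4]
      exact single_mem_KD4 (by simp) ((hS 0 _).symm.trans (by simp)))
  exact ⟨_, _, (h.map (chevD4.group K).subtype_injective).res (fun g => map_KD4.le ⟨_, ma g, rfl⟩) (map_KD4.le ⟨_, mr, rfl⟩)⟩

theorem d4_arith {q P ε : ℤ} (h1 : 0 < P) (h2 : 3 * P ≤ q) (ho : Odd P) (hε : ε = 2 ∨ ε = -2) {i : ℕ} (hi : i < 3) :
    ¬ q ^ 2 + q + 1 ∣ q ^ i * P - ε := fun d => by
  have k : ∀ x, q ^ 2 + q + 1 ∣ x → x ≠ 0 → -(q ^ 2 + q + 1) < x → x < q ^ 2 + q + 1 → False := fun x d n a b =>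
    n (Int.eq_zero_of_abs_lt_dvd d (abs_lt.2 ⟨a, b⟩))
  obtain ⟨m, hm⟩ := ho
  interval_cases i
  · rw [pow_zero, one_mul] at d
    refine k _ d (by omega) ?_ ?_ <;> rcases hε with rfl | rfl <;> nlinarith
  · refine k _ d (ne_of_gt ?_) ?_ ?_ <;> rcases hε with rfl | rfl <;> nlinarith
  · refine k ((q + 1) * P + ε) ((((dvd_refl _).mul_right P).sub d).trans (dvd_of_eq (by ring))) (ne_of_gt ?_) ?_ ?_ <;>
      rcases hε with rfl | rfl <;> nlinarith

end Abs

variable {K : Type*} [Field K] [IsAlgClosed K] {M : Subgroup (O (Q K))} (p : ℕ) [Fact p.Prime] [CharP K p]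
  {E : Type*} [Field E] [Fintype E]

/-- `SL₂(q)`, `q > 13` odd, occurs only in the defining characteristic. -/
theorem d4_char (h2 : (2 : K) ≠ 0) (ho : Odd (Fintype.card E)) (h13 : 13 < Fintype.card E) {f : SL(2, E) →* O (Q K)}
    (i : Function.Injective f) : (Fintype.card E : K) = 0 := by
  by_contra n
  let u : Multiplicative E →* SL(2, E) := .mk' (fun x => PSL2.upper x.toAdd) fun x y => (PSL2.upper_mul ..).symm
  have iu : ∀ {x y : E}, PSL2.upper x = PSL2.upper y → x = y := fun e => congrArg (fun s : SL(2, E) => s 0 1) e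
  have c : Nat.card (f.comp u).range = Fintype.card E := by
    rw [← Nat.card_congr (MonoidHom.ofInjective (f := f.comp u) fun x y e => iu (i e)).toEquiv,
      Nat.card_congr Multiplicative.toAdd, Nat.card_eq_fintype_card]
  have : Finite (f.comp u).range := Nat.finite_of_card_ne_zero (c.trans_ne Fintype.card_ne_zero)
  obtain ⟨s, hs⟩ := IsCyclic.exists_ofOrder_eq_natCard (α := Eˣ)
  rw [Nat.card_units, Nat.card_eq_fintype_card] at hs
  have k : ∀ m, 0 < m → (∀ a ∈ (f.comp u).range, Commute (f (dS s) ^ m) a) → Fintype.card E - 1 ≤ m * 2 := fun m m0 h => by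
    have e : f (dS s) ^ m * f (PSL2.upper 1) = f (PSL2.upper 1) * f (dS s) ^ m := (h _ ⟨.ofAdd 1, rfl⟩).eq
    rw [← map_pow, show dS s ^ m = dS (s ^ m) from (map_pow tri_dH s m).symm, ← map_mul, ← map_mul, dS_upper] at e
    have := iu (mul_right_cancel (i e))
    rw [← hs]
    exact orderOf_le_of_pow_eq_one (by omega) (Units.ext (by rw [pow_mul]; simpa using this))
  rcases t1_pow h2 (A := (f.comp u).range) (by rintro _ ⟨x, rfl⟩ _ ⟨y, rfl⟩; exact (Commute.all x y).map _) (by rwa [c])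
    (by rwa [c]) (x := f (dS s)) (by
      rintro _ ⟨x, rfl⟩
      refine ⟨.ofAdd (s ^ 2 * x.toAdd), ?_⟩
      change f (PSL2.upper _) = _ * f (PSL2.upper _) * _
      rw [← map_mul, dS_upper, map_mul f, mul_inv_cancel_right]
      rfl) with h | h <;> have := k _ (by decide) h <;> omega

include p in
/-- Local data (Lib.D3, Lib.Twisted, Lib.Chev; cf. S1106, S1107, S2192, S3212): the long root subgroups generate an image of `X = SL₃(q)`, the short root subgroups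
`X_{± a}` generate an image `f` of `SL(2, E)`, `|E| = q³`, whose centre `t` is the centre of the perpendicular long root `SL₂(q) ≤ X`.  For `l ∈ Eˣ` of norm one over `F_q`
(order `n = q² + q + 1`) `f (dS l) = h_{a1}(l) h_{a3}(l^q) h_{a4}(l^{q²})` centralises all long root elements (their roots take the value norm `^ (±1, 0)` ...), so centralises `X ∋ r`
(`r = n_b n_{b'}` of order three, the cyclic permutation matrix).
Characteristic: `char_of_SL3` for `X` (or `t1_heis` / `t1_rank`, `t1_pow` with root groups).  `Pre.d4` gives `k < 3 f`, `p ^ k ≡ ± 2` mod `n`.  Write `p ^ k = q ^ i p ^ j`, `i < 3`, `p ^ j ∣ q / p`;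
`q² ≡ -(q + 1)`: the numbers `p^j ∓ 2`, `q p^j ∓ 2`, `(q + 1) p^j ± 2` are non-zero and of absolute value `< n`. -/
theorem Pre.no_D4 (h : Pre M) {q : ℕ} (ho : Odd q) (hq : Fintype.card E = q ^ 3) (e : M ≃* Lie.twistedD4 E q) :
    False := by
  obtain ⟨p', _, n, hp, e0⟩ := FiniteField.card' E
  obtain ⟨a, -, ea⟩ := (Nat.dvd_prime_pow hp).1 (e0 ▸ hq ▸ dvd_pow_self q three_ne_zero)
  have ha : a ≠ 0 := by
    rintro rfl
    have := Fintype.one_lt_card (α := E)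
    simp [hq, ea] at this
  have oE : Odd (Fintype.card E) := hq ▸ ho.pow
  have p3 : 3 ≤ p' := by
    have := hp.two_le
    have := (Nat.odd_pow_iff ha).1 (ea ▸ ho)
    grind
  have q3 : 3 ≤ q := ea ▸ p3.trans (Nat.le_self_pow ha _)
  have c27 : 27 ≤ Fintype.card E := hq ▸ Nat.pow_le_pow_left q3 3
  have h2 : (2 : E) ≠ 0 := fun e => by
    have := Nat.le_of_dvd two_pos ((CharP.cast_eq_zero_iff E p' 2).1 (by exact_mod_cast e))
    omega
  obtain ⟨f, r, D⟩ := d4_data (ea ▸ hp.isPrimePow.pow ha) hq h2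
  replace D := D.map (emb_injective e)
  have := charP_of_card p (d4_char h.two oE (by omega) D.inj)
  obtain rfl := CharP.eq E this ‹CharP E p'›
  obtain ⟨s, hs⟩ := IsCyclic.exists_ofOrder_eq_natCard (α := Eˣ)
  have ol : orderOf (s ^ (q - 1)) = q ^ 2 + q + 1 := by
    have : orderOf s = (q - 1) * (q ^ 2 + q + 1) := by
      rw [hs, Nat.card_units, Nat.card_eq_fintype_card, hq]
      obtain ⟨q, rfl⟩ := Nat.exists_eq_add_of_le' q3
      exact Nat.sub_eq_of_eq_add (by rw [show q + 3 - 1 = q + 2 from rfl]; ring)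
    rw [orderOf_pow_of_dvd (by omega) ⟨_, this⟩, this, Nat.mul_div_cancel_left _ (by omega)]
  have hl := ol ▸ pow_orderOf_eq_one (s ^ (q - 1))
  obtain ⟨k, hk, e3⟩ := h.d4 p (by rw [Nat.card_eq_fintype_card]; omega) ⟨fun _ => emb_mem e _, emb_mem e _,
    fun e => PSL2.sl_neg_one_ne_one h2 (D.inj (e.trans (map_one _).symm)), D.comm, D.cube, rfl, D.eb⟩
    (n := q ^ 2 + q + 1) (ho.pow.add_odd ho).add_one hl (fun e => by rw [e, orderOf_one] at ol; omega) (D.cen _ hl)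
  rw [Nat.card_eq_fintype_card, hq, ea, ← pow_mul, Nat.pow_lt_pow_iff_right hp.one_lt] at hk
  obtain ⟨ε, hε, d⟩ : ∃ ε : ℤ, (ε = 2 ∨ ε = -2) ∧ (q : ℤ) ^ 2 + q + 1 ∣ (p ^ k : ℕ) - ε := by
    have : (q : ℤ) ^ 2 + q + 1 = orderOf (s ^ (q - 1)) := by rw [ol]; push_cast; rfl
    rw [this]
    exact e3.elim (fun e => ⟨2, .inl rfl, orderOf_dvd_sub_iff_zpow_eq_zpow.2 (by exact_mod_cast e)⟩) fun e =>
      ⟨-2, .inr rfl, orderOf_dvd_sub_iff_zpow_eq_zpow.2 (by
        rw [zpow_natCast, _root_.zpow_neg, eq_inv_iff_mul_eq_one]; exact_mod_cast e)⟩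
  refine d4_arith (q := q) (P := p ^ (k % a)) (by have := hp.pos; positivity) ?_ (by exact_mod_cast (hp.odd_of_ne_two (by omega)).pow) hε
    (i := k / a) (Nat.div_lt_of_lt_mul hk) (by rw [ea] at d ⊢; push_cast at d ⊢; rwa [← pow_mul _ a (k / a), ← pow_add, Nat.div_add_mod])
  have := (Nat.mul_le_mul_right (p ^ (k % a)) p3).trans ((pow_succ' ..).ge.trans
    (Nat.pow_le_pow_right hp.pos (Nat.mod_lt k (Nat.pos_of_ne_zero ha))))
  rw [ea]
  exact_mod_cast this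

end Cfsg.Lib.O7
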