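import Cfsg.Agent.Lib.Oct.Fix
import Cfsg.Agent.Lib.Orth.Spinor
import Cfsg.Agent.Lib.Orth.Matrix

/-!
# Subgroups of `SO₇`: the spin module and the standing hypotheses (S5815, see `docs/O7.md`)

`V K` is the seven-dimensional space with form `Q K`, `W K` the split octonions with the norm form
`N K`.  `jv` identifies `V K` with the traceless octonions, `gam v` is left multiplication by `jv v`.
-/

set_option autoImplicit false

namespace Cfsg.Lib.O7

open QuadraticMap Module Matrix Cfsg.Lib.Orth Cfsg.Lib.Oct Cfsg.Lie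
open scoped MatrixGroups

section Gen

variable {K U : Type*} [Field K] [AddCommGroup U] [Module K U] {q : QuadraticForm K U}

/-- `dim [U, g]`. -/
noncomputable def dm (g : O q) : ℕ := finrank K (O.comm g)

/-- `dim C_U(g)`. -/
noncomputable def fx (g : O q) : ℕ := finrank K (O.fix g)

/-- The character. -/
noncomputable def chi (g : O q) : K := LinearMap.trace K U (g.1 : U →ₗ[K] U)

/-- `M` acts irreducibly. -/
def Irr (M : Subgroup (O q)) : Prop :=
  ∀ X : Submodule K U, (∀ g ∈ M, ∀ v ∈ X, g.1 v ∈ X) → X = ⊥ ∨ X = ⊤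

/-- The fixed space of a subgroup. -/
def Fix (E : Subgroup (O q)) : Submodule K U where
  carrier := {v | ∀ g ∈ E, g.1 v = v}
  add_mem' ha hb g hg := by rw [map_add, ha g hg, hb g hg]
  zero_mem' g _ := map_zero _
  smul_mem' c v hv g hg := by rw [map_smul, hv g hg]

theorem mem_Fix {E : Subgroup (O q)} {v : U} : v ∈ Fix E ↔ ∀ g ∈ E, g.1 v = v := Iff.rfl

theorem dm_add_fx [FiniteDimensional K U] (g : O q) : dm g + fx g = finrank K U :=
  O.finrank_comm_add_finrank_fix g

theorem dm_conj (g h : O q) : dm (h * g * h⁻¹) = dm g := by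
  rw [dm, O.comm_conj]; exact LinearEquiv.finrank_map_eq h.1 _

theorem fx_conj (g h : O q) : fx (h * g * h⁻¹) = fx g := by
  rw [fx, O.fix_conj]; exact LinearEquiv.finrank_map_eq h.1 _

theorem dm_of_isConj {g h : O q} (e : IsConj g h) : dm g = dm h := by
  obtain ⟨c, rfl⟩ := isConj_iff.1 e; exact (dm_conj _ _).symm

theorem fx_inv (g : O q) : fx g⁻¹ = fx g := by rw [fx, O.fix_inv, fx]

theorem dm_eq_zero [FiniteDimensional K U] {g : O q} : dm g = 0 ↔ g = 1 := by
  rw [dm, Submodule.finrank_eq_zero, O.comm_eq_bot_iff]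

theorem chi_conj (g h : O q) : chi (h * g * h⁻¹) = chi g :=
  LinearMap.trace_conj' (g.1 : U →ₗ[K] U) h.1

theorem chi_of_isConj {g h : O q} (e : IsConj g h) : chi g = chi h := by
  obtain ⟨c, rfl⟩ := isConj_iff.1 e; exact (chi_conj _ _).symm

theorem Irr.mono {M M' : Subgroup (O q)} (h : Irr M) (l : M ≤ M') : Irr M' :=
  fun X hX => h X fun g hg => hX g (l hg)

/-- The stabiliser of a subspace. -/
def stabS [FiniteDimensional K U] (X : Submodule K U) : Subgroup (O q) where
  carrier := {g | ∀ v ∈ X, g.1 v ∈ X}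
  mul_mem' ha hb v hv := ha _ (hb v hv)
  one_mem' _ hv := hv
  inv_mem' {g} hg v hv := by
    have : X.map (g.1 : U →ₗ[K] U) = X := Submodule.eq_of_le_of_finrank_eq
      (by rintro _ ⟨w, hw, rfl⟩; exact hg w hw) (LinearEquiv.finrank_map_eq g.1 X)
    obtain ⟨w, hw, rfl⟩ := this.ge hv
    change (g⁻¹).1 (g.1 w) ∈ X
    rwa [(O.inv_apply_eq g).2 rfl]

/-- The stabiliser of a vector. -/
def stabV (v : U) : Subgroup (O q) where
  carrier := {g | g.1 v = v}
  mul_mem' {a b} ha hb := by change a.1 (b.1 v) = v; rw [hb, ha]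
  one_mem' := rfl
  inv_mem' {g} hg := (O.inv_apply_eq g).2 hg.symm

theorem mem_stabV {v : U} {g : O q} : g ∈ stabV v ↔ g.1 v = v := Iff.rfl

theorem mem_stabS [FiniteDimensional K U] {X : Submodule K U} {g : O q} :
    g ∈ stabS X ↔ ∀ v ∈ X, g.1 v ∈ X := Iff.rfl

/-- An irreducible group fixes no line. -/
theorem Irr.not_line {M : Subgroup (O q)} (h : Irr M) (h1 : 1 < finrank K U) {v : U} (h0 : v ≠ 0)
    (hv : ∀ g ∈ M, g.1 v ∈ K ∙ v) : False := by
  rcases h (K ∙ v) (fun g hg w hw => by
    obtain ⟨c, rfl⟩ := Submodule.mem_span_singleton.1 hw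
    rw [map_smul]; exact Submodule.smul_mem _ _ (hv g hg)) with e | e
  · exact h0 (Submodule.span_singleton_eq_bot.1 e)
  · rw [← finrank_top, ← e, finrank_span_singleton h0] at h1; exact h1.false

theorem Irr.not_fix {M : Subgroup (O q)} (h : Irr M) (h1 : 1 < finrank K U) {v : U} (h0 : v ≠ 0)
    (hv : M ≤ stabV v) : False :=
  h.not_line h1 h0 fun g hg => by rw [mem_stabV.1 (hv hg)]; exact Submodule.mem_span_singleton_self v

end Gen

/-- The index set. -/
abbrev I7 : Type := Unit ⊕ (Fin 3 ⊕ Fin 3)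
/-- The natural module. -/
abbrev V (K : Type*) : Type _ := I7 → K
/-- The spin module. -/
abbrev W (K : Type*) : Type _ := Fin 8 → K
/-- The form on `V`. -/
abbrev Q (K : Type*) [Field K] : QuadraticForm K (V K) := qOdd 3 K

/-- The norm form on `W`. -/
def N (K : Type*) [Field K] : QuadraticForm K (W K) :=
  QuadraticMap.copy (QuadraticMap.proj 0 7 - (QuadraticMap.proj 1 4 + QuadraticMap.proj 2 5 +
    QuadraticMap.proj 3 6)) nm (by ext v; simp [nm])

variable {K : Type*} [Field K]

theorem N_apply (x : W K) : N K x = nm x := rfl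

theorem polar_N (x y : W K) : polar (N K) x y = bl x y := by
  simp only [polar, N_apply, nm_add]; ring

theorem nd_N : ND (N K) := (nd_iff _).2 fun _ hx => eq_zero_of_bl fun y => polar_N _ y ▸ hx y

theorem nd_Q (h2 : (2 : K) ≠ 0) : ND (Q K) := nd_qOdd h2 3

theorem finrank_V : finrank K (V K) = 7 := by simp
theorem finrank_W : finrank K (W K) = 8 := by simp

/-- `V` as the traceless octonions. -/
def jv : V K →ₗ[K] W K where
  toFun v := mk (v (.inl ())) (fun i => v (.inr (.inl i))) (fun i => v (.inr (.inr i))) (-v (.inl ()))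
  map_add' u v := by rw [mk_add]; simp [add_comm]; exact ⟨rfl, rfl⟩
  map_smul' c v := by rw [mk_smul]; simp; exact ⟨rfl, rfl⟩

theorem jv_apply (v : V K) : jv v = mk (v (.inl ())) (fun i => v (.inr (.inl i)))
    (fun i => v (.inr (.inr i))) (-v (.inl ())) := rfl

/-- A left inverse of `jv`. -/
def pv : W K →ₗ[K] V K where
  toFun x := Sum.elim (fun _ => x 0) (Sum.elim (zA K x) (zB K x))
  map_add' x y := by ext i; rcases i with _ | i | i <;> first | rfl | (fin_cases i <;> rfl)
  map_smul' c x := by ext i; rcases i with _ | i | i <;> first | rfl | (fin_cases i <;> rfl)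

theorem pv_jv (v : V K) : pv (jv v) = v := by
  ext i; rcases i with _ | i | i <;> first | rfl | (fin_cases i <;> rfl)

theorem jv_injective : Function.Injective (jv (K := K)) := Function.LeftInverse.injective pv_jv

theorem tr_jv (v : V K) : tr (jv v) = 0 := by simp [jv_apply]

theorem jv_pv {x : W K} (h : tr x = 0) : jv (pv x) = x := by
  conv_rhs => rw [← mk_eta x, eq_neg_of_add_eq_zero_right h]
  rfl

theorem nm_jv (v : V K) : nm (jv v) = -Q K v := by
  simp [jv_apply, qOdd_apply, dotProduct]; ring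

/-- The Clifford action. -/
def gam : V K →ₗ[K] Module.End K (W K) := mulL ∘ₗ jv

theorem gam_apply (v : V K) (w : W K) : gam v w = jv v ⋆ w := rfl

variable (K) in
/-- The spin group: pairs `(s, g)` with `s (gam v) s⁻¹ = gam (g v)`. -/
def Spin : Subgroup (O (N K) × O (Q K)) where
  carrier := {s | ∀ v w, s.1.1 (gam v w) = gam (s.2.1 v) (s.1.1 w)}
  mul_mem' {a b} ha hb v w := by
    change a.1.1 (b.1.1 _) = gam (a.2.1 (b.2.1 v)) (a.1.1 (b.1.1 w)); rw [hb, ha]
  one_mem' _ _ := rfl
  inv_mem' {a} ha v w := (O.inv_apply_eq a.1).2 (by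
    rw [ha]; change gam v w = gam ((a.2 * a.2⁻¹).1 v) ((a.1 * a.1⁻¹).1 w); simp [O.one_apply])

/-- The action on `V`. -/
def phi : Spin K →* O (Q K) := (MonoidHom.snd _ _).comp (Spin K).subtype

/-- The action on `W`. -/
def act : Spin K →* O (N K) := (MonoidHom.fst _ _).comp (Spin K).subtype

theorem act_gam (s : Spin K) (v : V K) (w : W K) :
    (act s).1 (gam v w) = gam ((phi s).1 v) ((act s).1 w) := s.2 v w

variable (K) in
/-- The central involution of the spin group. -/
def ng : Spin K := ⟨(O.neg _, 1), fun v w => by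
  change -(gam v w) = gam v (-w); rw [map_neg]⟩

theorem phi_ng : phi (ng K) = 1 := rfl
theorem act_ng : act (ng K) = O.neg _ := rfl
theorem act_ng_apply (w : W K) : (act (ng K)).1 w = -w := rfl

/-- The preimage of `M` in the spin group, acting on `W`. -/
def hatW (M : Subgroup (O (Q K))) : Subgroup (O (N K)) := (M.comap phi).map act

theorem act_mem_hatW {M : Subgroup (O (Q K))} {s : Spin K} (h : phi s ∈ M) : act s ∈ hatW M :=
  ⟨s, h, rfl⟩

/-- A finite subgroup of `SO₇(K)` without involutions `-refl`. -/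
structure Pre (M : Subgroup (O (Q K))) : Prop where
  two : (2 : K) ≠ 0
  fin : Finite M
  det : ∀ g ∈ M, O.det _ g = 1
  nt6 : ∀ t ∈ M, t * t = 1 → dm t ≠ 6

/-- ... which is irreducible on the natural module and on the spin module. -/
structure Rep (M : Subgroup (O (Q K))) : Prop extends Pre M where
  irrV : Irr M
  irrW : Irr (hatW M)

theorem Pre.mono {M M' : Subgroup (O (Q K))} (h : Pre M) (l : M' ≤ M) : Pre M' :=
  ⟨h.two, have := h.fin; .of_injective _ (Subgroup.inclusion_injective l), fun g hg => h.det g (l hg),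
    fun t ht => h.nt6 t (l ht)⟩

/-- The embedding attached to an isomorphism `M ≃* X`. -/
def emb {M : Subgroup (O (Q K))} {X : Type*} [Group X] (e : M ≃* X) : X →* O (Q K) :=
  M.subtype.comp e.symm.toMonoidHom

theorem emb_injective {M : Subgroup (O (Q K))} {X : Type*} [Group X] (e : M ≃* X) :
    Function.Injective (emb e) := Subtype.val_injective.comp e.symm.injective

theorem emb_mem {M : Subgroup (O (Q K))} {X : Type*} [Group X] (e : M ≃* X) (x : X) :
    emb e x ∈ M := (e.symm x).2

theorem range_emb {M : Subgroup (O (Q K))} {X : Type*} [Group X] (e : M ≃* X) :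
    (emb e).range = M := by
  rw [emb, MonoidHom.range_comp, MonoidHom.range_eq_top.2 e.symm.surjective,
    ← MonoidHom.range_eq_map, Subgroup.range_subtype]

/-- Subgroups of the abstract group. -/
theorem Pre.sub {M : Subgroup (O (Q K))} (h : Pre M) {X Y : Type*} [Group X] [Group Y] (e : M ≃* X)
    {f : Y →* X} (hf : Function.Injective f) : ∃ M' : Subgroup (O (Q K)), Pre M' ∧ Nonempty (M' ≃* Y) :=
  ⟨((emb e).comp f).range, h.mono (by rintro _ ⟨y, rfl⟩; exact emb_mem e _),
    ⟨(MonoidHom.ofInjective (f := (emb e).comp f) ((emb_injective e).comp hf)).symm⟩⟩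

/-- The socle of a residual subgroup of `Ω₇(F)`; `ι` below is an embedding in an algebraic closure. -/
structure Core {F : Type*} [Field F] (P : Subgroup (O (Q F))) : Prop where
  two : (2 : F) ≠ 0
  le : P ≤ commutator (O (Q F))
  ne : ¬ commutator (O (Q F)) ≤ P
  simple : IsSimpleGroup P
  nab : ¬ IsMulCommutative P
  irr : Irr P
  abs : ∀ A : Module.End F (V F), (∀ g ∈ P, ∀ v, A (g.1 v) = g.1 (A v)) → ∃ c : F, A = c • 1
  nosub : ∀ k : Subfield F, (∀ g ∈ P, chi g ∈ k) → k = ⊤

/-- `H` is a maximal subgroup of `Ω₇(F)` normalising its subgroup `P`. -/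
structure Mx {F : Type*} [Field F] (H P : Subgroup (O (Q F))) : Prop where
  le : H ≤ commutator (O (Q F))
  max : ∀ Y, H ≤ Y → Y ≤ commutator (O (Q F)) → Y ≤ H ∨ commutator (O (Q F)) ≤ Y
  sub : P ≤ H
  norm : ∀ h ∈ H, ∀ g ∈ P, h * g * h⁻¹ ∈ P

end Cfsg.Lib.O7
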