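import Cfsg.Agent.Lib.O7.E7a
import Cfsg.Agent.Lib.Orth.ReflClass

/-!
# Irreducible reflection groups in dimension seven containing `-1` (`docs/O7.md`)
-/

set_option autoImplicit false

namespace Cfsg.Lib.O7

open QuadraticMap Module Cfsg.Lib.Orth Cfsg.Lib.Sp4O

variable {F U : Type*} [Field F] [AddCommGroup U] [Module F U] {q : QuadraticForm F U} {Φ : Set U}
  {e : Fin 7 → U} {L : Subgroup (O q)}

variable (q) in
/-- `Φ` is the root system `E₇` written in the frame `e`. -/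
structure E7 (Φ : Set U) (e : Fin 7 → U) : Prop where
  two : (2 : F) ≠ 0
  orth : ∀ i j, polar q (e i) (e j) = if i = j then 2 else 0
  mem : ∀ x, x ∈ Φ ↔ (∃ i, x = e i ∨ x = -e i) ∨
    ∃ (k : Fin 7) (s : Fin 7 → ℤˣ), x = (2 : F)⁻¹ • ∑ i ∈ wd k, ((s i : ℤ) : F) • e i

theorem e7_polar (h : ∀ i j, polar q (e i) (e j) = if i = j then 2 else 0) (c d : Fin 7 → F) :
    polar q (∑ i, c i • e i) (∑ i, d i • e i) = 2 * ∑ i, c i * d i := by
  rw [← polarBilin_apply_apply, LinearMap.map_sum₂, Finset.mul_sum]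
  refine Finset.sum_congr rfl fun i _ => ?_
  simp [map_sum, h]; ring

variable (F) in
/-- The vector with doubled integral coordinates `z`. -/
def e7v (e : Fin 7 → U) (z : Fin 7 → ℤ) : U := ∑ i, ((2 : F)⁻¹ * (z i : F)) • e i

/-- The simple roots. -/
def e7a : Fin 7 → Fin 7 → ℤ := ![![2, 0, 0, 0, 0, 0, 0], ![0, 2, 0, 0, 0, 0, 0], ![-1, 0, 0, 1, 0, 1, 1],
  ![0, -1, 1, -1, 0, 0, -1], ![0, 0, -2, 0, 0, 0, 0], ![0, 0, 1, 0, 1, -1, 1], ![0, 0, 0, 0, -2, 0, 0]]

/-- The absolute values of the coordinates of the roots. -/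
def e7b (n : Fin 7 × Bool) (j : Fin 7) : ℕ := if n.2 then if j = n.1 then 2 else 0 else if j ∈ wd n.1 then 1 else 0

/-- The Coxeter matrix. -/
def e7c (i j : Fin 7) : ℕ := CoxeterMatrix.E₇ i j

/-- The height. -/
def e7h (z : Fin 7 → ℤ) : ℕ := (z 0 + z 1 - z 2 - 15 * z 3 - z 4 + 7 * z 5 + 11 * z 6).natAbs

theorem e7_step (n : Fin 7 × Bool) (s : Fin 7 → ℤˣ) : let z : Fin 7 → ℤ := fun j => s j * e7b n j
    (∃ i, z = e7a i ∨ z = -e7a i) ∨ ∃ i, ∃ m ∈ [(1 : ℤ), -1], ∑ j, e7a i j * z j = 2 * m ∧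
      e7h (z - m • e7a i) < e7h z ∧ ∃ n', ∀ j, ((z - m • e7a i) j).natAbs = e7b n' j := by
  have : ∀ (n : Fin 7 × Bool) (a b c d e f g : ℤˣ), let z : Fin 7 → ℤ := fun j => ![a, b, c, d, e, f, g] j * e7b n j
    (∃ i, (∀ j, z j = e7a i j) ∨ ∀ j, z j = -e7a i j) ∨ ∃ i, ∃ m ∈ [(1 : ℤ), -1], ∑ j, e7a i j * z j = 2 * m ∧
      e7h (z - m • e7a i) < e7h z ∧ ∃ n', ∀ j, ((z - m • e7a i) j).natAbs = e7b n' j := by decide +kernel
  have k := this n (s 0) (s 1) (s 2) (s 3) (s 4) (s 5) (s 6)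
  rw [show ![s 0, s 1, s 2, s 3, s 4, s 5, s 6] = s from funext fun i => by fin_cases i <;> rfl] at k
  exact k.imp_left fun ⟨i, h⟩ => ⟨i, h.imp funext funext⟩

theorem E7.polar_v (h : E7 q Φ e) {a b : Fin 7 → ℤ} {m : ℤ} (hm : ∑ j, a j * b j = 2 * m) :
    polar q (e7v F e a) (e7v F e b) = m := by
  have := congrArg (Int.cast : ℤ → F) hm
  have h2 := h.two
  push_cast at this
  rw [e7v, e7v, e7_polar h.orth, show ∑ j, (2 : F)⁻¹ * (a j : F) * (2⁻¹ * (b j : F)) =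
    2⁻¹ * 2⁻¹ * ∑ j, (a j : F) * b j by rw [Finset.mul_sum]; exact Finset.sum_congr rfl fun _ _ => by ring, this]
  field_simp

theorem E7.q_a (h : E7 q Φ e) (i : Fin 7) : q (e7v F e (e7a i)) = 1 := by
  have := h.polar_v (a := e7a i) (b := e7a i) (m := 2) (by revert i; decide)
  rw [polar_self'] at this
  exact mul_left_cancel₀ h.two (by simpa using this)

theorem E7.mem_v (h : E7 q Φ e) {x : U} :
    x ∈ Φ ↔ ∃ (n : Fin 7 × Bool) (s : Fin 7 → ℤˣ), x = e7v F e fun j => s j * e7b n j := by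
  have a : ∀ (i : Fin 7) (s : Fin 7 → ℤˣ), (e7v F e fun j => s j * e7b (i, true) j) = ((s i : ℤ) : F) • e i :=
    fun i s => by
      rw [e7v, Finset.sum_eq_single i (fun j _ n => by simp [e7b, n]) (by simp)]
      have := h.two
      congr 1
      simp [e7b]; field_simp
  have b : ∀ (k : Fin 7) (s : Fin 7 → ℤˣ), (e7v F e fun j => s j * e7b (k, false) j) =
      (2 : F)⁻¹ • ∑ i ∈ wd k, ((s i : ℤ) : F) • e i := fun k s => by
    simp [e7v, e7b, Finset.smul_sum, smul_smul]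
  rw [h.mem]
  constructor
  · rintro (⟨i, rfl | rfl⟩ | ⟨k, s, rfl⟩)
    exacts [⟨(i, true), 1, by rw [a]; simp⟩, ⟨(i, true), -1, by rw [a]; simp⟩, ⟨(k, false), s, (b k s).symm⟩]
  · rintro ⟨⟨i, _ | _⟩, s, rfl⟩
    · exact .inr ⟨i, s, b i s⟩
    · exact .inl ⟨i, by rw [a]; rcases Int.units_eq_one_or (s i) with c | c <;> simp [c]⟩

/-- Two words meet in two or four points: the products are `0, ± 1, ± 2`. -/
theorem E7.polar_mem (h : E7 q Φ e) {x y : U} (hx : x ∈ Φ) (hy : y ∈ Φ) : polar q x y ∈ (⊥ : Subfield F) := by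
  obtain ⟨n, s, rfl⟩ := h.mem_v.1 hx
  obtain ⟨m, t, rfl⟩ := h.mem_v.1 hy
  have k : ∀ z : ℤ, (2 : F)⁻¹ * z ∈ (⊥ : Subfield F) := fun z => mul_mem (inv_mem (natCast_mem _ 2)) (intCast_mem _ _)
  rw [e7v, e7v, e7_polar h.orth]
  exact mul_mem (natCast_mem _ 2) (sum_mem fun i _ => mul_mem (k _) (k _))

/-- Write roots as integer vectors `z` (`x = ½ ∑ z i • e i`, `polar = ½ ∑ z i z' i`, `q x = 1`).  Simple roots in the order of `CoxeterMatrix.E₇`:
`(2,0,0,0,0,0,0)`, `(0,2,0,0,0,0,0)`, `(-1,0,0,1,0,1,1)`, `(0,-1,1,-1,0,0,-1)`, `(0,0,-2,0,0,0,0)`, `(0,0,1,0,1,-1,1)`, `(0,0,0,0,-2,0,0)`.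
`(refl a * refl b) ^ 2 = 1` if `polar a b = 0` (`refl_comm_of_perp`), `^ 3 = 1` if `polar a b = -1` (`conj_refl`: `refl a b = a + b = refl b a`).  `PresentedGroup.toGroup` / `CoxeterSystem.lift`.
Onto (`conj_refl`; `[i, j, ..] k` means `s_i s_j ⋯ (a_k)`): `± e 3 = [3,4,5,6,1,3,4,5,2,3,4,1,3,2] 0`, `± e 5 = [2,3,4,1,3,2] 0`, `± e 6 = [5,6,4,5,2,3,4,1,3,2] 0`; roots with supports `{0,1,4,6}`: `[5,4,3] 2`,
`{0,1,2,5}`: `[3] 2`, `{0,2,3,4}`: `[5,3,4,2,3] 1`, `{1,3,4,5}`: `[5,4] 3`; the reflections in the `e i` change the signs. -/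
theorem E7.exists_hom (h : E7 q Φ e) :
    ∃ f : CoxeterMatrix.E₇.Group →* O q, f.range = Subgroup.closure (refl q '' Φ) := by
  have l : CoxeterMatrix.E₇.IsLiftable fun i => refl q (e7v F e (e7a i)) := fun i j => by
    rcases (by decide +kernel : ∀ i j : Fin 7, i = j ∨ (e7c i j = 2 ∧ ∑ k, e7a i k * e7a j k = 2 * 0) ∨
      (e7c i j = 3 ∧ ∑ k, e7a i k * e7a j k = 2 * (-1))) i j with rfl | a | a
    · rw [CoxeterMatrix.diagonal, pow_one, refl_mul_self]
    · rw [show CoxeterMatrix.E₇ i j = _ from a.1]; exact refl_mul_refl_sq_of_perp (by simpa using h.polar_v a.2)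
    · rw [show CoxeterMatrix.E₇ i j = _ from a.1]
      exact refl_mul_refl_cube (by simp [h.q_a]) (by simp [h.q_a]) (by simp [h.polar_v a.2, h.q_a])
  let cs := CoxeterMatrix.E₇.toCoxeterSystem
  have s : ∀ z : Fin 7 → ℤ, ∀ n, (∀ j, (z j).natAbs = e7b n j) → ∃ s : Fin 7 → ℤˣ, z = fun j => (s j : ℤ) * e7b n j :=
    fun z n hz => by
      choose s hs using fun j => show ∃ u : ℤˣ, z j = u * (z j).natAbs from
        (Int.natAbs_eq (z j)).elim (fun h => ⟨1, by rwa [Units.val_one, one_mul]⟩)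
          fun h => ⟨-1, by rwa [Units.val_neg, Units.val_one, neg_one_mul]⟩
      exact ⟨s, funext fun j => hz j ▸ hs j⟩
  refine ⟨cs.lift ⟨_, l⟩, le_antisymm ?_ ((Subgroup.closure_le _).2 ?_)⟩
  · rw [MonoidHom.range_eq_map, ← cs.subgroup_closure_range_simple, MonoidHom.map_closure]
    refine Subgroup.closure_mono ?_
    rintro _ ⟨_, ⟨i, rfl⟩, rfl⟩
    obtain ⟨n, hn⟩ := (by decide : ∀ i, ∃ n, ∀ j, (e7a i j).natAbs = e7b n j) i
    obtain ⟨t, ht⟩ := s _ n hn
    exact ⟨_, h.mem_v.2 ⟨n, t, by rw [← ht]⟩, (cs.lift_apply_simple l i).symm⟩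
  have m : ∀ i, refl q (e7v F e (e7a i)) ∈ (cs.lift ⟨_, l⟩).range := fun i => ⟨_, cs.lift_apply_simple l i⟩
  rintro _ ⟨x, hx, rfl⟩
  obtain ⟨n, t, rfl⟩ := h.mem_v.1 hx
  clear hx
  induction hn : e7h fun j => t j * e7b n j using Nat.strong_induction_on generalizing n t with
  | _ N ih =>
  rcases e7_step n t with ⟨i, a | a⟩ | ⟨i, c, -, a1, a2, n', a3⟩
  · exact a ▸ m i
  · rw [a, show e7v F e (-e7a i) = -e7v F e (e7a i) by simp [e7v], refl_neg]; exact m i
  obtain ⟨t', ht⟩ := s _ n' a3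
  have := mul_mem (mul_mem (inv_mem (m i)) (ih _ (hn ▸ ht ▸ a2) n' t' rfl)) (m i)
  rwa [← ht, show e7v F e ((fun j => (t j : ℤ) * e7b n j) - c • e7a i) =
      (refl q (e7v F e (e7a i))).1 (e7v F e fun j => t j * e7b n j) by
    rw [refl_apply, h.q_a, h.polar_v a1]
    simp only [e7v, Finset.smul_sum, ← Finset.sum_sub_distrib, smul_smul, ← sub_smul]
    exact Finset.sum_congr rfl fun j _ => by congr 1; simp; ring, ← conj_refl, ← mul_assoc, ← mul_assoc,
    inv_mul_cancel, one_mul, inv_mul_cancel_right] at this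

/-- Copy the proof of `Sp4O.RK.commutator_le` (Lib/Sp4O/Lift) up to the frame `v : Fin 7 → Φ` (`a1`: no `√2`, `a4`: Parseval, `a5`, `a7`: basis).  `C = {fun i => m2 (lB (v i) w) | w ∈ Φ}` satisfies `Cd`:
`pat` from `∑ sq6 (cl ..) ^ 2 = 4` (patterns `(2)`, `(1,1,1,1)`, `(φ, φ - 1, 1)`; e.g. count the coordinates of each class: `4 a + b + c (φ+1) + d (2-φ) = 4`), `orth` from `a4`, `add`: `B (s x y) = B y - B x y • B x`, and replacing `x` by `s (v i) x` changes the sign of one coordinate only (nothing modulo two) and `B x y` by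
`B (v i) x * B (v i) y`, a unit modulo two; `conn` from `R.irr` for the span of the `v i`, `i ∈ T`.  By `Cd.not_PG`, `Cd.exists_perm` (put `e = v ∘ π`) all coordinates are `0, ± 1, ± 2`, also in `F` (`ev_lB`), `w = ½ ∑ polar (e i) w • e i`, and sign changes give all vectors of the list. -/
theorem exists_E7 [Finite F] [FiniteDimensional F U] (R : RK L Φ) (h7 : finrank F U = 7)
    (hL : L ≤ Subgroup.closure (refl q '' Φ)) (hneg : O.neg q ∈ L) (hc : ¬ commutator (O q) ≤ L) :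
    ∃ e, E7 q Φ e := by
  obtain ⟨n, B, c, v, hn, H, h0, hz, hs⟩ := e7_frame R (by omega) hL hneg hc
  obtain rfl : 7 = n := h7.symm.trans hn
  have h2 := R.two
  have o : ∀ i j, polar q (v i).1 (v j).1 = if i = j then 2 else 0 := fun i j => by
    split_ifs with e
    · rw [e, R.polar_self (v j).2]
    · simpa using hz _ _ 0 (H.orth i j e)
  have ex : ∀ w : Φ, w.1 = ∑ i, ((2 : F)⁻¹ * polar q (v i).1 w.1) • (v i).1 := fun w => by
    obtain ⟨d, hd⟩ := (Submodule.mem_span_range_iff_exists_fun F).1 (hs w)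
    refine hd.symm.trans (Finset.sum_congr rfl fun i _ => ?_)
    rw [← hd, ← polarBilin_apply_apply, map_sum]
    simp [o, mul_comm (d i), h2]
  obtain ⟨π, p1, p2⟩ := H.exists_perm fun T ⟨i, hi⟩ b => by
    by_contra! k
    obtain ⟨j, hj⟩ : ∃ j, j ∉ T := by_contra fun n => b (Finset.eq_univ_of_forall (by simpa using n))
    have m : ∀ i ∈ T, (v i).1 ∈ Submodule.span F ((fun i => (v i).1) '' T) := fun i hi =>
      Submodule.subset_span ⟨i, hi, rfl⟩
    rcases R.irr (Submodule.span F ((fun i => (v i).1) '' T)) fun w hw => by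
      by_cases a : ∃ i ∈ T, B (v i) ⟨w, hw⟩ ≠ 0
      · refine .inl ((show w = _ from ex ⟨w, hw⟩).symm ▸ Submodule.sum_mem _ fun l _ => ?_)
        by_cases d : l ∈ T
        · exact Submodule.smul_mem _ _ (m l d)
        · simp [hz _ _ 0 (k _ a l d)]
      · push Not at a
        refine .inr (mem_perp_span.2 ?_)
        rintro _ ⟨l, hl, rfl⟩
        simpa using hz _ _ 0 (a l hl) with e | e
    · simpa [show (v i).1 = 0 from e.le (m i hi), h2.symm] using o i i
    · have : (v j).1 ∈ perp q (Submodule.span F ((fun i => (v i).1) '' T)) := mem_perp_span.2 (by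
        rintro _ ⟨l, hl, rfl⟩
        exact (o l j).trans (if_neg fun e : l = j => hj (e ▸ hl)))
      simpa [o, h2] using mem_perp.1 this (v j).1 (e.ge trivial)
  have o' : ∀ i j, polar q (v (π i)).1 (v (π j)).1 = if i = j then 2 else 0 := fun i j => by simp [o]
  have k : ∀ (w : Φ) k, (∀ j, c (v (π j)) w = if j ∈ wd k then 2 else 1) → ∃ s : Fin 7 → ℤˣ,
      w.1 = (2 : F)⁻¹ • ∑ i ∈ wd k, ((s i : ℤ) : F) • (v (π i)).1 := fun w k a => by
    have : ∀ j, ∃ s : ℤˣ, polar q (v (π j)).1 w.1 = if j ∈ wd k then ((s : ℤ) : F) else 0 := fun j => by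
      have b := H.eq (v (π j)) w
      rw [a] at b
      split_ifs at b ⊢
      · rcases b with b | b
        exacts [⟨1, hz _ _ _ b⟩, ⟨-1, hz _ _ _ (b.trans (by decide +kernel))⟩]
      · exact ⟨1, by simpa using hz _ _ 0 (by simpa [sq6_one] using b)⟩
    choose s hs using this
    exact ⟨s, by rw [ex w, ← Equiv.sum_comp π]; simp [hs, Finset.smul_sum, smul_smul]⟩
  have ng : ∀ x ∈ Φ, -x ∈ Φ := fun x hx => R.inv _ hneg x hx
  refine ⟨fun i => (v (π i)).1, h2, o', fun x => ⟨fun hx => (p1 ⟨x, hx⟩).imp (fun ⟨i, a⟩ =>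
    ⟨i, (h0 _ _ a).imp Eq.symm fun e => by rw [e, neg_neg]⟩) fun ⟨j, a⟩ => ⟨j, k _ j a⟩, ?_⟩⟩
  rintro (⟨i, rfl | rfl⟩ | ⟨j, s, rfl⟩)
  exacts [(v _).2, ng _ (v _).2, by
    obtain ⟨w, hw⟩ := p2 j
    obtain ⟨t, ht⟩ := k w j hw
    have : ∀ A : Finset (Fin 7), (2 : F)⁻¹ • ∑ i ∈ wd j, (((if i ∈ A then s i else t i : ℤˣ) : ℤ) : F) •
        (v (π i)).1 ∈ Φ := fun A => by
      induction A using Finset.induction_on with
      | empty => simp [← ht]
      | insert a A ha ih =>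
        by_cases e : a ∈ wd j ∧ s a ≠ t a
        · convert R.refl_mem (v (π a)).2 ih using 1
          rw [map_smul, map_sum]
          refine congrArg _ (Finset.sum_congr rfl fun i _ => ?_)
          rw [map_smul]
          by_cases d : i = a
          · rw [d, refl_apply_self (by simp [R.Q_eq _ (v _).2]), if_neg ha, if_pos (Finset.mem_insert_self _ _),
              Int.units_ne_iff_eq_neg.1 e.2]
            simp
          · rw [refl_apply_of_perp ((o' a i).trans (if_neg (Ne.symm d)))]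
            simp [d]
        · convert ih using 2
          refine Finset.sum_congr rfl fun i hi => ?_
          by_cases d : i = a
          · subst d; simp [ha, not_not.1 (not_and.1 e hi)]
          · simp [d]
    simpa using this Finset.univ]

end Cfsg.Lib.O7
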