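import Cfsg.Agent.Lib.O7.Code
import Cfsg.Agent.Lib.Sp4O.Lift

/-!
# The frame of an irreducible reflection group containing `-1`, and the coordinates of the roots
-/

set_option autoImplicit false

namespace Cfsg.Lib.O7

open QuadraticMap Module Cfsg.Lib.Orth Cfsg.Lib.Sp4O Cfsg.Lib.OMax

/-- The lifted system with its frame. -/
structure Frm {Φ : Type*} {n : ℕ} (B : Φ → Φ → Rg) (s : Φ → Φ → Φ) (c : Φ → Φ → Fin 6) (v : Fin n → Φ) : Prop
    extends RS B s where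
  ne : ∀ x y, c x y ≠ 3
  eq : ∀ x y, B x y = sq6 (c x y) ∨ B x y = -sq6 (c x y)
  orth : ∀ i j, i ≠ j → B (v i) (v j) = 0
  sum : ∀ w u, ∑ i, B (v i) w * B (v i) u = 2 * B w u

theorem e7_frame {F V : Type*} [Field F] [AddCommGroup V] [Module F V] {Q : QuadraticForm F V}
    {K : Subgroup (O Q)} {Φ : Set V} (R : RK K Φ) [Finite F] [FiniteDimensional F V] (hn : 3 ≤ finrank F V)
    (hK : K ≤ Subgroup.closure (refl Q '' Φ)) (hneg : O.neg Q ∈ K) (hc : ¬ commutator (O Q) ≤ K) :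
    ∃ (n : ℕ) (B : Φ → Φ → Rg) (c : Φ → Φ → Fin 6) (v : Fin n → Φ), finrank F V = n ∧
      Frm B (fun x w => ⟨(refl Q x.1).1 w.1, R.refl_mem x.2 w.2⟩) c v ∧
      (∀ x y, c x y = 0 → x.1 = y.1 ∨ x.1 = -y.1) ∧ (∀ x y (z : ℤ), B x y = z → polar Q x.1 y.1 = z) ∧
      ∀ w : Φ, w.1 ∈ Submodule.span F (Set.range fun i => (v i).1) := by
  have hB : ¬ Lg K := fun h => hc (R.commutator_le_of_lg hn h)
  let ι := algebraMap F (AlgebraicClosure F)
  have h2 : (2 : AlgebraicClosure F) ≠ 0 := by simpa [map_ofNat] using (map_ne_zero ι).2 R.two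
  obtain ⟨r, hr⟩ := IsAlgClosed.exists_eq_mul_self (2 : AlgebraicClosure F)
  obtain ⟨t, ht⟩ := IsAlgClosed.exists_eq_mul_self (5 : AlgebraicClosure F)
  have hf : (1 + t) / 2 * ((1 + t) / 2) = 1 + (1 + t) / 2 := by field_simp; linear_combination -ht
  have H := R.rs ι hf hr.symm hB hn hc
  have hρ := fun x y : Φ => R.ev_lB ι hf hr.symm hB hn hc x.2 y.2
  have a1 : ∀ v w : Φ, (lB Q ι hf hr.symm v.1 w.1).im = 0 := by
    let k : Subring Rg :=
      { carrier := {z | z.im = 0}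
        mul_mem' := fun {a b} (ha : _ = _) (hb : _ = _) => show _ = _ by simp [ha, hb]
        one_mem' := rfl
        add_mem' := fun {a b} (ha : _ = _) (hb : _ = _) => show _ = _ by simp [ha, hb]
        zero_mem' := rfl
        neg_mem' := fun {a} (ha : _ = _) => show _ = _ by simp [ha] }
    have b1 : ∀ a : Rg, 2 * a ∈ k → a ∈ k := fun a (h : _ = _) => show _ = _ by
      simpa [QuadraticAlgebra.ext_iff, QuadraticAlgebra.re_ofNat, QuadraticAlgebra.im_ofNat] using h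
    refine H.descent k (fun x y a h ha => ?_) b1 (fun x y => ?_) fun v T hv hT w => ?_
    · have c1 : ∀ i, ∃ z ∈ [1, 2, 4, 4 * sq6 4 ^ 2, 4 * sq6 5 ^ 2], z.im = 0 ∧
        (i = 1 ∨ sq6 i ^ 2 * z = 2 * 2) := by decide +kernel
      obtain ⟨z, -, c2, c3⟩ := c1 (cl Q ι ((1 + t) / 2) x.1 y.1)
      have := k.mul_mem ha c2
      rw [lB_sq, mul_assoc, c3.resolve_left fun a => h (by simp [lB, a, sq6_one]), mul_comm,
        mul_assoc] at this
      exact b1 _ (b1 _ this)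
    · rw [lB_sq]; exact (sq6_im _).2
    · obtain ⟨g, hg, e⟩ := R.tr _ v.2 _ w.2
      obtain ⟨u, hu, e'⟩ := R.ind (p := fun g => ∃ u ∈ T, u.1 = g.1 v.1) ⟨v, hv, rfl⟩
        (fun x hx g ⟨u, hu, e⟩ => ⟨_, hT ⟨x, hx⟩ u hu, by rw [O.mul_apply, ← e]⟩) (hK hg)
      exact (Subtype.ext (e'.trans e) : u = w) ▸ hu
  have hg : Real.goldenRatio * Real.goldenRatio = 1 + Real.goldenRatio := by
    linear_combination Real.goldenRatio_sq
  have hs : √2 * √2 = (2 : ℝ) := Real.mul_self_sqrt zero_le_two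
  have HR : RS.Re (fun x y : Φ => ev _ _ hg hs (lB Q ι hf hr.symm x.1 y.1)) _ :=
    ⟨H.map _, fun v w h => by
      have b1 : ∀ i, 0 ≤ ev _ _ hg hs (sq6 i) ∧ (ev _ _ hg hs (sq6 i) = 2 → i = 0) := fun i => by
        have c1 := Real.one_lt_goldenRatio
        have c2 := Real.goldenRatio_lt_two
        have c3 : √2 ≠ (2 : ℝ) := fun h => by rw [h] at hs; norm_num at hs
        rw [ev_sq6]
        fin_cases i <;> simp [c3] <;> constructor <;> first | linarith | (intro; linarith)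
      rcases lB_or (Q := Q) ι hf hr.symm v.1 w.1 with a | a
      · have b2 := (b1 _).2 (a ▸ h)
        refine Subtype.ext ((cl_eq_zero ι b2).resolve_right fun b => ?_)
        have := hρ v w
        rw [a, b2, sq6_zero, b, polar_neg_left, R.polar_self w.2, map_neg, map_ofNat,
          map_ofNat] at this
        exact mul_ne_zero h2 h2 (by linear_combination this)
      · rw [a, map_neg] at h
        linarith [(b1 (cl Q ι ((1 + t) / 2) v.1 w.1)).1]⟩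
  have := Module.finite_of_finite F (M := V)
  obtain ⟨π, hπ, e⟩ := R.ind (p := fun g => ∃ π ∈ HR.W Set.univ, ∀ x : Φ, (π x).1 = g.1 x.1)
    ⟨1, one_mem _, fun _ => rfl⟩ (fun x hx g ⟨π, hπ, e⟩ => ⟨_, mul_mem
      (HR.pm_mem (x := ⟨x, hx⟩) trivial) hπ, fun y => by rw [O.mul_apply, ← e]; rfl⟩) (hK hneg)
  have a2 : ∀ x : Φ, π x = ⟨(refl Q x.1).1 x.1, R.refl_mem x.2 x.2⟩ := fun x =>
    Subtype.ext ((e x).trans (refl_apply_self (by simp [R.Q_eq x x.2])).symm)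
  obtain ⟨l, -, l1, l2⟩ := HR.exists_frame (Ψ := Set.univ) (fun _ _ _ _ => trivial) hπ fun x _ => a2 x
  have l3 := l1.imp fun h => lB_eq_zero ι hf hr.symm two_ne_zero _ h
  have a3 : ∀ w : Φ, l.foldr (fun x w => ⟨(refl Q x.1).1 w.1, R.refl_mem x.2 w.2⟩) w = π w := by
    rw [← l2]; clear l1 l2 l3
    induction l with
    | nil => simp
    | cons a l ih => simp [ih, HR.pm_apply]
  have a4 : ∀ w u : Φ, (l.map fun r => lB Q ι hf hr.symm r.1 w.1 * lB Q ι hf hr.symm r.1 u.1).sum =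
      2 * lB Q ι hf hr.symm w.1 u.1 := fun w u => by
    have := H.foldr_eq l3 w u
    rw [a3, a2, H.refl, H.self] at this
    linear_combination this
  have a5 : ∀ w : Φ, w.1 ∈ Submodule.span F (Subtype.val '' {x | x ∈ l}) := fun w => by
    have : (l.foldr (fun x w => ⟨(refl Q x.1).1 w.1, R.refl_mem x.2 w.2⟩) w).1 - w.1 ∈
        Submodule.span F (Subtype.val '' {x | x ∈ l}) := by
      clear l1 l2 l3 a3 a4
      induction l with
      | nil => simp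
      | cons a l ih =>
        simp only [List.foldr_cons]
        rw [R.refl_eq a.2, sub_right_comm]
        exact sub_mem (Submodule.span_mono (Set.image_mono fun x hx => .tail _ hx) ih)
          (Submodule.smul_mem _ _ (Submodule.subset_span ⟨a, .head _, rfl⟩))
    rw [a3, e, O.neg_apply, ← neg_add', neg_mem_iff, ← two_smul F] at this
    exact (Submodule.smul_mem_iff _ R.two).1 this
  obtain ⟨n, v, rfl⟩ : ∃ n, ∃ v : Fin n → Φ, l = List.ofFn v := ⟨_, l.get, (List.ofFn_get l).symm⟩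
  have a6 : ∀ x y : Φ, lB Q ι hf hr.symm x.1 y.1 = 0 → polar Q x.1 y.1 = 0 := fun x y h => by
    simpa [h] using (hρ x y).symm
  have a7 := linearIndependent_of_orth (Q := Q) R.two (v := fun i => (v i).1)
    (fun i => by simp [R.Q_eq _ (v i).2]) fun i j h => by
      rcases lt_or_gt_of_ne h with h | h
      · exact a6 _ _ (List.pairwise_ofFn.1 l3 h)
      · exact polar_comm Q _ _ ▸ a6 _ _ (List.pairwise_ofFn.1 l3 h)
  have a8 : Subtype.val '' {x | x ∈ List.ofFn v} = Set.range fun i => (v i).1 := by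
    ext x; simp [List.mem_ofFn]
  have a9 : finrank F V = n := by
    rcases R.irr _ fun w hw => .inl (a5 ⟨w, hw⟩) with h | h
    · obtain ⟨e, e0, e1⟩ := exists_singular Q hn
      obtain ⟨w, hw, e2⟩ := R.exists_ne e0 e1
      simp [show w = 0 from h.le (a5 ⟨w, hw⟩)] at e2
    · have := finrank_span_eq_card a7
      rwa [← a8, h, finrank_top, Fintype.card_fin] at this
  simp only [List.map_ofFn, List.sum_ofFn, Function.comp] at a4
  refine ⟨n, _, fun x y => cl Q ι ((1 + t) / 2) x.1 y.1, v, a9, ⟨H, fun x y => (sq6_im _).1 ?_,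
    fun x y => lB_or ι hf hr.symm x.1 y.1, fun i j h => ?_, a4⟩, fun x y => cl_eq_zero ι,
    fun x y z h => ι.injective ?_, fun w => a8 ▸ a5 w⟩
  · rcases lB_or (Q := Q) ι hf hr.symm x.1 y.1 with a | a <;> simpa [a] using a1 x y
  · rcases lt_or_gt_of_ne h with h | h
    · exact List.pairwise_ofFn.1 l3 h
    · exact H.symm _ _ ▸ List.pairwise_ofFn.1 l3 h
  · rw [← hρ, h, map_intCast, map_intCast]

theorem e7_pat {c : Fin 7 → Fin 6} (h : ∑ i, sq6 (c i) ^ 2 = 4) (h3 : ∀ i, c i ≠ 3) :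
    (∃ i, c i = 0 ∧ ∀ j, j ≠ i → c j = 1) ∨ (∃ S : Finset (Fin 7), S.card = 4 ∧ ∀ j, c j = if j ∈ S then 2 else 1) ∨
      ∃ i j k, c i = 2 ∧ c j = 4 ∧ c k = 5 ∧ ∀ l, l ≠ i → l ≠ j → l ≠ k → c l = 1 := by
  let S : Fin 6 → Finset (Fin 7) := fun k => Finset.univ.filter (c · = k)
  have m : ∀ k i, i ∈ S k ↔ c i = k := fun k i => by simp [S]
  have a : ∀ k : Fin 6, k ≠ 3 → sq6 k ^ 2 = (if k = 0 then 1 else 0) * 4 + (if k = 2 then 1 else 0) +
      (if k = 4 then 1 else 0) * ⟨⟨1, 1⟩, 0⟩ + (if k = 5 then 1 else 0) * ⟨⟨2, -1⟩, 0⟩ := by decide +kernel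
  rw [Finset.sum_congr rfl fun i _ => a _ (h3 i)] at h
  simp only [Finset.sum_add_distrib, ← Finset.sum_mul, Finset.sum_boole] at h
  have b1 : 4 * ((S 0).card : ℤ) + (S 2).card + (S 4).card + 2 * (S 5).card = 4 := by
    have := congrArg (fun z : Rg => z.re.re) h
    simp [QuadraticAlgebra.re_ofNat, QuadraticAlgebra.im_ofNat] at this
    simp only [S]; linarith
  have b2 : ((S 4).card : ℤ) = (S 5).card := by
    have := congrArg (fun z : Rg => z.re.im) h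
    simp [QuadraticAlgebra.re_ofNat, QuadraticAlgebra.im_ofNat] at this
    simp only [S]; linarith
  have z : ∀ k, (S k).card = 0 → ∀ i, c i ≠ k := fun k h i e => by
    simpa [Finset.card_eq_zero.1 h] using (m k i).2 e
  have o : ∀ k, (S k).card = 1 → ∃ i, ∀ j, c j = k ↔ j = i := fun k h =>
    (Finset.card_eq_one.1 h).imp fun i hi j => by rw [← m, hi, Finset.mem_singleton]
  have d : ∀ k : Fin 6, k ≠ 0 → k ≠ 2 → k ≠ 3 → k ≠ 4 → k ≠ 5 → k = 1 := by decide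
  rcases (by rcases (by omega : (S 0).card = 0 ∨ (S 0).card = 1) with e | e <;> omega : ((S 0).card = 1 ∧ (S 2).card = 0 ∧ (S 4).card = 0 ∧ (S 5).card = 0) ∨
    ((S 0).card = 0 ∧ (S 2).card = 4 ∧ (S 4).card = 0 ∧ (S 5).card = 0) ∨
    (S 0).card = 0 ∧ (S 2).card = 1 ∧ (S 4).card = 1 ∧ (S 5).card = 1) with e | e | e
  · obtain ⟨i, hi⟩ := o _ e.1
    exact .inl ⟨i, (hi i).2 rfl, fun j n => d _ (mt (hi j).1 n) (z _ e.2.1 j) (h3 j) (z _ e.2.2.1 j) (z _ e.2.2.2 j)⟩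
  · refine .inr (.inl ⟨S 2, e.2.1, fun j => ?_⟩)
    split_ifs with n
    exacts [(m _ _).1 n, d _ (z _ e.1 j) (mt (m _ _).2 n) (h3 j) (z _ e.2.2.1 j) (z _ e.2.2.2 j)]
  · obtain ⟨i, hi⟩ := o _ e.2.1
    obtain ⟨j, hj⟩ := o _ e.2.2.1
    obtain ⟨k, hk⟩ := o _ e.2.2.2
    exact .inr (.inr ⟨i, j, k, (hi i).2 rfl, (hj j).2 rfl, (hk k).2 rfl, fun l a b c =>
      d _ (z _ e.1 l) (mt (hi l).1 a) (h3 l) (mt (hj l).1 b) (mt (hk l).1 c)⟩)

theorem f4_neg (x : F4) : -x = x := by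
  obtain ⟨a, b⟩ := x; revert a b; decide

theorem f4_mul {x y : F4} : x ≠ 0 → y ≠ 0 → x * y ≠ 0 := by
  obtain ⟨a, b⟩ := x; obtain ⟨c, d⟩ := y; revert a b c d; decide

namespace Frm

variable {Φ : Type*} {B : Φ → Φ → Rg} {s : Φ → Φ → Φ} {c : Φ → Φ → Fin 6} {v : Fin 7 → Φ} (h : Frm B s c v)
include h

theorem m2_eq (x y : Φ) : m2 (B x y) = m2 (sq6 (c x y)) := by
  rcases h.eq x y with a | a <;> rw [a]
  rw [map_neg, f4_neg]

theorem pat (w : Φ) : (∃ i, c (v i) w = 0 ∧ ∀ j, j ≠ i → c (v j) w = 1) ∨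
    (∃ S : Finset (Fin 7), S.card = 4 ∧ ∀ j, c (v j) w = if j ∈ S then 2 else 1) ∨
      ∃ i j k, c (v i) w = 2 ∧ c (v j) w = 4 ∧ c (v k) w = 5 ∧ ∀ l, l ≠ i → l ≠ j → l ≠ k → c (v l) w = 1 := by
  refine e7_pat ?_ fun i => h.ne _ _
  have := h.sum w w
  rw [h.self, show (2 : Rg) * 2 = 4 by norm_num] at this
  refine (Finset.sum_congr rfl fun i _ => ?_).trans this
  rcases h.eq (v i) w with a | a <;> rw [a] <;> ring

theorem pq {w : Φ} {S : Finset (Fin 7)} (h4 : S.card = 4) (e : ∀ j, c (v j) w = if j ∈ S then 2 else 1) :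
    PQ (fun i => m2 (B (v i) w)) S := ⟨h4, fun i => by
  beta_reduce
  rw [h.m2_eq, e]
  split_ifs <;> decide +kernel⟩

theorem pg {w : Φ} {i j k : Fin 7} (e : c (v i) w = 2 ∧ c (v j) w = 4 ∧ c (v k) w = 5 ∧
    ∀ l, l ≠ i → l ≠ j → l ≠ k → c (v l) w = 1) : PG fun i => m2 (B (v i) w) := by
  simp only [PG, h.m2_eq]
  exact ⟨i, j, k, by rw [e.1]; decide +kernel, by rw [e.2.1]; decide +kernel,
    by rw [e.2.2.1]; decide +kernel, fun l a b c => by rw [e.2.2.2 l a b c]; decide +kernel⟩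

theorem zero {w : Φ} {i : Fin 7} (e : c (v i) w = 0 ∧ ∀ j, j ≠ i → c (v j) w = 1) (j : Fin 7) :
    m2 (B (v j) w) = 0 := by
  rw [h.m2_eq]
  by_cases n : j = i
  · rw [n, e.1]; decide +kernel
  · rw [e.2 j n]; decide +kernel

theorem cd (hc : ∀ T : Finset (Fin 7), T.Nonempty → T ≠ Finset.univ →
    ∃ w, (∃ i ∈ T, B (v i) w ≠ 0) ∧ ∃ i ∉ T, B (v i) w ≠ 0) : Cd (Set.range fun w i => m2 (B (v i) w)) := by
  have t : (2 : F4) = 0 := by decide
  refine ⟨?_, ?_, ?_, fun T a b => ?_⟩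
  · rintro _ ⟨w, rfl⟩
    rcases h.pat w with ⟨i, e⟩ | ⟨S, e⟩ | ⟨i, j, k, e⟩
    exacts [.inl (funext (h.zero e)), .inr (.inl ⟨S, h.pq e.1 e.2⟩), .inr (.inr (h.pg e))]
  · rintro _ ⟨w, rfl⟩ _ ⟨u, rfl⟩
    simpa only [map_sum, map_mul, map_ofNat, t, zero_mul] using congrArg m2 (h.sum w u)
  · rintro _ ⟨w, rfl⟩ _ ⟨u, rfl⟩ ⟨i, a, b⟩
    have k : ∀ w', (∀ j, m2 (B (v j) w') = m2 (B (v j) w)) → m2 (B w' u) ≠ 0 → ∃ c : F4, c ≠ 0 ∧
        (fun i => m2 (B (v i) u)) + c • (fun i => m2 (B (v i) w)) ∈ Set.range fun w i => m2 (B (v i) w) :=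
      fun w' e n => ⟨_, n, s w' u, funext fun j => by
        beta_reduce
        rw [h.toRS.refl', map_sub, map_mul, h.symm w' (v j), e, sub_eq_add_neg, f4_neg]; rfl⟩
    by_cases n : m2 (B w u) = 0
    · refine k (s (v i) w) (fun j => ?_) ?_
      · rw [h.toRS.refl', map_sub, map_mul]
        by_cases e : i = j
        · rw [e, h.self, map_ofNat, t, mul_zero, sub_zero]
        · rw [h.orth i j e, map_zero, mul_zero, sub_zero]
      · rw [h.refl, map_sub, map_mul, n, zero_sub, f4_neg]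
        exact f4_mul a b
    · exact k w (fun _ => rfl) n
  obtain ⟨w, ⟨i, hi, a1⟩, j, hj, a2⟩ := hc T a b
  have k : ∀ i j, i ≠ j → B (v i) w ≠ 0 → B (v j) w ≠ 0 → m2 (B (v i) w) ≠ 0 := fun i j n a b => by
    have z : ∀ l, B (v l) w ≠ 0 → c (v l) w ≠ 1 := fun l a e => a (by
      rcases h.eq (v l) w with d | d <;> simp [d, e, sq6_one])
    rw [h.m2_eq]
    refine (by decide +kernel : ∀ k, k ≠ 0 → k ≠ 1 → k ≠ 3 → m2 (sq6 k) ≠ 0) _ (fun e => ?_) (z i a) (h.ne _ _)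
    rcases h.pat w with ⟨l, d⟩ | ⟨S, -, d⟩ | ⟨x, y, u, d⟩
    · by_cases f : j = l
      exacts [z i a (d.2 i (f ▸ n)), z j b (d.2 j f)]
    · rw [d] at e; split_ifs at e <;> simp at e
    · refine z i a (d.2.2.2 i ?_ ?_ ?_) <;> rintro rfl <;> simp [e] at d
  have n : i ≠ j := fun e => hj (e ▸ hi)
  exact ⟨_, ⟨w, rfl⟩, ⟨i, hi, k i j n a1 a2⟩, j, hj, k j i n.symm a2 a1⟩

/-- The coordinates of the roots in a suitable ordering of the frame. -/
theorem exists_perm (hc : ∀ T : Finset (Fin 7), T.Nonempty → T ≠ Finset.univ →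
    ∃ w, (∃ i ∈ T, B (v i) w ≠ 0) ∧ ∃ i ∉ T, B (v i) w ≠ 0) : ∃ π : Equiv.Perm (Fin 7),
      (∀ w, (∃ i, c (v (π i)) w = 0) ∨ ∃ k, ∀ j, c (v (π j)) w = if j ∈ wd k then 2 else 1) ∧
      ∀ k, ∃ w, ∀ j, c (v (π j)) w = if j ∈ wd k then 2 else 1 := by
  have C := h.cd hc
  obtain ⟨π, hπ⟩ := C.exists_perm
  refine ⟨π, fun w => ?_, fun k => ?_⟩
  · rcases h.pat w with ⟨i, e⟩ | ⟨S, e⟩ | ⟨i, j, k, e⟩
    · exact .inl ⟨π.symm i, by simpa using e.1⟩
    · obtain ⟨k, rfl⟩ := (hπ S).1 ⟨_, ⟨w, rfl⟩, h.pq e.1 e.2⟩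
      exact .inr ⟨k, fun j => by simpa using e.2 (π j)⟩
    · exact (C.not_PG ⟨w, rfl⟩ (h.pg e)).elim
  obtain ⟨_, ⟨w, rfl⟩, a1, a2⟩ := (hπ _).2 ⟨k, rfl⟩
  refine ⟨w, fun j => ?_⟩
  have o : (0 : F4) ≠ 1 := by decide
  rcases h.pat w with ⟨i, e⟩ | ⟨S, e⟩ | ⟨i, j, k, e⟩
  · obtain ⟨l, hl⟩ := Finset.card_pos.1 (a1.symm ▸ (by norm_num : 0 < 4))
    exact (o ((h.zero e l).symm.trans ((a2 l).trans (if_pos hl)))).elim
  · have := ((h.pq e.1 e.2).2 (π j)).symm.trans (a2 (π j))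
    rw [e.2]
    by_cases a : π j ∈ S <;> by_cases b : j ∈ wd k <;> simp [a, b, o, o.symm] at this ⊢
  · exact (C.not_PG ⟨w, rfl⟩ (h.pg e)).elim

end Frm

end Cfsg.Lib.O7
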