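import Cfsg.Agent.Lib.O7.End1
import Cfsg.Agent.Lib.Alt.CycGen
import Cfsg.Agent.Lib.Alt.Aut

/-!
# End games, part two: `A₈` stabilises a root system of type `E₇`
-/

set_option autoImplicit false

namespace Cfsg.Lib.O7.End

open QuadraticMap Module Cfsg.Lib.Orth Equiv Equiv.Perm MulAction

/-- Twice the roots of `A₇`. -/
def rt (i j k : Fin 8) : ℤ := (if k = i then 2 else 0) - if k = j then 2 else 0

/-- Sign vectors. -/
def sg (s : Fin 8 → Bool) (k : Fin 8) : ℤ := if s k then 1 else -1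

/-- Twice the roots of `E₇`, and zero. -/
def IsR (c : Fin 8 → ℤ) : Prop :=
  (∃ i j, ∀ k, c k = rt i j k) ∨ ((∀ k, c k = 1 ∨ c k = -1) ∧ ∑ k, c k = 0)

instance decIsR : DecidablePred IsR := fun c => by unfold IsR; infer_instance

theorem IsR.cases {c : Fin 8 → ℤ} (h : IsR c) : (∃ i j, c = rt i j) ∨ ∃ s, ∑ k, sg s k = 0 ∧ c = sg s := by
  rcases h with ⟨i, j, h⟩ | ⟨h1, h2⟩
  · exact .inl ⟨i, j, funext h⟩
  · have : c = sg fun k => c k = 1 := funext fun k => by rcases h1 k with e | e <;> simp [sg, e]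
    exact .inr ⟨_, this ▸ h2, this⟩

theorem IsR.sum {c : Fin 8 → ℤ} (h : IsR c) : ∑ k, c k = 0 := by
  rcases h with ⟨i, j, h⟩ | ⟨-, h⟩
  · simp [h, rt]
  · exact h

theorem IsR.comp {c : Fin 8 → ℤ} (h : IsR c) (π : Perm (Fin 8)) : IsR (c ∘ π) := by
  rcases h with ⟨i, j, h⟩ | ⟨h1, h2⟩
  · exact .inl ⟨π.symm i, π.symm j, fun k => by simp [h, rt, Equiv.eq_symm_apply]⟩
  · exact .inr ⟨fun k => h1 _, (Equiv.sum_comp π c).trans h2⟩

theorem IsR.neg {c : Fin 8 → ℤ} (h : IsR c) : IsR (-c) := by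
  rcases h with ⟨i, j, h⟩ | ⟨h1, h2⟩
  · exact .inl ⟨j, i, fun k => by simp [h, rt]⟩
  · exact .inr ⟨fun k => by rcases h1 k with e | e <;> simp [e], by simp [h2]⟩

theorem card_R : ∃ T : Finset (Fin 8 → ℤ), T.card < 243 ∧ ∀ c, IsR c → c ∈ T := by
  refine ⟨Finset.univ.image (fun p : Fin 8 × Fin 8 => rt p.1 p.2) ∪
    (Finset.univ.filter fun s => ∑ k, sg s k = 0).image sg, ?_, fun c h => ?_⟩
  · refine (Finset.card_union_le _ _).trans_lt ((add_le_add Finset.card_image_le Finset.card_image_le).trans_lt ?_)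
    decide +kernel
  · rcases h.cases with ⟨i, j, rfl⟩ | ⟨s, h1, rfl⟩
    · exact Finset.mem_union_left _ (Finset.mem_image.2 ⟨(i, j), Finset.mem_univ _, rfl⟩)
    · exact Finset.mem_union_right _ (Finset.mem_image.2 ⟨s, by simpa using h1, rfl⟩)

/-- The reflection in `c` preserves the roots. -/
def Rf (c d : Fin 8 → ℤ) : Prop := 4 ∣ ∑ k, c k * d k ∧ IsR fun k => d k - (∑ l, c l * d l) / 4 * c k

instance decRf (c d : Fin 8 → ℤ) : Decidable (Rf c d) := by unfold Rf; infer_instance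

theorem rf0 {d : Fin 8 → ℤ} (h : IsR d) : Rf (rt 0 1) d ∧ Rf (sg fun k => k < 4) d := by
  rcases h.cases with ⟨i, j, rfl⟩ | ⟨s, h1, rfl⟩
  · revert i j; decide +kernel
  · revert s; decide +kernel

variable {K : Type*} [Field K] {f : alternatingGroup (Fin 8) →* O (Q K)} {v : Fin 8 → V K}

theorem ne_succ : ∀ i : Fin 8, i ≠ i + 1 := by decide

theorem two_trans {i j k l : Fin 8} (h1 : i ≠ j) (h2 : k ≠ l) :
    ∃ σ : alternatingGroup (Fin 8), σ.1 i = k ∧ σ.1 j = l := by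
  haveI := alternatingGroup.isMultiplyPretransitive (Fin 8)
  exact is_two_pretransitive_iff.1 (isMultiplyPretransitive_of_le (n := Nat.card (Fin 8) - 2) (by simp) (by simp))
    h1 h2

theorem exists_v (h3 : ∀ c : alternatingGroup (Fin 8), c.1.IsThreeCycle → dm (f c) = 2) :
    ∃ v : Fin 8 → V K, v 7 ≠ 0 ∧ ∀ σ i, (f σ).1 (v i) = v (σ.1 i) := by
  let c1 := a8 (swap 0 1 * swap 0 2)
  let c2 := a8 (swap 2 3 * swap 2 4)
  let c3 := a8 (swap 4 5 * swap 4 6)
  have t1 : c1.1.IsThreeCycle := by unfold IsThreeCycle; decide +kernel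
  have t2 : c2.1.IsThreeCycle := by unfold IsThreeCycle; decide +kernel
  have t3 : c3.1.IsThreeCycle := by unfold IsThreeCycle; decide +kernel
  obtain ⟨u, u0, hu⟩ := exists_fix_of_sum [f c1, f c2, f c3] (by simp [h3, t1, t2, t3])
  let Y := ((stabV u).comap f).map (alternatingGroup (Fin 8)).subtype
  have p : ∀ {c : alternatingGroup (Fin 8)}, c.1.IsThreeCycle → f c ∈ [f c1, f c2, f c3] →
      Alt.PCyc 3 c.1 ∧ c.1 ∈ Y := fun t k => ⟨⟨t.isCycle, t.card_support⟩, _, hu _ k, rfl⟩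
  obtain ⟨p1, q1⟩ := p t1 (by simp)
  obtain ⟨p2, q2⟩ := p t2 (by simp)
  obtain ⟨p3, q3⟩ := p t3 (by simp)
  have o1 := fun y => p1.mem_orbit q1 (x := 0) (y := y) (by decide)
  have o2 := fun y => p2.mem_orbit q2 (x := 2) (y := y) (by decide)
  have o3 := fun y => p3.mem_orbit q3 (x := 4) (y := y) (by decide)
  rw [orbit_eq_iff.2 (o2 4 (by decide))] at o3
  rw [orbit_eq_iff.2 (o1 2 (by decide))] at o2 o3
  have k : ∀ σ : alternatingGroup (Fin 8), σ.1 7 = 7 → (f σ).1 u = u := fun σ e => by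
    obtain ⟨τ, a, b⟩ := Alt.mem_of_fix_compl_orbit p1 q1 (x := 0) (by decide) σ.2 fun z hz => by
      rwa [(by decide : ∀ z, c1.1 z = z → c2.1 z = z → c3.1 z = z → z = 7) z (by_contra fun a => hz (o1 z a))
        (by_contra fun a => hz (o2 z a)) (by_contra fun a => hz (o3 z a))]
    exact (Subtype.ext b : τ = σ) ▸ a
  have g : ∀ i : Fin 8, ∃ σ : alternatingGroup (Fin 8), σ.1 7 = i := fun i =>
    (two_trans (i := 7) (j := 0) (by decide) (ne_succ i)).imp fun _ => And.left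
  choose g hg using g
  refine ⟨fun i => (f (g i)).1 u, O.apply_ne_zero _ u0, fun σ i => ?_⟩
  have := k ((g (σ.1 i))⁻¹ * σ * g i) (by
    change (g (σ.1 i)).1⁻¹ (σ.1 ((g i).1 7)) = 7
    rw [hg, inv_eq_iff_eq, hg])
  rwa [map_mul, map_mul, map_inv, O.mul_apply, O.mul_apply, O.inv_apply_eq] at this

/-- The eight vectors permuted by `A₈`. -/
structure Fr (f : alternatingGroup (Fin 8) →* O (Q K)) (v : Fin 8 → V K) : Prop where
  two : (2 : K) ≠ 0
  irr : Irr f.range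
  ne : v 7 ≠ 0
  act : ∀ σ i, (f σ).1 (v i) = v (σ.1 i)

/-- Integral combinations. -/
def cb (v : Fin 8 → V K) (c : Fin 8 → ℤ) : V K := ∑ k, (c k : K) • v k

theorem cb_sub (c d : Fin 8 → ℤ) (n : ℤ) : cb v (fun k => d k - n * c k) = cb v d - (n : K) • cb v c := by
  simp [cb, sub_smul, Finset.smul_sum, mul_smul]

theorem polar_sum' (x : V K) (y : Fin 8 → V K) : polar (Q K) x (∑ k, y k) = ∑ k, polar (Q K) x (y k) :=
  map_sum (polarBilin (Q K) x) _ _

namespace Fr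

variable (h : Fr f v)
include h

theorem sum0 : ∑ i, v i = 0 := by_contra fun e => h.irr.not_fix (by rw [finrank_V]; omega) e (by
  rintro _ ⟨σ, rfl⟩
  rw [mem_stabV, map_sum]
  simp only [h.act]
  exact Equiv.sum_comp σ.1 v)

theorem eq_zero {w : V K} (hw : ∀ i, polar (Q K) (v i) w = 0) : w = 0 := by
  rcases h.irr (perp (Q K) (Submodule.span K (Set.range v))) (by
    rintro _ ⟨σ, rfl⟩ x hx
    refine mem_perp_span.2 ?_
    rintro _ ⟨i, rfl⟩
    rw [O.polar_right, ← map_inv, h.act]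
    exact mem_perp_span.1 hx _ ⟨_, rfl⟩) with e | e
  · exact (Submodule.eq_bot_iff _).1 e w (mem_perp_span.2 (by rintro _ ⟨i, rfl⟩; exact hw i))
  · exact absurd ((nd_Q h.two).eq_zero fun y => mem_perp_span.1 (e.ge trivial : y ∈ _) _ ⟨7, rfl⟩) h.ne

/-- The products of a vector fixed by a point stabiliser. -/
theorem pol {w : V K} {i : Fin 8} (hw : ∀ σ : alternatingGroup (Fin 8), σ.1 i = i → (f σ).1 w = w) :
    ∃ β, ∀ j, polar (Q K) w (v j) = β - if j = i then 8 * β else 0 := by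
  have k : ∀ j, j ≠ i → polar (Q K) w (v j) = polar (Q K) w (v (i + 1)) := fun j hj => by
    obtain ⟨σ, a, b⟩ := two_trans hj.symm (ne_succ i)
    rw [← b, ← h.act, ← O.map_polar (f σ), hw σ a]
  refine ⟨polar (Q K) w (v (i + 1)), fun j => ?_⟩
  split_ifs with e
  · have := polar_sum' w v
    rw [h.sum0, polar_zero_right, ← Finset.add_sum_erase _ _ (Finset.mem_univ i),
      Finset.sum_congr rfl fun j hj => k j (Finset.ne_of_mem_erase hj), Finset.sum_const,
      Finset.card_erase_of_mem (Finset.mem_univ _), Finset.card_univ, Fintype.card_fin, nsmul_eq_mul] at this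
    rw [e]; push_cast at this; linear_combination -this
  · rw [k j e, sub_zero]

theorem gram : ∃ b : K, b ≠ 0 ∧ ∀ i j, polar (Q K) (v i) (v j) = b - if j = i then 8 * b else 0 := by
  have k : ∀ i j, j ≠ i → polar (Q K) (v i) (v j) = polar (Q K) (v 7) (v 6) := fun i j hj => by
    obtain ⟨σ, a, b⟩ := two_trans (k := 7) (l := 6) hj.symm (by decide)
    rw [← a, ← b, ← h.act, ← h.act, O.map_polar]
  have k2 : ∀ i j, polar (Q K) (v i) (v j) = polar (Q K) (v 7) (v 6) -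
      if j = i then 8 * polar (Q K) (v 7) (v 6) else 0 := fun i => by
    obtain ⟨β, hβ⟩ := h.pol (w := v i) (i := i) fun σ e => by rw [h.act, e]
    have n := (ne_succ i).symm
    have := hβ (i + 1)
    rw [if_neg n, sub_zero, k _ _ n] at this
    rwa [this]
  exact ⟨_, fun e => h.ne (h.eq_zero fun i => by rw [k2, e]; simp), k2⟩

theorem line {w : V K} {i : Fin 8} (hw : ∀ σ : alternatingGroup (Fin 8), σ.1 i = i → (f σ).1 w = w) :
    ∃ ε : K, w = ε • v i := by
  obtain ⟨β, hβ⟩ := h.pol hw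
  obtain ⟨b, b0, hb⟩ := h.gram
  refine ⟨β / b, sub_eq_zero.1 (h.eq_zero fun j => ?_)⟩
  rw [polar_comm, polar_sub_left, polar_smul_left', hβ, hb]
  split_ifs <;> field_simp <;> ring

/-- The normaliser permutes the vectors up to a common sign. -/
theorem norm {g : O (Q K)} {π : Perm (Fin 8)} (hg : ∀ σ, g * f σ * g⁻¹ = f (MulAut.conjNormal π σ))
    (c : Fin 8 → ℤ) : g.1 (cb v c) = cb v (c ∘ π.symm) ∨ g.1 (cb v c) = cb v (-(c ∘ π.symm)) := by
  have k : ∀ i, ∃ ε : K, g.1 (v i) = ε • v (π i) := fun i => h.line fun τ e => by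
    have := hg ((MulAut.conjNormal π).symm τ)
    rw [MulEquiv.apply_symm_apply] at this
    rw [← this, O.mul_apply, O.mul_apply, O.inv_apply_apply, h.act]
    congr 2
    simp [e]
  choose ε hε using k
  obtain ⟨b, b0, hb⟩ := h.gram
  have k1 : ∀ i j, j ≠ i → ε i * ε j = 1 := fun i j hj => by
    have := O.map_polar g (v i) (v j)
    rw [hε, hε, polar_smul_left', polar_smul_right', hb, hb, if_neg hj, if_neg (π.injective.ne hj)] at this
    exact mul_right_cancel₀ b0 (by linear_combination this)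
  have k2 : ∀ i, ε i = ε 0 := fun i => by
    obtain ⟨j, a1, a2⟩ := (by decide : ∀ i : Fin 8, ∃ j, j ≠ i ∧ j ≠ 0) i
    linear_combination ε 0 * k1 i j a1 - ε i * k1 0 j a2
  have k3 : g.1 (cb v c) = ε 0 • cb v (c ∘ π.symm) := by
    rw [cb, cb, ← Equiv.sum_comp π fun k => ((c ∘ π.symm) k : K) • v k, map_sum, Finset.smul_sum]
    exact Finset.sum_congr rfl fun i _ => by simp [hε, k2 i, smul_comm (ε 0)]
  have k4 := k1 0 1 (by decide)
  rw [k2 1, mul_self_eq_one_iff] at k4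
  rcases k4 with e | e
  · exact .inl (by rw [k3, e, one_smul])
  · exact .inr (by rw [k3, e]; simp [cb])

end Fr

section Gram

variable {b : K} (hb : ∀ i j, polar (Q K) (v i) (v j) = b - if j = i then 8 * b else 0)
include hb

theorem pol_cb {c : Fin 8 → ℤ} (hc : ∑ k, c k = 0) (i : Fin 8) : polar (Q K) (v i) (cb v c) = -8 * b * c i := by
  have : ∑ k, (c k : K) = 0 := by rw [← Int.cast_sum, hc, Int.cast_zero]
  simp only [cb, polar_sum', polar_smul_right', hb, mul_sub, Finset.sum_sub_distrib, ← Finset.sum_mul, this,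
    mul_ite, mul_zero, Finset.sum_ite_eq', Finset.mem_univ, if_true]
  ring

theorem pol_cb2 {c d : Fin 8 → ℤ} (hc : ∑ k, c k = 0) :
    polar (Q K) (cb v c) (cb v d) = -8 * b * (∑ k, c k * d k : ℤ) := by
  rw [cb.eq_1 v d, polar_sum']
  simp only [polar_smul_right', polar_comm (Q K) (cb v c) (v _), pol_cb hb hc]
  push_cast
  rw [Finset.mul_sum]
  exact Finset.sum_congr rfl fun i _ => by ring

theorem Q_cb (h2 : (2 : K) ≠ 0) {c : Fin 8 → ℤ} (hc : ∑ k, c k = 0) (h8 : ∑ k, c k * c k = 8) :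
    Q K (cb v c) = -32 * b := by
  have := pol_cb2 hb (d := c) hc
  rw [h8, polar_self'] at this
  exact mul_left_cancel₀ h2 (by push_cast at this; linear_combination this)

theorem refl_cb (h2 : (2 : K) ≠ 0) (b0 : b ≠ 0) {c d : Fin 8 → ℤ} (hc : ∑ k, c k = 0) (h8 : ∑ k, c k * c k = 8)
    (h4 : 4 ∣ ∑ k, c k * d k) :
    (refl (Q K) (cb v c)).1 (cb v d) = cb v fun k => d k - (∑ l, c l * d l) / 4 * c k := by
  obtain ⟨n, hn⟩ := h4
  have : (32 : K) ≠ 0 := by rw [show (32 : K) = 2 ^ 5 by norm_num]; exact pow_ne_zero _ h2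
  rw [cb_sub, Orth.refl_apply, Q_cb hb h2 hc h8, pol_cb2 hb hc, hn, Int.mul_ediv_cancel_left _ (by decide)]
  congr 2
  push_cast; field_simp; ring

end Gram

theorem no_A8 {F : Type*} [Field F] [Finite F] {H P : Subgroup (O (Q F))} (h : Core P) (m : Mx H P) (hp : Pre P)
    (e : P ≃* alternatingGroup (Fin 8)) : False := by
  obtain ⟨v, v0, hv⟩ := exists_v (f := emb e) fun c hc => dm_cyc hp le_rfl (emb_injective e) (emb_mem e) hc
  have fr : Fr (emb e) v := ⟨h.two, (range_emb e).symm ▸ h.irr, v0, hv⟩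
  obtain ⟨b, b0, hb⟩ := fr.gram
  have n8 : (8 : F) * b ≠ 0 := mul_ne_zero (by rw [show (8 : F) = 2 ^ 3 by norm_num]; exact pow_ne_zero _ h.two) b0
  have k : ∀ g ∈ H, ∃ π : Perm (Fin 8), ∀ c,
      g.1 (cb v c) = cb v (c ∘ π.symm) ∨ g.1 (cb v c) = cb v (-(c ∘ π.symm)) := fun g hg => by
    have n : g ∈ Subgroup.normalizer (P : Set (O (Q F))) := Subgroup.mem_normalizer_iff.2 fun x =>
      ⟨m.norm g hg x, fun hx => by simpa [mul_assoc] using m.norm _ (inv_mem hg) _ hx⟩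
    obtain ⟨π, hπ⟩ := (Alt.conjNormal_bijective (α := Fin 8) (by simp) (by simp)).2
      (e.symm.trans ((P.normalizerMonoidHom ⟨g, n⟩).trans e))
    refine ⟨π, fr.norm fun σ => ?_⟩
    rw [hπ]
    simp [emb]
  obtain ⟨T, hT, hR⟩ := card_R
  have s0 : ∑ k, rt 0 1 k = 0 ∧ ∑ k, rt 0 1 k * rt 0 1 k = 8 := by decide +kernel
  have s1 : ∑ k, sg (fun k => k < 4) k = 0 ∧ ∑ k, sg (fun k => k < 4) k * sg (fun k => k < 4) k = 8 := by
    decide +kernel
  have q0 := Q_cb hb h.two s0.1 s0.2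
  have q1 := Q_cb hb h.two s1.1 s1.2
  have q2 : -32 * b ≠ 0 := fun e => mul_ne_zero (pow_ne_zero 5 h.two) b0 (by linear_combination -e)
  have hx := mem_of_stab m h.two (Φ := cb v '' {c | IsR c}) (v := cb v (rt 0 1))
    ⟨_, .inl ⟨0, 1, fun _ => rfl⟩, rfl⟩ (fun e => q2 (by rw [← q0, e, map_zero]))
    (((Set.ncard_image_le (T.finite_toSet.subset hR)).trans (Set.ncard_le_ncard hR)).trans_lt
      (by rwa [Set.ncard_coe_finset]))
    (by
      rintro g hg _ ⟨c, hc, rfl⟩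
      obtain ⟨π, hπ⟩ := k g hg
      rcases hπ c with e | e
      exacts [⟨_, IsR.comp hc _, e.symm⟩, ⟨_, (IsR.comp hc _).neg, e.symm⟩])
    (refl_mul_refl_mem_commutator' (nd_Q h.two) (q1 ▸ q2) (q0 ▸ q2) (by rw [q0, q1]))
    (by
      rintro _ ⟨c, hc, rfl⟩
      have a := (rf0 hc).1
      rw [O.mul_apply, refl_cb hb h.two b0 s0.1 s0.2 a.1, refl_cb hb h.two b0 s1.1 s1.2 (rf0 a.2).2.1]
      exact ⟨_, (rf0 a.2).2.2, rfl⟩)
  obtain ⟨π, hπ⟩ := k _ hx
  have r : IsR (rt 2 4) := .inl ⟨2, 4, fun _ => rfl⟩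
  have a := hπ (rt 2 4)
  rw [O.mul_apply, refl_cb hb h.two b0 s0.1 s0.2 (by decide +kernel),
    refl_cb hb h.two b0 s1.1 s1.2 (by decide +kernel)] at a
  obtain ⟨d, d1, d2, a⟩ : ∃ d : Fin 8 → ℤ, (∀ k, d k = 1 ∨ d k = -1) ∧ ∑ k, d k = 0 ∧
      (cb v d = cb v (rt 2 4 ∘ π.symm) ∨ cb v d = cb v (-(rt 2 4 ∘ π.symm))) :=
    ⟨_, by decide +kernel, by decide +kernel, a⟩
  have z : rt 2 4 0 = 0 := rfl
  have a2 : polar (Q F) (v (π 0)) (cb v d) = 0 := by
    rcases a with a | a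
    · rw [a, pol_cb hb (r.comp _).sum]; simp [z]
    · rw [a, pol_cb hb (r.comp _).neg.sum]; simp [z]
  rw [pol_cb hb d2] at a2
  rcases d1 (π 0) with e | e <;> rw [e] at a2 <;> push_cast at a2
  exacts [n8 (by linear_combination -a2), n8 (by linear_combination a2)]

end Cfsg.Lib.O7.End
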