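import Cfsg.Agent.Lib.PSL2.SL

/-!
# Generators of `SL₂` (light copy of the first part of `Sp4O/Def`)
-/

set_option autoImplicit false

namespace Cfsg.Lib.O7

open Matrix Cfsg.Lib.PSL2
open scoped MatrixGroups

variable {K : Type*} [Field K]

variable (K) in
/-- the Weyl element -/
def wS : SL(2, K) := ⟨!![0, 1; -1, 0], by simp [det_fin_two]⟩

/-- the diagonal elements -/
def dS (a : Kˣ) : SL(2, K) := ⟨!![a.1, 0; 0, a.1⁻¹], by simp [det_fin_two]⟩

@[simp] theorem coe_wS : (wS K : Matrix (Fin 2) (Fin 2) K) = !![0, 1; -1, 0] := rfl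

@[simp] theorem coe_dS (a : Kˣ) : (dS a : Matrix (Fin 2) (Fin 2) K) = !![a.1, 0; 0, a.1⁻¹] := rfl

theorem wS_sq : wS K * wS K = -1 := by apply sl_ext <;> simp

theorem wS_inv : (wS K)⁻¹ = -1 * wS K := inv_eq_of_mul_eq_one_right (by simp [wS_sq])

theorem dS_mul (a b : Kˣ) : dS a * dS b = dS (a * b) := by apply sl_ext <;> simp [mul_comm]

theorem dS_one : dS (1 : Kˣ) = 1 := by apply sl_ext <;> simp

theorem dS_upper (a : Kˣ) (t : K) : dS a * upper t = upper (a ^ 2 * t) * dS a := by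
  apply sl_ext <;> simp; field_simp

theorem wS_dS (a : Kˣ) : wS K * dS a = dS a⁻¹ * wS K := by apply sl_ext <;> simp

theorem braid (a : Kˣ) :
    upper a.1 * (wS K * upper (a⁻¹).1 * (wS K)⁻¹) * upper a.1 = dS a * wS K ∧
    wS K * upper (a⁻¹).1 * (wS K)⁻¹ * upper a.1 * (wS K * upper (a⁻¹).1 * (wS K)⁻¹) =
      dS a * wS K := by
  constructor <;> apply sl_ext <;> simp [wS_inv]

theorem upper_inv (t : K) : (upper t)⁻¹ = upper (-t) :=
  inv_eq_of_mul_eq_one_right (by rw [upper_mul, add_neg_cancel, upper_zero])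

theorem gen_sl {M : Submonoid SL(2, K)} (hu : ∀ t, upper t ∈ M) (hw : wS K ∈ M) (s : SL(2, K)) :
    s ∈ M := by
  have h3 := mul_mem hw (mul_mem hw hw)
  have key : ∀ s : SL(2, K), s 1 0 ≠ 0 → s ∈ M := fun s h => by
    convert mul_mem (mul_mem (hu ((s 0 0 - 1) / s 1 0)) (mul_mem (mul_mem hw (hu (-s 1 0))) h3))
      (hu ((s 1 1 - 1) / s 1 0))
    have := sl_det s
    apply sl_ext <;> simp <;> field_simp <;> grind
  by_cases h : s 1 0 = 0
  · have := mul_mem h3 (key (wS K * s) (by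
      have := sl_det s
      intro e
      simp [vecMul, dotProduct] at e
      simp [h, e] at this))
    simpa [← mul_assoc, wS_sq] using this
  · exact key s h
end Cfsg.Lib.O7
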