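import Cfsg.Agent.Lib.O7.T2
import Cfsg.Agent.Lib.O7.SL
import Cfsg.Agent.Lib.PSL2.Structure

/-!
# The end game `L₂(8) < Sp₆(2)`
-/

set_option autoImplicit false
set_option linter.unusedSectionVars false

namespace Cfsg.Lib.O7

open QuadraticMap Module Matrix Cfsg.Lib.Orth Cfsg.Lib.Oct Cfsg.Lib.PSL2
open scoped MatrixGroups

namespace EL

variable {E : Type*} [Field E]

variable (E) in
/-- an element of order three -/
def bS : SL(2, E) := ⟨!![0, 1; -1, -1], by simp [det_fin_two]⟩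

@[simp] theorem coe_bS : (bS E : Matrix (Fin 2) (Fin 2) E) = !![0, 1; -1, -1] := rfl

theorem bS_cube : bS E * bS E * bS E = 1 := by apply sl_ext <;> simp

theorem bS_ne : bS E ≠ 1 := fun h => by simpa using congrArg (fun s : SL(2, E) => s.1 0 1) h

theorem upper_ne {x : E} (hx : x ≠ 0) : upper x ≠ 1 := fun h =>
  hx (by simpa using congrArg (fun s : SL(2, E) => s.1 0 1) h)

theorem nm (x z : E) (a : Eˣ) : upper x * dS a * upper z = upper (x + a ^ 2 * z) * dS a := by
  rw [mul_assoc, dS_upper, ← mul_assoc, upper_mul]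

variable [CharP E 2]

variable (E) in
theorem two : (2 : E) = 0 := CharTwo.two_eq_zero

theorem upper_sq (x : E) : upper x * upper x = 1 := by rw [upper_mul, CharTwo.add_self_eq_zero, upper_zero]

theorem t0b : upper 1 * bS E * (upper 1 * bS E) = 1 := by
  apply sl_ext <;> simp [CharTwo.add_self_eq_zero]

theorem sq_ne {a : Eˣ} (ha : a ≠ 1) : (a : E) ^ 2 + 1 ≠ 0 := fun h => ha (Units.ext (by
  have : ((a : E) - 1) ^ 2 = 0 := by linear_combination h - a * two E
  exact sub_eq_zero.1 (pow_eq_zero_iff two_ne_zero |>.1 this)))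

theorem conj7 {a : Eˣ} (ha : a ≠ 1) {x : E} (hx : a * (x + 1) = a ^ 2 + 1) : IsConj (dS a) (bS E * upper x) := by
  have h := mul_inv_cancel₀ (sq_ne ha)
  have a0 := a.ne_zero
  generalize ((a : E) ^ 2 + 1)⁻¹ = k at h
  obtain ⟨S, hS⟩ : ∃ S : SL(2, E), S.1 = !![1, a * k; a, k] :=
    ⟨⟨_, by rw [det_fin_two_of]; linear_combination h - a ^ 2 * k * two E⟩, rfl⟩
  refine isConj_iff.2 ⟨S, mul_inv_eq_iff_eq_mul.2 ?_⟩
  apply sl_ext <;> simp [hS] <;> field_simp
  · linear_combination hx + (a ^ 2 + 1) * two E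
  · linear_combination k * hx + (a ^ 2 + 1) * k * two E

theorem conjU {a : Eˣ} (ha : a ≠ 1) (x : E) : IsConj (dS a) (upper x * dS a) := by
  have h := sq_ne ha
  refine isConj_iff.2 ⟨upper (x / (a ^ 2 + 1)), ?_⟩
  rw [inv_eq_of_mul_eq_one_right (upper_sq _), nm]
  congr 2; field_simp; ring

theorem eq_one_of_center {s : SL(2, E)} (h : s ∈ Subgroup.center SL(2, E)) : s = 1 := by
  obtain ⟨r, h1, h2⟩ := Matrix.SpecialLinearGroup.mem_center_iff.1 h
  have : (r - 1) ^ 2 = 0 := by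
    rw [Fintype.card_fin] at h1; linear_combination h1 + (1 - r) * two E
  rw [sub_eq_zero.1 (pow_eq_zero_iff two_ne_zero |>.1 this), map_one] at h2
  exact Subtype.ext h2.symm

variable [Fintype E] (hE : Fintype.card E = 8)
include hE

theorem pow7 {x : E} (hx : x ≠ 0) : x ^ 7 = 1 := by simpa [hE] using FiniteField.pow_card_sub_one_eq_one x hx

theorem exists_theta : ∃ θ : E, θ ^ 3 = θ + 1 := by
  classical
  obtain ⟨x, -, hx⟩ := Finset.exists_mem_notMem_of_card_lt_card (s := {0, 1}) (t := (Finset.univ : Finset E))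
    (Finset.card_le_two.trans_lt (by rw [Finset.card_univ, hE]; norm_num))
  simp only [Finset.mem_insert, Finset.mem_singleton, not_or] at hx
  have : (x - 1) * ((x ^ 3 - x - 1) * ((x + 1) ^ 3 - (x + 1) - 1)) = 0 := by
    linear_combination pow7 hE hx.1 + (x ^ 6 - x ^ 5 - 3 * x ^ 4 + 2 * x ^ 2 + x) * two E
  rcases mul_eq_zero.1 ((mul_eq_zero.1 this).resolve_left (sub_ne_zero.2 hx.2)) with h | h
  exacts [⟨x, by linear_combination h⟩, ⟨x + 1, by linear_combination h⟩]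

theorem ind {θ : E} (hθ : θ ^ 3 = θ + 1) {T : E → Prop} (h0 : T 1) (h1 : T θ) (h2 : T (θ ^ 2))
    (ha : ∀ x y, T x → T y → T (x + y)) (x : E) : T x := by
  have k : ∀ n : ℕ, T (θ ^ n) ∧ T (θ ^ (n + 1)) ∧ T (θ ^ (n + 2)) := fun n => by
    induction n with
    | zero => exact ⟨by simpa, by simpa, h2⟩
    | succ n ih => exact ⟨ih.2.1, ih.2.2, by
        rw [show θ ^ (n + 1 + 2) = θ ^ (n + 1) + θ ^ n by linear_combination θ ^ n * hθ]; exact ha _ _ ih.2.1 ih.1⟩
  by_cases hx : x = 0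
  · rw [hx, ← CharTwo.add_self_eq_zero (1 : E)]; exact ha _ _ h0 h0
  have t0 : θ ≠ 0 := by rintro rfl; simp at hθ
  have := Fact.mk (show Nat.Prime 7 by norm_num)
  obtain ⟨n, hn⟩ := mem_powers_of_prime_card (G := Eˣ) (p := 7) (by rw [Nat.card_units, Nat.card_eq_fintype_card, hE])
    (g := Units.mk0 θ t0) (g' := Units.mk0 x hx) fun e => by
      have : θ = 1 := congrArg Units.val e
      simp [this] at hθ
  have : θ ^ n = x := by simpa using congrArg Units.val hn
  exact this ▸ (k n).1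

theorem conj3 {s : SL(2, E)} (h3 : s * s * s = 1) (h1 : s ≠ 1) :
    ∃ (x : E) (a : Eˣ), s * (upper x * dS a) = upper x * dS a * bS E := by
  have d := sl_det s
  have e := fun i j => congrArg (fun g : SL(2, E) => g.1 i j) h3
  have e00 := e 0 0
  have e01 := e 0 1
  have e10 := e 1 0
  have e11 := e 1 1
  simp [Matrix.mul_apply, Fin.sum_univ_two] at e00 e01 e10 e11
  have τ : s 0 0 + s 1 1 = 1 := by
    by_contra n
    have n : (s 0 0 + s 1 1 - 1) ^ 2 ≠ 0 := pow_ne_zero _ (sub_ne_zero.2 n)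
    have q : s 0 1 = 0 := (mul_eq_zero.1 (show _ * s 0 1 = 0 by
      linear_combination e01 + s 0 1 * d + (1 - s 0 0 - s 1 1) * s 0 1 * two E)).resolve_left n
    have r : s 1 0 = 0 := (mul_eq_zero.1 (show _ * s 1 0 = 0 by
      linear_combination e10 + s 1 0 * d + (1 - s 0 0 - s 1 1) * s 1 0 * two E)).resolve_left n
    rw [q, r] at e00 e11 d
    have k : ∀ {p : E}, p * p * p = 1 → p = 1 := fun {p} h => by
      have := pow7 hE (x := p) (by rintro rfl; simp at h)
      linear_combination this - (p ^ 4 + p) * h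
    exact h1 (sl_ext (k (by linear_combination e00)) q r (k (by linear_combination e11)))
  have r0 : s 1 0 ≠ 0 := fun r => by
    rw [r] at d
    have := pow7 hE (x := s 0 0) (fun e => by simp [e] at d)
    have c : s 0 0 ^ 2 + s 0 0 + 1 = 0 := by linear_combination s 0 0 * τ - d + s 0 0 * two E
    have : s 0 0 = 1 := by linear_combination this - (s 0 0 ^ 4 + s 0 0) * (s 0 0 - 1) * c
    rw [this] at c
    exact one_ne_zero (α := E) (by linear_combination c - two E)
  have r7 := pow7 hE r0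
  refine ⟨s 0 0 * s 1 0 ^ 6, Units.mk0 (s 1 0 ^ 3) (pow_ne_zero _ r0), ?_⟩
  apply sl_ext <;> simp [Matrix.mul_apply, Fin.sum_univ_two] <;> field_simp
  · linear_combination s 0 0 * two E
  · linear_combination -s 0 1 * r7 - s 1 0 ^ 6 * d + s 1 0 ^ 6 * s 0 0 * τ + s 1 0 ^ 6 * (s 0 0 - 1) * two E
  · linear_combination r7 + two E
  · linear_combination s 0 0 * r7 + τ + two E

variable {F : Type*} [Field F] {φ : SL(2, E) →* O (Q F)}

/-- the data -/
structure D (φ : SL(2, E) →* O (Q F)) : Prop where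
  two : (2 : F) ≠ 0
  three : (3 : F) ≠ 0
  inj : Function.Injective φ
  d4 : ∀ s, s * s = 1 → s ≠ 1 → dm (φ s) = 4
  d6 : dm (φ (bS E)) = 6

/-- common eigenvectors of the unipotent group -/
def Eig (φ : SL(2, E) →* O (Q F)) (f : V F) : Prop := f ≠ 0 ∧ ∀ x, ∃ ε : F, (φ (upper x)).1 f = ε • f

omit hE in
theorem app_mul (s t : SL(2, E)) (v : V F) : (φ (s * t)).1 v = (φ s).1 ((φ t).1 v) := by rw [map_mul]; rfl

omit hE in
theorem Eig.map {f : V F} (h : Eig φ f) {n : SL(2, E)} (hn : ∀ x, ∃ y, upper x * n = n * upper y) :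
    Eig φ ((φ n).1 f) := ⟨O.apply_ne_zero _ h.1, fun x => by
  obtain ⟨y, e⟩ := hn x
  obtain ⟨ε, hε⟩ := h.2 y
  exact ⟨ε, by rw [← app_mul, e, app_mul, hε, map_smul]⟩⟩

omit hE in
theorem eig_sq {f : V F} (h0 : f ≠ 0) {x : E} {ε : F} (h : (φ (upper x)).1 f = ε • f) : ε = 1 ∨ ε = -1 := by
  have := congrArg (φ (upper x)).1 h
  rw [← app_mul, upper_sq, map_one, O.one_apply, map_smul, h, smul_smul] at this
  exact mul_self_eq_one_iff.1 (smul_left_injective F h0 (this.symm.trans (one_smul F f).symm))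

omit hE in
theorem units_cast (h : (2 : F) ≠ 0) {a b : ℤˣ} (e : ((a : ℤ) : F) = (b : ℤ)) : a = b := by
  have n : (1 : F) ≠ -1 := fun e => h (by linear_combination e)
  rcases Int.units_eq_one_or a with rfl | rfl <;> rcases Int.units_eq_one_or b with rfl | rfl
  exacts [rfl, absurd (by simpa using e) n, absurd (by simpa using e) n.symm, rfl]

namespace D

variable (h : D φ)
include h

theorem frame : ∃ (b : Basis (Fin 7) F (V F)) (χ : Fin 7 → E → F), (∀ i j, (∀ x, χ i x = χ j x) → i = j) ∧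
    (∀ i, ∃ x, χ i x ≠ 1) ∧ (∀ i, Q F (b i) ≠ 0) ∧ ∀ i x, (φ (upper x)).1 (b i) = χ i x • b i := by
  let U : Subgroup (O (Q F)) := ⟨⟨⟨Set.range fun x => φ (upper x), by
    rintro _ _ ⟨x, rfl⟩ ⟨y, rfl⟩; exact ⟨x + y, by simp only [← map_mul, upper_mul]⟩⟩,
    0, by simp only [upper_zero, map_one]⟩, by rintro _ ⟨x, rfl⟩; exact ⟨-x, by simp only [← map_inv, upper_inv]⟩⟩
  obtain ⟨b, χ, c1, c2, c3, -, c4⟩ := exists_frame8 h.two (E := U)
    (by rintro _ ⟨x, rfl⟩; simp only [← map_mul, upper_sq, map_one])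
    (by rw [← hE, ← Nat.card_eq_fintype_card]
        exact Nat.card_range_of_injective fun x y e => by simpa using congrArg (fun s : SL(2, E) => s.1 0 1) (h.inj e))
    (by rintro _ ⟨x, rfl⟩ n; exact h.d4 _ (upper_sq _) fun e => n (by simp only [e, map_one]))
  let r : E → U := fun x => ⟨φ (upper x), x, rfl⟩
  have sr : ∀ g, ∃ x, r x = g := fun ⟨_, x, e⟩ => ⟨x, Subtype.ext e⟩
  refine ⟨b, fun i x => ((χ i (r x) : ℤ) : F), fun i j e => c1 (MonoidHom.ext fun g => ?_), fun i => ?_, c3, fun i x => c4 i (r x)⟩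
  · obtain ⟨x, rfl⟩ := sr g; exact units_cast h.two (e x)
  · by_contra n
    push Not at n
    refine c2 i (MonoidHom.ext fun g => ?_)
    obtain ⟨x, rfl⟩ := sr g
    exact units_cast h.two (by simpa using n x)

theorem wt {v f : V F} (h0 : f ≠ 0) (e : ∀ x, ∃ ε : F, (φ (upper x)).1 v = ε • v ∧ (φ (upper x)).1 f = ε • f) :
    Q F f ≠ 0 ∧ (∃ x, (φ (upper x)).1 f ≠ f) ∧ ∃ c : F, v = c • f := by
  obtain ⟨b, χ, c1, c2, c3, c4⟩ := h.frame hE
  have k : ∀ x i w, b.repr ((φ (upper x)).1 w) i = χ i x * b.repr w i := fun x i w =>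
    LinearMap.congr_fun (b.ext (f₁ := b.coord i ∘ₗ (φ (upper x)).1.toLinearMap) (f₂ := χ i x • b.coord i) fun j => by
      by_cases e : j = i <;> simp [c4, e]) w
  choose ε e1 e2 using e
  obtain ⟨i, hi⟩ : ∃ i, b.repr f i ≠ 0 := by
    by_contra n; push Not at n; exact h0 (b.repr.injective (by ext i; simp [n]))
  have k0 : ∀ x, χ i x = ε x := fun x => mul_right_cancel₀ hi (by rw [← k, e2]; simp)
  have k1 : ∀ w, (∀ x, (φ (upper x)).1 w = ε x • w) → w = b.repr w i • b i := fun w hw => b.repr.injective (by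
    ext j
    by_cases e : i = j
    · simp [e]
    have : b.repr w j = 0 := by_contra fun n => e (c1 _ _ fun x => (k0 x).trans
      (mul_right_cancel₀ n (by rw [← k, hw]; simp)))
    simp [this, e])
  refine ⟨?_, ?_, b.repr v i / b.repr f i, ?_⟩
  · rw [k1 f e2, Q_smul]; exact mul_ne_zero (by simpa using hi) (c3 i)
  · obtain ⟨x, hx⟩ := c2 i
    exact ⟨x, fun e => hx ((k0 x).trans (smul_left_injective F h0 ((e2 x).symm.trans (e.trans (one_smul F f).symm))))⟩
  · conv_rhs => rw [k1 f e2, smul_smul]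
    rw [show b.repr (b.repr f i • b i) i = b.repr f i by simp, div_mul_cancel₀ _ hi]; exact k1 v e1

theorem exists_eig : ∃ f, Eig φ f := by
  obtain ⟨b, χ, -, -, -, c4⟩ := h.frame hE
  exact ⟨b 0, b.ne_zero 0, fun x => ⟨_, c4 0 x⟩⟩

theorem fixU {f : V F} (e : ∀ x, (φ (upper x)).1 f = f) : f = 0 := by_contra fun n => by
  obtain ⟨-, ⟨x, hx⟩, -⟩ := h.wt hE (v := f) n fun x => ⟨1, by simp [e], by simp [e]⟩
  exact hx (e x)

theorem chi7 {a : Eˣ} (ha : a ≠ 1) : chi (φ (dS a)) = 0 := by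
  have k : ∑ x : E, T3.lin (Q F) (φ (upper x)) = 0 := LinearMap.ext fun v => h.fixU hE fun y => by
    simp only [LinearMap.coe_sum, Finset.sum_apply, map_sum, T3.lin_apply, ← app_mul, upper_mul]
    exact Fintype.sum_equiv (Equiv.addLeft y) _ _ fun _ => rfl
  have := congrArg (fun f => LinearMap.trace F _ (f * T3.lin (Q F) (φ (dS a)))) k
  simp only [Finset.sum_mul, map_sum, ← map_mul, ← T3.chi_eq, zero_mul, map_zero,
    fun x => (chi_of_isConj (φ.map_isConj (conjU ha x))).symm, Finset.sum_const, Finset.card_univ, hE] at this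
  have e : (2 : F) ^ 3 * chi (φ (dS a)) = 0 := by rw [← this, nsmul_eq_mul]; norm_num
  exact (mul_eq_zero.1 e).resolve_left (pow_ne_zero _ h.two)

omit hE in
theorem chi2 {s : SL(2, E)} (h1 : s * s = 1) (h2 : s ≠ 1) : chi (φ s) = -1 := by
  rw [chi_of_inv h.two (by rw [← map_mul, h1, map_one]), h.d4 s h1 h2, finrank_V]; norm_num

theorem orth {f : V F} (hf : Eig φ f) {a : Eˣ} (ha : a ≠ 1) : polar (Q F) f ((φ (dS a)).1 f) = 0 := by
  by_contra n
  choose ε hε using hf.2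
  refine hf.1 (h.fixU hE fun z => ?_)
  obtain ⟨x, rfl⟩ : ∃ x, z = a ^ 2 * x + x := ⟨z / (a ^ 2 + 1), by have := sq_ne ha; field_simp⟩
  have := O.map_polar (φ (upper (a ^ 2 * x))) f ((φ (dS a)).1 f)
  rw [← app_mul, ← dS_upper, app_mul, hε, hε, map_smul, polar_smul_left', polar_smul_right', ← mul_assoc,
    mul_eq_right₀ n] at this
  rw [← upper_mul, app_mul, hε, map_smul, hε, smul_smul, mul_comm, this, one_smul]

omit hE in
theorem exists_u : ∃ u : V F, polar (Q F) u u ≠ 0 ∧ (φ (bS E)).1 u = u ∧ (∀ w, (φ (bS E)).1 w = w → ∃ c : F, w = c • u) ∧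
    ∀ g, (chi (φ g) + chi (φ (g * bS E)) + chi (φ (g * bS E * bS E))) * polar (Q F) u u = 3 * polar (Q F) u ((φ g).1 u) := by
  have d := dm_add_fx (φ (bS E))
  rw [h.d6, finrank_V] at d
  obtain ⟨⟨u, hu⟩, u0, hw⟩ := finrank_eq_one_iff'.1 (show fx (φ (bS E)) = 1 by omega)
  rw [O.mem_fix] at hu
  have k : ∀ w, (φ (bS E)).1 w = w → ∃ c : F, w = c • u := fun w e =>
    (hw ⟨w, O.mem_fix.2 e⟩).imp fun c e => (congrArg Subtype.val e).symm
  have k1 : ∀ v, polar (Q F) u ((φ (bS E)).1 v) = polar (Q F) u v := fun v => by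
    conv_lhs => rw [← hu]
    rw [O.map_polar]
  have k2 : ∀ v, polar (Q F) u u • (v + (φ (bS E)).1 v + (φ (bS E)).1 ((φ (bS E)).1 v)) = (3 * polar (Q F) u v) • u :=
    fun v => by
      obtain ⟨c, e⟩ := k (v + (φ (bS E)).1 v + (φ (bS E)).1 ((φ (bS E)).1 v)) (by
        rw [map_add, map_add, ← app_mul _ _ ((φ (bS E)).1 v), ← app_mul (_ * _), bS_cube, map_one, O.one_apply]; abel)
      have := congrArg (polar (Q F) u) e
      rw [polar_add_right, polar_add_right, k1, k1, k1, polar_smul_right'] at this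
      rw [e, smul_smul]; congr 1; linear_combination -this
  refine ⟨u, fun e => u0 (Subtype.ext ((nd_Q h.two).eq_zero fun v => ?_)), hu, k, fun g => ?_⟩
  · have := k2 v
    rw [e, zero_smul, eq_comm, smul_eq_zero, mul_eq_zero] at this
    exact (this.resolve_right fun e => u0 (Subtype.ext e)).resolve_left h.three
  · have : polar (Q F) u u • (T3.lin (Q F) (φ g) + T3.lin (Q F) (φ (g * bS E)) + T3.lin (Q F) (φ (g * bS E * bS E))) =
        (3 : F) • (polarBilin (Q F) u).smulRight ((φ g).1 u) := LinearMap.ext fun v => by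
      have := congrArg (φ g).1 (k2 v)
      simpa [T3.lin_apply, app_mul, smul_smul] using this
    have := congrArg (LinearMap.trace F _) this
    simpa [T3.chi_eq, mul_comm, mul_add] using this

/-- reflections in eigenvectors act on `u` like elements of the unipotent group -/
theorem refl_u {u : V F} (t0 : (φ (upper 1)).1 u = -u)
    (tr : ∀ g, (chi (φ g) + chi (φ (g * bS E)) + chi (φ (g * bS E * bS E))) * polar (Q F) u u =
      3 * polar (Q F) u ((φ g).1 u)) {f : V F} (hf : Eig φ f) : ∃ z, (refl (Q F) f).1 u = (φ (upper z)).1 u := by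
  obtain ⟨θ, hθ⟩ := exists_theta hE
  have θ0 : θ ≠ 0 := by rintro rfl; simp at hθ
  have k : ∀ (a : E) (a0 : a ≠ 0) {x : E}, a ≠ 1 → x ≠ 0 → a * (x + 1) = a ^ 2 + 1 →
      3 * polar (Q F) u ((φ (upper x)).1 u) = -polar (Q F) u u := fun a a0 x a1 x0 e => by
    have a1 : Units.mk0 a a0 ≠ 1 := fun e => a1 (congrArg Units.val e)
    have c := (chi_of_isConj (φ.map_isConj (conj7 a1 e))).symm.trans (h.chi7 hE a1)
    have c1 : chi (φ (upper x * bS E)) = 0 := by
      rw [← c, ← chi_conj _ (φ (bS E)), ← map_inv, ← map_mul, ← map_mul, ← mul_assoc, mul_inv_cancel_right]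
    have c2 : chi (φ (upper x * bS E * bS E)) = 0 := by
      rw [← c, ← chi_inv (nd_Q h.two), ← map_inv, inv_eq_of_mul_eq_one_right (b := bS E * upper x) (by
        rw [mul_assoc, mul_assoc, ← mul_assoc (bS E) (bS E) (upper x), ← mul_assoc (bS E), ← mul_assoc (bS E), bS_cube,
          one_mul, upper_sq])]
    rw [← tr, c1, c2, h.chi2 (upper_sq x) (upper_ne x0)]; ring
  have θ1 : θ ≠ 1 := by rintro rfl; simp at hθ
  have θ2 : θ ^ 2 ≠ 1 := fun e => θ1 (by linear_combination pow7 hE θ0 - (θ ^ 5 + θ ^ 3 + θ) * e)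
  have θ4 : θ ^ 4 ≠ 1 := fun e => θ1 (by linear_combination (θ ^ 4 + 1) * e - θ * pow7 hE θ0)
  have k1 := k (θ ^ 2) (pow_ne_zero _ θ0) θ2 θ0 (by linear_combination (1 - θ) * hθ)
  have k2 := k (θ ^ 4) (pow_ne_zero _ θ0) θ4 (pow_ne_zero 2 θ0) (by
    linear_combination (-θ ^ 5 + θ - θ ^ 2 - 1) * hθ - EL.two E)
  have k3 := k θ θ0 (x := θ + θ ^ 2) θ1 (fun e => θ1 (mul_left_cancel₀ θ0 (by linear_combination e - θ * EL.two E)))
    (by linear_combination hθ + θ * EL.two E)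
  have cm : ∀ x y v, (φ (upper x)).1 ((φ (upper y)).1 v) = (φ (upper (x + y))).1 v := fun x y v => by
    rw [← app_mul, upper_mul]
  have z0 : ∀ v, (φ (upper (0 : E))).1 v = v := fun v => by rw [upper_zero, map_one, O.one_apply]
  have n1 : ∀ x, (φ (upper (1 + x))).1 u = -(φ (upper x)).1 u := fun x => by rw [add_comm, ← cm, t0, map_neg]
  obtain ⟨s, hs⟩ : ∃ s : F → F → V F, ∀ α β, s α β = u + α • (φ (upper θ)).1 u + β • (φ (upper (θ ^ 2))).1 u +
    (α * β) • (φ (upper (θ + θ ^ 2))).1 u := ⟨_, fun _ _ => rfl⟩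
  have s0 : ∀ α β, (φ (upper 1)).1 (s α β) = (-1 : F) • s α β := fun α β => by
    simp only [hs, map_add, map_smul, cm, n1, t0]; module
  have s1 : ∀ α β, α = 1 ∨ α = -1 → (φ (upper θ)).1 (s α β) = α • s α β := fun α β e => by
    simp only [hs, map_add, map_smul, cm, ← add_assoc, CharTwo.add_self_eq_zero, z0, zero_add]
    rcases e with rfl | rfl <;> module
  have s2 : ∀ α β, β = 1 ∨ β = -1 → (φ (upper (θ ^ 2))).1 (s α β) = β • s α β := fun α β e => by
    simp only [hs, map_add, map_smul, cm, add_comm (θ ^ 2), add_assoc, CharTwo.add_self_eq_zero, z0, add_zero]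
    rcases e with rfl | rfl <;> module
  have w : ∀ α β {f : V F}, α = 1 ∨ α = -1 → β = 1 ∨ β = -1 → f ≠ 0 → (φ (upper 1)).1 f = (-1 : F) • f →
      (φ (upper θ)).1 f = α • f → (φ (upper (θ ^ 2))).1 f = β • f → Q F f ≠ 0 ∧ ∃ c : F, s α β = c • f :=
    fun α β f ea eb f0 e0 e1 e2 => (h.wt hE f0 (ind hE hθ ⟨_, s0 _ _, e0⟩ ⟨_, s1 _ _ ea, e1⟩ ⟨_, s2 _ _ eb, e2⟩
      fun x y ⟨ε, a, b⟩ ⟨δ, c, d⟩ => ⟨δ * ε, by rw [← cm, c, map_smul, a, smul_smul],
        by rw [← cm, d, map_smul, b, smul_smul]⟩)).imp_right And.right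
  have z : s 1 1 = 0 := by_contra fun e => (w 1 1 (.inl rfl) (.inl rfl) e (s0 _ _) (s1 _ _ (.inl rfl))
    (s2 _ _ (.inl rfl))).1 (by
      have a : ∀ x, (φ (upper x)).1 (s 1 1) = s 1 1 → polar (Q F) ((φ (upper x)).1 u) (s 1 1) = polar (Q F) u (s 1 1) :=
        fun x e => by conv_lhs => rw [← e, O.map_polar]
      have b1 := (s1 1 1 (.inl rfl)).trans (one_smul _ _)
      have b2 := (s2 1 1 (.inl rfl)).trans (one_smul _ _)
      have c : polar (Q F) u (s 1 1) = 0 := mul_left_cancel₀ h.three (by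
        simp only [hs, polar_add_right, one_smul, mul_one]; linear_combination k1 + k2 + k3)
      have := polar_self' (Q F) (s 1 1)
      nth_rw 1 [hs] at this
      simp only [polar_add_left, one_smul, mul_one, a _ b1, a _ b2, a (θ + θ ^ 2) (by rw [← cm, b2, b1]), c,
        add_zero] at this
      exact (mul_eq_zero.1 this.symm).resolve_left h.two)
  have A : ∀ α β, α = 1 ∨ α = -1 → β = 1 ∨ β = -1 → (φ (upper 1)).1 f = (-1 : F) • f →
      (φ (upper θ)).1 f = α • f → (φ (upper (θ ^ 2))).1 f = β • f → (refl (Q F) f).1 (s α β) = -s α β :=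
    fun α β ea eb e0 e1 e2 => by
      obtain ⟨q, c, e⟩ := w α β ea eb hf.1 e0 e1 e2
      rw [e, map_smul, refl_apply_self q, smul_neg]
  have B : ∀ {x v} {ε δ : F}, (φ (upper x)).1 f = ε • f → (φ (upper x)).1 v = δ • v → ε * δ = -1 →
      (refl (Q F) f).1 v = v := fun {x v ε δ} e1 e2 e => refl_apply_of_perp (mul_left_cancel₀ h.two (by
        have := O.map_polar (φ (upper x)) f v
        rw [e1, e2, polar_smul_left', polar_smul_right', ← mul_assoc, e] at this
        linear_combination -this))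
  have four : (4 : F) ≠ 0 := by rw [show (4 : F) = 2 * 2 by norm_num]; exact mul_ne_zero h.two h.two
  have u4 : (4 : F) • (refl (Q F) f).1 u = (refl (Q F) f).1 (s 1 (-1)) + (refl (Q F) f).1 (s (-1) 1) +
      (refl (Q F) f).1 (s (-1) (-1)) := by
    rw [← map_smul, ← map_add, ← map_add]; congr 1
    rw [← zero_add (_ + _ + _), ← z]; simp only [hs]; module
  rw [hs] at z
  obtain ⟨ε0, e0⟩ := hf.2 1
  obtain ⟨ε1, e1⟩ := hf.2 θ
  obtain ⟨ε2, e2⟩ := hf.2 (θ ^ 2)
  have p : (1 : F) = 1 ∨ (1 : F) = -1 := .inl rfl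
  have m : (-1 : F) = 1 ∨ (-1 : F) = -1 := .inr rfl
  rcases eig_sq hf.1 e0 with rfl | rfl
  · rw [B e0 (s0 _ _) (by ring), B e0 (s0 _ _) (by ring), B e0 (s0 _ _) (by ring), hs, hs, hs] at u4
    exact ⟨0, smul_right_injective _ four (by simp only [z0]; linear_combination (norm := module) u4 - z)⟩
  rcases eig_sq hf.1 e1 with rfl | rfl <;> rcases eig_sq hf.1 e2 with rfl | rfl
  · rw [B e2 (s2 _ _ m) (by ring), B e1 (s1 _ _ m) (by ring), B e1 (s1 _ _ m) (by ring), hs, hs, hs] at u4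
    exact ⟨0, smul_right_injective _ four (by simp only [z0]; linear_combination (norm := module) u4 - z)⟩
  · rw [A _ _ p m e0 e1 e2, B e1 (s1 _ _ m) (by ring), B e1 (s1 _ _ m) (by ring), hs, hs, hs] at u4
    exact ⟨1 + θ, smul_right_injective _ four (by simp only [n1]; linear_combination (norm := module) u4 + z)⟩
  · rw [A _ _ m p e0 e1 e2, B e1 (s1 _ _ p) (by ring), B e2 (s2 _ _ m) (by ring), hs, hs, hs] at u4
    exact ⟨1 + θ ^ 2, smul_right_injective _ four (by simp only [n1]; linear_combination (norm := module) u4 + z)⟩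
  · rw [A _ _ m m e0 e1 e2, B e1 (s1 _ _ p) (by ring), B e2 (s2 _ _ p) (by ring), hs, hs, hs] at u4
    exact ⟨1 + (θ + θ ^ 2), smul_right_injective _ four (by
      simp only [n1]; linear_combination (norm := module) u4 + z)⟩

theorem false {H : Subgroup (O (Q F))} [Finite F] (hn : ∀ x ∈ H, ∀ s, ∃ s', x * φ s * x⁻¹ = φ s')
    (hs : ∀ {Φ : Set (V F)} {v : V F}, v ∈ Φ → v ≠ 0 → Φ.ncard < 243 → (∀ g ∈ H, ∀ w ∈ Φ, g.1 w ∈ Φ) →
      ∀ {x : O (Q F)}, x ∈ commutator (O (Q F)) → (∀ w ∈ Φ, x.1 w ∈ Φ) → x ∈ H) : False := by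
  obtain ⟨u, n, bu, fb, tr⟩ := h.exists_u
  have t1 := upper_ne (one_ne_zero (α := E))
  have ib : (bS E)⁻¹ = bS E * bS E := inv_eq_of_mul_eq_one_left bS_cube
  have tb : upper 1 * bS E = bS E * bS E * upper 1 := by
    rw [← ib, eq_inv_of_mul_eq_one_left (t0b (E := E)), _root_.mul_inv_rev, inv_eq_of_mul_eq_one_right (upper_sq _)]
  have t0 : (φ (upper 1)).1 u = -u := by
    obtain ⟨c, e⟩ := fb ((φ (upper 1)).1 u) (by
      conv_lhs => rw [← bu, ← app_mul (upper 1), tb, ← app_mul, ← mul_assoc, ← mul_assoc, bS_cube, one_mul])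
    have := tr (upper 1)
    rw [h.chi2 (upper_sq _) t1, h.chi2 t0b fun e => by simpa using congrArg (fun s : SL(2, E) => s.1 1 0) e,
      h.chi2 (s := upper 1 * bS E * bS E) (by apply sl_ext <;> simp [CharTwo.add_self_eq_zero, CharTwo.neg_eq])
        fun e => by simpa using congrArg (fun s : SL(2, E) => s.1 1 0) e, e, polar_smul_right'] at this
    rw [e, show c = -1 from mul_left_cancel₀ h.three (mul_right_cancel₀ n (by linear_combination -this)), neg_one_smul]
  let Φ : Set (V F) := Set.range fun x : E × Eˣ => (φ (upper x.1 * dS x.2)).1 u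
  have hΦ : ∀ x a z, (φ (upper x * dS a)).1 ((φ (upper z)).1 u) ∈ Φ := fun x a z =>
    ⟨(x + a ^ 2 * z, a), by simp only [← app_mul, nm]⟩
  have R : ∀ f, Eig φ f → ∀ w ∈ Φ, (refl (Q F) f).1 w ∈ Φ := by
    rintro f hf _ ⟨⟨x, a⟩, rfl⟩
    obtain ⟨z, e⟩ := h.refl_u hE t0 tr (hf.map (n := (upper x * dS a)⁻¹) fun y => ⟨a ^ 2 * y, by
      rw [eq_inv_mul_iff_mul_eq, ← mul_assoc, mul_inv_eq_iff_eq_mul, nm, ← mul_assoc, upper_mul, add_comm]⟩)
    rw [← conj_refl, ← map_inv, inv_inv, O.mul_apply, O.mul_apply, map_inv, O.inv_apply_eq] at e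
    exact e ▸ hΦ x a z
  obtain ⟨f, hf⟩ := h.exists_eig hE
  obtain ⟨θ, hθ⟩ := exists_theta hE
  have θ0 : θ ≠ 0 := by rintro rfl; simp at hθ
  set a := Units.mk0 θ θ0
  have a1 : a ≠ 1 := fun e => by
    have : θ = 1 := congrArg Units.val e
    simp [this] at hθ
  have a2 : a * a ≠ 1 := fun e => sq_ne a1 (by
    have : θ * θ = 1 := congrArg Units.val e
    change θ ^ 2 + 1 = 0; linear_combination this + EL.two E)
  have em : ∀ {f}, Eig φ f → Eig φ ((φ (dS a)).1 f) := fun hf => hf.map fun y => ⟨(a⁻¹ : Eˣ) ^ 2 * y, by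
    rw [dS_upper, ← mul_assoc, ← mul_pow]; simp⟩
  have qf : Q F f ≠ 0 := (h.wt hE (v := f) hf.1 fun x => (hf.2 x).imp fun _ e => ⟨e, e⟩).1
  have hx := hs (Φ := Φ) (v := u) ⟨(0, 1), by simp [upper_zero, dS_one]⟩ (by rintro rfl; simp at n)
    ((Finite.card_range_le _).trans_lt (by
      rw [Nat.card_prod, Nat.card_units, Nat.card_eq_fintype_card, hE]; norm_num)) (by
      rintro g hg _ ⟨⟨x, b⟩, rfl⟩
      obtain ⟨s, e⟩ := hn g hg (upper x * dS b * bS E * (upper x * dS b)⁻¹)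
      obtain ⟨y, c, e1⟩ := conj3 hE (s := s) (h.inj (by
        rw [map_mul, map_mul, ← e, conj_mul, conj_mul, ← map_mul, ← map_mul, conj_mul, conj_mul, bS_cube]; simp))
        fun e1 => bS_ne (E := E) (by
          rw [e1, map_one, conj_eq_one_iff, map_eq_one_iff _ h.inj, conj_eq_one_iff] at e; exact e)
      obtain ⟨δ, e2⟩ := fb ((φ (upper y * dS c))⁻¹.1 (g.1 ((φ (upper x * dS b)).1 u))) (by
        rw [eq_comm, O.inv_apply_eq, ← app_mul _ (bS E), ← e1, app_mul s, O.apply_inv_apply, ← e, O.mul_apply,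
          O.mul_apply, O.inv_apply_apply, ← app_mul, inv_mul_cancel_right, app_mul _ (bS E), bu])
      have q := congrArg (Q F) e2
      rw [O.map_Q, O.map_Q, O.map_Q, Q_smul] at q
      rw [O.inv_apply_eq] at e2
      have qu : Q F u ≠ 0 := fun e => n (by rw [polar_self', e, mul_zero])
      rcases mul_self_eq_one_iff.1 (mul_right_cancel₀ qu (show δ * δ * Q F u = 1 * Q F u by linear_combination -q))
        with rfl | rfl
      · exact ⟨(y, c), by rw [e2, one_smul]⟩
      · rw [e2, neg_one_smul, ← t0]; exact hΦ _ _ _)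
    (refl_mul_refl_mem_commutator' (nd_Q h.two) qf (w := (φ (dS a)).1 f) (by rwa [O.map_Q]) (by rw [O.map_Q]))
    fun w hw => R f hf _ (R _ (em hf) w hw)
  obtain ⟨s, e⟩ := hn _ hx (dS a)
  set f2 := (φ (dS a)).1 ((φ (dS a)).1 f) with hf2
  have o2 : polar (Q F) f f2 = 0 := by rw [hf2, ← app_mul, dS_mul]; exact h.orth hE hf a2
  have e : φ (s * (dS a)⁻¹) = refl (Q F) f * refl (Q F) f2 := by
    have o : (refl (Q F) ((φ (dS a)).1 f)).1 f2 = f2 := refl_apply_of_perp (h.orth hE (em hf) a1)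
    rw [map_mul, map_inv, ← e, ← o, ← conj_refl (refl _ _), hf2, ← conj_refl (φ (dS a)) ((φ (dS a)).1 f),
      _root_.mul_inv_rev, refl_inv, refl_inv]
    nth_rw 5 [← conj_refl (φ (dS a)) f]
    group
  have d := h.d4 (s * (dS a)⁻¹) (h.inj (by
      have := conj_refl (refl (Q F) f) f2
      rw [refl_apply_of_perp o2, refl_inv] at this
      rw [map_mul, e, map_one, ← mul_assoc, this, refl_mul_self])) fun e1 => by
    have := congrArg (fun g : O (Q F) => g.1 f) e
    simp only [e1, map_one, O.one_apply, O.mul_apply] at this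
    rw [refl_apply_of_perp (v := f2) ((polar_comm (Q F) f2 f).trans o2), refl_apply_self qf] at this
    exact hf.1 (T3.eq_zero h.two this)
  have l : O.comm (φ (s * (dS a)⁻¹)) ≤ (F ∙ f) ⊔ F ∙ f2 := by
    intro v hv
    obtain ⟨y, rfl⟩ := O.mem_comm.1 hv
    rw [e, O.mul_apply, refl_apply, refl_apply]
    rw [sub_sub, sub_sub, add_comm _ y, ← add_assoc, add_comm _ y, add_assoc, sub_add_cancel_left]
    exact neg_mem (add_mem (Submodule.mem_sup_right (Submodule.smul_mem _ _ (Submodule.mem_span_singleton_self _)))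
      (Submodule.mem_sup_left (Submodule.smul_mem _ _ (Submodule.mem_span_singleton_self _))))
  have := (Submodule.finrank_mono l).trans (Submodule.finrank_add_le_finrank_add_finrank _ _)
  rw [finrank_span_singleton hf.1, finrank_span_singleton (em (em hf)).1] at this
  rw [dm] at d
  omega

end D

end EL

open EL in
theorem Core.no_L28' {F : Type*} [Field F] [Finite F] {H P : Subgroup (O (Q F))} (m : Mx H P) (hp : Pre P)
    {E : Type*} [Field E] [Fintype E] (hE : Fintype.card E = 8)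
    (e : P ≃* PSL(2, E)) (h3 : (3 : F) ≠ 0) (h6 : ∀ b ∈ P, b ^ 3 = 1 → b ≠ 1 → dm b = 6)
    (hs : ∀ {Φ : Set (V F)} {v : V F}, v ∈ Φ → v ≠ 0 → Φ.ncard < 243 → (∀ g ∈ H, ∀ w ∈ Φ, g.1 w ∈ Φ) →
      ∀ {x : O (Q F)}, x ∈ commutator (O (Q F)) → (∀ w ∈ Φ, x.1 w ∈ Φ) → x ∈ H) : False := by
  have : CharP E 2 := CharTwo.of_one_ne_zero_of_two_eq_zero one_ne_zero (pow_eq_zero_iff (n := 3) (by norm_num) |>.1 (by
    have := FiniteField.cast_card_eq_zero E
    rw [hE] at this; exact_mod_cast (by norm_num : (2 : E) ^ 3 = (8 : ℕ)).trans this))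
  let π : SL(2, E) →* PSL(2, E) := QuotientGroup.mk' _
  have iπ : Function.Injective π := (injective_iff_map_eq_one π).2 fun s hs =>
    eq_one_of_center ((QuotientGroup.eq_one_iff s).1 hs)
  let φ := (emb e).comp π
  have i : Function.Injective φ := (emb_injective e).comp iπ
  have c : ∀ {s t : SL(2, E)}, s * s = 1 → s ≠ 1 → t * t = 1 → t ≠ 1 → dm (φ s) = dm (φ t) := fun {s t} a b c d =>
    dm_of_isConj ((emb e).map_isConj (isConj_psl_of_orderOf_two
      (orderOf_eq_prime (by rw [pow_two, ← map_mul, a, map_one]) ((map_ne_one_iff π iπ).2 b))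
      (orderOf_eq_prime (by rw [pow_two, ← map_mul, c, map_one]) ((map_ne_one_iff π iπ).2 d))))
  let U : Subgroup (O (Q F)) := ⟨⟨⟨Set.range fun x => φ (upper x), by
    rintro _ _ ⟨x, rfl⟩ ⟨y, rfl⟩; exact ⟨x + y, by simp only [← map_mul, upper_mul]⟩⟩,
    0, by simp only [upper_zero, map_one]⟩, by rintro _ ⟨x, rfl⟩; exact ⟨-x, by simp only [← map_inv, upper_inv]⟩⟩
  have n : ∀ {s}, φ s ≠ 1 → s ≠ 1 := fun n e => n (by rw [e, map_one])
  have t1 := upper_ne (one_ne_zero (α := E))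
  have d := hp.dm_of_eight (E := U) (by rintro _ ⟨x, rfl⟩; exact emb_mem e _)
    (by rintro _ ⟨x, rfl⟩; simp only [← map_mul, upper_sq, map_one])
    (by rw [← hE, ← Nat.card_eq_fintype_card]
        exact Nat.card_range_of_injective fun x y e => by simpa using congrArg (fun s : SL(2, E) => s.1 0 1) (i e))
    (by rintro _ ⟨x, rfl⟩ _ ⟨y, rfl⟩ a b; exact c (upper_sq _) (n a) (upper_sq _) (n b))
    _ ⟨1, rfl⟩ ((map_ne_one_iff φ i).2 t1)
  refine D.false hE (φ := φ) ⟨hp.two, h3, i, fun s a b => (c a b (upper_sq _) t1).trans d,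
    h6 _ (emb_mem e _) (by rw [← map_pow, pow_three', bS_cube, map_one]) ((map_ne_one_iff φ i).2 bS_ne)⟩
    (fun x hx s => ?_) hs
  obtain ⟨y, hy⟩ := (range_emb e).ge (m.norm x hx _ (emb_mem e (π s)))
  obtain ⟨y, rfl⟩ := QuotientGroup.mk'_surjective _ y
  exact ⟨y, hy.symm⟩

end Cfsg.Lib.O7
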