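import Cfsg.Agent.Lib.O7.T2
import Cfsg.Agent.Lib.O7.SL
import Cfsg.Agent.Lib.Orth.Witt
import Cfsg.Agent.Lib.O7.End2
import Cfsg.Agent.Lib.O7.EndL

/-!
# End games: `A₈`, `A₉`, `L₂(8)` (BRANCH STUB of `docs/O7.md`; the filler may add files `O7/End1 ...` and imports)
-/

set_option autoImplicit false

namespace Cfsg.Lib.O7

open QuadraticMap Module Matrix Cfsg.Lib.Orth Cfsg.Lib.Oct
open scoped MatrixGroups

variable {F : Type*} [Field F] [Finite F] {H P : Subgroup (O (Q F))}

/-- Let `v ∈ Φ`.  Choose a hyperbolic pair `e, f` with `polar e v ≠ 0` (singular vectors span).  The Eichler maps `eich e z`, `z ∈ ⟨e, f⟩^⊥` (`|F|⁵ ≥ 243` vectors) lie in `Ω` (odd order / `eich_eq_refl_mul_refl`, library) and map `v` to different vectors (component in `⟨e, f⟩^⊥`). -/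
theorem card_orbit (h2 : (2 : F) ≠ 0) {Φ : Set (V F)} {v : V F} (hv : v ∈ Φ) (h0 : v ≠ 0)
    (h : ∀ g ∈ commutator (O (Q F)), ∀ w ∈ Φ, g.1 w ∈ Φ) : 243 ≤ Φ.ncard :=
  End.orbit h2 hv h0 h

/-- `Y` = stabiliser of `Φ` in `Ω` contains `H`; `Mx.max`, `card_orbit`. -/
theorem Mx.mem_of_stab (m : Mx H P) (h2 : (2 : F) ≠ 0) {Φ : Set (V F)} {v : V F} (hv : v ∈ Φ) (h0 : v ≠ 0) (c : Φ.ncard < 243)
    (hH : ∀ g ∈ H, ∀ w ∈ Φ, g.1 w ∈ Φ) {x : O (Q F)} (hx : x ∈ commutator (O (Q F))) (e : ∀ w ∈ Φ, x.1 w ∈ Φ) : x ∈ H :=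
  End.mem_of_stab m h2 hv h0 c hH hx e

/-- `chi g = chi y`, `y` a `3'`-element (`exists_reg`); `y ~ y³` in `A₉` (same cycle type; a class of `S₉` splits only for distinct odd cycle lengths, `(9)` and `(5,3,1)`, which are not `3'`; concretely `y` is centralised by an odd permutation);
so `(chi y)³ = chi y` (`chi_pow_char`), `chi y ∈ ⊥`; `Core.nosub`. -/
theorem Core.card_of_A9 (h : Core P) (h3 : (3 : F) = 0) (e : P ≃* alternatingGroup (Fin 9)) : Nat.card F = 3 := by
  classical
  haveI : Fact (Nat.Prime 3) := ⟨Nat.prime_three⟩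
  haveI : CharP F 3 := (CharP.charP_iff_prime_eq_zero Nat.prime_three).2 h3
  let k : Subfield F := (RingHom.eqLocusField (frobenius F 3) (RingHom.id F))
  have hk : k = ⊤ := h.nosub k fun g hg => by
    obtain ⟨x, rfl⟩ : g ∈ (emb e).range := (range_emb e).symm ▸ hg
    obtain ⟨m, h1, h2⟩ := exists_reg 3 ((emb e).isOfFinOrder (isOfFinOrder_of_finite x))
    rw [← map_pow] at h1 h2
    rw [orderOf_injective _ (emb_injective e)] at h1
    have := chi_pow_char 3 (emb e (x ^ m)) 1
    rw [pow_one, ← map_pow, ← chi_of_isConj ((emb e).map_isConj (End.conj_cube h1)), h2] at this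
    exact this.symm
  refine le_antisymm ?_ (End.three_le h.two)
  have := Fintype.ofFinite F
  have l : (Finset.univ : Finset F) ⊆ {0, 1, -1} := fun x _ => by
    have : x ^ 3 = x := (hk.ge trivial : x ∈ k)
    have : x * ((x - 1) * (x + 1)) = 0 := by linear_combination this
    simpa [sub_eq_zero, add_eq_zero_iff_eq_neg] using this
  rw [Nat.card_eq_fintype_card]
  exact (Finset.card_le_card l).trans Finset.card_le_three

omit [Finite F] in
/-- `E = V₄ × V₄'` on `0..3`, `4..7` has six involutions of type `2²` and nine of type `2⁴`: `Pre.count16` (`8 ∣ 6 a + 9 b`) gives `a = 2`, `b = 4`.  `V₄` has three non-trivial weight lines (non-singular), permuted by `r = (0 1 2)`; on `Fix V₄` (dimension four) `V₄'` has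
three weight lines and `Fix E` is a line; `r` centralises `V₄'`, so fixes these four lines pointwise (`fix_of_line`): `fx r ≥ 5`, `dm r = 2` (`even_dm`). -/
theorem Pre.dm_cyc {n : ℕ} (h : Pre P) (hn : 8 ≤ n) (e : P ≃* alternatingGroup (Fin n)) {c : alternatingGroup (Fin n)}
    (hc : c.1.IsThreeCycle) : dm (emb e c) = 2 :=
  End.dm_cyc h hn (emb_injective e) (emb_mem e) hc

/-- Three 3-cycles generate `A₇ = Stab(7)`, so it fixes `v ≠ 0` (`exists_fix_of_sum`); `v i = g v` for any `g` with `g 7 = i`.  They span `V` (`irr`), `∑ v i = 0`, `polar (v i) (v j) = b` (`i ≠ j`), `polar (v i) (v i) = -7 b`, `b ≠ 0` (`ND`), and `Fix (Stab i) = F (v i)`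
(such a vector is determined by its products with the `v j`).  `h ∈ H` induces an automorphism of `A₈`, a conjugation by `π ∈ S₈` (S2119), so `h (v i) = ε_i v (π i)`, `ε_i = ± 1`.  [`7 b = 0` is possible: get `ε_i ε_j = 1` from the products for `i ≠ j`, hence `ε_i = ε` with `ε² = 1`.]
`Φ = {v i - v j} ∪ {v S = ∑_{i ∈ S} v i, |S| = 4}` (at most `56 + 70` vectors, all with `polar w w = -16 b`) is invariant under `H`, under `refl (v 0 - v 1)` (it swaps `v 0`, `v 1`) and `refl (v S)` (`v i ↦ v i ∓ ½ v S`; `v Sᶜ = -v S`).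
`x = refl (v S) * refl (v 0 - v 1) ∈ Ω` (`refl_mul_refl_mem_commutator'`), so `x ∈ H` (`Mx.mem_of_stab`); but for `S = {0,1,2,3}` the products of `x (v 2) = v 2 - ½ v S` with `v 0, v 1, v 3` are `3 b` and with `v 4 .. v 7` are `-b`: not of the form `± v j` (`4 b ≠ 0`). -/
theorem Core.no_A8 (h : Core P) (m : Mx H P) (hp : Pre P) (e : P ≃* alternatingGroup (Fin 8)) : False :=
  End.no_A8 h m hp e

/-- `U = upper E` is a pure `E₈`, `c = dS g` permutes the seven lines of `exists_frame8` cyclically: basis `e i = c^i e₀`, orthogonal, of equal norm; `N = U ⟨c⟩`.  `b = [[0,1],[1,1]]`, `fix b = F u`, `Q u ≠ 0` (`nd_Fix`), `π = (1 + b + b²)/3` projects onto it, so `polar u (t u) / polar u u = tr (π t) = (chi t + chi (b t) + chi (b⁻¹ t))/3 = (2 chi (b t) - 1)/3`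
for `t ∈ U#` (`chi_inv`, `chi t = -1`).  `t₀ = upper 1` inverts `b`: value `-1`, `t₀ u = -u`.  Elements of order seven have `chi = 0`: value `-1/3`.  `b * upper x` has trace `x + 1` or so; of each pair `{x, x + 1}`, `x ∉ F₂`, one gives order seven (compute in `F₈`: the traces of elements of order 7 are the roots of one irreducible cubic), the other value is `+1/3` as `t₀ u = -u`.
Fourier inversion over `U`: `u_i² polar (e i) (e i) = ⅛ ∑_t χ_i(t) polar u (t u)`: three coordinates have equal squares `≠ 0` and four vanish (the three `x` of order seven have sum `0`; otherwise only use: the coordinates with `χ_i t₀ = 1` vanish, and the list of squares is `(0, ⅓, ⅓, ⅓)` or `(½, ⅙, ⅙, ⅙)`; decide by computation).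
The three characters are independent (each is `-1` on `t₀`), so `U u` consists of all eight sign changes of `u`, and `Φ = N u` (`≤ 56` vectors) is invariant under all diagonal sign changes.  `P = N · N(⟨b⟩)` (orders `56 · 18 / 2`; or directly: `N` is transitive on the 28 subgroups of order three) and `N(⟨b⟩) u = ± u`, so `Φ = {w | Q w = Q u, w ∈ fix b', b' ∈ P of order three}` is `H`-invariant.
`x = refl (e 0) * refl (e 1) ∈ Ω` stabilises `Φ`, so `x ∈ H`, and `x * (k x k⁻¹) ∈ P` for `k = c`: an involution with `dm = 2`, but all involutions of `P` have `dm = 4`. -/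
theorem Core.no_L28 (h : Core P) (m : Mx H P) (hp : Pre P) {E : Type*} [Field E] [Fintype E] (hE : Fintype.card E = 8)
    (e : P ≃* PSL(2, E)) (h3 : (3 : F) ≠ 0) (h6 : ∀ b ∈ P, b ^ 3 = 1 → b ≠ 1 → dm b = 6) : False :=
  Core.no_L28' m hp hE e h3 h6 (m.mem_of_stab h.two)

end Cfsg.Lib.O7
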