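import Cfsg.Agent.Lib.O7.T2
import Cfsg.Agent.Lib.Orth.Witt

/-!
# End games, part one: orbits of `Ω₇`, classes of alternating groups, 3-cycles
-/

set_option autoImplicit false

namespace Cfsg.Lib.O7.End

open QuadraticMap Module Cfsg.Lib.Orth Equiv Equiv.Perm

section Orbit

variable {F : Type*} [Field F] [Finite F] {H P : Subgroup (O (Q F))}

theorem three_le (h2 : (2 : F) ≠ 0) : 3 ≤ Nat.card F := by
  classical
  have := Fintype.ofFinite F
  rw [Nat.card_eq_fintype_card]
  refine Fintype.two_lt_card_iff.2 ⟨0, 1, -1, zero_ne_one, by simp, fun e => h2 ?_⟩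
  linear_combination e

theorem orbit (h2 : (2 : F) ≠ 0) {Φ : Set (V F)} {v : V F} (hv : v ∈ Φ) (h0 : v ≠ 0)
    (h : ∀ g ∈ commutator (O (Q F)), ∀ w ∈ Φ, g.1 w ∈ Φ) : 243 ≤ Φ.ncard := by
  have hQ := nd_Q h2
  obtain ⟨e₀, e0, e1⟩ := exists_singular (Q F) (by rw [finrank_V]; omega)
  obtain ⟨f₀, hf₀⟩ := exists_isHyp hQ e1 e0
  obtain ⟨e, he, hev⟩ : ∃ e, Q F e = 0 ∧ polar (Q F) e v ≠ 0 := by
    by_contra! k
    have := addSubgroup_eq_top_of_singular hf₀ (perp (Q F) (F ∙ v)).toAddSubgroup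
      fun w hw => mem_perp_singleton.2 (by rw [polar_comm]; exact k w hw)
    exact h0 (hQ.eq_zero fun y => mem_perp_singleton.1 (this.ge trivial : y ∈ (perp (Q F) (F ∙ v)).toAddSubgroup))
  obtain ⟨f, hf⟩ := exists_isHyp hQ he (by rintro rfl; simp at hev)
  have d := hf.finrank_hperp hQ
  rw [finrank_V] at d
  have c : Nat.card (hperp (Q F) e f) = Nat.card F ^ 5 := by
    rw [Module.natCard_eq_pow_finrank (K := F), show finrank F (hperp (Q F) e f) = 5 by omega]
  have i : Nat.card (hperp (Q F) e f) ≤ Nat.card Φ := Nat.card_le_card_of_injective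
    (fun z => ⟨(eich (Q F) e z).1 v, h _ (eich_mem_commutator hQ (not_exc_of_two_ne_zero h2) _ _) v hv⟩)
    fun z z' k => by
      have k := congrArg Subtype.val k
      obtain ⟨a1, a2⟩ := mem_hperp.1 z.2
      obtain ⟨b1, b2⟩ := mem_hperp.1 z'.2
      simp only [eich_apply he a1, eich_apply he b1] at k
      obtain ⟨a, ha⟩ : ∃ a : F, polar (Q F) e v • (z.1 - z'.1) = a • e :=
        ⟨polar (Q F) z.1 v - Q F z.1 * polar (Q F) e v - (polar (Q F) z'.1 v - Q F z'.1 * polar (Q F) e v),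
          by linear_combination (norm := module) -k⟩
      have k2 := congrArg (polar (Q F) f) ha
      rw [polar_smul_right', polar_smul_right', polar_sub_right, a2, b2, hf.polar_eq', sub_zero, mul_zero,
        mul_one] at k2
      rw [← k2, zero_smul, smul_eq_zero, sub_eq_zero] at ha
      exact Subtype.ext (ha.resolve_left hev)
  have := Nat.pow_le_pow_left (three_le h2) 5
  rw [← Nat.card_coe_set_eq]; omega

theorem mem_of_stab (m : Mx H P) (h2 : (2 : F) ≠ 0) {Φ : Set (V F)} {v : V F} (hv : v ∈ Φ) (h0 : v ≠ 0)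
    (c : Φ.ncard < 243) (hH : ∀ g ∈ H, ∀ w ∈ Φ, g.1 w ∈ Φ) {x : O (Q F)} (hx : x ∈ commutator (O (Q F)))
    (e : ∀ w ∈ Φ, x.1 w ∈ Φ) : x ∈ H := by
  let Y : Subgroup (O (Q F)) :=
    { carrier := {g | ∀ w ∈ Φ, g.1 w ∈ Φ}
      mul_mem' := fun ha hb w hw => ha _ (hb w hw)
      one_mem' := fun _ hw => hw
      inv_mem' := fun {g} hg w hw => by
        obtain ⟨u, hu, rfl⟩ := ((Set.toFinite Φ).injOn_iff_bijOn_of_mapsTo (f := g.1) hg).1
          g.1.injective.injOn |>.surjOn hw
        rwa [O.inv_apply_apply] }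
  rcases m.max (Y ⊓ commutator _) (fun g hg => ⟨hH g hg, m.le hg⟩) inf_le_right with k | k
  · exact k ⟨e, hx⟩
  · exact absurd (orbit h2 hv h0 fun g hg => (k hg).1) c.not_ge

end Orbit

section Alt

variable {α : Type*} [Fintype α] [DecidableEq α]

theorem conj_alt {σ τ : alternatingGroup α} (h : IsConj σ.1 τ.1)
    (hc : ¬ Subgroup.centralizer {σ.1} ≤ alternatingGroup α) : IsConj σ τ := by
  obtain ⟨π, hπ⟩ := isConj_iff.1 h
  obtain ⟨z, z1, z2⟩ := SetLike.not_le_iff_exists.1 hc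
  have z1 := Subgroup.mem_centralizer_singleton_iff.1 z1
  rcases Int.units_eq_one_or (sign π) with k | k
  · exact isConj_iff.2 ⟨⟨π, k⟩, Subtype.ext hπ⟩
  · refine isConj_iff.2 ⟨⟨π * z, ?_⟩, Subtype.ext ?_⟩
    · rw [mem_alternatingGroup, map_mul, k, (Int.units_eq_one_or (sign z)).resolve_left z2]; rfl
    · change π * z * σ.1 * (π * z)⁻¹ = τ.1
      rw [mul_assoc π, z1, ← hπ]; group

theorem conj_of_two {σ τ : alternatingGroup α} (h : σ.1.cycleType = τ.1.cycleType) (h2 : 2 ∈ σ.1.cycleType) :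
    IsConj σ τ :=
  conj_alt (isConj_iff_cycleType_eq.2 h) fun k =>
    absurd ((centralizer_le_alternating_iff.1 k).1 2 h2) (by decide)

theorem cycleType_pow (σ : Perm α) {n : ℕ} (h : (orderOf σ).Coprime n) : (σ ^ n).cycleType = σ.cycleType := by
  induction σ using cycle_induction_on with
  | base_one => rw [one_pow]
  | base_cycles σ hσ =>
    rw [(hσ.pow_iff.2 h.symm).cycleType, hσ.cycleType, support_pow_coprime h.symm]
  | induction_disjoint σ τ hd _ h1 h2 =>
    rw [hd.orderOf] at h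
    rw [hd.commute.mul_pow, (hd.pow_disjoint_pow n n).cycleType_mul, hd.cycleType_mul,
      h1 (h.coprime_dvd_left (Nat.dvd_lcm_left _ _)), h2 (h.coprime_dvd_left (Nat.dvd_lcm_right _ _))]

theorem conj_cube {y : alternatingGroup (Fin 9)} (h : (orderOf y).Coprime 3) : IsConj y (y ^ 3) := by
  rw [← Subgroup.orderOf_coe] at h
  refine conj_alt (isConj_iff_cycleType_eq.2 (cycleType_pow _ h).symm) fun k => ?_
  obtain ⟨k1, k2, -⟩ := centralizer_le_alternating_iff.1 k
  have k3 := y.1.sum_cycleType_le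
  rw [Fintype.card_fin] at k2 k3
  have k4 : ∀ c ∈ y.1.cycleType, 5 ≤ c ∧ c ≤ 7 := fun c hc => by
    have a1 := k1 c hc
    have a2 := two_le_of_mem_cycleType hc
    have a3 := (Multiset.single_le_sum (fun _ _ => Nat.zero_le _) c hc).trans k3
    have a4 := h.coprime_dvd_left (dvd_of_mem_cycleType hc)
    interval_cases c <;> revert a1 a4 <;> decide
  have k5 := Multiset.card_nsmul_le_sum fun c hc => (k4 c hc).1
  have k6 := Multiset.sum_le_card_nsmul _ _ fun c hc => (k4 c hc).2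
  rw [smul_eq_mul] at k5 k6
  omega

end Alt

section Cyc

variable {K : Type*} [Field K] {M : Subgroup (O (Q K))} {a b r s : O (Q K)}

/-- The weight lines of a four-group all of whose involutions have `dm = 2`. -/
theorem lines (h2 : (2 : K) ≠ 0) (ha : a * a = 1) (hb : b * b = 1) (c : Commute a b) (da : dm a = 2)
    (db : dm b = 2) (dab : dm (a * b) = 2) :
    finrank K ↥(O.comm b ⊓ O.fix a) = 1 ∧ finrank K ↥(O.comm b ⊓ O.comm a) = 1 := by
  obtain ⟨d1, d2⟩ := T2.dims h2 ha hb c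
  have d3 := dm_add_fx a
  have d4 := dm_add_fx b
  have d5 := T3.split h2 ha (X := O.comm b) (T2.stab_comm c)
  rw [finrank_V] at d3 d4
  rw [inf_comm (O.fix a) (O.comm b)] at d2
  have d6 : finrank K (O.comm b) = 2 := db
  constructor <;> omega

theorem comm_le_fix (h2 : (2 : K) ≠ 0) (ha : a * a = 1) (hb : b * b = 1) (c : Commute a b) (da : dm a = 2)
    (db : dm b = 2) (dab : dm (a * b) = 2) (hr : r ^ 3 = 1) (ca : Commute r a) (cb : Commute r b) :
    O.comm b ≤ O.fix r := by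
  obtain ⟨d1, d2⟩ := lines h2 ha hb c da db dab
  obtain ⟨n1, n2⟩ := T2.nd_inf h2 ha (nd_comm_inv (nd_Q h2) h2 hb).1 (T2.stab_comm c)
  have k : ∀ X : Submodule K (V K), finrank K X = 1 → ND ((Q K).restrict X) → r ∈ stabS X → X ≤ O.fix r :=
    fun X d n s => by
      obtain ⟨v, hv, rfl⟩ := T2.line h2 d n
      exact (Submodule.span_singleton_le_iff_mem _ _).2
        (O.mem_fix.2 (fix_of_line (by decide) hr hv (s v (Submodule.mem_span_singleton_self v))))
  exact T2.dec h2 ha (T2.stab_comm c) (k _ d1 n1 (T2.stab_inf (T2.stab_comm cb) (T2.stab_fix ca)))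
    (k _ d2 n2 (T2.stab_inf (T2.stab_comm cb) (T2.stab_comm ca)))

theorem dm_mul_lt (h2 : (2 : K) ≠ 0) (ha : a * a = 1) (hb : b * b = 1) {v : V K} (h0 : v ≠ 0)
    (e1 : a.1 v = -v) (e2 : b.1 v = -v) : dm (a * b) < dm a + dm b := by
  have l : O.comm (a * b) ≤ O.comm a ⊔ O.comm b := fun x hx => by
    obtain ⟨y, rfl⟩ := O.mem_comm.1 hx
    rw [O.mul_apply, ← sub_add_sub_cancel _ (b.1 y)]
    exact Submodule.add_mem_sup (O.sub_mem_comm a _) (O.sub_mem_comm b _)
  have d1 := Submodule.finrank_mono l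
  have d2 := Submodule.finrank_sup_add_finrank_inf_eq (O.comm a) (O.comm b)
  have d3 : finrank K ↥(O.comm a ⊓ O.comm b) ≠ 0 := fun e => h0 ((Submodule.eq_bot_iff _).1
    (Submodule.finrank_eq_zero.1 e) v ⟨(mem_comm_inv h2 ha).2 e1, (mem_comm_inv h2 hb).2 e2⟩)
  unfold dm; omega

/-- An even permutation. -/
abbrev a8 (σ : Perm (Fin 8)) (h : sign σ = 1 := by decide +kernel) : alternatingGroup (Fin 8) := ⟨σ, h⟩

/-- The four-groups on `0..3` and `4..7`. -/
def k0 : Fin 4 → Perm (Fin 8) := ![1, swap 0 1 * swap 2 3, swap 0 2 * swap 1 3, swap 0 3 * swap 1 2]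
/-- The four-groups on `0..3` and `4..7`. -/
def k1 : Fin 4 → Perm (Fin 8) := ![1, swap 4 5 * swap 6 7, swap 4 6 * swap 5 7, swap 4 7 * swap 5 6]
/-- The elements of `V₄ × V₄'`. -/
def el (x : Fin 4 × Fin 4) : alternatingGroup (Fin 8) := a8 (k0 x.1 * k1 x.2) (by revert x; decide +kernel)

/-- The group `V₄ × V₄'`. -/
def E16 : Subgroup (alternatingGroup (Fin 8)) where
  carrier := Set.range el
  mul_mem' := by
    rintro _ _ ⟨x, rfl⟩ ⟨y, rfl⟩
    exact (by decide +kernel : ∀ x y, ∃ z, el z = el x * el y) x y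
  one_mem' := ⟨0, by decide +kernel⟩
  inv_mem' := by
    rintro _ ⟨x, rfl⟩
    exact ⟨x, (by decide +kernel : ∀ x, el x = (el x)⁻¹) x⟩

theorem el_inj : Function.Injective el := by decide +kernel

variable {f : alternatingGroup (Fin 8) →* O (Q K)}

theorem dm_two (h : Pre M) (hf : Function.Injective f) (hM : ∀ x, f x ∈ M) {σ : alternatingGroup (Fin 8)}
    (hσ : σ.1.cycleType = {2, 2}) : dm (f σ) = 2 := by
  have c : ∀ {x y : alternatingGroup (Fin 8)}, x.1.cycleType = y.1.cycleType → 2 ∈ x.1.cycleType →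
      dm (f x) = dm (f y) := fun e1 e2 => dm_of_isConj (f.map_isConj (conj_of_two e1 e2))
  have q : ∀ x, f (el x) * f (el x) = 1 := fun x => by
    rw [← map_mul, (by decide +kernel : ∀ x, el x * el x = 1) x, map_one]
  have n : ∀ x, x ≠ 0 → f (el x) ≠ 1 := fun x hx e =>
    (by decide +kernel : ∀ x, x ≠ 0 → el x ≠ 1) x hx (hf (e.trans f.map_one.symm))
  let T : Finset (Fin 4 × Fin 4) := {(1, 0), (2, 0), (3, 0), (0, 1), (0, 2), (0, 3)}
  have k := h.count16 (E := E16.map f) (by rintro _ ⟨x, -, rfl⟩; exact hM x)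
    (by rintro _ ⟨_, ⟨x, rfl⟩, rfl⟩; exact q x)
    (by rw [Subgroup.card_map_of_injective hf]; exact (Nat.card_range_of_injective el_inj).trans (by simp))
    (S := (f ∘ el) '' T) (by rintro _ ⟨x, -, rfl⟩; exact ⟨_, ⟨x, rfl⟩, rfl⟩)
    (by rintro ⟨x, hx, e⟩; exact n x (by rintro rfl; exact absurd (Finset.mem_coe.1 hx) (by decide)) e)
    (n := 6) (a := dm (f (el (1, 0)))) (b := dm (f (el (1, 1))))
    (by rw [Set.ncard_image_of_injective _ (hf.comp el_inj), Set.ncard_coe_finset]; rfl)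
    (by
      rintro _ ⟨x, hx, rfl⟩
      have := (by decide +kernel : ∀ x ∈ T, (el x).1.cycleType = (el (1, 0)).1.cycleType ∧
        2 ∈ (el x).1.cycleType) x hx
      exact c this.1 this.2)
    (by
      rintro _ ⟨_, ⟨x, rfl⟩, rfl⟩ h1 hx
      have := (by decide +kernel : ∀ x, x ∉ T → el x ≠ 1 → (el x).1.cycleType = (el (1, 1)).1.cycleType ∧
        2 ∈ (el x).1.cycleType) x (fun e => hx ⟨x, e, rfl⟩) (fun e => h1 (by rw [e, map_one]))
      exact c this.1 this.2)
  rw [c (y := el (1, 0)) (hσ.trans (by decide +kernel)) (by rw [hσ]; decide)]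
  have a1 := h.dm_inv (hM _) (q (1, 0)) (n _ (by decide))
  have a2 := h.dm_inv (hM _) (q (1, 1)) (n _ (by decide))
  omega

theorem dm_three (h : Pre M) (hf : Function.Injective f) (hM : ∀ x, f x ∈ M) :
    dm (f (a8 (swap 0 1 * swap 0 2))) = 2 := by
  let s := a8 (swap 0 1 * swap 4 5)
  let t := a8 (swap 0 2 * swap 4 5)
  have d := fun σ => dm_two h hf hM (σ := σ)
  have q : ∀ {x}, x * x = 1 → f x * f x = 1 := fun e => by rw [← map_mul, e, map_one]
  have c : ∀ {x y}, x * y = y * x → Commute (f x) (f y) := fun e => Commute.map e f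
  have qs := q (x := s) (by decide +kernel)
  have qt := q (x := t) (by decide +kernel)
  have qu := q (x := el (0, 1)) (by decide +kernel)
  have du := d (el (0, 1)) (by decide +kernel)
  have ds := d s (by decide +kernel)
  have dt := d t (by decide +kernel)
  have l := comm_le_fix h.two (q (x := el (0, 2)) (by decide +kernel)) qu (c (by decide +kernel))
    (d _ (by decide +kernel)) du (by rw [← map_mul]; exact d _ (by decide +kernel)) (r := f (s * t))
    (by rw [← map_pow, show (s * t) ^ 3 = 1 by decide +kernel, map_one]) (c (by decide +kernel))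
    (c (by decide +kernel))
  obtain ⟨-, d1⟩ := lines h.two qs qu (c (by decide +kernel)) ds du
    (by rw [← map_mul]; exact d _ (by decide +kernel))
  obtain ⟨⟨v, v1, v2⟩, v0⟩ := (finrank_pos_iff_exists_ne_zero (R := K)).1 (d1.ge : 0 < _)
  have e1 := (mem_comm_inv h.two qs).1 v2
  have e2 : (f t).1 v = -v := by
    rw [show t = s * (s * t) by decide +kernel, map_mul, O.mul_apply, O.mem_fix.1 (l v1), e1]
  have a1 := dm_mul_lt h.two qs qt (fun e => v0 (Subtype.ext e)) e1 e2
  rw [← map_mul] at a1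
  have a2 := even_dm (nd_Q h.two) h.two (h.det _ (hM (s * t)))
  have a3 : dm (f (s * t)) ≠ 0 := fun e =>
    absurd (hf ((dm_eq_zero.1 e).trans f.map_one.symm)) (by decide +kernel)
  rw [show a8 (swap 0 1 * swap 0 2) = s * t by decide +kernel]
  obtain ⟨n, hn⟩ := a2
  omega

theorem dm_cyc {n : ℕ} (h : Pre M) (hn : 8 ≤ n) {g : alternatingGroup (Fin n) →* O (Q K)}
    (hg : Function.Injective g) (hM : ∀ x, g x ∈ M) {c : alternatingGroup (Fin n)} (hc : c.1.IsThreeCycle) :
    dm (g c) = 2 := by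
  let ι := (Fin.castLEEmb hn).toEquivRange
  let φ : alternatingGroup (Fin 8) →* alternatingGroup (Fin n) :=
    ((extendDomainHom ι).comp (Subgroup.subtype _)).codRestrict _ fun x =>
      (sign_extendDomain x.1 ι).trans x.2
  have i : Function.Injective φ := fun x y e =>
    Subtype.ext (extendDomainHom_injective ι (congrArg Subtype.val e))
  rw [← dm_three (f := g.comp φ) h (hg.comp i) fun x => hM _]
  refine dm_of_isConj (g.map_isConj (alternatingGroup.isThreeCycle_isConj (by simp; omega) hc ?_))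
  exact (cycleType_extendDomain ι).trans (by decide +kernel)

end Cyc

end Cfsg.Lib.O7.End
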