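import Cfsg.Agent.Lib.O7.Hur
import Cfsg.Agent.Lib.O7.SL
import Cfsg.Prelude.Def_Sz
import Cfsg.Agent.Lib.U3.Model
import Cfsg.Agent.Lib.Sz.Instances

/-!
# `L₂(16)`, `L₃(4)`, `U₃(4)`, `Sz(8)`, `L₂(8)` (BRANCH STUB of `docs/O7.md`; the filler may add files `O7/Ev1 ...` and imports)
-/

set_option autoImplicit false

namespace Cfsg.Lib.O7

open QuadraticMap Module Matrix Cfsg.Lib.Orth
open scoped MatrixGroups commutatorElement
open Cfsg.Lib.PSL2

variable {K : Type*} [Field K] [IsAlgClosed K] {M : Subgroup (O (Q K))}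
  {E : Type*} [Field E] [Fintype E]

omit [IsAlgClosed K] in
theorem ev_pure {X A : Type*} [Group X] [AddGroup A] {f : X →* O (Q K)} (hf : Function.Injective f) (fm : ∀ x, f x ∈ M)
    (u : A → X) (hu : ∀ a b, u (a + b) = u a * u b) (i : ∀ a, u a = 1 → a = 0) (two : ∀ a : A, a + a = 0)
    (cj : ∀ a b, a ≠ 0 → b ≠ 0 → IsConj (u a) (u b)) : ∃ D ≤ M, (∀ g ∈ D, g * g = 1) ∧ Nat.card D = Nat.card A ∧
      (∀ g ∈ D, ∀ g' ∈ D, g ≠ 1 → g' ≠ 1 → dm g = dm g') ∧ ∀ g, g ∈ D ↔ ∃ a, f (u a) = g := by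
  let φ : Multiplicative A →* O (Q K) := f.comp (MonoidHom.mk' (fun a => u a.toAdd) fun a b => hu _ _)
  have hi : Function.Injective φ := hf.comp ((injective_iff_map_eq_one _).2 i)
  refine ⟨φ.range, by rintro _ ⟨a, rfl⟩; exact fm _, ?_, (Nat.card_congr (MonoidHom.ofInjective hi).toEquiv).symm, ?_,
    fun _ => Iff.rfl⟩
  · rintro _ ⟨a, rfl⟩
    rw [← map_mul, show a * a = 1 from two a.toAdd, map_one]
  · rintro _ ⟨a, rfl⟩ _ ⟨b, rfl⟩ ha hb
    exact dm_of_isConj (f.map_isConj (cj _ _ (fun e => ha (by rw [show a = 1 from e, map_one]))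
      fun e => hb (by rw [show b = 1 from e, map_one])))

theorem ev_two {n : ℕ} (hE : Fintype.card E = 2 ^ n) : (2 : E) = 0 :=
  haveI := Sz.charP_of_card hE
  CharTwo.two_eq_zero

theorem ev_sqrt (t : (2 : E) = 0) {a : E} (h : a ≠ 0) : ∃ c : Eˣ, (c : E) ^ 2 = a := by
  haveI := CharTwo.of_one_ne_zero_of_two_eq_zero one_ne_zero t
  obtain ⟨c, rfl⟩ := FiniteField.isSquare_of_char_two (ringChar.eq E 2) a
  exact ⟨.mk0 c (left_ne_zero_of_mul h), pow_two c⟩

omit [IsAlgClosed K] in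
theorem ev_upper (t : (2 : E) = 0) (e : M ≃* PSL(2, E)) : ∃ D ≤ M, (∀ g ∈ D, g * g = 1) ∧ Nat.card D = Fintype.card E ∧
    (∀ g ∈ D, ∀ g' ∈ D, g ≠ 1 → g' ≠ 1 → dm g = dm g') ∧ ∀ g, g ∈ D ↔ ∃ a, (emb e).comp toL (upper a) = g := by
  rw [← Nat.card_eq_fintype_card]
  refine ev_pure (f := (emb e).comp toL) ((emb_injective e).comp (toL_injective t)) (fun _ => emb_mem e _) upper
    (fun a b => (upper_mul a b).symm) (fun a h => by simpa using congrArg (fun s : SL(2, E) => s.1 0 1) h)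
    (fun a => by rw [← two_mul, t, zero_mul]) fun a b ha hb => ?_
  obtain ⟨c, hc⟩ := ev_sqrt t (div_ne_zero hb ha)
  exact isConj_iff.2 ⟨dS c, by rw [dS_upper, mul_inv_cancel_right, hc, div_mul_cancel₀ _ ha]⟩

omit [IsAlgClosed K] in
/-- An element of order seven permuting an orthogonal frame cyclically is conjugate to its square. -/
theorem ev_conj (h2 : (2 : K) ≠ 0) {c : O (Q K)} (hc : c ^ 7 = 1) {v : V K} (hv : Q K v ≠ 0)
    (ho : ∀ i : ℕ, 0 < i → i < 7 → polar (Q K) v ((c ^ i).1 v) = 0) : IsConj c (c ^ 2) := by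
  let w (i : Fin 7) : V K := (c ^ i.1).1 v
  have pw : ∀ i j : Fin 7, w (i + j) = (c ^ i.1).1 (w j) := fun i j => by
    simp only [w]
    rw [← O.mul_apply, ← pow_add, Fin.val_add, ← pow_eq_pow_mod _ hc]
  have po : ∀ i j, polar (Q K) (w i) (w j) = if i = j then 2 * Q K v else 0 := fun i j => by
    obtain ⟨k, rfl⟩ : ∃ k, j = i + k := ⟨j - i, by abel⟩
    rw [pw, O.map_polar]
    split_ifs with e
    · obtain rfl : k = 0 := by simpa using e
      simp [w, O.one_apply, two_mul]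
    · exact ho _ (Fin.pos_iff_ne_zero.2 fun z => e (by simp [z])) k.2
  have li : LinearIndependent K w := LinearMap.linearIndependent_of_isOrthoᵢ (B := polarBilin (Q K))
    (fun i j e => (po i j).trans (if_neg e)) fun i => by
      rw [polarBilin_apply_apply, po, if_pos rfl]; exact mul_ne_zero h2 hv
  let B := basisOfLinearIndependentOfCardEqFinrank li (by simp)
  have hB : ∀ i, B i = w i := fun i => by simp [B]
  let σ : Fin 7 ≃ Fin 7 := Equiv.ofBijective (fun i => i + i) (by decide)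
  let k := B.equiv B σ
  have hk : ∀ i, k (w i) = w (i + i) := fun i => by rw [← hB, ← hB]; exact B.equiv_apply i B σ
  have : (polarBilin (Q K)).compl₁₂ k.toLinearMap k.toLinearMap = polarBilin (Q K) := B.ext fun i => B.ext fun j => by
    change polar (Q K) (k (B i)) (k (B j)) = polar (Q K) (B i) (B j)
    rw [hB, hB, hk, hk, po, po]
    exact if_congr σ.apply_eq_iff_eq rfl rfl
  refine isConj_iff.2 ⟨⟨k, fun x => mul_left_cancel₀ h2 ?_⟩, mul_inv_eq_iff_eq_mul.2 (Subtype.ext (LinearEquiv.toLinearMap_injective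
    (B.ext fun i => ?_)))⟩
  · have e : polar (Q K) (k x) (k x) = polar (Q K) x x := LinearMap.congr_fun₂ this x x
    simpa [two_mul] using e
  · change k (c.1 (B i)) = (c ^ 2).1 (k (B i))
    have e1 : c.1 (w i) = w (1 + i) := by rw [pw]; simp
    have e2 : (c ^ 2).1 (w (i + i)) = w (2 + (i + i)) := (pw 2 _).symm
    rw [hB, e1, hk, hk, e2]
    exact congrArg w ((by decide : ∀ i : Fin 7, 1 + i + (1 + i) = 2 + (i + i)) i)

theorem ev_root (hE : Fintype.card E = 8) : ∃ g : E, g ^ 3 = g + 1 := by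
  have t := ev_two (n := 3) hE
  obtain ⟨x, x0, x1⟩ := Sz.exists_ne_zero_ne_one (m := 1) le_rfl hE
  have e := FiniteField.pow_card x
  rw [hE] at e
  have : x * (x - 1) * ((x ^ 3 - (x + 1)) * ((x + 1) ^ 3 - (x + 1 + 1))) = 0 := by grind
  rcases mul_eq_zero.1 ((mul_eq_zero.1 this).resolve_left (mul_ne_zero x0 (sub_ne_zero.2 x1))) with h | h
  exacts [⟨_, sub_eq_zero.1 h⟩, ⟨_, sub_eq_zero.1 h⟩]

theorem ev_three (hE : Fintype.card E = 8) {b : SL(2, E)} (hb : b ^ 3 = 1) (h1 : b ≠ 1) :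
    IsConj (wS E * upper 1) b := by
  have t := ev_two (n := 3) hE
  have d := sl_det b
  have e : ∀ i j, (b.1 * b.1 * b.1) i j = (1 : Matrix (Fin 2) (Fin 2) E) i j := fun i j => by
    rw [← pow_three']; exact congrFun (congrFun (congrArg Subtype.val hb) i) j
  have e0 := e 0 0
  have e1 := e 0 1
  have e2 := e 1 0
  have e3 := e 1 1
  simp [Matrix.mul_apply, Fin.sum_univ_two] at e0 e1 e2 e3
  have tr : b 0 0 + b 1 1 = 1 := by
    by_contra n
    refine h1 (sl_ext ?_ ?_ ?_ ?_) <;> simp <;> grind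
  have z : b 1 0 ≠ 0 := fun z => by
    have := FiniteField.pow_card (b 0 0)
    rw [hE] at this
    grind
  obtain ⟨c, hc⟩ := ev_sqrt t z
  refine isConj_iff.2 ⟨upper (b 0 0 / b 1 0) * dS c⁻¹, mul_inv_eq_iff_eq_mul.2 ?_⟩
  have c0 := c.ne_zero
  apply sl_ext <;> simp [Matrix.SpecialLinearGroup.coe_mul, Matrix.mul_apply, Fin.sum_univ_two] <;> field_simp <;> grind

theorem ev_gen (hE : Fintype.card E = 8) : ∃ (γ : Eˣ) (a : SL(2, E)), γ ≠ 1 ∧ IsConj (upper 1) a ∧ (a * dS γ) ^ 3 = 1 ∧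
    a * dS γ ≠ 1 ∧ Subgroup.closure {a, a * dS γ} = ⊤ := by
  have t := ev_two (n := 3) hE
  obtain ⟨g, hg⟩ := ev_root hE
  have g0 : g ≠ 0 := by grind
  let γ := Units.mk0 g g0
  have γ1 : γ ≠ 1 := fun e => by
    have : g = 1 := congrArg Units.val e
    grind
  have gi : g⁻¹ = g ^ 2 + 1 := inv_eq_of_mul_eq_one_right (by grind)
  let a : SL(2, E) := ⟨!![g ^ 2, 1; g ^ 2 + g + 1, g ^ 2], by rw [det_fin_two_of]; grind⟩
  have ha : (a : Matrix (Fin 2) (Fin 2) E) = !![g ^ 2, 1; g ^ 2 + g + 1, g ^ 2] := rfl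
  have aa : a * a = 1 := by apply sl_ext <;> simp [ha] <;> grind
  refine ⟨γ, a, γ1, isConj_iff.2 ⟨wS E * upper (g ^ 2 + 1) * wS E, mul_inv_eq_iff_eq_mul.2 ?_⟩, ?_, fun e => ?_, ?_⟩
  · apply sl_ext <;> simp [ha] <;> grind
  · rw [pow_three]; apply sl_ext <;> simp [ha, γ, gi] <;> grind
  · have := congrArg (fun s : SL(2, E) => s.1 0 1) e
    simp [ha, γ, g0] at this
  set H := Subgroup.closure {a, a * dS γ}
  have ma : a ∈ H := Subgroup.subset_closure (.inl rfl)
  have mc : dS γ ∈ H := (H.mul_mem_cancel_left ma).1 (Subgroup.subset_closure (.inr rfl))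
  haveI : Fact (Nat.Prime 7) := ⟨by norm_num⟩
  have md : ∀ μ, dS μ ∈ H := fun μ => by
    obtain ⟨n, rfl⟩ := mem_powers_of_prime_card (p := 7) (g' := μ)
      (by rw [Nat.card_units, Nat.card_eq_fintype_card, hE]) γ1
    induction n with
    | zero => simp only [pow_zero, dS_one]; exact one_mem H
    | succ n ih => simp only [pow_succ, ← dS_mul]; exact mul_mem ih mc
  have m1 : upper (g ^ 2 + 1) ∈ H := by
    convert mul_mem ma (mul_mem (md (γ⁻¹ * γ⁻¹)) (mul_mem ma (mul_mem (md (γ * γ)) ma))) using 1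
    apply sl_ext <;> simp [ha, γ, gi] <;> grind
  have mu : ∀ x, upper x ∈ H := fun x => by
    by_cases x0 : x = 0
    · rw [x0, upper_zero]; exact one_mem H
    obtain ⟨c, hc⟩ := ev_sqrt t (mul_ne_zero x0 g0)
    have := mul_mem (md c) m1
    rwa [dS_upper, H.mul_mem_cancel_right (md c), hc, ← gi, mul_inv_cancel_right₀ g0] at this
  refine eq_top_iff.2 fun s _ => gen_sl (M := H.toSubmonoid) mu (?_ : wS E ∈ H) s
  convert mul_mem (md (γ⁻¹ * γ⁻¹)) (mul_mem (mu (g ^ 4)) (mul_mem ma (mu (g ^ 4)))) using 1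
  apply sl_ext <;> simp [ha, γ, gi] <;> grind

omit [IsAlgClosed K] in
/-- `upper` gives an `E₁₆`, its involutions are conjugate under `dS`: `Pre.no16`. -/
theorem Pre.no_L216 (h : Pre M) (hE : Fintype.card E = 16) (e : M ≃* PSL(2, E)) : False := by
  obtain ⟨D, l, sq, c, d, -⟩ := ev_upper (ev_two (n := 4) hE) e
  exact h.no16 l sq (c.trans hE) d

omit [IsAlgClosed K] in
/-- The transvections `x₁₃(a) x₂₃(b)` form an `E₁₆`, on whose involutions `SL₂(4) ⊕ 1` is transitive. -/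
theorem Pre.no_L34 (h : Pre M) (hE : Fintype.card E = 4) (e : M ≃* PSL(3, E)) : False := by
  have t := ev_two (n := 2) hE
  let u (x : E × E) : SL(3, E) := ⟨!![1, 0, x.1; 0, 1, x.2; 0, 0, 1], by simp [det_fin_three]⟩
  let π : SL(3, E) →* PSL(3, E) := QuotientGroup.mk' _
  have cj : ∀ x, x ≠ 0 → IsConj (u (1, 0)) (u x) := fun ⟨a, b⟩ hx => by
    obtain ⟨p, q, hd⟩ : ∃ p q, a * q - p * b = 1 := by
      by_cases z : a = 0
      · exact ⟨-b⁻¹, 0, by simp [inv_mul_cancel₀ (fun e => hx (Prod.ext z e) : b ≠ 0)]⟩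
      · exact ⟨0, a⁻¹, by simp [z]⟩
    refine isConj_iff.2 ⟨⟨!![a, p, 0; b, q, 0; 0, 0, 1], by simpa [det_fin_three] using hd⟩,
      mul_inv_eq_iff_eq_mul.2 (Subtype.ext ?_)⟩
    change !![a, p, 0; b, q, 0; 0, 0, 1] * !![1, 0, 1; 0, 1, 0; 0, 0, 1] =
      !![1, 0, a; 0, 1, b; 0, 0, 1] * !![a, p, 0; b, q, 0; 0, 0, 1]
    simp
  obtain ⟨D, l, sq, c, d, -⟩ := ev_pure (emb_injective e) (emb_mem e) (fun x => π (u x))
    (fun x y => by rw [← map_mul]; exact congrArg π (Subtype.ext (by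
      simp only [Matrix.SpecialLinearGroup.coe_mul]; simp [u, add_comm])))
    (fun x hx => by
      obtain ⟨r, -, hr⟩ := Matrix.SpecialLinearGroup.mem_center_iff.1 ((QuotientGroup.eq_one_iff _).1 hx)
      exact Prod.ext (by simpa [u] using (congrFun (congrFun hr 0) 2).symm)
        (by simpa [u] using (congrFun (congrFun hr 1) 2).symm))
    (fun x => by ext <;> simp [← two_mul, t]) fun x y hx hy => π.map_isConj ((cj x hx).symm.trans (cj y hy))
  exact h.no16 l sq (by rw [c, Nat.card_prod, Nat.card_eq_fintype_card, hE]) d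

omit [IsAlgClosed K] in
/-- `C = S : T`, `S` of order 64, `T` of order 5 centralising the four-group `F = Z(S)`: `C' = S`, `C'' = F`.  `Pre.dm_of_meta` for the three involutions of `F`, then `Four.metab`.
(Lib.Q5A.U3, Lib.U3.Model.) -/
theorem Pre.no_U34 (h : Pre M) (hE : Fintype.card E = 16) (e : M ≃* PSU 3 E 4) : False := by
  have t0 := ev_two (n := 4) hE
  obtain ⟨σ, b⟩ := Unitary.exists_isBar (q := 4) hE
  haveI : Fact (Function.Involutive σ) := ⟨b.invol⟩
  obtain ⟨m, -⟩ := U3.exists_model_PSU b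
  obtain ⟨s, hs, s0, s1⟩ := b.exists_fixed_ne (by norm_num)
  obtain ⟨w, hw⟩ := b.exists_ne
  obtain ⟨a, ha, a1⟩ := b.exists_norm_one_ne_one
  have a0 : a ≠ 0 := left_ne_zero_of_mul_eq_one ha
  have k1 : a ^ 2 / σ a - 1 ≠ 0 := fun z => by
    rw [sub_eq_zero, div_eq_one_iff_eq (right_ne_zero_of_mul_eq_one ha)] at z
    have := b.eq a
    grind
  have h0 : ∀ d, σ d = d → U3.Hs σ 0 d := fun d hd => by simp [U3.Hs, hd, ← two_mul, t0]
  have cu : ∀ d x y, σ d = d → U3.Hs σ x y → Commute (m.u x y) (m.u 0 d) := fun d x y hd hx => by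
    rw [Commute, SemiconjBy, m.u_mul (h0 d hd) hx, m.u_mul hx (h0 d hd)]; simp [add_comm]
  have ch : ∀ d, σ d = d → Commute (m.h a) (m.u 0 d) := fun d hd => mul_inv_eq_iff_eq_mul.1 (by
    rw [m.h_conj_u a0 (h0 d hd), ha, mul_zero, one_mul])
  obtain ⟨d, hdc⟩ : ∃ d, d = σ w - w := ⟨_, rfl⟩
  have hd : σ d = d := by rw [hdc, map_sub, b.invol]; linear_combination (w - σ w) * t0
  have d0 : d ≠ 0 := by simpa [hdc, sub_eq_zero] using hw
  have hd' : σ (s * d) = s * d := by simp [hs, hd]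
  have cj : ∀ c, σ c = c → c ≠ 0 → dm (emb e (m.u 0 d)) = dm (emb e (m.u 0 (c * d))) := fun c hc c0 => by
    obtain ⟨x, hx⟩ := b.exists_norm_eq hc
    exact dm_of_isConj ((emb e).map_isConj (isConj_iff.2 ⟨m.h x, by
      rw [m.h_conj_u (left_ne_zero_of_mul (hx ▸ c0)) (h0 d hd), mul_zero, hx]⟩))
  have sq : ∀ d, σ d = d → emb e (m.u 0 d) * emb e (m.u 0 d) = 1 := fun d hd => by
    rw [← map_mul, m.u_mul (h0 d hd) (h0 d hd)]; simp [← two_mul, t0, m.u_zero]
  let C := Subgroup.centralizer {emb e (m.u 0 d), emb e (m.u 0 (s * d))}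
  have mC : ∀ x, (∀ d, σ d = d → Commute x (m.u 0 d)) → emb e x ∈ C := fun x hx => by
    rintro _ (rfl | rfl)
    exacts [((hx _ hd).map (emb e)).symm.eq, ((hx _ hd').map (emb e)).symm.eq]
  have key : ∀ z, ∃ y, U3.Hs σ z y ∧ emb e (m.u z y) ∈ ⁅C, C⁆ := fun z => by
    obtain ⟨y, hy⟩ := U3.exists_hs' b (z / (a ^ 2 / σ a - 1))
    have := Subgroup.commutator_mem_commutator (mC _ ch) (mC _ fun d hd => cu d _ _ hd hy)
    have e1 : a ^ 2 / σ a * (z / (a ^ 2 / σ a - 1)) + -(z / (a ^ 2 / σ a - 1)) = z := by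
      rw [← sub_eq_add_neg, ← sub_one_mul, mul_div_cancel₀ _ k1]
    have hz := (hy.tor a0).mul hy.inv
    rw [← map_commutatorElement, commutatorElement_def, m.h_conj_u a0 hy, m.u_inv hy, m.u_mul (hy.tor a0) hy.inv] at this
    rw [e1] at this hz
    exact ⟨_, hz, this⟩
  obtain ⟨x, hx, mx⟩ := key 1
  obtain ⟨y, hy, my⟩ := key w
  have mm := Subgroup.commutator_mem_commutator mx my
  have e1 : ⁅m.u 1 x, m.u w y⁆ = m.u 0 d := by
    rw [commutatorElement_def, mul_assoc, ← _root_.mul_inv_rev, mul_inv_eq_iff_eq_mul, m.u_mul hx hy, m.u_mul hy hx,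
      m.u_mul (h0 d hd) (hy.mul hx), hdc]
    congr 1
    · ring
    · simp; ring
  rw [← map_commutatorElement, e1] at mm
  have n1 : emb e (m.u 0 d) ≠ 1 := fun z => d0 ((m.u_eq_one (h0 d hd)).1 (emb_injective e (z.trans (map_one _).symm)))
  have c1 : ∀ x ∈ C, Commute x (emb e (m.u 0 d)) := fun x hx => (hx _ (.inl rfl)).symm
  have d4 := h.dm_of_meta (emb_mem e _) (sq d hd) n1 c1 mm
  have F : Four (emb e (m.u 0 d)) (emb e (m.u 0 (s * d))) := ⟨h.two, sq _ hd, sq _ hd',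
    (cu _ _ _ hd' (h0 d hd)).map _, d4, (cj s hs s0).symm.trans d4, by
      rw [← map_mul, m.u_mul (h0 d hd) (h0 _ hd'), add_zero, zero_mul, add_zero, ← one_add_mul,
        ← cj _ (by simp [hs]) fun z => s1 (by linear_combination z - t0), d4]⟩
  rw [F.metab c1 fun x hx => (hx _ (.inr rfl)).symm] at mm
  exact n1 mm

omit [IsAlgClosed K] in
/-- `Z(S) = E₈` is pure (torus of order seven) and centralised by elements of order four: `Pre.dm_of_eight`, `sq_eq_one_of_eight` (Lib.Sz). -/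
theorem Pre.no_Sz8 (h : Pre M) (hE : Fintype.card E = 2 ^ (2 * 1 + 1)) (e : M ≃* Lie.Sz E (2 ^ (1 + 1))) : False := by
  have t := ev_two hE
  let m := (Sz.titsOfCard hE).modelGL (Lie.Sz E (2 ^ (1 + 1))) (Sz.Tits.mem_lieSz _ (Sz.titsOfCard_σ hE))
  have cj : ∀ b, b ≠ 0 → IsConj (m.u 0 1) (m.u 0 b) := fun b hb => by
    obtain ⟨x, hx⟩ := Finite.injective_iff_surjective.1
      (fun _ _ e => m.toTits.σ_mul_sq_inj e : Function.Injective fun x : E => m.σ x * x ^ 2) b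
    have x0 : x ≠ 0 := fun z => hb (by simp [← hx, z])
    exact isConj_iff.2 ⟨m.h (.mk0 x x0), by rw [m.h_conj_u, mul_zero, mul_one]; exact congrArg _ hx⟩
  obtain ⟨D, l, sq, c, d, mem⟩ := ev_pure (emb_injective e) (emb_mem e) (m.u 0)
    (fun a b => by simp [m.u_mul_u]) (fun a h => (m.u_eq_one.1 h).2) (fun a => by rw [← two_mul, t, zero_mul])
    fun x y hx hy => (cj x hx).symm.trans (cj y hy)
  have c8 : Nat.card D = 8 := by rw [c, Nat.card_eq_fintype_card, hE]; rfl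
  have := sq_eq_one_of_eight h.two sq c8 (h.dm_of_eight l sq c8 d) (x := emb e (m.u 1 0)) fun g hg => by
    obtain ⟨a, rfl⟩ := (mem g).1 hg
    exact Commute.map (by simp [Commute, SemiconjBy, m.u_mul_u]) (emb e)
  rw [← map_mul, m.u_sq, map_eq_one_iff _ (emb_injective e), m.u_eq_one] at this
  simp at this

/-- All involutions have type four (`upper`, `Pre.dm_of_eight`).  `M = ⟨a, b⟩`, `a² = b³ = (a b)⁷ = 1` (`a = upper x`, `b = [[0,1],[1,1]]`, suitable `x`); all elements of order three are conjugate.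
The element `c = dS g` of order seven permutes the seven lines of `exists_frame8` cyclically, so has each seventh root of unity once as an eigenvalue (`p ≠ 7`): `fx c = 1`, and
its lift of order seven has `fx ≥ 2` on `W` (`exists_conj_tor`: `μ = ζ^(±1), ζ^(±2), ζ^(±4)`; `p = 7`: `fx_nine`); all elements of order seven are conjugate to powers of `c`.  As in `Rep.hur`, `Irr.scott` on `W` excludes `fx b̂ ≥ 4`, so `3 ≠ 0` and `dm b ≠ 4` (`fx_three`);
`Irr.scott` on `V` (`3 + fx b + 1 ≤ 7`, `fx ≥ 1` for order seven as `dm` is even) excludes `dm b ≤ 2`. -/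
theorem Rep.of_L28 (h : Rep M) (hE : Fintype.card E = 8) (e : M ≃* PSL(2, E)) :
    (3 : K) ≠ 0 ∧ ∀ b ∈ M, b ^ 3 = 1 → b ≠ 1 → dm b = 6 := by
  have t := ev_two (n := 3) hE
  obtain ⟨D, l, sq, c, d, mem⟩ := ev_upper t e
  set f := (emb e).comp toL
  have fi : Function.Injective f := (emb_injective e).comp (toL_injective t)
  have fr : f.range = M := by
    rw [MonoidHom.range_comp, MonoidHom.range_eq_top.2 toL_surjective, ← MonoidHom.range_eq_map, range_emb]
  have d4 := h.dm_of_eight l sq (c.trans hE) d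
  obtain ⟨γ, a, γ1, ca, b3, b1, gen⟩ := ev_gen hE
  have hl : M = Subgroup.closure {f a, f (a * dS γ)} := by
    rw [← fr, MonoidHom.range_eq_map, ← gen, MonoidHom.map_closure, Set.image_pair]
  have da : dm (f a) = 4 := (dm_of_isConj (f.map_isConj ca)).symm.trans (d4 _ ((mem _).2 ⟨1, rfl⟩) fun z => by
    simpa using congrArg (fun s : SL(2, E) => s.1 0 1) (fi (z.trans (map_one f).symm)))
  have aa : a * a = 1 := by
    obtain ⟨k, rfl⟩ := isConj_iff.1 ca
    rw [conj_mul, upper_mul, one_add_one_eq_two, t, upper_zero, mul_one, mul_inv_cancel]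
  have ab : f a * f (a * dS γ) = f (dS γ) := by rw [← map_mul, ← mul_assoc, aa, one_mul]
  have pw : ∀ n, dS γ ^ n = dS (γ ^ n) := fun n => by
    induction n with
    | zero => rw [pow_zero, pow_zero, dS_one]
    | succ n ih => rw [pow_succ, ih, dS_mul, pow_succ]
  haveI : Fact (Nat.Prime 7) := ⟨by norm_num⟩
  have γ7 : γ ^ 7 = 1 := by
    have := pow_card_eq_one' (x := γ)
    rwa [Nat.card_units, Nat.card_eq_fintype_card, hE] at this
  have c7 : f (dS γ) ^ 7 = 1 := by rw [← map_pow, pw, γ7, dS_one, map_one]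
  obtain ⟨B, χ, -, χ1, q0, -, ev⟩ := exists_frame8 h.two sq (c.trans hE) d4
  have cc : IsConj (f (dS γ)) (f (dS γ) ^ 2) := ev_conj h.two c7 (q0 0) fun i i0 i7 => by
    by_contra n
    rw [← map_pow, pw] at n
    obtain ⟨ε, hε⟩ : ∃ ε : E → K, ∀ x, (f (upper x)).1 (B 0) = ε x • B 0 := ⟨_, fun x => ev 0 ⟨_, (mem _).2 ⟨x, rfl⟩⟩⟩
    have s1 : ((γ ^ i : Eˣ) : E) ^ 2 + 1 ≠ 0 := fun z => by
      have : γ ^ (i * 2) = 1 := Units.ext (by rw [pow_mul]; push_cast at z ⊢; linear_combination z - t)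
      rw [← orderOf_dvd_iff_pow_eq_one, orderOf_eq_prime γ7 γ1] at this
      omega
    refine χ1 0 (MonoidHom.ext fun ⟨g, hg⟩ => ?_)
    obtain ⟨x, rfl⟩ := (mem g).1 hg
    obtain ⟨y, rfl⟩ : ∃ y, x = ((γ ^ i : Eˣ) : E) ^ 2 * y + y := ⟨x / (((γ ^ i : Eˣ) : E) ^ 2 + 1), by
      rw [← add_one_mul, mul_div_cancel₀ _ s1]⟩
    have e1 := O.map_polar (f (upper (((γ ^ i : Eˣ) : E) ^ 2 * y))) (B 0) ((f (dS (γ ^ i))).1 (B 0))
    rw [← O.mul_apply, ← map_mul, ← dS_upper, map_mul, O.mul_apply, hε, hε, map_smul, polar_smul_left, polar_smul_right,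
      smul_smul, smul_eq_mul, mul_eq_right₀ n] at e1
    have e3 := smul_left_injective K (B.ne_zero 0) ((show (1 : K) • B 0 = (f (upper _)).1 (B 0) by
      rw [← upper_mul, map_mul, O.mul_apply, hε, map_smul, hε, smul_smul, mul_comm, e1]).trans (ev 0 ⟨_, hg⟩))
    rcases Int.units_eq_one_or (χ 0 ⟨_, hg⟩) with z | z
    · exact z
    · rw [z] at e3
      exact (h.two (by push_cast at e3; linear_combination e3)).elim
  have key : ¬((3 : K) = 0 ∨ dm (f (a * dS γ)) = 4) := fun db => h.hur hl (by rw [← map_mul, aa, map_one])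
    (by rw [← map_pow, b3, map_one]) da db (r := 7) (m := 2) (by norm_num) (by norm_num) (ab ▸ c7)
    (.inr ⟨by norm_num, ab ▸ cc⟩)
  refine ⟨fun z => key (.inl z), fun b hb e3 e1 => ?_⟩
  obtain ⟨b, rfl⟩ := fr.ge hb
  rw [← dm_of_isConj (f.map_isConj ((ev_three hE b3 b1).symm.trans (ev_three hE (fi (by rwa [map_pow, map_one]))
    fun z => e1 (by rw [z, map_one]))))]
  have s := h.irrV.scott (by rw [finrank_V]; norm_num) hl.le
  obtain ⟨k, hk⟩ := even_dm (nd_Q h.two) h.two (h.det _ (fr.le ⟨a * dS γ, rfl⟩))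
  obtain ⟨k', hk'⟩ := even_dm (nd_Q h.two) h.two (h.det _ (fr.le ⟨dS γ, rfl⟩))
  have h1 := dm_add_fx (f a)
  have h2 := dm_add_fx (f (a * dS γ))
  have h3 := dm_add_fx (f (dS γ))
  have h4 := fun z => key (.inr z)
  rw [ab] at s
  rw [finrank_V] at s h1 h2 h3
  omega

end Cfsg.Lib.O7
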