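import Cfsg.Agent.Lib.O7.Psi
import Cfsg.Agent.Lib.PSL2.SL
import Cfsg.Agent.Lib.PSL2.SmallIso

/-!
# The projections `fA fB fC : Cz → PSL₂(K)` (`docs/O7.md`)
-/

set_option autoImplicit false

namespace Cfsg.Lib.O7

open QuadraticMap Module Matrix Cfsg.Lib.Orth Cfsg.Lib.Oct Cfsg.Lie
open scoped MatrixGroups

variable {K : Type*} [Field K]

/-- The defining property of the projections. -/
def F3 (fA fB fC : Cz K →* PSL(2, K)) : Prop := ∀ (a : S3 K) (x : Cz K), x.1 = phi (psi3 a) →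
  fA x = QuotientGroup.mk a.1 ∧ fB x = QuotientGroup.mk a.2.1 ∧ fC x = QuotientGroup.mk a.2.2

theorem exists_F3 (h2 : (2 : K) ≠ 0) : ∃ fA fB fC : Cz K →* PSL(2, K), F3 fA fB fC := exists_f3 h2

section PSL

variable (h2 : (2 : K) ≠ 0)
include h2

omit h2 in
theorem mk_eq_one {A : SL(2, K)} : (QuotientGroup.mk A : PSL(2, K)) = 1 ↔ A = 1 ∨ A = -1 :=
  PSL2.toL_eq_one_iff

omit h2 in
theorem f3_comm {A X Y : SL(2, K)} (h1 : A ≠ 1) (h2 : A ≠ -1) (hX : Commute X A) (hY : Commute Y A) : Commute X Y := by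
  have m : ∀ (X Y : SL(2, K)) i j, (X * Y) i j = X i 0 * Y 0 j + X i 1 * Y 1 j := fun X Y i j =>
    (mul_apply (M := X.1) (N := Y.1)).trans (Fin.sum_univ_two _)
  have k : ∀ {X Y : SL(2, K)}, Commute X Y ↔ X 0 1 * Y 1 0 = Y 0 1 * X 1 0 ∧ X 0 1 * (Y 0 0 - Y 1 1) = Y 0 1 * (X 0 0 - X 1 1) ∧
      X 1 0 * (Y 0 0 - Y 1 1) = Y 1 0 * (X 0 0 - X 1 1) := fun {X Y} => by
    refine ⟨fun e => ?_, fun ⟨a, b, c⟩ => PSL2.sl_ext ?_ ?_ ?_ ?_⟩
    · have f : ∀ i j, (X * Y) i j = (Y * X) i j := fun i j => by rw [e.eq]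
      have a := f 0 0
      have b := f 0 1
      have c := f 1 0
      rw [m, m] at a b c
      exact ⟨by linear_combination a, by linear_combination -b, by linear_combination c⟩
    all_goals rw [m, m]
    exacts [by linear_combination a, by linear_combination -b, by linear_combination c, by linear_combination -a]
  obtain ⟨a, b, c⟩ := k.1 hX
  obtain ⟨a', b', c'⟩ := k.1 hY
  have n : A 0 1 ≠ 0 ∨ A 1 0 ≠ 0 ∨ A 0 0 - A 1 1 ≠ 0 := by
    by_contra! n
    have d := PSL2.sl_det A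
    rw [n.1, zero_mul, sub_zero, ← sub_eq_zero.1 n.2.2] at d
    exact (mul_self_eq_one_iff.1 d).elim (fun e => h1 (PSL2.sl_ext e n.1 n.2.1 ((sub_eq_zero.1 n.2.2).symm.trans e)))
      fun e => h2 (PSL2.sl_ext (by simpa using e) (by simpa using n.1) (by simpa using n.2.1)
        (by simpa using (sub_eq_zero.1 n.2.2).symm.trans e))
  refine k.2 ?_
  rcases n with n | n | n <;> refine ⟨mul_left_cancel₀ n ?_, mul_left_cancel₀ n ?_, mul_left_cancel₀ n ?_⟩
  · linear_combination Y 0 1 * a - X 0 1 * a'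
  · linear_combination Y 0 1 * b - X 0 1 * b'
  · linear_combination Y 1 0 * b - X 0 1 * c' - (Y 0 0 - Y 1 1) * a
  · linear_combination Y 1 0 * a - X 1 0 * a'
  · linear_combination Y 0 1 * c - X 1 0 * b' + (Y 0 0 - Y 1 1) * a
  · linear_combination Y 1 0 * c - X 1 0 * c'
  · linear_combination Y 1 0 * b - Y 0 1 * c - (X 0 0 - X 1 1) * a'
  · linear_combination (Y 0 0 - Y 1 1) * b - (X 0 0 - X 1 1) * b'
  · linear_combination (Y 0 0 - Y 1 1) * c - (X 0 0 - X 1 1) * c'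

omit h2 in
theorem f3_pm {A X : SL(2, K)} (h : Commute (PSL2.toL X) (PSL2.toL A)) : X * A = A * X ∨ X * A = -(A * X) :=
  PSL2.toL_eq_iff.1 (by rw [map_mul, map_mul, h.eq])

theorem f3_sq {A : SL(2, K)} (h : PSL2.toL A * PSL2.toL A = 1) (n : PSL2.toL A ≠ 1) : A * A = -1 :=
  (PSL2.toL_eq_one_iff.1 ((map_mul ..).trans h)).resolve_left fun e =>
    n (PSL2.toL_eq_one_iff.2 (PSL2.eq_one_or_neg_one_of_mul_self h2 e))

theorem f3_four {a b x : PSL(2, K)} (ha : a * a = 1) (hb : b * b = 1) (a1 : a ≠ 1) (b1 : b ≠ 1) (n : a ≠ b) (c : Commute a b)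
    (xa : Commute x a) (xb : Commute x b) : x = 1 ∨ x = a ∨ x = b ∨ x = a * b := by
  obtain ⟨A, rfl⟩ := PSL2.toL_surjective a
  obtain ⟨B, rfl⟩ := PSL2.toL_surjective b
  obtain ⟨X, rfl⟩ := PSL2.toL_surjective x
  have m : ¬ Commute A B := fun e => n (by
    rw [← inv_eq_of_mul_eq_one_right hb, eq_inv_iff_mul_eq_one, ← map_mul, PSL2.toL_eq_one_iff]
    exact PSL2.eq_one_or_neg_one_of_mul_self h2 (by
      rw [e.symm.mul_mul_mul_comm, f3_sq h2 ha a1, f3_sq h2 hb b1, neg_mul_neg, one_mul]))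
  have e := (f3_pm c).resolve_left m
  have k : ∀ Y, Y * A = A * Y → Y * B = B * Y → PSL2.toL Y = 1 := fun Y i j => PSL2.toL_eq_one_iff.2 (by
    by_contra! o
    exact m (f3_comm o.1 o.2 i.symm j.symm))
  have s : ∀ {u v : PSL(2, K)}, v * v = 1 → u * v = 1 → u = v := fun i j => mul_right_cancel (j.trans i.symm)
  rcases f3_pm xa with i | i <;> rcases f3_pm xb with j | j
  · exact .inl (k X i j)
  · exact .inr (.inl (s ha ((map_mul ..).symm.trans (k _ (by rw [← mul_assoc, i])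
      (by rw [mul_assoc, e, mul_neg, ← mul_assoc, j, neg_mul, neg_neg, mul_assoc])))))
  · exact .inr (.inr (.inl (s hb ((map_mul ..).symm.trans (k _
      (by rw [mul_assoc, ← neg_neg (B * A), ← e, mul_neg, ← mul_assoc, i, neg_mul, neg_neg, mul_assoc]) (by rw [← mul_assoc, j]))))))
  · refine .inr (.inr (.inr (s (by rw [c.symm.mul_mul_mul_comm, ha, hb, one_mul]) ?_)))
    rw [← map_mul, ← map_mul]
    refine k _ ?_ ?_
    · rw [mul_assoc, mul_assoc, ← neg_neg (B * A), ← e, mul_neg, mul_neg, ← mul_assoc, i, neg_mul, neg_neg, mul_assoc]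
    · rw [← mul_assoc B, ← neg_neg (B * X), ← j, neg_mul, mul_assoc X B, ← mul_assoc B, ← neg_neg (B * A), ← e, neg_mul, mul_neg,
        neg_neg, mul_assoc X]

/-- The centraliser of `x ≠ 1` in `PSL₂(K)` is metabelian: the elements whose lifts commute with a lift `A` of `x` form an
abelian subgroup (they lie in `K[A]`) of index at most two (lifts commute or anticommute with `A`). -/
theorem cent_meta {x : PSL(2, K)} (hx : x ≠ 1) {L : Subgroup PSL(2, K)} (h : ∀ y ∈ L, Commute y x) :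
    ⁅⁅L, L⁆, ⁅L, L⁆⁆ = ⊥ := by
  obtain ⟨A, rfl⟩ := PSL2.toL_surjective x
  have n := not_or.1 (mt PSL2.toL_eq_one_iff.2 hx)
  have l : ⁅L, L⁆ ≤ (Subgroup.centralizer {A}).map PSL2.toL := Subgroup.commutator_le.2 fun y i z j => by
    obtain ⟨Y, rfl⟩ := PSL2.toL_surjective y
    obtain ⟨Z, rfl⟩ := PSL2.toL_surjective z
    refine ⟨Y * Z * Y⁻¹ * Z⁻¹, Subgroup.mem_centralizer_singleton_iff.2 ?_, by
      simp only [map_mul, map_inv, commutatorElement_def]⟩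
    have k : ∀ {Y : SL(2, K)}, Y * A = -(A * Y) → Y⁻¹ * A = -(A * Y⁻¹) := fun e => by
      rw [inv_mul_eq_iff_eq_mul, mul_neg, ← mul_assoc, e, neg_mul, neg_neg, mul_inv_cancel_right]
    have k' : ∀ {Y : SL(2, K)}, Y * A = A * Y → Y⁻¹ * A = A * Y⁻¹ := fun e => (Commute.inv_left e :)
    have m : ∀ {Y : SL(2, K)} {B}, Y * A = B → ∀ U, Y * (A * U) = B * U := fun e U => by rw [← mul_assoc, e]
    rcases f3_pm (h _ i) with a | a <;> rcases f3_pm (h _ j) with b | b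
    · simp only [mul_assoc, k' b, m (k' a), m b, m a]
    · simp only [mul_assoc, k b, m (k' a), m b, m a, mul_neg, neg_mul, neg_neg]
    · simp only [mul_assoc, k' b, m (k a), m b, m a, mul_neg, neg_mul, neg_neg]
    · simp only [mul_assoc, k b, m (k a), m b, m a, mul_neg, neg_mul, neg_neg]
  refine le_bot_iff.1 (Subgroup.commutator_le.2 fun y i z j => ?_)
  obtain ⟨Y, a, rfl⟩ := l i
  obtain ⟨Z, b, rfl⟩ := l j
  exact commutatorElement_eq_one_iff_commute.2 ((f3_comm n.1 n.2 (Subgroup.mem_centralizer_singleton_iff.1 a)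
    (Subgroup.mem_centralizer_singleton_iff.1 b)).map _)

/-- An element commuting with a perfect subgroup `≠ 1` is trivial. -/
theorem eq_one_of_perfect {L : Subgroup PSL(2, K)} (hL : ⁅L, L⁆ = L) (h1 : L ≠ ⊥) {x : PSL(2, K)}
    (h : ∀ y ∈ L, Commute y x) : x = 1 := by
  by_contra hx
  have := cent_meta h2 hx h
  rw [hL, hL] at this
  exact h1 this

/-- The centraliser of an `A₄` is trivial.  Lifts: `A² = -1`, `B = R A R⁻¹` (up to sign) anticommutes with `A`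
(if it commuted, `B = ± A`), so `1, A, B, AB` is a basis of `M₂`; a lift `X` of `x` commutes or anticommutes with `A` and `B`, so is
proportional to one of `1, A, B, AB`; only `1` commutes with `r` in `PSL₂`. -/
theorem eq_one_of_a4 {a r x : PSL(2, K)} (ha : a * a = 1) (h1 : a ≠ 1) (hc : Commute a (r * a * r⁻¹))
    (hr : r * (r * a * r⁻¹) * r⁻¹ = a * (r * a * r⁻¹)) (xa : Commute x a) (xr : Commute x r) : x = 1 := by
  have b2 : r * a * r⁻¹ * (r * a * r⁻¹) = 1 := by rw [← pow_two, conj_pow, pow_two, ha, mul_one, mul_inv_cancel]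
  have b1 : r * a * r⁻¹ ≠ 1 := mt conj_eq_one_iff.1 h1
  have n : a ≠ r * a * r⁻¹ := fun e => b1 (by rw [← e] at hr; rw [hr, ha])
  have k := mul_inv_eq_iff_eq_mul.2 xr.symm.eq
  rcases f3_four h2 ha b2 h1 b1 n hc xa ((xr.mul_right xa).mul_right xr.inv_right) with e | e | e | e
  · exact e
  · exact absurd (e ▸ k).symm n
  · exact absurd (mul_eq_right.1 (hr.symm.trans (e ▸ k))) h1
  · rw [e, ← conj_mul, hr, ← mul_assoc, ← hc.eq, mul_assoc, b2, mul_one] at k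
    exact absurd (left_eq_mul.1 k) b1

/-- `PSL₂(K)` has 2-rank at most two (as above: `E ≤ {1, a, b, ab}`). -/
theorem card_le_four {E : Subgroup PSL(2, K)} [Finite E] (h : ∀ x ∈ E, x * x = 1) : Nat.card E ≤ 4 := by
  have c : ∀ x ∈ E, ∀ y ∈ E, Commute x y := fun x i y j => by
    have := h _ (mul_mem i j)
    rw [← inv_eq_iff_mul_eq_one, _root_.mul_inv_rev, inv_eq_of_mul_eq_one_right (h x i), inv_eq_of_mul_eq_one_right (h y j)] at this
    exact this.symm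
  obtain ⟨a, b, k⟩ : ∃ a b, ∀ x ∈ E, x = 1 ∨ x = a ∨ x = b ∨ x = a * b := by
    by_cases i : ∃ a ∈ E, a ≠ 1
    swap
    · exact ⟨1, 1, fun x m => .inl (by_contra fun n => i ⟨x, m, n⟩)⟩
    obtain ⟨a, ma, a1⟩ := i
    by_cases j : ∃ b ∈ E, b ≠ 1 ∧ a ≠ b
    swap
    · exact ⟨a, 1, fun x m => or_iff_not_imp_left.2 fun n => .inl (by_contra fun o => j ⟨x, m, n, Ne.symm o⟩)⟩
    obtain ⟨b, mb, b1, n⟩ := j
    exact ⟨a, b, fun x m => f3_four h2 (h a ma) (h b mb) a1 b1 n (c a ma b mb) (c x m a ma) (c x m b mb)⟩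
  refine (Set.ncard_le_ncard (s := E) (t := {1, a, b, a * b}) (fun x m => k x m) (Set.toFinite _)).trans ?_
  have := Set.ncard_insert_le 1 ({a, b, a * b} : Set PSL(2, K))
  have := Set.ncard_insert_le a ({b, a * b} : Set PSL(2, K))
  have := Set.ncard_insert_le b ({a * b} : Set PSL(2, K))
  rw [Set.ncard_singleton] at this
  omega

/-- A perfect subgroup normalises no elementary abelian 2-group `≠ 1`: it acts trivially on `E` (`|E| ≤ 4`, the action on the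
at most three involutions factors through a solvable group), then `eq_one_of_perfect`; and `E ≤ L`. -/
theorem eq_bot_of_perfect {L E : Subgroup PSL(2, K)} [Finite E] (hL : ⁅L, L⁆ = L) (l : E ≤ L)
    (h : ∀ x ∈ E, x * x = 1) (hn : ∀ g ∈ L, ∀ x ∈ E, g * x * g⁻¹ ∈ E) : E = ⊥ := by
  have n : L ≤ Subgroup.normalizer (E : Set PSL(2, K)) := fun g m => Subgroup.mem_normalizer_iff.2 fun x =>
    ⟨hn g m x, fun i => by simpa [mul_assoc] using hn _ (inv_mem m) _ i⟩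
  have := Fintype.ofFinite E
  obtain ⟨ι⟩ : Nonempty (E ↪ Fin 4) := Function.Embedding.nonempty_of_card_le (by
    rw [← Nat.card_eq_fintype_card, Fintype.card_fin]; exact card_le_four h2 h)
  let φ := (Equiv.Perm.viaEmbeddingHom ι).comp ((MulAut.toPerm E).comp (E.normalizerMonoidHom.comp (Subgroup.inclusion n)))
  have := PSL2.isSolvable_perm_four
  have := Subgroup.isPerfect_iff.2 hL
  have r : φ.range = ⊥ := by_contra fun r =>
    (Group.IsSolvable.commutator_lt_of_ne_bot r).ne (Subgroup.isPerfect_iff.1 (Group.IsPerfect.range φ))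
  refine le_bot_iff.1 fun x m => (em (L = ⊥)).elim (fun e => e.le (l m)) fun e => eq_one_of_perfect h2 hL e fun y i => ?_
  have := Equiv.Perm.viaEmbeddingHom_injective ι ((r.le ⟨⟨y, i⟩, rfl⟩).trans (map_one _).symm)
  exact mul_inv_eq_iff_eq_mul.1 (congrArg Subtype.val (DFunLike.congr_fun this ⟨x, m⟩) :)

end PSL

namespace F3

variable {fA fB fC : Cz K →* PSL(2, K)} (h : F3 fA fB fC) (h2 : (2 : K) ≠ 0)
include h

theorem ker {x : Cz K} : (fA x = 1 ∧ fB x = 1 ∧ fC x = 1) ↔ x = 1 ∨ x.1 = t0 K := by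
  obtain ⟨a, e⟩ := x.2
  obtain ⟨i, j, k⟩ := h a x e.symm
  rw [i, j, k, mk_eq_one, mk_eq_one, mk_eq_one, Subtype.ext_iff, ← e]
  exact .trans (by tauto) (or_congr phi_psi3_eq_one phi_psi3_eq_t0).symm

include h2

/-- `x = phi (psi3 (A, B, C))` with `(B², C²) = (1, -1)` or `(-1, 1)`; `B² = 1` forces `B = ± 1`. -/
theorem sq_t0 {x : Cz K} (hx : x.1 * x.1 = t0 K) : (fB x = 1 ∧ fC x ≠ 1) ∨ (fB x ≠ 1 ∧ fC x = 1) := by
  obtain ⟨a, e⟩ := x.2
  obtain ⟨-, j, k⟩ := h a x e.symm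
  have n : ∀ {B : SL(2, K)}, B * B = -1 → ¬ (B = 1 ∨ B = -1) := fun f g =>
    PSL2.sl_neg_one_ne_one h2 (f.symm.trans (by rcases g with rfl | rfl <;> simp))
  rw [← e, ← map_mul] at hx
  rw [Ne, Ne, j, k, mk_eq_one, mk_eq_one]
  exact (phi_psi3_eq_t0.1 hx).2.imp (fun f => ⟨PSL2.eq_one_or_neg_one_of_mul_self h2 f.1, n f.2⟩)
    fun f => ⟨n f.1, PSL2.eq_one_or_neg_one_of_mul_self h2 f.2⟩

theorem fA_eq_one {x : Cz K} : fA x = 1 ↔ ∀ v ∈ O.fix (t0 K), x.1.1 v = v := by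
  obtain ⟨a, e⟩ := x.2
  rw [(h a x e.symm).1, mk_eq_one, ← e]
  exact (fix_iff h2).symm

/-- Involutions of `Cz` other than `t0`: `(A², B², C²)` with `B² = C²`.  If `B² = 1` then `x` or `x t0` has
`dm = 2` (character `3` or `-5`: `chi_psi3`); if `B² = -1 = C²` and `A² = 1` then `dm x = 2`.  So type four means that all three
projections are non-trivial.  (`chi x = 7 - 2 dm x` loses information in small characteristic: count eigenvectors.) -/
theorem ne_one_of_four {x : Cz K} (hx : x * x = 1) (h4 : dm x.1 = 4) (ht : x.1 ≠ t0 K) :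
    fA x ≠ 1 ∧ fB x ≠ 1 ∧ fC x ≠ 1 := by
  have hx' : x.1 * x.1 = 1 := congrArg Subtype.val hx
  have f : ∀ {t : O (Q K)}, dm t = 4 → finrank K (O.fix t) = 3 := fun {t} e => by
    have := dm_add_fx t; rw [finrank_V, fx] at this; omega
  have f0 := f (dm_t0 h2)
  refine ⟨fun e => ht (ps_eq_of_fix h2 hx' t0_mul_self (Submodule.eq_of_le_of_finrank_eq
    (fun v m => O.mem_fix.2 ((h.fA_eq_one h2).1 e v m)) (f0.trans (f h4).symm)).symm), ?_⟩
  obtain ⟨⟨A, B, C⟩, e⟩ := x.2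
  obtain ⟨-, j, k⟩ := h _ x e.symm
  have n : ∀ {B : SL(2, K)}, B * B = -1 → ¬ (B = 1 ∨ B = -1) := fun f g =>
    PSL2.sl_neg_one_ne_one h2 (f.symm.trans (by rcases g with rfl | rfl <;> simp))
  have s := hx'
  rw [← e, ← map_mul] at s
  rw [Ne, Ne, j, k, mk_eq_one, mk_eq_one]
  refine (phi_psi3_eq_one.1 s).2.elim (fun s => False.elim ?_) fun s => ⟨n s.1, n s.2⟩
  have y : ∀ v, cY (jv (x.1.1 v)) = C.1 * cY (jv v) * (B⁻¹).1 := fun v => by
    rw [← e]; exact (congrArg cY (phi_psi3 _ v)).trans (cY_cd ..)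
  have p : (∀ v, cY (jv (x.1.1 v)) = cY (jv v)) → False := fun y => by
    have := Submodule.finrank_mono (show O.comm x.1 ≤ O.fix (t0 K) from fun v m => (mem_fix_t0 h2).2 (by
      obtain ⟨u, rfl⟩ := O.mem_comm.1 m
      rw [map_sub, sub_eq_add_neg, ← cd_eta (jv (x.1.1 u)), ← cd_eta (jv u), ps_neg, cd_add, cY_cd, y, add_neg_cancel]))
    rw [f0] at this
    exact absurd (h4.symm.trans_le this) (by decide)
  have q : (∀ v, cY (jv (x.1.1 v)) = -cY (jv v)) → False := fun y =>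
    ht (ps_eq_of_fix h2 hx' t0_mul_self (Submodule.eq_of_le_of_finrank_eq (fun v m => (mem_fix_t0 h2).2 ((ps_two h2).1
      (by rw [← y, O.mem_fix.1 m]))) ((f h4).trans f0.symm)))
  rcases PSL2.eq_one_or_neg_one_of_mul_self h2 s.1 with rfl | rfl <;>
    rcases PSL2.eq_one_or_neg_one_of_mul_self h2 s.2 with rfl | rfl
  exacts [p (by simpa using y), q (by simpa using y), q (by simpa using y), p (by simpa using y)]

end F3

variable [IsAlgClosed K] (h2 : (2 : K) ≠ 0)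
include h2

theorem f3_hom {t g : O (Q K)} (e : g * t * g⁻¹ = t0 K) {D : Subgroup (O (Q K))} (hD : ⁅D, D⁆ = D) (c : ∀ x ∈ D, Commute x t) :
    ∃ ψ : D →* Cz K, ∀ x, (ψ x).1 = g * x.1 * g⁻¹ :=
  have l := perfect_le_Cz h2 (L := D.map (MulAut.conj g).toMonoidHom) (by rw [← Subgroup.map_commutator, hD]) (by
    rintro _ ⟨x, m, rfl⟩
    exact e ▸ (c x m).map (MulAut.conj g))
  ⟨((MulAut.conj g).toMonoidHom.comp D.subtype).codRestrict _ fun x => l ⟨x, x.2, rfl⟩, fun _ => rfl⟩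

/-- Two commuting perfect subgroups of `C(t)`: one of them is trivial on `V₊(t)`.  Conjugate `t` to `t0`,
`perfect_le_Cz`, `eq_one_of_perfect` for the images under `fA`, `fA_eq_one`. -/
theorem pair_fix {t : O (Q K)} (ht : t * t = 1) (h4 : dm t = 4) {L₁ L₂ : Subgroup (O (Q K))}
    (h₁ : ⁅L₁, L₁⁆ = L₁) (h₂ : ⁅L₂, L₂⁆ = L₂) (c₁ : ∀ x ∈ L₁, Commute x t) (c₂ : ∀ x ∈ L₂, Commute x t)
    (c : ∀ x ∈ L₁, ∀ y ∈ L₂, Commute x y) : O.fix t ≤ Fix L₁ ∨ O.fix t ≤ Fix L₂ := by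
  obtain ⟨k, e⟩ := exists_conj_t0 h2 ht h4
  obtain ⟨fA, fB, fC, h⟩ := exists_F3 h2
  obtain ⟨ψ₁, e₁⟩ := f3_hom h2 e h₁ c₁
  obtain ⟨ψ₂, e₂⟩ := f3_hom h2 e h₂ c₂
  have k : ∀ {L : Subgroup (O (Q K))} {ψ : L →* Cz K}, (∀ x, (ψ x).1 = phi k * x.1 * (phi k)⁻¹) → (∀ x, fA (ψ x) = 1) →
      O.fix t ≤ Fix L := fun {L ψ} i j v m g n => by
    have := (h.fA_eq_one h2).1 (j ⟨g, n⟩) ((phi k).1 v) (by rw [← e, O.fix_conj]; exact ⟨v, m, rfl⟩)
    rwa [i, O.mul_apply, O.inv_apply_apply, O.mul_apply, (phi k).1.injective.eq_iff] at this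
  by_cases r : (fA.comp ψ₁).range = ⊥
  · exact .inl (k e₁ fun x => r.le ⟨x, rfl⟩)
  have := Subgroup.isPerfect_iff.2 h₁
  refine .inr (k e₂ fun y => eq_one_of_perfect h2 (Subgroup.isPerfect_iff.1 (Group.IsPerfect.range _)) r ?_)
  rintro _ ⟨x, rfl⟩
  exact Commute.map (Subtype.ext (by
    rw [Subgroup.coe_mul, Subgroup.coe_mul, e₁, e₂, conj_mul, conj_mul, (c x x.2 y y.2).eq])) fA

/-- `T14`: a perfect subgroup `D` of `C(t)` normalises no subgroup `E ≤ D` with `E / ⟨t⟩` elementary abelian `≠ 1`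
(`eq_bot_of_perfect` in each of the three factors, `F3.ker`). -/
theorem no_two_core {t : O (Q K)} (ht : t * t = 1) (h4 : dm t = 4) {D E : Subgroup (O (Q K))} [Finite E]
    (hD : ⁅D, D⁆ = D) (c : ∀ x ∈ D, Commute x t) (l : E ≤ D) (hn : ∀ g ∈ D, ∀ x ∈ E, g * x * g⁻¹ ∈ E)
    (hE : ∀ x ∈ E, x * x = 1 ∨ x * x = t) {x : O (Q K)} (hx : x ∈ E) : x = 1 ∨ x = t := by
  obtain ⟨k, e⟩ := exists_conj_t0 h2 ht h4
  obtain ⟨fA, fB, fC, h⟩ := exists_F3 h2
  obtain ⟨ψ, hψ⟩ := f3_hom h2 e hD c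
  have := Subgroup.isPerfect_iff.2 hD
  have i : ∀ x, (fA (ψ x) = 1 ∧ fB (ψ x) = 1 ∧ fC (ψ x) = 1) ↔ x.1 = 1 ∨ x.1 = t := fun x => by
    rw [h.ker, Subtype.ext_iff, hψ, ← e, Subgroup.coe_one, conj_eq_one_iff, mul_left_inj, mul_right_inj]
  have : Finite (E.subgroupOf D) := .of_equiv _ (Subgroup.subgroupOfEquivOfLe l).symm.toEquiv
  have j : ∀ f : D →* PSL(2, K), (∀ x, x.1 = 1 ∨ x.1 = t → f x = 1) → f ⟨x, l hx⟩ = 1 := fun f hf => by
    have : Finite ((E.subgroupOf D).map f) := .of_surjective _ (f.subgroupMap_surjective _)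
    refine (eq_bot_of_perfect h2 (E := (E.subgroupOf D).map f) (Subgroup.isPerfect_iff.1 (Group.IsPerfect.range f))
      (Subgroup.map_le_range _ _) ?_ ?_).le ⟨_, hx, rfl⟩
    · rintro _ ⟨y, m, rfl⟩
      exact (map_mul ..).symm.trans (hf _ (hE y m))
    · rintro _ ⟨g, rfl⟩ _ ⟨y, m, rfl⟩
      exact ⟨g * y * g⁻¹, hn g g.2 y m, by rw [map_mul, map_mul, map_inv]⟩
  exact (i ⟨x, l hx⟩).1 ⟨j (fA.comp ψ) fun y m => ((i y).2 m).1, j (fB.comp ψ) fun y m => ((i y).2 m).2.1,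
    j (fC.comp ψ) fun y m => ((i y).2 m).2.2⟩

end Cfsg.Lib.O7
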