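import Cfsg.Agent.Lib.O7.SL
import Cfsg.Agent.Lib.Oct.CD
import Cfsg.Agent.Lib.Linear.Simple

/-!
# Generators of `G₂(q)` (for `O7/G2`)
-/

set_option autoImplicit false

namespace Cfsg.Lib.O7.GG

open Matrix Cfsg.Lie Cfsg.Lib.Oct Cfsg.Lib.PSL2 Matrix.SpecialLinearGroup
open scoped MatrixGroups

variable {E : Type*} [Field E]

/-- long roots -/
noncomputable def fR : SL(2, E) →* G2 E := psi.comp gamR

/-- short roots -/
noncomputable def fL : SL(2, E) →* G2 E := psi.comp gamL

/-- a cyclic permutation matrix -/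
def pm : SL(3, E) := ⟨!![0, 0, 1; 1, 0, 0; 0, 1, 0], by simp [det_fin_three]⟩

theorem coe_pm : (pm : SL(3, E)).1 = !![0, 0, 1; 1, 0, 0; 0, 1, 0] := rfl

/-- its image -/
noncomputable def rr : G2 E := sl pm

theorem fR_smul (A : SL(2, E)) (x : Fin 8 → E) : fR A • x = ![x 0, x 1, A.1 0 0 * x 2 + A.1 0 1 * x 3,
    A.1 1 0 * x 2 + A.1 1 1 * x 3, x 4, A.1 1 1 * x 5 - A.1 1 0 * x 6, A.1 0 0 * x 6 - A.1 0 1 * x 5, x 7] := by
  refine ((congrArg _ (cd_eta x).symm).trans (gamR_smul ..)).trans ?_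
  ext i; fin_cases i <;> simp [cd, cX, cY, mul_apply, Fin.sum_univ_two] <;> ring

theorem fL_smul (A : SL(2, E)) (x : Fin 8 → E) : fL A • x =
    ![(A.1 0 0 * x 0 + A.1 0 1 * x 4) * A.1 1 1 - (A.1 0 0 * x 1 + A.1 0 1 * x 7) * A.1 1 0,
      (A.1 0 0 * x 1 + A.1 0 1 * x 7) * A.1 0 0 - (A.1 0 0 * x 0 + A.1 0 1 * x 4) * A.1 0 1,
      x 2 * A.1 1 1 - x 6 * A.1 1 0, x 3 * A.1 1 1 + x 5 * A.1 1 0,
      (A.1 1 0 * x 0 + A.1 1 1 * x 4) * A.1 1 1 - (A.1 1 0 * x 1 + A.1 1 1 * x 7) * A.1 1 0,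
      x 3 * A.1 0 1 + x 5 * A.1 0 0, x 6 * A.1 0 0 - x 2 * A.1 0 1,
      (A.1 1 0 * x 1 + A.1 1 1 * x 7) * A.1 0 0 - (A.1 1 0 * x 0 + A.1 1 1 * x 4) * A.1 0 1] := by
  refine ((congrArg _ (cd_eta x).symm).trans (gamL_smul ..)).trans ?_
  rw [coe_inv, adjugate_fin_two]
  ext i; fin_cases i <;> simp [cd, cX, cY, mul_apply, Fin.sum_univ_two] <;> ring

theorem rr_smul (x : Fin 8 → E) : (rr : G2 E) • x = ![x 0, x 3, x 1, x 2, x 6, x 4, x 5, x 7] := by
  refine ((congrArg _ (mk_eta x).symm).trans (sl_smul_mk ..)).trans ?_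
  rw [show ctr (pm (E := E)) = pm from ctr_eq_iff.2 (by
    ext i j; fin_cases i <;> fin_cases j <;> simp [pm, mul_apply, Fin.sum_univ_three])]
  ext i; fin_cases i <;> simp [mk, zA, zB, pm, mulVec, dotProduct, Fin.sum_univ_three]

theorem rr_cube : (rr : G2 E) ^ 3 = 1 := G2_ext fun x => by
  ext i; fin_cases i <;> simp [pow_succ, mul_smul, rr_smul]

theorem rr_inv : (rr : G2 E)⁻¹ = rr * rr := inv_eq_of_mul_eq_one_right (by rw [← rr_cube, pow_three])

theorem fL_neg : fL (-1 : SL(2, E)) = fR (-1) := G2_ext fun x => by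
  ext i; fin_cases i <;> simp [fL_smul, fR_smul]

theorem rr_comm : Commute (fR (-1 : SL(2, E))) (rr * fR (-1) * rr⁻¹) := G2_ext fun x => by
  ext i; fin_cases i <;> simp [rr_inv, mul_smul, rr_smul, fR_smul]

theorem rr_eb : rr * (rr * fR (-1 : SL(2, E)) * rr⁻¹) * rr⁻¹ = fR (-1) * (rr * fR (-1) * rr⁻¹) := G2_ext fun x => by
  ext i; fin_cases i <;> simp [rr_inv, mul_smul, rr_smul, fR_smul]

theorem fL_dS (c : Eˣ) : ∃ A, sl A = fL (dS c) := exists_eq_sl (by
  ext i; fin_cases i <;> simp [fL_smul, e0, mk])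

theorem fR_cube (d : Eˣ) : fR (dS (d ^ 3)) * (rr * rr * fL (dS d) * rr) = rr * fL (dS d) * rr * rr := G2_ext fun x => by
  ext i; fin_cases i <;> simp [mul_smul, rr_smul, fR_smul, fL_smul] <;> field_simp

theorem fR_comm (s : E) : fR (upper (3 * s)) * (rr * rr * fL (s2 1 0 1 1 (by simp)) * rr) * (rr * fL (upper s) * rr * rr) =
    rr * fL (upper s) * rr * rr * (rr * rr * fL (s2 1 0 1 1 (by simp)) * rr) := G2_ext fun x => by
  ext i; fin_cases i <;> simp [mul_smul, rr_smul, fR_smul, fL_smul] <;> ring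

variable {H : Subgroup (G2 E)}

local notation "tv" => SpecialLinearGroup.transvection

theorem gen_sl3 (hr : rr ∈ H) (hu : ∀ t, fR (upper t) ∈ H) (A : SL(3, E)) : sl A ∈ H := by
  have k {i j k l : Fin 3} {h : i ≠ j} (h' : k ≠ l) (m : ∀ c, tv h c ∈ H.comap sl)
      (e : ∀ c : E, pm * tv h c = tv h' c * pm) (c) : tv h' c ∈ H.comap sl :=
    (mul_mem_cancel_right (show pm ∈ H.comap sl from hr)).1 (e c ▸ mul_mem hr (m c))
  have a (c : E) : tv (show (1 : Fin 3) ≠ 2 by decide) c ∈ H.comap sl := by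
    rw [show tv _ c = up (upper c) by
      ext i j; fin_cases i <;> fin_cases j <;> simp [coe_up, transvection_coe], Subgroup.mem_comap, sl_up]
    exact hu c
  have b := k (show (2 : Fin 3) ≠ 0 by decide) a fun c => by
    ext i j; fin_cases i <;> fin_cases j <;> simp [coe_pm, transvection_coe, mul_apply, Fin.sum_univ_three, one_apply]
  have d := k (show (0 : Fin 3) ≠ 1 by decide) b fun c => by
    ext i j; fin_cases i <;> fin_cases j <;> simp [coe_pm, transvection_coe, mul_apply, Fin.sum_univ_three, one_apply]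
  have u {i j l : Fin 3} {h : i ≠ j} {h' : j ≠ l} (h2 : i ≠ l) (m : ∀ c, tv h c ∈ H.comap sl)
      (m' : ∀ c, tv h' c ∈ H.comap sl) (c) : tv h2 c ∈ H.comap sl := by
    rw [← mul_one c, ← Linear.commutator_transvection h h', commutatorElement_def]
    exact mul_mem (mul_mem (mul_mem (m _) (m' _)) (inv_mem (m _))) (inv_mem (m' _))
  refine (Linear.eq_top_of_transvection_mem (H.comap sl) fun i j h => ?_).ge trivial
  fin_cases i <;> fin_cases j
  exacts [(h rfl).elim, d, u h d a, u h a b, (h rfl).elim, a, b, u h b d, (h rfl).elim]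

theorem gen_left (hs : ∀ A, sl A ∈ H) (hl : ∀ A, fL A ∈ H) {α β : E} {a b : Fin 3 → E} (h : Idem (mk α a b β))
    (hab : a ⬝ᵥ b = 0) : ∃ g ∈ H, ∃ A : SL(3, E), g • mk α a b β = mk α 0 (A.1 *ᵥ b) β := by
  by_cases ha : a = 0
  · exact ⟨1, one_mem _, 1, by simp [ha]⟩
  obtain ⟨A, c, hc, e⟩ := exists_sl_single (α := α) (β := β) (b := b) ha
  have h1 := (h.smul (sl A)).2
  have h2 : α * β = 0 := by simpa [hab] using h.2
  have h3 : α + β = 1 := by simpa using h.1
  refine ⟨psi (gamL (s2 1 (c * (α - β)) 0 1 (by simp))) * sl A, mul_mem (hl _) (hs _), ctr A, ?_⟩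
  rw [e] at h1
  rw [mul_smul, e, mk_eq_cd, gamL_smul, mk_eq_cd]
  generalize (ctr A).1 *ᵥ b = d at h1 ⊢
  have h4 : d 0 = 0 := by simpa [h2, dotProduct, Fin.sum_univ_three, hc] using h1
  rw [coe_s2_inv]
  simp [h4]
  linear_combination (4 * c) * h2 - c * (α + β + 1) * h3

/-- `G₂ = ⟨r, long root group, short root SL₂⟩` (the proof of `Idem.exists_smul'`). -/
theorem gen_all (hr : rr ∈ H) (hu : ∀ t, fR (upper t) ∈ H) (hl : ∀ A, fL A ∈ H) (y : G2 E) : y ∈ H := by
  have hs := gen_sl3 hr hu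
  have hw : w0 E ∈ H := by
    rw [show w0 E = fL (wS E) * fR (wS E) from G2_ext_mk fun _ _ _ _ => by
      rw [w0_smul_mk]; ext i; fin_cases i <;> simp [mul_smul, fR_smul, fL_smul, mk]]
    exact mul_mem (hl _) (sl_up (wS E) ▸ hs _ :)
  have K : ∀ {α β : E} {a b : Fin 3 → E}, Idem (mk α a b β) → a ⬝ᵥ b = 0 → ∃ g ∈ H, g • mk α a b β = e0 E :=
    fun {α β a b} h hab => by
      obtain ⟨g, m, A, e⟩ := gen_left hs hl h hab
      have h1 := (h.smul g).smul (w0 E)
      rw [e, w0_smul_mk] at h1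
      obtain ⟨g', m', A', e'⟩ := gen_left hs hl h1 (by simp)
      have h2 : α * β = 0 := by simpa [hab] using h.2
      have h3 : α + β = 1 := by simpa using h.1
      rcases mul_eq_zero.1 h2 with rfl | rfl
      · exact ⟨g' * w0 E * g, mul_mem (mul_mem m' hw) m, by rw [mul_smul, mul_smul, e, w0_smul_mk, e', e0]; simpa using h3⟩
      · exact ⟨w0 E * g' * w0 E * g, mul_mem (mul_mem (mul_mem hw m') hw) m, by
          rw [mul_smul, mul_smul, mul_smul, e, w0_smul_mk, e', w0_smul_mk, e0]; simpa using h3⟩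
  suffices ∃ g ∈ H, g • y • e0 E = e0 E by
    obtain ⟨g, m, e⟩ := this
    obtain ⟨A, e⟩ := exists_eq_sl ((mul_smul ..).trans e)
    exact (mul_mem_cancel_left m).1 (e ▸ hs A)
  have h := idem_e0.smul y
  obtain ⟨α, a, b, β, e⟩ := exists_mk (y • e0 E)
  rw [e] at h ⊢
  by_cases ha : a = 0
  · exact K h (by simp [ha])
  obtain ⟨A, c, hc, e⟩ := exists_sl_single (α := α) (β := β) (b := b) ha
  let g := psi (gamL (s2 1 0 (-β / c) 1 (by simp))) * sl A
  obtain ⟨α', a', b', β', e'⟩ := exists_mk (g • mk α a b β)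
  have h1 : β' = 0 := by
    rw [mul_smul, e, mk_eq_cd, gamL_smul, cd_eq_mk, coe_s2_inv] at e'
    simpa [hc] using (mk_inj.1 e').2.2.2.symm
  have h2 := e' ▸ h.smul g
  obtain ⟨g', m, e''⟩ := K h2 (by simpa [h1] using h2.2)
  exact ⟨g' * g, mul_mem m (mul_mem (hl _) (hs _)), by rw [mul_smul, e', e'']⟩

theorem fR_dS_mem [Finite E] (hr : rr ∈ H) (hl : ∀ A, fL A ∈ H) (c : Eˣ) : fR (dS c) ∈ H := by
  by_cases h3 : (3 : E) = 0
  · obtain ⟨d, rfl⟩ := Finite.injective_iff_surjective.1 (fun (x y : Eˣ) (h : x ^ 3 = y ^ 3) => Units.ext (sub_eq_zero.1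
      (pow_eq_zero_iff (n := 3) (by norm_num)|>.1 (by
        have := congrArg Units.val h
        push_cast at this
        linear_combination this + (x.1 * y.1 ^ 2 - x.1 ^ 2 * y.1) * h3)))) c
    exact (mul_mem_cancel_right (mul_mem (mul_mem (mul_mem hr hr) (hl _)) hr)).1
      (fR_cube d ▸ mul_mem (mul_mem (mul_mem hr (hl _)) hr) hr)
  refine (sl_up (dS c) ▸ gen_sl3 hr (fun t => ?_) _ :)
  have a := mul_mem (mul_mem (mul_mem hr hr) (hl (s2 1 0 1 1 (by simp)))) hr
  have b := mul_mem (mul_mem (mul_mem hr (hl (upper (t / 3)))) hr) hr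
  rw [← mul_div_cancel₀ t h3]
  exact (mul_mem_cancel_right a).1 ((mul_mem_cancel_right b).1 (fR_comm (t / 3) ▸ mul_mem b a))

/-! ### `G₂(3)` -/

/-- A matrix from its code. -/
def mx (n : ℕ) : Matrix (Fin 8) (Fin 8) (ZMod 3) := of fun i j => ((n / 3 ^ (8 * i.1 + j.1) : ℕ) : ZMod 3)

theorem mx_mul {g h : G2 (ZMod 3)} {x y : ℕ} (z : ℕ) (hg : g.1.1 = mx x) (hh : h.1.1 = mx y)
    (e : mx x * mx y = mx z := by decide +kernel) : (g * h).1.1 = mx z := by
  rw [← e, ← hg, ← hh]; rfl

theorem mx_ext {g h : G2 (ZMod 3)} {x : ℕ} (hg : g.1.1 = mx x) (hh : h.1.1 = mx x) : g = h :=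
  Subtype.ext (Units.ext (hg.trans hh.symm))

theorem mx_of {g : G2 (ZMod 3)} {f : (Fin 8 → ZMod 3) → Fin 8 → ZMod 3} (c : ℕ) (hg : ∀ x, g • x = f x)
    (h : ∀ j, f (Pi.single j 1) = mx c *ᵥ Pi.single j 1 := by decide +kernel) : g.1.1 = mx c := by
  ext i j
  have := congrFun ((hg _).trans (h j)) i
  rwa [smul_def, mulVec_single_one, mulVec_single_one] at this

/-- An element from its code. -/
def gz (n m : ℕ) (h : mx n * mx m = 1 ∧ ∀ i j : Fin 8, mx n *ᵥ (Pi.single i 1 ⋆ Pi.single j 1) =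
    mx n *ᵥ Pi.single i 1 ⋆ mx n *ᵥ Pi.single j 1 := by decide +kernel) : G2 (ZMod 3) :=
  ⟨Units.mkOfMulEqOne _ _ h.1, mem_G2_of_single h.2⟩

/-- A chain of products. -/
def ck (S : List ℕ) : ℕ → List (ℕ × ℕ) → ℕ → Prop
  | a, [], c => a = c
  | a, x :: l, c => S.getD x.1 0 ∈ S ∧ mx a * mx (S.getD x.1 0) = mx x.2 ∧ ck S x.2 l c

instance dk (S : List ℕ) : ∀ a l c, Decidable (ck S a l c)
  | a, [], c => inferInstanceAs (Decidable (a = c))
  | _, x :: l, c => @instDecidableAnd _ _ _ (@instDecidableAnd _ _ _ (dk S x.2 l c))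

theorem chain {H : Subgroup (G2 (ZMod 3))} {S : List ℕ} (hS : ∀ n ∈ S, ∃ g ∈ H, g.1.1 = mx n)
    {l : List (ℕ × ℕ)} {a c : ℕ} (ha : ∃ g ∈ H, g.1.1 = mx a) (h : ck S a l c) : ∃ g ∈ H, g.1.1 = mx c := by
  induction l generalizing a with
  | nil => exact h ▸ ha
  | cons x l ih =>
    obtain ⟨g, hg, e⟩ := ha
    obtain ⟨g', hg', e'⟩ := hS _ h.1
    exact ih ⟨g * g', mul_mem hg hg', mx_mul _ e e' h.2.1⟩ h.2.2

theorem step {H : Subgroup (G2 (ZMod 3))} {S : List ℕ} (hS : ∀ n ∈ S, ∃ g ∈ H, g.1.1 = mx n) (a c : ℕ) (l : List (ℕ × ℕ))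
    (h : S.getD a 0 ∈ S ∧ ck S (S.getD a 0) l c := by decide +kernel) : ∀ n ∈ S ++ [c], ∃ g ∈ H, g.1.1 = mx n := by
  simp only [List.mem_append, List.mem_singleton]
  rintro n (m | rfl)
  exacts [hS n m, chain hS (hS _ h.1) h.2]

/-- an element of order three -/
def b3 : G2 (ZMod 3) := gz 385301192324709912808757587158 691344160867963488170996805630

theorem mx_a : (fR (-1 : SL(2, ZMod 3))).1.1 = mx 1144677578813619097994264703808 := mx_of _ (fR_smul _)

theorem mx_c : (fR (-1) * b3).1.1 = mx 385243960989913631839968808503 := mx_mul _ mx_a rfl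

theorem mx_one : (1 : G2 (ZMod 3)).1.1 = mx 1144619426122303343757755709520 :=
  show (1 : Matrix _ _ _) = _ by decide +kernel

theorem b3_cube : b3 ^ 3 = 1 :=
  (pow_three' b3).trans (mx_ext (mx_mul _ (mx_mul 691344160867963488170996805630 rfl rfl) rfl) mx_one)

theorem c_pow : (fR (-1) * b3) ^ 13 = 1 ∧ IsConj (fR (-1) * b3) ((fR (-1) * b3) ^ 3) := by
  have c1 := mx_c
  generalize fR (-1) * b3 = c at c1
  have c2 := mx_mul 297469626735321966287084019516 c1 c1
  have c4 := mx_mul 17902953074498042515194470118 c2 c2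
  have c12 := mx_mul 940980258232954910008531230945 (mx_mul 2646609968192414567483477295536 c4 c4) c4
  have n : (gz 3092552631761269184560770895295 2725551074300831577744328501595).1.1 = mx _ := rfl
  refine ⟨Eq.trans (by simp only [pow_succ, pow_zero, one_mul, mul_assoc]) (mx_ext (mx_mul _ c12 c1) mx_one), isConj_iff.2 ⟨_,
    mul_inv_eq_iff_eq_mul.2 (mx_ext (mx_mul 339857883846299370932088831792 n c1) (mx_mul _ ?_ n (x := 2814839713333546311331193012666)))⟩⟩
  exact pow_three' c ▸ mx_mul _ c2 c1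

theorem gen3 {H : Subgroup (G2 (ZMod 3))} (ha : fR (-1) ∈ H) (hb : b3 ∈ H) (y) : y ∈ H := by
  have h0 : ∀ n ∈ [1144677578813619097994264703808, 385301192324709912808757587158,
      385243960989913631839968808503, 691343197032561557718918105507], ∃ g ∈ H, g.1.1 = mx n := by
    simp only [List.forall_mem_cons]
    exact ⟨⟨_, ha, mx_a⟩, ⟨_, hb, rfl⟩, ⟨_, mul_mem ha hb, mx_c⟩, ⟨_, mul_mem (mul_mem ha hb) hb, mx_mul _ mx_c rfl⟩, by simp⟩
  have h1 := step h0 2 1144580657662626931349125863760 [(2, 297469626735321966287084019516), (3, 331806537475942155450351353376), (2, 2940206084203139000327692189919),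
    (3, 1519908803655470472589858608835), (3, 3339184933314969778943096668664), (2, 1174540739424933441343869195478),
    (3, 2198400337524131045111738741386), (2, 1013203905042412484723700177912), (2, 35219606926510541594429949615),
    (2, 2034852917446968342649207609591), (2, 1680092185884492358372588256128), (3, 2339096078259117825342373648889),
    (2, 592826624320366329848287273785), (3, 1652144722182916224193804333702), (2, 195707724709387119917452469574),
    (2, 170468581550451437676676089735), (3, 767040235643750639931086438388), (3, 1144600040909645465628561658048),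
    (0, 1144580657662626931349125863760)]
  have h2 := step h1 3 1144658192613638703798711564433 [(3, 35110496390976983092907157927), (2, 2034784946082276745375824824293), (3, 1013489799747282139590951711336),
    (2, 35175827442084664066462546017), (3, 2962413875111542554788670049133), (3, 85307873515217775007470394380),
    (2, 3207508230045543831871453089014), (2, 25749334514422909080205683819), (0, 35207637109840865735943898965),
    (4, 25751977203583000348709664183), (2, 941123598531164050046376057699), (2, 1144658192613638703798711564433)]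
  have h3 := step h2 1 1229403178796968101886074619039 [(2, 297657368833802539596860606490), (5, 297661675893371736483634240842), (2, 2814638533133859629528093197766),
    (3, 1653274798017505865023186414963), (5, 1526101322534442736628250400597), (4, 1271743380795588212003482419319),
    (0, 1398919000451811494544579209941), (4, 1229403178796968101886074619039)]
  have h4 := step h3 3 524783757270967050198095136 [(2, 740466682134184227516099175197), (4, 982239903585843711689851188729), (3, 2989351017158703574260787228952),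
    (4, 2904515576521633977438809522096), (4, 3243683130106674894335534048318), (3, 737387124051692565366261764352),
    (6, 1876370966498871106014463785223), (2, 524783757270967050198095136)]
  have k {g : G2 (ZMod 3)} {c : ℕ} (e : g.1.1 = mx c) (m : ∃ g ∈ H, g.1.1 = mx c) : g ∈ H :=
    let ⟨_, hg, e'⟩ := m; mx_ext e' e ▸ hg
  have t (f : SL(2, ZMod 3) →* G2 (ZMod 3)) (m : f (upper 1) ∈ H) (t) : f (upper t) ∈ H := by
    rcases (by decide : ∀ t : ZMod 3, t = 1 ∨ t = 1 + 1 ∨ t = 1 + 1 + 1) t with rfl | rfl | rfl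
    · exact m
    all_goals simp only [← upper_mul, map_mul]
    exacts [mul_mem m m, mul_mem (mul_mem m m) m]
  exact gen_all (k (mx_of 1144580657662626931349125863760 rr_smul) (h4 _ (by simp)))
    (t _ (k (mx_of 1144658192613638703798711564433 (fR_smul _)) (h4 _ (by simp))))
    (gen_sl (M := (H.comap fL).toSubmonoid) (t _ (k (mx_of 1229403178796968101886074619039 (fL_smul _)) (h4 _ (by simp))))
      (k (mx_of 524783757270967050198095136 (fL_smul _)) (h4 _ (by simp)))) y

end Cfsg.Lib.O7.GG
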