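import Cfsg.Agent.Lib.O7.Tri
import Cfsg.Agent.Lib.O7.X3
import Cfsg.Agent.Lib.Oct.Chev
import Cfsg.Agent.Lib.O7.G21
import Cfsg.Agent.Lib.Chev.Perfect
import Cfsg.Agent.S2100

/-!
# `G₂(q)`, `q` odd (BRANCH STUB of `docs/O7.md`; the filler may add files `O7/G21 ...` and imports)
-/

set_option autoImplicit false

namespace Cfsg.Lib.O7

open QuadraticMap Module Matrix Cfsg.Lib.Orth
open scoped MatrixGroups

variable {K : Type*} [Field K] [IsAlgClosed K] {M : Subgroup (O (Q K))} (p : ℕ) [Fact p.Prime] [CharP K p]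
  {E : Type*} [Field E] [Fintype E]

open Cfsg.Lie Cfsg.Lib.Oct GG in
theorem g2_three (h : Rep M) (h3 : (3 : K) = 0) (φ : G2 (ZMod 3) →* O (Q K)) (inj : Function.Injective φ)
    (r : φ.range = M) : False := by
  have t2 : φ (fR (-1)) * φ (fR (-1)) = 1 := by rw [← map_mul, ← map_mul, _root_.neg_mul_neg, one_mul, map_one, map_one]
  have q {A : SL(2, ZMod 3)} (e : A * A = -1) : φ (fR A) * φ (fR A) = φ (fR (-1)) := by rw [← map_mul, ← map_mul, e]
  have d : dm (φ (fR (-1))) = 4 := h.toPre.dm_of_q8 (r.le ⟨_, rfl⟩) t2 (fun e => absurd (psi_gamR_injective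
    ((inj (e.trans (map_one φ).symm)).trans (map_one fR).symm)) (by decide)) (q wS_sq) (q (A := s2 1 1 1 (-1) (by decide)) (by decide))
    (by rw [← map_mul φ (fR _) (fR _), ← map_mul fR]; exact q (by decide))
  obtain ⟨c1, c2⟩ := c_pow
  have c3 := b3_cube
  have c4 := @gen3
  generalize b3 = b, fR (-1 : SL(2, ZMod 3)) = a at *
  refine h.hur (b := φ b) ?_ t2 (by rw [← map_pow, c3, map_one]) d (.inl h3) (r := 13) (m := 3) (by norm_num) (by norm_num)
    (by rw [← map_mul, ← map_pow, c1, map_one]) (.inr ⟨by norm_num, by rw [← map_mul, ← map_pow]; exact φ.map_isConj c2⟩)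
  refine r ▸ le_antisymm ?_ ((Subgroup.closure_le _).2 ?_)
  · rintro _ ⟨y, rfl⟩
    refine Subgroup.mem_comap.1 (c4 ?_ ?_ y) <;> exact Subgroup.subset_closure (by simp)
  · rintro _ (rfl | rfl) <;> exact ⟨_, rfl⟩

include p in
open Cfsg.Lie Cfsg.Lib.Oct GG in
theorem g2_big [CharP E p] (h : Rep M) (h3 : 3 < Nat.card E) (hs : Split M) (φ : G2 E →* O (Q K))
    (inj : Function.Injective φ) (r : φ.range = M) : False := by
  have h2 : (2 : E) ≠ 0 := fun e => h.two ((CharP.cast_eq_zero_iff K p 2).2 ((CharP.cast_eq_zero_iff E p 2).1 e))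
  have T {f : SL(2, E) →* G2 E} (e : f (-1) = fR (-1)) : Tri M (φ.comp f) (φ rr) := by
    refine ⟨fun _ => r.le ⟨_, rfl⟩, r.le ⟨_, rfl⟩, fun k => h2 ?_, ?_, by rw [← map_pow, rr_cube, map_one], rfl, ?_⟩ <;>
      simp only [MonoidHom.comp_apply, e, ← map_inv, ← map_mul] at *
    · have := congrArg (·.1 0 0) (psi_gamR_injective ((inj (k.trans (map_one φ).symm)).trans (map_one fR).symm))
      simp at this
      linear_combination -this
    · exact rr_comm.map φ
    · rw [rr_eb]
  refine h.tri2 p h3 (T rfl) (T fL_neg) (congrArg φ fL_neg.symm) (fun g g' => ((gamL_comm g' g).symm.map psi).map φ) ?_ hs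
    (big_dS h2 h3) ?_ ?_
  · rw [← r]
    rintro _ ⟨y, rfl⟩
    refine Subgroup.mem_comap.1 (gen_all ?_ (fun _ => ?_) (fun _ => ?_) y) <;> refine Subgroup.subset_closure ?_
    exacts [.inr rfl, .inl (.inl ⟨_, rfl⟩), .inl (.inr ⟨_, rfl⟩)]
  · rintro _ ⟨c, rfl⟩
    obtain ⟨A, e⟩ := fL_dS c
    rw [MonoidHom.comp_apply, ← e]
    refine Subgroup.mem_comap.1 (gen_sl3 ?_ (fun _ => ?_) A) <;> refine Subgroup.subset_closure ?_
    exacts [.inr rfl, .inl ⟨_, rfl⟩]
  · rintro _ ⟨c, rfl⟩
    refine (Subgroup.mem_comap (f := φ)).1 (fR_dS_mem ?_ (fun _ => ?_) c) <;> refine Subgroup.subset_closure ?_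
    exacts [.inr rfl, .inl ⟨_, rfl⟩]
include p in
/-- `Oct.nonempty_chev_equiv`: work in `Lie.G2 E`.  `char_of_SL3` with `Oct.sl`.  `q > 3`: `Rep.tri2` with `f = psi ∘ gamR` (long roots, `= sl ∘ up`),
`f' = psi ∘ gamL` (short roots), both map `-1` to `t` (`psi_eq_one_iff`), `r = sl` of a cyclic permutation matrix, `H = range dS`; `split_of` (S2100).
`⟨f, r⟩ = sl SL₃` contains `f' (dS c) = sl (diag (c², c⁻¹, c⁻¹))` (check).  `f (dS c) ∈ ⟨f', r⟩`: for `p = 3` cubing is onto and products of the `r`-conjugates of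
`diag (c², c⁻¹, c⁻¹)` give `diag (1, c³, c⁻³)`; for `p ≠ 3` a commutator of two short root elements is a long root element with coefficient `± 3 s t` (octonion computation or S1025), so `⟨f', r⟩ ⊇ f (SL₂)`.
Generation: `⟨f, f', r⟩` contains the twelve root subgroups `yG` (`exists_chev_equiv`), or: it contains `sl SL₃ = stabilizer e0` and is transitive on the idempotents (`Idem.exists_smul'`).
`q = 3 = p`: `Rep.hur` with ATLAS generators `a ∈ 2A`, `b ∈ 3C`, `a b` of order 13 (find in `G2 (ZMod 3)` by computer, with words for generators; `m = 3`); all involutions are conjugate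
(`isConj_invol`) to the centre `t` of a `Q₈`.  ALTERNATIVE for `q = 3` (no words): `σ` a splitting (S2101), `E₈` pure, `W^{σ E₈} = K w` (`sum_dm`), fixed by the perfect `N(E₈) = 2³·L₃(2) ⊇ O₂(C(t))`, so `K w = W^{σ O₂(C t)}`
is normalised by `C(t)`; `⟨N(E₈), C(t)⟩ = M`. -/
theorem Rep.no_G2 (h : Rep M) (ho : Odd (Fintype.card E)) (e : M ≃* Lie.chevG2.group E) : False := by
  obtain ⟨c⟩ := Oct.nonempty_chev_equiv (F := E)
  have inj := emb_injective (e.trans c)
  have k := char_of_SL3 h.two ho ((emb (e.trans c)).comp Oct.sl)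
    (((MonoidHom.ker_eq_bot_iff _).2 fun _ _ l => Oct.sl_injective (inj l)).le.trans bot_le)
  have := charP_of_card p k
  have h1 := Fintype.one_lt_card (α := E)
  obtain ⟨n, hn⟩ := ho
  by_cases h3 : Fintype.card E = 3
  · have : CharP E 3 := charP_of_card_eq_prime h3
    have s := (Fintype.bijective_iff_injective_and_card _).2 ⟨(ZMod.castHom (dvd_refl 3) E).injective, (ZMod.card 3).trans h3.symm⟩
    refine g2_three h (by simpa [h3] using k) ((emb (e.trans c)).comp (Oct.mapG (ZMod.castHom (dvd_refl 3) E)))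
      (fun _ _ l => Oct.mapG_injective _ (inj l)) ?_
    rw [MonoidHom.range_comp, (Subgroup.eq_top_iff' _).2 fun _ => Oct.mem_range_mapG _ fun _ _ => s.2 _, ← MonoidHom.range_eq_map,
      range_emb]
  refine g2_big p h (by rw [Nat.card_eq_fintype_card]; omega) (split_of h.toPre e (Chev.commutator_group_eq_top (by simp) fun _ => ?_)
    (Agent.S2100.result (by omega)) odd_one) _ inj (range_emb _)
  exact ⟨-1, by simp, fun e => h.two ((CharP.cast_eq_zero_iff K p 2).2 ((CharP.cast_eq_zero_iff E p 2).1 (by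
    push_cast; linear_combination -e)))⟩

end Cfsg.Lib.O7
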