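import Cfsg.Agent.Lib.O7.Spin
import Cfsg.Agent.Lib.Asch.Adjs
import Cfsg.Prelude.Def_GeometricClasses

/-!
# From matrix groups to subgroups of `O (Q F)` (STUB file of `docs/O7.md`)
-/

set_option autoImplicit false

namespace Cfsg.Lib.O7

open QuadraticMap Module Matrix Cfsg.Lib.Orth Cfsg.Geo
open scoped MatrixGroups

section Gl

variable {F : Type*} [Field F]

variable (F) in
/-- The matrix of an isometry. -/
noncomputable def glM : O (Q F) →* GL I7 F := (isometryGroup F (Q F)).subtype.comp (isoEquiv (Q F)).symm.toMonoidHom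

theorem glM_injective : Function.Injective (glM F) := Subtype.val_injective.comp (isoEquiv (Q F)).symm.injective

theorem glM_mulVec (g : O (Q F)) (v : V F) : (glM F g).1 *ᵥ v = g.1 v := isoEquiv_symm_mulVec g v

theorem toLin_glM (g : O (Q F)) : Matrix.toLin' (glM F g).1 = (g.1 : V F →ₗ[F] V F) := LinearMap.ext (glM_mulVec g)

theorem map_glM : (commutator (O (Q F))).map (glM F) = omegaGL (quadFormOdd 3 F) := by
  rw [glM, ← Subgroup.map_map]
  exact congrArg _ (map_commutator_equiv (isoEquiv (Q F)).symm)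

theorem det_glM (g : O (Q F)) : (glM F g).1.det = O.det _ g := by
  rw [O.coe_det, ← toLin_glM, LinearMap.det_toLin']

theorem absIrr_glM {P : Subgroup (O (Q F))} : ActsAbsolutelyIrreducibly (matrixSet (P.map (glM F))) ↔ Irr P ∧
    ∀ A : Module.End F (V F), (∀ g ∈ P, ∀ v, A (g.1 v) = g.1 (A v)) → ∃ c : F, A = c • 1 := by
  refine and_congr (forall_congr' fun X => imp_congr_left ⟨fun h g hg v hv => ?_, ?_⟩) ⟨fun h A hA => ?_, fun h A hA => ?_⟩
  · exact glM_mulVec g v ▸ h _ ⟨_, ⟨g, hg, rfl⟩, rfl⟩ ⟨v, hv, rfl⟩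
  · rintro h _ ⟨_, ⟨g, hg, rfl⟩, rfl⟩ _ ⟨v, hv, rfl⟩
    exact (congrArg (· ∈ X) (glM_mulVec g v)).mpr (h g hg v hv)
  · obtain ⟨A, rfl⟩ := Matrix.toLin'.surjective A
    obtain ⟨c, rfl⟩ := h A (by
      rintro _ ⟨_, ⟨g, hg, rfl⟩, rfl⟩
      refine matrix_ext_mulVec fun v => ?_
      rw [← mulVec_mulVec, ← mulVec_mulVec, glM_mulVec, glM_mulVec]
      exact hA g hg v)
    exact ⟨c, by rw [map_smul, toLin'_one]; rfl⟩
  · obtain ⟨c, hc⟩ := h (Matrix.toLin' A) fun g hg v => by
      rw [← glM_mulVec, ← glM_mulVec, toLin'_apply, toLin'_apply, mulVec_mulVec, mulVec_mulVec, hA _ ⟨_, ⟨g, hg, rfl⟩, rfl⟩]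
    exact ⟨c, Matrix.toLin'.injective (by rw [hc, map_smul, toLin'_one]; rfl)⟩

theorem det_of_mem_commutator {g : O (Q F)} (h : g ∈ commutator (O (Q F))) : O.det _ g = 1 :=
  MonoidHom.mem_ker.1 (Abelianization.commutator_subset_ker (O.det (Q F)) h)

theorem eq_one_of_scalar {g : O (Q F)} (h : g ∈ commutator (O (Q F))) (hs : glM F g ∈ scalars I7 F) : g = 1 := by
  obtain ⟨c, hc⟩ := (mem_scalars_iff _).1 hs
  have h1 := det_glM g
  rw [hc, det_smul, det_one, mul_one, det_of_mem_commutator h, show Fintype.card I7 = 2 * 3 + 1 from rfl] at h1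
  have h2 := O.map_Q g (sU F)
  rw [← glM_mulVec, hc, smul_mulVec, one_mulVec, Q_smul, show Q F (sU F) = 1 by simp [qOdd_apply], mul_one] at h2
  rw [pow_succ, pow_mul, h2, one_pow, one_mul, Units.val_one] at h1
  exact O.ext fun v => by rw [← glM_mulVec, hc, h1, one_smul, one_mulVec]; rfl

end Gl

variable {F : Type*} [Field F] [Finite F]

/-- `H' = (H.subgroupOf _).map (isoEquiv _)`, the same for `P` (`mem_omega_iff`; cf. `OMax.isMaximalIn_of`, Lib/Sp4O/Irr).  A scalar `c` in `P` has `c² = 1` (form) and `c⁷ = 1` (determinant), so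
`P` contains no scalar except `1` and `P ⧸ scalars ≃* P ≃* P'`.  `nosub`: `Asch.exists_subfield_of_trace`, `env_eq_top_of_absIrred` as in `Sp4O.Core.eq_top`. -/
theorem exists_core (h2 : (2 : F) ≠ 0) {H P : Subgroup (GL I7 F)} (hH : IsMaximalIn (omegaGL (quadFormOdd 3 F)) H)
    (hC : IsResidualCore H P) : ∃ H' P' : Subgroup (O (Q F)), Core P' ∧ Mx H' P' ∧
      Nonempty ((P ⧸ (scalars I7 F).subgroupOf P) ≃* P') := by
  have r : H ≤ (glM F).range := hH.1.le.trans (map_glM.ge.trans (Subgroup.map_le_range _ _))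
  have eH := Subgroup.map_comap_eq_self r
  have eP := Subgroup.map_comap_eq_self (hC.le.trans r)
  have l : H.comap (glM F) ≤ commutator _ := fun g hg =>
    (Subgroup.mem_map_iff_mem glM_injective).1 (map_glM.ge (hH.1.le hg))
  have b : (scalars I7 F).subgroupOf P = ⊥ := (Subgroup.eq_bot_iff_forall _).2 fun x hx => by
    obtain ⟨g, hg⟩ := r (hC.le x.2)
    exact Subtype.ext (hg.symm.trans ((congrArg _ (eq_one_of_scalar (l (hg.symm ▸ hC.le x.2 : glM F g ∈ H))
      (hg.symm ▸ hx : glM F g ∈ scalars I7 F))).trans (map_one _)))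
  have e : (P ⧸ (scalars I7 F).subgroupOf P) ≃* P.comap (glM F) := ((QuotientGroup.quotientMulEquivOfEq b).trans
    QuotientGroup.quotientBot).trans ((MulEquiv.subgroupCongr eP.symm).trans
      (Subgroup.equivMapOfInjective _ _ glM_injective).symm)
  have a := absIrr_glM.1 (eP.symm ▸ hC.absIrred)
  have := hC.simple
  refine ⟨H.comap (glM F), P.comap (glM F), ⟨h2, (Subgroup.comap_mono hC.le).trans l, fun m => hH.1.not_ge
    (map_glM.ge.trans ((Subgroup.map_le_iff_le_comap.2 m).trans hC.le)), e.symm.isSimpleGroup,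
    fun c => hC.nonabelian ⟨⟨fun a b => e.injective (by rw [map_mul, map_mul, c.1.1])⟩⟩, a.1, a.2, fun k hk => ?_⟩,
    ⟨l, fun Y h1 h3 => ?_, Subgroup.comap_mono hC.le, fun h hh g hg => ?_⟩, ⟨e⟩⟩
  · by_contra n
    obtain ⟨B, -, hB⟩ := Asch.exists_subfield_of_trace (H := ⊥) (F₀ := k) (Asch.env_eq_top_of_absIrred hC.absIrred) bot_le
      fun x hx => by
        obtain ⟨g, rfl⟩ := r (hC.le hx)
        have := hk g hx
        rwa [chi, ← toLin_glM, trace_toLin'_eq] at this
    exact hC.no_subfield k n ⟨B⁻¹, fun s hs => (hB s).1 (Algebra.subset_adjoin hs)⟩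
  · exact (hH.2 (Y.map (glM F)) (eH.ge.trans (Subgroup.map_mono h1)) ((Subgroup.map_mono h3).trans map_glM.le)).imp
      (fun e => Subgroup.map_le_iff_le_comap.1 e.le)
      fun e => (Subgroup.map_injective glM_injective (e.trans map_glM.symm)).ge
  · rw [Subgroup.mem_comap, map_mul, map_mul, map_inv]
    exact hC.normal _ hh _ hg

variable {P : Subgroup (O (Q F))} {K : Type*} [Field K] (ι : F →+* K)

/-- The `F`-span of the matrices of `P` is the full matrix algebra (`env_eq_top_of_absIrred`, from `irr` and `abs`), so the `K`-span of their images is (`toMatrix_bc`; cf. `Q5.env_ext`). -/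
theorem Core.irr_bc (h : Core P) : Irr (P.map (bc ι)) := by
  intro X hX
  have t := Asch.env_eq_top_of_absIrred (absIrr_glM.2 ⟨h.irr, h.abs⟩)
  have k : ∀ A ∈ Asch.env (P.map (glM F)), ∀ v ∈ X, A.map ι *ᵥ v ∈ X := fun A hA => by
    induction hA using Algebra.adjoin_induction with
    | mem x hx =>
      obtain ⟨_, ⟨g, hg, rfl⟩, rfl⟩ := hx
      intro v hv
      have := toMatrix_bc ι g
      rw [← toLin_glM g, LinearMap.toMatrix'_toLin'] at this
      rw [← this, LinearMap.toMatrix'_mulVec]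
      exact hX _ ⟨g, hg, rfl⟩ v hv
    | algebraMap r =>
      intro v hv
      have : (algebraMap F (Matrix I7 I7 F) r).map ι = ι r • 1 := by
        ext i j
        by_cases e : i = j <;> simp [Matrix.algebraMap_matrix_apply, e]
      rw [this, smul_mulVec, one_mulVec]
      exact X.smul_mem _ hv
    | add x y _ _ hx hy => intro v hv; rw [Matrix.map_add _ (map_add ι), add_mulVec]; exact add_mem (hx v hv) (hy v hv)
    | mul x y _ _ hx hy => intro v hv; rw [Matrix.map_mul, ← mulVec_mulVec]; exact hx _ (hy v hv)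
  refine or_iff_not_imp_left.2 fun n => eq_top_iff.2 fun w _ => ?_
  obtain ⟨v, hv, v0⟩ := (Submodule.ne_bot_iff X).1 n
  obtain ⟨j, hj⟩ := Function.ne_iff.1 v0
  rw [← Finset.univ_sum_single w]
  refine sum_mem fun i _ => ?_
  have := X.smul_mem (w i / v j) (k (Matrix.single i j 1) (t ▸ trivial) v hv)
  rwa [Matrix.map_single, map_one, single_mulVec_eq, one_mul, smul_smul, div_mul_cancel₀ _ hj, ← Pi.single_smul,
    smul_eq_mul, mul_one] at this

/-- Determinants are trivial on the commutator subgroup. -/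
theorem Core.pre (h : Core P) (h6 : ∀ t ∈ P, t * t = 1 → dm t ≠ 6) : Pre P :=
  ⟨h.two, inferInstance, fun _ hg => det_of_mem_commutator (h.le hg), h6⟩

omit [Finite F] in
/-- `det_bc`, `dm_bc`, `bc_injective`. -/
theorem Pre.bc (h : Pre P) : Pre (P.map (bc ι)) := by
  refine ⟨fun e => h.two (ι.injective (by rw [map_ofNat, map_zero, e])), ?_, ?_, ?_⟩
  · have := h.fin
    exact .of_equiv _ (P.equivMapOfInjective _ (bc_injective ι)).toEquiv
  · rintro _ ⟨g, hg, rfl⟩
    exact Units.ext (by rw [det_bc, h.det g hg, Units.val_one, map_one, Units.val_one])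
  · rintro _ ⟨g, hg, rfl⟩ e
    rw [dm_bc]
    exact h.nt6 g hg (bc_injective ι (by rw [map_mul, e, map_one]))

end Cfsg.Lib.O7
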