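import Cfsg.Agent.Lib.O7.Tor
import Cfsg.Agent.Lib.Schur.Basic

/-!
# Splitting of the spin cover; `(2, 3, r)`-generated groups (STUB file of `docs/O7.md`)
-/

set_option autoImplicit false

namespace Cfsg.Lib.O7

open QuadraticMap Module Matrix Cfsg.Lib.Orth

variable {K : Type*} [Field K] [IsAlgClosed K] {M : Subgroup (O (Q K))}

theorem hur_split {S G X A : Type*} [Group S] [Group G] [Group X] [Finite X] [CommGroup A] (φ : S →* G) {z : S}
    (hz : ∀ s, s * z = z * s) (z2 : z * z = 1) (hk : ∀ s, φ s = 1 → s = 1 ∨ s = z) (hX : commutator X = ⊤)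
    (hA : HasSchurMultiplier X A) (ho : Odd (Nat.card A)) (f : X →* G) (hs : ∀ x, ∃ s, φ s = f x) :
    ∃ σ : X →* S, ∀ x, φ (σ x) = f x := by
  let Y : Subgroup (X × S) := (f.comp (.fst _ _)).eqLocus (φ.comp (.snd _ _))
  let ξ : Y →* X := (MonoidHom.fst _ _).comp Y.subtype
  have s : Function.Surjective ξ := fun x => by
    obtain ⟨s, e⟩ := hs x
    exact ⟨⟨(x, s), e.symm⟩, rfl⟩
  have k : ∀ y ∈ ξ.ker, y.1 = 1 ∨ y.1 = (1, z) := fun y hy => by
    have e1 : y.1.1 = 1 := hy
    have e2 : f y.1.1 = φ y.1.2 := y.2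
    rw [e1, map_one] at e2
    exact (hk _ e2.symm).imp (Prod.ext e1) (Prod.ext e1)
  have c : ξ.ker ≤ Subgroup.center Y := fun y hy => Subgroup.mem_center_iff.2 fun g => Subtype.ext (by
    change g.1 * y.1 = y.1 * g.1
    rcases k y hy with e | e <;> rw [e]
    · simp
    · exact Prod.ext (by simp) (hz _))
  haveI : Finite ξ.ker := ((Set.toFinite {1, (1, z)}).subset (by rintro _ ⟨y, hy, rfl⟩; exact k y hy :
    Subtype.val '' (ξ.ker : Set Y) ⊆ _)).of_finite_image Subtype.val_injective.injOn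
  haveI := Schur.finite_of_finite_ker ξ
  let τ := ξ.comp (commutator Y).subtype
  have s' : Function.Surjective τ := by
    rw [← MonoidHom.range_eq_top, MonoidHom.range_comp, Subgroup.range_subtype, commutator_def, Subgroup.map_commutator,
      ← MonoidHom.range_eq_map, MonoidHom.range_eq_top.2 s]
    exact hX
  have p : commutator (commutator Y) = ⊤ := by
    refine Subgroup.map_injective (commutator Y).subtype_injective ?_
    rw [commutator_def (commutator Y), Subgroup.map_commutator, ← MonoidHom.range_eq_map, Subgroup.range_subtype]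
    refine (Schur.commutator_eq_of_mul_center fun y => ?_).symm
    obtain ⟨u, v, hv, e⟩ := Schur.exists_mul_ker s' (ξ := ξ) (η := (commutator Y).subtype) rfl y
    exact ⟨u, u.2, v, c hv, e⟩
  obtain ⟨π, hπ⟩ := Schur.exists_surjective_ker hA (σ := τ) ⟨s', (fun y hy => Subgroup.mem_center_iff.2 fun g =>
    Subtype.ext (Subgroup.mem_center_iff.1 (c hy) g.1)), p ▸ le_top⟩
  have i : Function.Injective τ := (injective_iff_map_eq_one τ).2 fun y hy => by
    obtain ⟨a, e⟩ := hπ ⟨y, hy⟩
    obtain ⟨n, hn⟩ := ho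
    have e1 : y * y = 1 := Subtype.ext (Subtype.ext (by
      change y.1.1 * y.1.1 = 1
      rcases k y.1 hy with e | e <;> rw [e]
      · simp
      · exact Prod.ext (by simp) z2))
    have e2 := congrArg Subtype.val ((map_pow π a _).symm.trans ((congrArg π pow_card_eq_one').trans (map_one π)))
    rw [e, hn] at e2
    change y ^ (2 * n + 1) = 1 at e2
    rwa [pow_succ, pow_mul, pow_two, e1, one_pow, one_mul] at e2
  let e := MulEquiv.ofBijective τ ⟨i, s'⟩
  exact ⟨((MonoidHom.snd _ _).comp (Y.subtype.comp (commutator Y).subtype)).comp e.symm.toMonoidHom, fun x =>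
    (e.symm x).1.2.symm.trans (congrArg f (e.apply_symm_apply x))⟩

/-- `T6`.  Let `Y = {(x, s) | f x = phi s} ≤ X × Spin K` (finite, onto `X` by `exists_lift`, kernel `⟨(1, ng)⟩`) and `Y' = ⁅Y, Y⁆`,
which maps onto `X`, is perfect, with central kernel of order `≤ 2`: a stem extension.  `Schur.exists_surjective_ker` makes the
kernel a quotient of `A`, so trivial: `Y' ≃ X`. -/
theorem exists_split (h2 : (2 : K) ≠ 0) {X : Type*} [Group X] [Finite X] (hX : commutator X = ⊤)
    {A : Type*} [CommGroup A] (hA : HasSchurMultiplier X A) (ho : Odd (Nat.card A)) (f : X →* O (Q K)) :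
    ∃ σ : X →* Spin K, ∀ x, phi (σ x) = f x := hur_split phi ng_comm ng_mul_self (fun _ => phi_eq_one.1) hX hA ho f fun x =>
  exists_lift h2 (Abelianization.commutator_subset_ker ((O.det _).comp f) (hX.ge (Subgroup.mem_top x)))

/-- `b̂` the lift of order three of `b`, `ĉ` the lift of order `r` of `a b` (`exists_odd_lift`), `â = ĉ b̂⁻¹` is a lift of `a`.
`Rep.irr_of_le` for `⟨â, b̂⟩`, `Irr.scott` on `W`: `4 + 4 + 2 ≤ 8` (`lift_four`, `fx_three`, `fx_nine`). -/
theorem Rep.hur (h : Rep M) {a b : O (Q K)} (hl : M = Subgroup.closure {a, b}) (ha : a * a = 1) (hb : b ^ 3 = 1)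
    (da : dm a = 4) (db : (3 : K) = 0 ∨ dm b = 4) {r m : ℕ} (hr : r.Prime) (h5 : 5 ≤ r) (hc : (a * b) ^ r = 1)
    (e : (r : K) = 0 ∨ (r ∣ m ^ 2 + m + 1 ∧ IsConj (a * b) ((a * b) ^ m))) : False := by
  obtain ⟨sb, eb, b3⟩ := exists_odd_lift h.two (by decide : Odd 3) hb
  obtain ⟨sc, ec, cr⟩ := exists_odd_lift h.two (hr.odd_of_ne_two (by omega)) hc
  have ea : phi (sc * sb⁻¹) = a := by rw [map_mul, map_inv, eb, ec, mul_inv_cancel_right]
  have i := h.irr_of_le (S := Subgroup.closure {sc * sb⁻¹, sb}) (by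
    rw [hl, MonoidHom.map_closure, Set.image_pair, ea, eb])
  have s := i.scott (by rw [finrank_W]; norm_num) (a := act (sc * sb⁻¹)) (b := act sb) (by
    rw [MonoidHom.map_closure, Set.image_pair])
  rw [← map_mul, inv_mul_cancel_right, finrank_W, (lift_four h.two (ea ▸ ha) (ea ▸ da)).2] at s
  have := fx_three h.two b3 (eb ▸ db)
  have := fx_nine h.two hr h5 cr (ec ▸ e)
  omega

/-- The version for groups with one class of involutions: `b = s (s b)` is a product of two involutions, so type two is excluded by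
`Irr.not_three`; `b` normalises the four-group `⟨t, b t b⁻¹⟩` (`Rho.four`, `Four.dm_rho`). -/
theorem Rep.hur' (h : Rep M) {a b s t : O (Q K)} (hl : M = Subgroup.closure {a, b}) (ha : a * a = 1) (h1 : a ≠ 1)
    (hb : b ^ 3 = 1) (one : ∀ x ∈ M, x * x = 1 → x ≠ 1 → IsConj a x) (hs : s ∈ M) (es : s * s = 1)
    (eb : s * b * s = b⁻¹) (b1 : b ≠ 1) (ht : t ∈ M) (et : t * t = 1) (t1 : t ≠ 1) (c : Commute t (b * t * b⁻¹))
    (e3 : b * (b * t * b⁻¹) * b⁻¹ = t * (b * t * b⁻¹)) {r m : ℕ} (hr : r.Prime) (h5 : 5 ≤ r)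
    (hc : (a * b) ^ r = 1) (e : (r : K) = 0 ∨ (r ∣ m ^ 2 + m + 1 ∧ IsConj (a * b) ((a * b) ^ m))) : False := by
  have ma : a ∈ M := hl ▸ Subgroup.subset_closure (.inl rfl)
  have mb : b ∈ M := hl ▸ Subgroup.subset_closure (.inr rfl)
  have bi : b ≠ b⁻¹ := fun e => b1 (by rwa [pow_succ, pow_two, eq_inv_iff_mul_eq_one.1 e, one_mul] at hb)
  have da : dm a = 4 := (h.dm_inv ma ha h1).resolve_left fun d => by
    have s1 : s ≠ 1 := fun e => bi (by simpa [e] using eb)
    have q : s * b * (s * b) = 1 := by rw [← mul_assoc, eb, inv_mul_cancel]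
    have s2 : s * b ≠ 1 := fun e => bi (by
      rw [← eb, e, one_mul, ← inv_eq_of_mul_eq_one_right e, inv_eq_of_mul_eq_one_right es])
    refine h.irrV.not_three (a := a) (b := s) (c := s * b) (hl.le.trans ((Subgroup.closure_le _).2 ?_)) d
      ((dm_of_isConj (one s hs es s1)).symm.trans d) ((dm_of_isConj (one _ (mul_mem hs mb) q s2)).symm.trans d)
    have := mul_mem (Subgroup.subset_closure (k := {a, s, s * b}) (.inr (.inl rfl)))
      (Subgroup.subset_closure (.inr (.inr rfl)))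
    rw [← mul_assoc, es, one_mul] at this
    exact Set.insert_subset (Subgroup.subset_closure (.inl rfl)) (Set.singleton_subset_iff.2 this)
  have ρ : Rho t (b * t * b⁻¹) b := ⟨hb, rfl, e3⟩
  exact h.hur hl ha hb da (.inr ((ρ.four h.two et c ((dm_of_isConj (one t ht et t1)).symm.trans da)).dm_rho ρ)) hr h5 hc e

end Cfsg.Lib.O7
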