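import Cfsg.Agent.Lib.O7.Tor

/-!
# `T1`: abelian subgroups of odd order prime to the characteristic (STUB file of `docs/O7.md`)

By `exists_wt` assume `A ≤ dgV`.  The set `Ω` of non-trivial weights `a ↦ wV (μ a) i` has at most six elements and the
fixed-point-free involution `ι = (·)⁻¹`.  An element `x` normalising `A` maps weight spaces to weight spaces, so induces a
permutation `σ x` of `Ω` commuting with `ι` (a homomorphism), and `σ x = 1` iff `x` centralises `A` (the weights separate the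
elements of `A`).  So `N(A)/C(A)` embeds in `2 ≀ S₃ ≅ 2 × S₄`.
-/

set_option autoImplicit false

namespace Cfsg.Lib.O7

open QuadraticMap Module Matrix Cfsg.Lib.Orth

/-- The map commuting with the flip of the second coordinate and with prescribed values on `(i, false)`. -/
def t1xAc (a b c y : Fin 3 × Bool) : Fin 3 × Bool := ((![a, b, c] y.1).1, xor (![a, b, c] y.1).2 y.2)

theorem t1x_model {Ω : Type*} [Finite Ω] (h : Nat.card Ω ≤ 6) {ι : Equiv.Perm Ω} (h1 : ι * ι = 1)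
    (h2 : ∀ x, ι x ≠ x) : ∃ Φ : Equiv.Perm Ω →* Equiv.Perm (Fin 3 × Bool), Function.Injective Φ ∧
      ∀ σ, Commute σ ι → ∃ a b c, ⇑(Φ σ) = t1xAc a b c := by
  classical
  letI : LinearOrder Ω := LinearOrder.lift' (Finite.equivFin Ω) (Equiv.injective _)
  have ii : ∀ x, ι (ι x) = x := fun x => by rw [← Equiv.Perm.mul_apply, h1]; rfl
  let F : {x // x < ι x} × Bool → Ω := fun p => if p.2 then ι p.1.1 else p.1.1
  have hF : Function.Bijective F := by
    constructor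
    · rintro ⟨⟨x, hx⟩, _ | _⟩ ⟨⟨y, hy⟩, _ | _⟩ e <;> simp only [F, if_true, Bool.false_eq_true, if_false] at e
      · subst e; rfl
      · subst e; rw [ii] at hx; exact (lt_asymm hx hy).elim
      · subst e; rw [ii] at hy; exact (lt_asymm hx hy).elim
      · obtain rfl := ι.injective e; rfl
    · intro x
      rcases lt_or_gt_of_ne (h2 x) with l | l
      · exact ⟨(⟨ι x, by rwa [ii]⟩, true), ii x⟩
      · exact ⟨(⟨x, l⟩, false), rfl⟩
  let E := Equiv.ofBijective F hF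
  have hc : Nat.card {x // x < ι x} ≤ Nat.card (Fin 3) := by
    have := Nat.card_congr E
    rw [Nat.card_prod, Nat.card_eq_fintype_card (α := Bool), Fintype.card_bool] at this
    rw [Nat.card_eq_fintype_card (α := Fin 3), Fintype.card_fin]
    omega
  haveI := Fintype.ofFinite {x // x < ι x}
  rw [Nat.card_eq_fintype_card, Nat.card_eq_fintype_card] at hc
  obtain ⟨g⟩ := Function.Embedding.nonempty_of_card_le hc
  let e : Ω ↪ Fin 3 × Bool := E.symm.toEmbedding.trans (g.prodMap (Function.Embedding.refl _))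
  have he : ∀ x, e (ι x) = ((e x).1, !(e x).2) := fun x => by
    obtain ⟨⟨r, b⟩, rfl⟩ := E.surjective x
    have : ι (E (r, b)) = E (r, !b) := by
      cases b
      · rfl
      · exact ii _
    rw [this]
    simp [e]
  refine ⟨Equiv.Perm.viaEmbeddingHom e, Equiv.Perm.viaEmbeddingHom_injective e, fun σ c => ?_⟩
  have k : ∀ i, Equiv.Perm.viaEmbeddingHom e σ (i, true) =
      ((Equiv.Perm.viaEmbeddingHom e σ (i, false)).1, !(Equiv.Perm.viaEmbeddingHom e σ (i, false)).2) := fun i => by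
    rw [Equiv.Perm.viaEmbeddingHom_apply]
    by_cases m : (i, false) ∈ Set.range e
    · obtain ⟨x, hx⟩ := m
      have : e (ι x) = (i, true) := by rw [he, hx]; rfl
      rw [← this, ← hx, Equiv.Perm.viaEmbedding_apply, Equiv.Perm.viaEmbedding_apply, ← Equiv.Perm.mul_apply, c.eq,
        Equiv.Perm.mul_apply, he]
    · have m' : (i, true) ∉ Set.range e := fun ⟨x, hx⟩ => m ⟨ι x, by rw [he, hx]; rfl⟩
      rw [Equiv.Perm.viaEmbedding_apply_of_notMem _ _ _ m, Equiv.Perm.viaEmbedding_apply_of_notMem _ _ _ m']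
      rfl
  refine ⟨Equiv.Perm.viaEmbeddingHom e σ (0, false), Equiv.Perm.viaEmbeddingHom e σ (1, false),
    Equiv.Perm.viaEmbeddingHom e σ (2, false), funext fun ⟨i, b⟩ => ?_⟩
  fin_cases i <;> cases b <;> simp [t1xAc, k]

set_option synthInstance.maxSize 4096 in
theorem t1x_dec1 : ∀ a b c, (∀ y z, t1xAc a b c y = t1xAc a b c z → y = z) →
    (∀ y, (t1xAc a b c)^[4] y = y) ∨ ∀ y, (t1xAc a b c)^[6] y = y := by
  decide +kernel

set_option synthInstance.maxSize 4096 in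
theorem t1x_dec2 : ∀ a b c, (∀ y z, t1xAc a b c y = t1xAc a b c z → y = z) → ∀ a' b' c',
    (∀ y, t1xAc a b c (t1xAc a b c y) = t1xAc a' b' c' (t1xAc a' b' c' y)) →
    (∀ y, t1xAc a b c (t1xAc a' b' c' (t1xAc a b c y)) = t1xAc a' b' c' y) →
    ∀ y, t1xAc a b c (t1xAc a b c y) = y := by
  decide +kernel

/-- `σ` permutes the at most three `ι`-orbits; if this permutation has order `≤ 2` then `σ²` fixes every orbit, `σ⁴ = 1`;
if it has order three then `σ³` fixes every orbit. -/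
theorem perm_pow {Ω : Type*} [Finite Ω] (h : Nat.card Ω ≤ 6) {ι σ : Equiv.Perm Ω} (h1 : ι * ι = 1)
    (h2 : ∀ x, ι x ≠ x) (c : Commute σ ι) : σ ^ 4 = 1 ∨ σ ^ 6 = 1 := by
  obtain ⟨Φ, i, H⟩ := t1x_model h h1 h2
  obtain ⟨a, b, d, e⟩ := H σ c
  refine (t1x_dec1 a b d (e ▸ (Φ σ).injective)).imp (fun k => i ?_) fun k => i ?_ <;>
  · rw [map_pow, map_one]
    exact Equiv.ext fun y => by rw [Equiv.Perm.coe_pow, e]; exact k y

/-- No quaternion group in `2 ≀ S₃`: if `σ² ≠ 1` then `σ⁴ = 1` (`τ` inverts `σ` and centralises `σ²`), `σ` swaps two orbits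
`{a, ι a}`, `{b, ι b}` as a 4-cycle with square `ι` there; so does `τ` (`τ² = σ²` moves the same points), so `τ = σ^{±1}` on these four
points, contradicting `τ σ τ⁻¹ = σ⁻¹`.  (Or embed `Ω` in `Fin 3 × Bool` and `decide`.) -/
theorem perm_q8 {Ω : Type*} [Finite Ω] (h : Nat.card Ω ≤ 6) {ι σ τ : Equiv.Perm Ω} (h1 : ι * ι = 1)
    (h2 : ∀ x, ι x ≠ x) (c : Commute σ ι) (c' : Commute τ ι) (e : σ * σ = τ * τ)
    (e' : τ * σ * τ⁻¹ * σ = 1) : σ * σ = 1 := by
  obtain ⟨Φ, i, H⟩ := t1x_model h h1 h2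
  obtain ⟨a, b, d, f⟩ := H σ c
  obtain ⟨a', b', d', f'⟩ := H τ c'
  have e2 : σ * (τ * σ) = τ :=
    calc σ * (τ * σ) = σ * (τ * σ * τ⁻¹) * τ := by group
      _ = τ := by rw [mul_eq_one_comm.1 e', one_mul]
  have k := t1x_dec2 a b d (f ▸ (Φ σ).injective) a' b' d' (fun y => by
    rw [← f, ← f', ← Equiv.Perm.mul_apply, ← map_mul, e, map_mul, Equiv.Perm.mul_apply]) fun y => by
    rw [← f, ← f', ← Equiv.Perm.mul_apply, ← Equiv.Perm.mul_apply, ← map_mul, ← map_mul, mul_assoc, e2]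
  refine i (Equiv.ext fun y => ?_)
  rw [map_mul, map_one, Equiv.Perm.mul_apply, f]
  exact k y

theorem t1x_pair {G : Type*} [Group G] {r : ℕ} (hr : r.Prime) {a b : G} (ha : a ^ r = 1) (hb : b ^ r = 1)
    (c : Commute a b) : ∃ A : Subgroup G, Finite A ∧ (∀ u ∈ A, ∀ v ∈ A, u * v = v * u) ∧ (∃ n, Nat.card A = r ^ n) ∧
      a ∈ A ∧ b ∈ A ∧ (∀ x, x * a * x⁻¹ ∈ A → x * b * x⁻¹ ∈ A → ∀ u ∈ A, x * u * x⁻¹ ∈ A) ∧
      ∀ x, Commute x a → Commute x b → ∀ u ∈ A, Commute x u := by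
  haveI := Fact.mk hr
  haveI : IsMulCommutative (Subgroup.closure {a, b}) := Subgroup.isMulCommutative_closure (by
    rintro _ (rfl | rfl) _ (rfl | rfl)
    exacts [rfl, c.eq, c.symm.eq, rfl])
  have cm : ∀ u ∈ Subgroup.closure {a, b}, ∀ v ∈ Subgroup.closure {a, b}, u * v = v * u := fun u hu v hv =>
    setLike_mul_comm hu hv
  have pw : ∀ u ∈ Subgroup.closure {a, b}, u ^ r = 1 := fun u hu => by
    induction hu using Subgroup.closure_induction with
    | mem u hu => rcases hu with rfl | rfl <;> assumption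
    | one => exact one_pow _
    | mul u v hu hv eu ev => rw [Commute.mul_pow (cm u hu v hv), eu, ev, one_mul]
    | inv u _ eu => rw [inv_pow, eu, inv_one]
  have mn : ∀ H : Subgroup G, a ∈ H → b ∈ H → Subgroup.closure {a, b} ≤ H := fun H h h' =>
    (Subgroup.closure_le _).2 (by rintro _ (rfl | rfl) <;> assumption)
  haveI : Finite (Subgroup.closure {a, b}) := by
    letI : CommGroup (Subgroup.closure {a, b}) :=
      { (inferInstance : Group (Subgroup.closure {a, b})) with mul_comm := fun u v => Subtype.ext (cm _ u.2 _ v.2) }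
    exact CommGroup.finite_of_fg_isMulTorsion _ fun u =>
      isOfFinOrder_iff_pow_eq_one.2 ⟨r, hr.pos, Subtype.ext (pw _ u.2)⟩
  exact ⟨_, this, cm, IsPGroup.iff_card.1 fun u => ⟨1, Subtype.ext (by simpa using pw _ u.2)⟩,
    Subgroup.subset_closure (by simp), Subgroup.subset_closure (by simp),
    fun x h h' => mn ((Subgroup.closure {a, b}).comap (MulAut.conj x).toMonoidHom) h h',
    fun x h h' u hu => ((Subgroup.mem_centralizer_singleton_iff.1 (mn (Subgroup.centralizer {x})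
      (Subgroup.mem_centralizer_singleton_iff.2 h.symm.eq) (Subgroup.mem_centralizer_singleton_iff.2 h'.symm.eq) hu)) :
        Commute u x).symm⟩

theorem t1x_cop {G : Type*} [Group G] {r k : ℕ} (hr : r.Prime) (h5 : 5 ≤ r) {x a : G} (hx : x ^ r ^ k = 1)
    (h : Commute (x ^ 4) a ∨ Commute (x ^ 6) a) : Commute x a := by
  have c : Nat.Coprime 12 r := ((Nat.Prime.coprime_iff_not_dvd hr).2 fun d => by
    have := Nat.le_of_dvd (by norm_num) d
    interval_cases r <;> first | exact absurd d (by decide) | exact absurd hr (by decide)).symm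
  obtain ⟨m, e⟩ := exists_pow_eq_self_of_coprime ((c.pow_right k).coprime_dvd_right (orderOf_dvd_of_pow_eq_one hx))
  rw [← e]
  refine Commute.pow_left ?_ m
  rcases h with h | h
  · exact (pow_mul x 4 3).symm ▸ h.pow_left 3
  · exact (pow_mul x 6 2).symm ▸ h.pow_left 2

theorem t1x_conj_pow {G : Type*} [Group G] {c x : G} {k : ℕ} (e : x * c * x⁻¹ = c ^ k) (m : ℕ) :
    x ^ m * c * (x ^ m)⁻¹ = c ^ k ^ m := by
  induction m with
  | zero => simp
  | succ m ih =>
    calc x ^ (m + 1) * c * (x ^ (m + 1))⁻¹ = x * (x ^ m * c * (x ^ m)⁻¹) * x⁻¹ := by group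
      _ = c ^ k ^ (m + 1) := by rw [ih, ← conj_pow, e, ← pow_mul, pow_succ']

variable {K : Type*} [Field K] [IsAlgClosed K] (h2 : (2 : K) ≠ 0) {A : Subgroup (O (Q K))} [Finite A]
  (hc : ∀ a ∈ A, ∀ b ∈ A, a * b = b * a) (ho : Odd (Nat.card A)) (hp : (Nat.card A : K) ≠ 0)
include h2

section
include hc ho hp

theorem exists_perm : ∃ (Ω : Type) (_ : Finite Ω) (ι : Equiv.Perm Ω)
    (σ : Subgroup.normalizer (A : Set (O (Q K))) →* Equiv.Perm Ω), Nat.card Ω ≤ 6 ∧ ι * ι = 1 ∧ (∀ x, ι x ≠ x) ∧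
      (∀ x, Commute (σ x) ι) ∧ ∀ x, σ x = 1 ↔ ∀ a ∈ A, Commute x.1 a := by
  classical
  obtain ⟨k, μ, -, hk⟩ := exists_wt h2 hc ho hp
  let w : I7 → A →* Kˣ := Sum.elim (fun _ => 1)
    (Sum.elim (fun i => (Pi.evalMonoidHom _ i).comp μ) fun i => ((Pi.evalMonoidHom _ i).comp μ)⁻¹)
  have hw : ∀ i a, w i a = wV (μ a) i := by rintro (_ | _ | _) a <;> rfl
  let Wt (χ : A →* Kˣ) : Prop := ∃ v : V K, v ≠ 0 ∧ ∀ a : A, a.1.1 v = (χ a : K) • v
  have wt : ∀ χ, Wt χ ↔ ∃ i, w i = χ := fun χ => by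
    constructor
    · rintro ⟨v, h0, hv⟩
      obtain ⟨i, hi⟩ := Function.ne_iff.1 (O.apply_ne_zero k h0)
      refine ⟨i, MonoidHom.ext fun a => Units.ext (mul_right_cancel₀ hi ?_)⟩
      rw [hw, ← dgV_apply, ← hk, O.mul_apply, O.mul_apply, O.inv_apply_apply, hv, map_smul]
      rfl
    · rintro ⟨i, rfl⟩
      refine ⟨(k⁻¹).1 (Pi.single i 1), O.apply_ne_zero _ (by simp), fun a => ?_⟩
      rw [← map_smul, eq_comm, O.inv_apply_eq, ← O.mul_apply, ← O.mul_apply, hk]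
      funext j
      rw [dgV_apply, hw]
      by_cases e : j = i
      · subst e; rfl
      · simp [e]
  let Ω := {χ // χ ≠ 1 ∧ Wt χ}
  have ex : ∀ χ : Ω, ∃ j, w (.inr j) = χ.1 := fun χ => by
    obtain ⟨_ | j, e⟩ := (wt _).1 χ.2.2
    · exact (χ.2.1 e.symm).elim
    · exact ⟨j, e⟩
  choose f hf using ex
  have fi : Function.Injective f := fun χ χ' e => Subtype.ext (by rw [← hf, e, hf])
  haveI : Finite Ω := Finite.of_injective f fi
  have iv : ∀ χ : Ω, χ.1⁻¹ ≠ 1 ∧ Wt χ.1⁻¹ := fun χ => ⟨fun e => χ.2.1 (MonoidHom.ext fun a =>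
      inv_eq_one.1 (DFunLike.congr_fun e a)), (wt _).2 (by
    rw [← hf]
    rcases f χ with j | j
    · exact ⟨.inr (.inr j), rfl⟩
    · exact ⟨.inr (.inl j), MonoidHom.ext fun _ => (inv_inv _).symm⟩)⟩
  let ι : Equiv.Perm Ω := ⟨fun χ => ⟨_, iv χ⟩, fun χ => ⟨_, iv χ⟩, fun χ => Subtype.ext (MonoidHom.ext fun _ => inv_inv _),
    fun χ => Subtype.ext (MonoidHom.ext fun _ => inv_inv _)⟩
  letI : MulAction (Subgroup.normalizer (A : Set (O (Q K)))) Ω :=
    { smul := fun x χ => ⟨χ.1.comp (MulDistribMulAction.toMonoidHom A x⁻¹),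
        fun e => χ.2.1 (MonoidHom.ext fun a => by
          have := DFunLike.congr_fun e (x • a)
          rwa [MonoidHom.comp_apply, MulDistribMulAction.toMonoidHom_apply, inv_smul_smul] at this), by
        obtain ⟨v, h0, hv⟩ := χ.2.2
        refine ⟨x.1.1 v, O.apply_ne_zero _ h0, fun a => ?_⟩
        rw [← map_smul, MonoidHom.comp_apply, ← hv, ← O.mul_apply, ← O.mul_apply]
        congr 2
        change _ = x.1 * (x.1⁻¹ * a.1 * x.1⁻¹⁻¹)
        group⟩
      one_smul := fun χ => Subtype.ext (MonoidHom.ext fun a => congrArg χ.1 (by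
        change (1 : Subgroup.normalizer (A : Set (O (Q K))))⁻¹ • a = a
        rw [inv_one, one_smul]))
      mul_smul := fun x y χ => Subtype.ext (MonoidHom.ext fun a => congrArg χ.1 (by
        change (x * y)⁻¹ • a = y⁻¹ • x⁻¹ • a
        rw [_root_.mul_inv_rev, mul_smul])) }
  let σ := MulAction.toPermHom (Subgroup.normalizer (A : Set (O (Q K)))) Ω
  let E := (Finite.equivFin Ω).permCongrHom
  refine ⟨Fin (Nat.card Ω), inferInstance, E ι, E.toMonoidHom.comp σ, ?_, ?_, fun y e => ?_, fun x => ?_, fun x => ?_⟩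
  · simpa using Nat.card_le_card_of_injective f fi
  · rw [← map_mul, ← map_one E]
    exact congrArg E (Equiv.ext fun χ => Subtype.ext (MonoidHom.ext fun _ => inv_inv _))
  · obtain ⟨χ, rfl⟩ := (Finite.equivFin Ω).surjective y
    have e1 : χ.1⁻¹ = χ.1 := congrArg Subtype.val (by simpa [E] using e : ι χ = χ)
    refine χ.2.1 (MonoidHom.ext fun a => ?_)
    obtain ⟨n, hn⟩ := ho
    have e2 : χ.1 a * χ.1 a = 1 := mul_eq_one_iff_inv_eq.2 (DFunLike.congr_fun e1 a)
    have e3 := (map_pow χ.1 a _).symm.trans ((congrArg χ.1 pow_card_eq_one').trans (map_one χ.1))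
    rwa [hn, pow_succ, pow_mul, pow_two, e2, one_pow, one_mul] at e3
  · exact Commute.map (Equiv.ext fun χ => rfl : Commute (σ x) ι) E
  · change E (σ x) = 1 ↔ _
    rw [map_eq_one_iff E E.injective]
    constructor
    · intro e a ha
      have e1 : ∀ i, w i (x⁻¹ • ⟨a, ha⟩) = w i ⟨a, ha⟩ := fun i => by
        by_cases z : w i = 1
        · rw [z]; rfl
        · exact DFunLike.congr_fun (congrArg Subtype.val (Equiv.congr_fun e ⟨w i, z, (wt _).2 ⟨i, rfl⟩⟩)) ⟨a, ha⟩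
      have e2 : μ (x⁻¹ • ⟨a, ha⟩) = μ ⟨a, ha⟩ := funext fun i => e1 (.inr (.inl i))
      have e3 := (hk _).trans ((congrArg dgV e2).trans (hk _).symm)
      have e4 : x.1⁻¹ * a * x.1⁻¹⁻¹ = a := mul_left_cancel (mul_right_cancel e3)
      rw [mul_inv_eq_iff_eq_mul] at e4
      exact Commute.inv_left_iff.1 e4
    · intro e
      refine Equiv.ext fun χ => Subtype.ext (MonoidHom.ext fun a => congrArg χ.1 (Subtype.ext ?_))
      change x.1⁻¹ * a.1 * x.1⁻¹⁻¹ = a.1
      rw [(e _ a.2).inv_left.eq, mul_inv_cancel_right]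

theorem t1_pow {x : O (Q K)} (hx : ∀ a ∈ A, x * a * x⁻¹ ∈ A) :
    (∀ a ∈ A, Commute (x ^ 4) a) ∨ ∀ a ∈ A, Commute (x ^ 6) a := by
  obtain ⟨Ω, _, ι, σ, h, i1, i2, c, k⟩ := exists_perm h2 hc ho hp
  let x' : Subgroup.normalizer (A : Set (O (Q K))) := ⟨x, Subgroup.mem_normalizer_fintype hx⟩
  have k' : ∀ n, σ x' ^ n = 1 → ∀ a ∈ A, Commute (x ^ n) a := fun n e => by
    have := (k (x' ^ n)).1 ((map_pow σ _ _).trans e)
    rwa [Subgroup.coe_pow] at this
  exact (perm_pow h i1 i2 (c x')).imp (k' _) (k' _)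

theorem t1_q8 {x y : O (Q K)} (hx : ∀ a ∈ A, x * a * x⁻¹ ∈ A) (hy : ∀ a ∈ A, y * a * y⁻¹ ∈ A)
    (e : ∀ a ∈ A, Commute (x * x * (y * y)⁻¹) a) (e' : ∀ a ∈ A, Commute (y * x * y⁻¹ * x) a) :
    ∀ a ∈ A, Commute (x * x) a := by
  obtain ⟨Ω, _, ι, σ, h, i1, i2, c, k⟩ := exists_perm h2 hc ho hp
  let x' : Subgroup.normalizer (A : Set (O (Q K))) := ⟨x, Subgroup.mem_normalizer_fintype hx⟩
  let y' : Subgroup.normalizer (A : Set (O (Q K))) := ⟨y, Subgroup.mem_normalizer_fintype hy⟩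
  have f := (k (x' * x' * (y' * y')⁻¹)).2 e
  have f' := (k (y' * x' * y'⁻¹ * x')).2 e'
  simp only [map_mul, map_inv] at f f'
  exact (k (x' * x')).1 ((map_mul σ _ _).trans (perm_q8 h i1 i2 (c x') (c y') (mul_inv_eq_one.1 f) f'))

/-- `A` embeds in the cube of the group of `r`-th roots of unity. -/
theorem t1_rank {r : ℕ} (hr : 0 < r) (h : ∀ a ∈ A, a ^ r = 1) : Nat.card A ≤ r ^ 3 := by
  obtain ⟨k, μ, -, hk⟩ := exists_wt h2 hc ho hp
  haveI := NeZero.of_pos hr
  let f (a : A) (i : Fin 3) : rootsOfUnity r K := ⟨μ a i, by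
    rw [mem_rootsOfUnity, ← Pi.pow_apply, ← map_pow, show a ^ r = 1 from Subtype.ext (h _ a.2), map_one]; rfl⟩
  have i : Function.Injective f := fun a b e => by
    have : μ a = μ b := funext fun i => congrArg Subtype.val (congrFun e i)
    exact Subtype.ext (mul_left_cancel (mul_right_cancel ((hk a).trans ((congrArg dgV this).trans (hk b).symm))))
  refine (Nat.card_le_card_of_injective f i).trans ?_
  rw [Nat.card_fun, Nat.card_eq_fintype_card (α := Fin 3), Fintype.card_fin]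
  exact Nat.pow_le_pow_left (card_rootsOfUnity _ _) 3

end

/-- The cyclic case: `x c x⁻¹ = c ^ k` forces `k ^ 4 ≡ 1` or `k ^ 6 ≡ 1`. -/
theorem t1_cyc {c x : O (Q K)} {n k : ℕ} (hc : orderOf c = n) (ho : Odd n) (hn : (n : K) ≠ 0)
    (e : x * c * x⁻¹ = c ^ k) : k ^ 4 ≡ 1 [MOD n] ∨ k ^ 6 ≡ 1 [MOD n] := by
  subst hc
  haveI : Finite (Subgroup.zpowers c) := finite_zpowers.2 (orderOf_pos_iff.1 ho.pos)
  have k' : ∀ m, Commute (x ^ m) c → k ^ m ≡ 1 [MOD orderOf c] := fun m h => pow_eq_pow_iff_modEq.1 (by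
    rw [← t1x_conj_pow e, h.eq, mul_inv_cancel_right, pow_one])
  refine (t1_pow h2 (A := Subgroup.zpowers c) ?_ (by rwa [Nat.card_zpowers]) (by rwa [Nat.card_zpowers]) (x := x) ?_).imp
    (fun h => k' _ (h c (Subgroup.mem_zpowers c))) fun h => k' _ (h c (Subgroup.mem_zpowers c))
  · rintro _ ⟨i, rfl⟩ _ ⟨j, rfl⟩
    exact (Commute.zpow_zpow_self c i j).eq
  · rintro _ ⟨i, rfl⟩
    rw [← conj_zpow, e]
    exact zpow_mem (pow_mem (Subgroup.mem_zpowers c) k) i

/-- `r`-subgroups are abelian for `r ≥ 5`: take a maximal abelian normal subgroup `A` of `R`, which is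
self-centralising (library: `PGroup`); `x ^ 12 ∈ C(A) ∩ R = A` for all `x ∈ R`. -/
theorem t1_ab {r : ℕ} (hr : r.Prime) (h5 : 5 ≤ r) (hp : (r : K) ≠ 0) {R : Subgroup (O (Q K))} [Finite R]
    (hR : IsPGroup r R) : ∀ a ∈ R, ∀ b ∈ R, a * b = b * a := by
  haveI := Fact.mk hr
  haveI := hR.isNilpotent
  obtain ⟨B, -, hB, mx⟩ := Finite.exists_le_maximal (p := fun B : Subgroup R => ∀ a ∈ B, ∀ b ∈ B, a * b = b * a) (a := ⊥)
    (by rintro _ rfl _ rfl; rfl)
  haveI : Finite (B.map R.subtype) := Finite.of_equiv _ (B.equivMapOfInjective _ R.subtype_injective).toEquiv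
  obtain ⟨n, hn⟩ := IsPGroup.iff_card.1 ((hR.to_subgroup B).map R.subtype)
  have := normalizerCondition_iff_only_full_group_self_normalizing.1 Group.normalizerCondition_of_isNilpotent B
    (le_antisymm (fun x hx => ?_) Subgroup.le_normalizer)
  · subst this
    exact fun a ha b hb => congrArg Subtype.val (hB ⟨a, ha⟩ trivial ⟨b, hb⟩ trivial)
  have h := t1_pow h2 (A := B.map R.subtype) (by
    rintro _ ⟨a, ha, rfl⟩ _ ⟨b, hb, rfl⟩; exact congrArg Subtype.val (hB a ha b hb))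
    (hn ▸ (hr.odd_of_ne_two (by omega)).pow) (by rw [hn, Nat.cast_pow]; exact pow_ne_zero _ hp) (x := x.1) (by
      rintro _ ⟨a, ha, rfl⟩; exact ⟨x * a * x⁻¹, (hx a).1 ha, rfl⟩)
  obtain ⟨m, hm⟩ := hR x
  have c : ∀ a ∈ B, x * a = a * x := fun a ha => Subtype.ext (t1x_cop hr h5 (congrArg Subtype.val hm)
    (h.imp (fun h => h _ ⟨a, ha, rfl⟩) fun h => h _ ⟨a, ha, rfl⟩)).eq
  haveI : IsMulCommutative (Subgroup.closure (insert x (B : Set R))) := Subgroup.isMulCommutative_closure (by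
    rintro a (rfl | ha) b (rfl | hb)
    exacts [rfl, c b hb, (c a ha).symm, hB a ha b hb])
  exact mx (y := Subgroup.closure (insert x (B : Set R))) (fun a ha b hb => setLike_mul_comm ha hb)
    (fun a ha => Subgroup.subset_closure (.inr ha)) (Subgroup.subset_closure (.inl rfl))

/-- The Heisenberg case: `A = ⟨y, z⟩` is normalised by `x`. -/
theorem t1_heis {r : ℕ} (hr : r.Prime) (h5 : 5 ≤ r) (hp : (r : K) ≠ 0) {x y z : O (Q K)} (hx : x ^ r = 1)
    (hy : y ^ r = 1) (e : x * y * x⁻¹ = y * z) (cx : Commute x z) (cy : Commute y z) : z = 1 := by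
  have hz : z ^ r = 1 := by
    have := congrArg (· ^ r) e
    simp only [conj_pow, cy.mul_pow, hy] at this
    simpa using this.symm
  obtain ⟨A, _, c, ⟨n, hn⟩, ya, za, nm, -⟩ := t1x_pair hr hy hz cy
  have h := t1_pow h2 c (hn ▸ (hr.odd_of_ne_two (by omega)).pow) (by rw [hn, Nat.cast_pow]; exact pow_ne_zero _ hp)
    (nm x (e ▸ mul_mem ya za) (by rwa [cx.eq, mul_inv_cancel_right]))
  rwa [(t1x_cop hr h5 (k := 1) (by rwa [pow_one]) (h.imp (fun h => h _ ya) fun h => h _ ya)).eq, mul_inv_cancel_right,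
    left_eq_mul] at e

/-- `11 : 5` forces characteristic eleven. -/
theorem t1_eleven {c x : O (Q K)} (hc : c ^ 11 = 1) (h1 : c ≠ 1) {k : ℕ} (hk : k = 3 ∨ k = 4 ∨ k = 5 ∨ k = 9)
    (e : x * c * x⁻¹ = c ^ k) : (11 : K) = 0 := by
  by_contra h
  haveI : Fact (Nat.Prime 11) := ⟨by norm_num⟩
  have := t1_cyc h2 (orderOf_eq_prime hc h1) (by decide) (by exact_mod_cast h) e
  rcases hk with rfl | rfl | rfl | rfl <;> exact absurd this (by decide)

/-- `3² : Q₈` and `3² : 8` force characteristic three.  `x`, `y` act on `⟨a, b⟩` as `[[0,-1],[1,0]]` and `[[1,1],[1,-1]]`. -/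
theorem t1_nine {a b x y : O (Q K)} (ha : a ^ 3 = 1) (h1 : a ≠ 1) (c : Commute a b)
    (xa : x * a * x⁻¹ = b) (xb : x * b * x⁻¹ = a⁻¹) (ya : y * a * y⁻¹ = a * b) (yb : y * b * y⁻¹ = a * b⁻¹) :
    (3 : K) = 0 := by
  by_contra h
  have hb : b ^ 3 = 1 := by rw [← xa, conj_pow, ha]; simp
  obtain ⟨A, _, cm, ⟨n, hn⟩, aa, ba, nm, ce⟩ := t1x_pair Nat.prime_three ha hb c
  have a1 : a⁻¹ = a * a := inv_eq_of_mul_eq_one_right (by rw [← pow_three, ha])
  have b1 : b⁻¹ = b * b := inv_eq_of_mul_eq_one_right (by rw [← pow_three, hb])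
  have a3 : ∀ t, a * (a * (a * t)) = t := fun t => by rw [← mul_assoc a a, ← a1, inv_mul_cancel_left]
  have b3 : ∀ t, b * (b * (b * t)) = t := fun t => by rw [← mul_assoc b b, ← b1, inv_mul_cancel_left]
  have a4 : a * (a * a) = 1 := by rw [← a1, mul_inv_cancel]
  have b4 : b * (b * b) = 1 := by rw [← b1, mul_inv_cancel]
  have cj : ∀ g u : O (Q K), MulAut.conj g u = u → Commute g u := fun g u e => mul_inv_eq_iff_eq_mul.1 e
  have xa' : MulAut.conj x a = b := xa
  have xb' : MulAut.conj x b = a * a := xb.trans a1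
  have ya' : MulAut.conj y a = a * b := ya
  have yb' : MulAut.conj y b = a * (b * b) := yb.trans (by rw [b1])
  have ia : (MulAut.conj y)⁻¹ a = a * (a * (b * b)) := by
    rw [MulAut.inv_apply, MulEquiv.symm_apply_eq]
    simp only [map_mul, ya', yb', mul_assoc, c.symm.eq, c.symm.left_comm, a3, b3, a4, b4, mul_one]
  have ib : (MulAut.conj y)⁻¹ b = a * (a * b) := by
    rw [MulAut.inv_apply, MulEquiv.symm_apply_eq]
    simp only [map_mul, ya', yb', mul_assoc, c.symm.eq, c.symm.left_comm, a3, b3, a4, b4, mul_one]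
  have k := t1_q8 h2 cm (hn ▸ Odd.pow (by decide)) (by rw [hn, Nat.cast_pow]; exact pow_ne_zero _ (by exact_mod_cast h))
    (nm x (xa ▸ ba) (xb ▸ inv_mem aa)) (nm y (ya ▸ mul_mem aa ba) (yb ▸ mul_mem aa (inv_mem ba)))
    (ce _ (cj _ _ ?_) (cj _ _ ?_)) (ce _ (cj _ _ ?_) (cj _ _ ?_)) a aa
  · have : MulAut.conj (x * x) a = a := by rw [MulAut.conj_apply, k.eq, mul_inv_cancel_right]
    rw [map_mul, MulAut.mul_apply, xa', xb'] at this
    exact h1 (mul_eq_left.1 this)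
  all_goals
    simp only [map_mul, map_inv, _root_.mul_inv_rev, MulAut.mul_apply, xa', xb', ya', yb', ia, ib, mul_assoc, c.symm.eq,
      c.symm.left_comm, a3, b3, a4, b4, mul_one]

/-- An element acting on an elementary abelian `r²` with `x ^ 4` and `x ^ 6` non-trivial: `x a x⁻¹ = b`,
`x b x⁻¹ = a ^ i * b ^ j`; the two hypotheses say that `x ^ 4`, `x ^ 6` do not centralise `a`. -/
theorem t1_sq {a b x : O (Q K)} {r i j : ℕ} (hr : Odd r) (ha : a ^ r = 1) (c : Commute a b)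
    (xa : x * a * x⁻¹ = b) (xb : x * b * x⁻¹ = a ^ i * b ^ j) (h4 : ¬ Commute (x ^ 4) a)
    (h6 : ¬ Commute (x ^ 6) a) (hp : r.Prime) : (r : K) = 0 := by
  by_contra h
  have hb : b ^ r = 1 := by rw [← xa, conj_pow, ha]; simp
  obtain ⟨A, _, cm, ⟨n, hn⟩, aa, ba, nm, -⟩ := t1x_pair hp ha hb c
  exact (t1_pow h2 cm (hn ▸ hr.pow) (by rw [hn, Nat.cast_pow]; exact pow_ne_zero _ h)
    (nm x (xa ▸ ba) (xb ▸ mul_mem (pow_mem aa i) (pow_mem ba j)))).elim (fun k => h4 (k a aa)) fun k => h6 (k a aa)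

end Cfsg.Lib.O7
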