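import Cfsg.Agent.Lib.O7.Hur
import Cfsg.Agent.Lib.O7.T1
import Cfsg.Agent.Lib.O7.SL
import Cfsg.Agent.Lib.PSL2.SmallIso
import Cfsg.Agent.Lib.Alt.Aut

/-!
# `L₂(q)` in cross characteristic, `A₅`, `A₆`, `A₇` (BRANCH STUB of `docs/O7.md`; the filler may add files `O7/L2c1 ...` and imports)
-/

set_option autoImplicit false

namespace Cfsg.Lib.O7

open QuadraticMap Module Matrix Cfsg.Lib.Orth Cfsg.Lib.PSL2
open scoped MatrixGroups

variable {K : Type*} [Field K] [IsAlgClosed K] {M : Subgroup (O (Q K))}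
  {E : Type*} [Field E] [Fintype E]

omit [IsAlgClosed K] in
/-- `x` fixes `V₀` and preserves the planes `V₁, V₂, V₃`, which `r` permutes: `[V, x] = ⊕ [V_i, x]`. -/
theorem Four.three_dvd {a b r x : O (Q K)} (h : Four a b) (hr : Rho a b r) {n : ℕ} (hn : Odd n) (hx : x ^ n = 1)
    (ca : Commute x a) (cr : Commute x r) : 3 ∣ dm x := by
  have cb : Commute x b := hr.ea ▸ (cr.mul_right ca).mul_right cr.inv_right
  have sa : ∀ v ∈ O.fix x, a.1 v ∈ O.fix x := T2.stab_fix ca.symm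
  have sb : ∀ v ∈ O.fix x, b.1 v ∈ O.fix x := T2.stab_fix cb.symm
  have sr : ∀ v ∈ O.fix x, r.1 v ∈ O.fix x := T2.stab_fix cr.symm
  have s1 := T3.split h.two h.ha sa
  have s2 := T3.split h.two h.hb (X := O.fix x ⊓ O.fix a) fun v hv => ⟨sb v hv.1, T2.stab_fix h.comm.symm v hv.2⟩
  have s3 := T3.split h.two h.hb (X := O.fix x ⊓ O.comm a) fun v hv => ⟨sb v hv.1, T2.stab_comm h.comm.symm v hv.2⟩
  have s4 : O.fix x ⊓ O.fix a ⊓ O.fix b = O.fix a ⊓ O.fix b := by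
    rw [inf_assoc, inf_eq_right]
    exact fun v hv => O.mem_fix.2 (h.odd_fix hn hx ca cb v hv)
  have le : ∀ X Y : Submodule K (V K), (∀ v ∈ X, r.1 v ∈ Y) → finrank K X ≤ finrank K Y := fun X Y l => by
    rw [← LinearEquiv.finrank_map_eq r.1 X]
    exact Submodule.finrank_mono (by rintro _ ⟨v, hv, rfl⟩; exact l v hv)
  have ma : ∀ {v}, v ∈ O.comm a ↔ a.1 v = -v := mem_comm_inv h.two h.ha
  have mb : ∀ {v}, v ∈ O.comm b ↔ b.1 v = -v := mem_comm_inv h.two h.hb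
  have l1 := le (O.fix x ⊓ O.fix a ⊓ O.comm b) (O.fix x ⊓ O.comm a ⊓ O.fix b) fun v ⟨⟨u1, u2⟩, u3⟩ =>
    ⟨⟨sr v u1, ma.2 (by rw [(h.rho_app hr v).2.2, mb.1 u3, map_neg, O.mem_fix.1 u2, map_neg])⟩,
      O.mem_fix.2 (by rw [(h.rho_app hr v).1, O.mem_fix.1 u2])⟩
  have l2 := le (O.fix x ⊓ O.comm a ⊓ O.fix b) (O.fix x ⊓ O.comm a ⊓ O.comm b) fun v ⟨⟨u1, u2⟩, u3⟩ =>
    ⟨⟨sr v u1, ma.2 (by rw [(h.rho_app hr v).2.2, O.mem_fix.1 u3, ma.1 u2, map_neg])⟩,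
      mb.2 (by rw [(h.rho_app hr v).1, ma.1 u2, map_neg])⟩
  have l3 := le (O.fix x ⊓ O.comm a ⊓ O.comm b) (O.fix x ⊓ O.fix a ⊓ O.comm b) fun v ⟨⟨u1, u2⟩, u3⟩ =>
    ⟨⟨sr v u1, O.mem_fix.2 (by rw [(h.rho_app hr v).2.2, mb.1 u3, map_neg, ma.1 u2, neg_neg])⟩,
      mb.2 (by rw [(h.rho_app hr v).1, ma.1 u2, map_neg])⟩
  have s5 := dm_add_fx x
  rw [finrank_V, fx] at s5
  rw [s4, h.fix.1] at s2
  omega

/-- A product of two transpositions. -/
def dt {n : ℕ} (a b c d : Fin n) (h : a ≠ b ∧ c ≠ d := by decide) : alternatingGroup (Fin n) :=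
  ⟨Equiv.swap a b * Equiv.swap c d, by simp [Equiv.Perm.sign_swap h.1, Equiv.Perm.sign_swap h.2]⟩

omit [IsAlgClosed K] in
/-- Three conjugates of `a` generate the alternating group. -/
theorem Rep.l2c_four {n : ℕ} (h : Rep M) (e : M ≃* alternatingGroup (Fin (n + 2)))
    {a : alternatingGroup (Fin (n + 2))} (t u : alternatingGroup (Fin (n + 2))) (w : Fin (n + 2) → List (Fin 3))
    (H : a * a = 1 ∧ a ≠ 1 ∧ ∀ i, i ≠ 0 → i ≠ 1 →
      (((w i).map ![a, t * a * t⁻¹, u * a * u⁻¹]).prod).1 = Equiv.swap 0 1 * Equiv.swap 1 i) : dm (emb e a) = 4 := by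
  obtain ⟨h1, h2, h3⟩ := H
  refine (h.dm_inv (emb_mem e a) (by rw [← map_mul, h1, map_one]) fun e' =>
    h2 (emb_injective e (e'.trans (map_one _).symm))).resolve_left fun d => ?_
  refine h.irrV.not_three (a := emb e a) (b := emb e (t * a * t⁻¹)) (c := emb e (u * a * u⁻¹)) ?_ d
    (by rw [map_mul, map_mul, map_inv, dm_conj, d]) (by rw [map_mul, map_mul, map_inv, dm_conj, d])
  let S := (Subgroup.closure {emb e a, emb e (t * a * t⁻¹), emb e (u * a * u⁻¹)}).comap (emb e)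
  have := Alt.alt_le_of_arc (o := 0) (e := 1) (H := S.map (alternatingGroup _).subtype) Fin.zero_ne_one
    (Subgroup.map_subtype_le _) fun i i0 i1 => ⟨_, list_prod_mem (by
      intro x hx
      obtain ⟨j, -, rfl⟩ := List.mem_map.1 hx
      fin_cases j <;> exact Subgroup.subset_closure (by simp)), h3 i i0 i1⟩
  intro g hg
  obtain ⟨x, rfl⟩ := (range_emb e).ge hg
  obtain ⟨y, hy, e'⟩ := this x.2
  obtain rfl : y = x := Subtype.ext e'
  exact hy

omit [IsAlgClosed K] in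
theorem Rep.l2c_rho {X : Type*} [Group X] (h : Rep M) (e : M ≃* X) {a : X} (d : dm (emb e a) = 4) (t b r : X)
    (H : t * a * t⁻¹ = b ∧ b * b = 1 ∧ r ^ 3 = 1 ∧ b * (r * b * r⁻¹) = r * b * r⁻¹ * b ∧
      r * (r * b * r⁻¹) * r⁻¹ = b * (r * b * r⁻¹)) :
    Four (emb e b) (emb e (r * b * r⁻¹)) ∧ Rho (emb e b) (emb e (r * b * r⁻¹)) (emb e r) := by
  obtain ⟨h1, h2, h3, h4, h5⟩ := H
  have ρ : Rho (emb e b) (emb e (r * b * r⁻¹)) (emb e r) := ⟨by rw [← map_pow, h3, map_one],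
    by rw [map_mul, map_mul, map_inv], by rw [← map_inv, ← map_mul, ← map_mul, h5, map_mul]⟩
  exact ⟨ρ.four h.two (by rw [← map_mul, h2, map_one]) (Commute.map h4 _)
    (by rw [← h1, map_mul, map_mul, map_inv, dm_conj, d]), ρ⟩

omit [IsAlgClosed K] in
/-- One class of involutions.  Type two: three involutions generate (`Irr.not_three`).  Type four: `Y = A₄ = ⟨a, b, r⟩` fixes `V₀`
(`Four.exists_v0`, `rho_fix`) and has index `5 < 7` (`Irr.le_index`). -/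
theorem Rep.no_A5 (h : Rep M) (e : M ≃* alternatingGroup (Fin 5)) : False := by
  have d := h.l2c_four e (a := dt 0 1 2 3) (dt 0 4 3 4) (dt 0 1 1 4) ![[], [], [1, 2, 0], [2, 1, 0], [0, 2]]
    (by decide +kernel)
  obtain ⟨f, ρ⟩ := h.l2c_rho e d 1 (dt 0 1 2 3) (dt 0 1 1 2) (by decide +kernel)
  obtain ⟨v, hv, e'⟩ := f.exists_v0
  have m : v ∈ _ := e'.ge (Submodule.mem_span_singleton_self v)
  have := h.fin
  have l := h.irrV.le_index (Y := stabV v) (v := v) (fun e => hv (by rw [e, map_zero])) fun g hg => by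
    rw [mem_stabV.1 hg]; exact Submodule.mem_span_singleton_self v
  rw [finrank_V, ← range_emb e, ← Subgroup.index_comap] at l
  have c := ((stabV v).comap (emb e)).index_mul_card
  have c5 := card_alternating_fin 5 (by norm_num)
  have y1 : dt 0 1 2 3 ∈ (stabV v).comap (emb e) := (O.mem_fix.1 m.1 :)
  have y2 : dt 0 1 1 2 * dt 0 1 2 3 * (dt 0 1 1 2)⁻¹ ∈ (stabV v).comap (emb e) := (O.mem_fix.1 m.2 :)
  have y3 : dt 0 1 1 2 ∈ (stabV v).comap (emb e) := f.rho_fix ρ v m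
  have c12 := Nat.card_le_card_of_injective (fun x : Fin 2 × Fin 2 × Fin 3 => (⟨dt 0 1 2 3 ^ x.1.1 *
    (dt 0 1 1 2 * dt 0 1 2 3 * (dt 0 1 1 2)⁻¹) ^ x.2.1.1 * dt 0 1 1 2 ^ x.2.2.1, mul_mem (mul_mem (pow_mem y1 _)
      (pow_mem y2 _)) (pow_mem y3 _)⟩ : (stabV v).comap (emb e))) fun x y e =>
    (by decide +kernel : ∀ x y : Fin 2 × Fin 2 × Fin 3, (dt 0 1 2 3 ^ x.1.1 *
      (dt 0 1 1 2 * dt 0 1 2 3 * (dt 0 1 1 2)⁻¹) ^ x.2.1.1 * dt 0 1 1 2 ^ x.2.2.1 : alternatingGroup (Fin 5)) =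
      dt 0 1 2 3 ^ y.1.1 * (dt 0 1 1 2 * dt 0 1 2 3 * (dt 0 1 1 2)⁻¹) ^ y.2.1.1 * dt 0 1 1 2 ^ y.2.2.1 → x = y) x y
      (congrArg Subtype.val e)
  simp only [Nat.card_prod, Nat.card_fin] at c12
  have := Nat.mul_le_mul l c12
  rw [show Nat.factorial 5 = 120 from rfl] at c5
  omega

omit [IsAlgClosed K] in
open Classical in
theorem l2c_cube {α β : Kˣ} (ha : α ^ 3 = 1) (hb : β ^ 3 = 1) : 3 ∣ (if α ≠ 1 then 1 else 0) + (if β ≠ 1 then 1 else 0) +
    (if α * β ≠ 1 then 1 else 0) + if α * β⁻¹ ≠ 1 then 1 else 0 := by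
  by_cases h1 : α = 1
  · by_cases h2 : β = 1 <;> simp [h1, h2]
  have h3 : α * α ≠ 1 := fun e => h1 (by rwa [pow_succ, pow_two, e, one_mul] at ha)
  have ha' : (α : K) ^ 3 = 1 := by rw [← Units.val_pow_eq_pow_val, ha, Units.val_one]
  have hb' : (β : K) ^ 3 = 1 := by rw [← Units.val_pow_eq_pow_val, hb, Units.val_one]
  have h4 : (α : K) ^ 2 + α + 1 = 0 := mul_left_cancel₀ (sub_ne_zero.2 fun e => h1 (Units.ext e) : (α : K) - 1 ≠ 0)
    (by linear_combination ha')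
  have h5 : ((β : K) - 1) * (β - α) * (α * β - 1) = 0 := by
    linear_combination (α : K) * hb' + ((β : K) - β ^ 2) * h4
  rcases mul_eq_zero.1 h5 with h | h
  · rcases mul_eq_zero.1 h with h | h
    · obtain rfl : β = 1 := Units.ext (sub_eq_zero.1 h)
      simp [h1]
    · obtain rfl : β = α := Units.ext (sub_eq_zero.1 h)
      simp [h1, h3]
  · obtain rfl : β = α⁻¹ := eq_inv_of_mul_eq_one_right (Units.ext (sub_eq_zero.1 h))
    simp [h1, h3]

/-- Type two: three involutions generate.  Type four: `(0 1 2)` normalises `⟨(0 1)(2 3), (0 2)(1 3)⟩` and `(0 2 4)(1 3 5)` normalises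
`⟨(0 1)(2 3), (2 3)(4 5)⟩`, so all elements of order three have `dm = 4` (`Four.dm_rho`).  `exists_wt` for `A = ⟨(0 1 2), (3 4 5)⟩`, `dm_dgV`: every
`a ≠ 1` lies in exactly one of the three kernels `ker μ_i`, which have order 3 or 9: `8 = ∑ (|ker μ_i| - 1)` is impossible. -/
theorem Rep.three_of_A6 (h : Rep M) (e : M ≃* alternatingGroup (Fin 6)) : (3 : K) = 0 := by
  classical
  by_contra h3
  have d := h.l2c_four e (a := dt 0 1 2 3) (dt 1 2 2 4) (dt 0 1 1 5)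
    ![[], [], [0, 2, 1, 2, 0, 1], [0, 1, 0, 2, 1, 2], [1, 2, 1, 2, 0], [0, 2]] (by decide +kernel)
  obtain ⟨f1, ρ1⟩ := h.l2c_rho e d 1 (dt 0 1 2 3) (dt 0 1 1 2) (by decide +kernel)
  obtain ⟨f2, ρ2⟩ := h.l2c_rho e d (dt 1 4 2 5) (dt 0 4 3 5) (dt 3 4 4 5) (by decide +kernel)
  obtain ⟨f3, ρ3⟩ := h.l2c_rho e d (dt 1 3 3 5) (dt 0 3 2 5) (dt 0 1 1 2 * dt 3 4 4 5) (by decide +kernel)
  obtain ⟨f4, ρ4⟩ := h.l2c_rho e d (dt 1 3 3 4) (dt 0 3 2 4) (dt 0 1 1 2 * (dt 3 4 4 5)⁻¹) (by decide +kernel)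
  obtain ⟨A, _, c, ⟨n, hn⟩, xa, ya, -⟩ := t1x_pair Nat.prime_three ρ1.cube ρ2.cube
    (Commute.map (by decide +kernel : (dt 0 1 1 2 * dt 3 4 4 5 : alternatingGroup (Fin 6)) = dt 3 4 4 5 * dt 0 1 1 2) _)
  obtain ⟨k, μ, -, hμ⟩ := exists_wt h.two c (hn ▸ Odd.pow (by decide)) (by rw [hn]; exact_mod_cast pow_ne_zero n h3)
  have key : ∀ a : A, dm a.1 = 4 → ∑ i, (if μ a i ≠ 1 then 1 else 0) = 2 := fun a ha => by
    rw [← dm_conj _ k, hμ, dm_dgV, Finset.card_filter] at ha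
    omega
  have k1 := key ⟨_, xa⟩ (f1.dm_rho ρ1)
  have k2 := key ⟨_, ya⟩ (f2.dm_rho ρ2)
  have k3 := key (⟨_, xa⟩ * ⟨_, ya⟩) (by have := f3.dm_rho ρ3; rwa [map_mul] at this)
  have k4 := key (⟨_, xa⟩ * ⟨_, ya⟩⁻¹) (by have := f4.dm_rho ρ4; rwa [map_mul, map_inv] at this)
  have cu : ∀ a : A, a.1 ^ 3 = 1 → ∀ i, μ a i ^ 3 = 1 := fun a ha i => by
    rw [← Pi.pow_apply, ← map_pow, show a ^ 3 = 1 from Subtype.ext ha, map_one, Pi.one_apply]
  have := Finset.dvd_sum (s := Finset.univ) fun i _ => l2c_cube (cu ⟨_, xa⟩ ρ1.cube i) (cu ⟨_, ya⟩ ρ2.cube i)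
  simp only [map_mul, map_inv, Pi.mul_apply, Pi.inv_apply] at k3 k4
  rw [Finset.sum_add_distrib, Finset.sum_add_distrib, Finset.sum_add_distrib, k1, k2, k3, k4] at this
  omega

omit [IsAlgClosed K] in
/-- Type two: three involutions generate.  Type four: `x = (4 5 6)` centralises `A₄` on `0..3`, is conjugate to `r = (0 1 2)`;
`dm r = 4`, `3 ∣ dm x`. -/
theorem Rep.no_A7 (h : Rep M) (e : M ≃* alternatingGroup (Fin 7)) : False := by
  have d := h.l2c_four e (a := dt 0 1 2 3) (dt 1 4 2 5 * dt 3 6 5 6) (dt 0 2 1 4 * dt 2 5 4 5)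
    ![[], [], [2, 0, 1, 0, 1, 2], [0, 2, 1, 0, 1, 0, 2, 0], [0, 1, 0, 1], [2, 0, 2, 1, 0, 1, 0, 2, 0, 2],
      [1, 0, 2, 0, 2, 1, 0]] (by decide +kernel)
  obtain ⟨f, ρ⟩ := h.l2c_rho e d 1 (dt 0 1 2 3) (dt 0 1 1 2) (by decide +kernel)
  obtain ⟨h1, h2, h3, h4⟩ : (dt 4 5 5 6 : alternatingGroup (Fin 7)) ^ 3 = 1 ∧
      (dt 4 5 5 6 * dt 0 1 2 3 : alternatingGroup (Fin 7)) = dt 0 1 2 3 * dt 4 5 5 6 ∧
      (dt 4 5 5 6 * dt 0 1 1 2 : alternatingGroup (Fin 7)) = dt 0 1 1 2 * dt 4 5 5 6 ∧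
      (dt 0 4 1 5 * dt 2 6 5 6 * dt 0 1 1 2 * (dt 0 4 1 5 * dt 2 6 5 6)⁻¹ : alternatingGroup (Fin 7)) = dt 4 5 5 6 := by
    decide +kernel
  have := f.three_dvd ρ (x := emb e (dt 4 5 5 6)) (by decide : Odd 3) (by rw [← map_pow, h1, map_one])
    (Commute.map h2 _) (Commute.map h3 _)
  rw [← h4, map_mul, map_mul, map_inv, dm_conj, f.dm_rho ρ] at this
  omega

/-- The Hurwitz groups `L₂(7)`, `L₂(13)`. -/
theorem Rep.l2c_hur {r : ℕ} [hr : Fact r.Prime] (h5 : 5 ≤ r) (h : Rep M) (e : M ≃* PSL(2, ZMod r))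
    (b s t t' d : SL(2, ZMod r)) (m : ℕ) (hm : r ∣ m ^ 2 + m + 1)
    (H : wS _ * b = upper (-1) ∧ b ^ 3 = 1 ∧ b.1 0 0 = 0 ∧ s * s = -1 ∧ s * b * s * b = -1 ∧ t * t = -1 ∧
      b * t = t' * b ∧ t * t' = -1 * (t' * t) ∧ b * t' = t * t' * b ∧ d * upper (-1) = upper (-1) ^ m * d) : False := by
  obtain ⟨h1, h2, h3, h4, h6, h7, h8, h9, h10, h11⟩ := H
  let f : SL(2, ZMod r) →* O (Q K) := (emb e).comp toL
  have f1 : ∀ {x}, f x = 1 ↔ x = 1 ∨ x = -1 := fun {x} =>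
    (map_eq_one_iff _ (emb_injective e)).trans toL_eq_one_iff
  have fn : f (-1) = 1 := f1.2 (.inr rfl)
  have two : (2 : ZMod r) ≠ 0 := fun e => by
    have := Nat.le_of_dvd two_pos ((ZMod.natCast_eq_zero_iff 2 r).1 e)
    omega
  have ne : ∀ {x : SL(2, ZMod r)}, x * x = -1 → f x ≠ 1 := fun {x} hx e => by
    rcases f1.1 e with rfl | rfl <;> exact sl_neg_one_ne_one two (by simpa using hx.symm)
  have hup : ∀ n : ℕ, upper (-1 : ZMod r) ^ n = upper (-(n : ZMod r)) := fun n => by rw [upper_pow, mul_neg_one]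
  have ht' : f b * f t * (f b)⁻¹ = f t' := by rw [← map_mul, h8, map_mul, mul_inv_cancel_right]
  refine h.hur' (a := f (wS _)) (b := f b) (s := f s) (t := f t) (m := m) ?_ (by rw [← map_mul, wS_sq, fn]) (ne wS_sq)
    (by rw [← map_pow, h2, map_one]) (fun x hx x2 x1 => ?_) (emb_mem e _) (by rw [← map_mul, h4, fn])
    (eq_inv_of_mul_eq_one_left (by rw [← map_mul, ← map_mul, ← map_mul, h6, fn])) (fun e => by rcases f1.1 e with rfl | rfl <;> simp at h3)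
    (emb_mem e _) (by rw [← map_mul, h7, fn]) (ne h7) ?_ ?_ hr.out h5
    (by rw [← map_mul, h1, ← map_pow, hup, ZMod.natCast_self, neg_zero, upper_zero, map_one]) (.inr ⟨hm, ?_⟩)
  · refine le_antisymm (fun g hg => ?_) ((Subgroup.closure_le _).2 (by rintro _ (rfl | rfl) <;> exact emb_mem e _))
    obtain ⟨y, rfl⟩ := (range_emb e).ge hg
    obtain ⟨x, rfl⟩ := toL_surjective y
    have w : wS _ ∈ (Subgroup.closure {f (wS _), f b}).comap f := Subgroup.subset_closure (.inl rfl)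
    refine gen_sl (M := ((Subgroup.closure {f (wS _), f b}).comap f).toSubmonoid) (fun c => ?_) w x
    have := pow_mem (mul_mem w (Subgroup.subset_closure (.inr rfl) : b ∈ Subgroup.comap f _)) (-c).val
    rwa [h1, hup, ZMod.natCast_zmod_val, neg_neg] at this
  · obtain ⟨y, rfl⟩ := (range_emb e).ge hx
    refine (emb e).map_isConj (isConj_psl_of_orderOf_two (orderOf_eq_prime ?_ fun e' => ne wS_sq ?_)
      (orderOf_eq_prime (emb_injective e (by rw [map_pow, pow_two, x2, map_one])) fun e' => x1 (by rw [e', map_one])))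
    · rw [pow_two, ← map_mul, wS_sq]; exact toL_eq_one_iff.2 (.inr rfl)
    · change emb e (toL _) = 1
      rw [e', map_one]
  · rw [ht']
    change _ * _ = _ * _
    rw [← map_mul, h9, map_mul, fn, one_mul, map_mul]
  · rw [ht', ← map_mul, h10, map_mul, mul_inv_cancel_right, map_mul]
  · rw [← map_mul, h1, ← map_pow]
    exact f.map_isConj (isConj_iff.2 ⟨d, mul_inv_eq_of_eq_mul h11⟩)

theorem Rep.l2c_7 (h : Rep M) (e : M ≃* PSL(2, ZMod 7)) : False :=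
  @Rep.l2c_hur K _ _ M 7 ⟨by norm_num⟩ (by norm_num) h e ⟨!![0, 6; 1, 6], by decide +kernel⟩
    ⟨!![1, 3; 4, 6], by decide +kernel⟩ ⟨!![0, 3; 2, 0], by decide +kernel⟩ ⟨!![2, 5; 6, 5], by decide +kernel⟩
    ⟨!![3, 0; 0, 5], by decide +kernel⟩ 2 (by norm_num) (by and_intros <;> decide +kernel)

theorem Rep.l2c_13 (h : Rep M) (e : M ≃* PSL(2, ZMod 13)) : False :=
  @Rep.l2c_hur K _ _ M 13 ⟨by norm_num⟩ (by norm_num) h e ⟨!![0, 12; 1, 12], by decide +kernel⟩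
    ⟨!![0, 5; 5, 0], by decide +kernel⟩ ⟨!![0, 4; 3, 0], by decide +kernel⟩ ⟨!![3, 10; 12, 10], by decide +kernel⟩
    ⟨!![4, 0; 0, 10], by decide +kernel⟩ 3 (by norm_num) (by and_intros <;> decide +kernel)

omit [Fintype E] in
theorem l2c_key {G : Type*} [Group G] (two : (2 : E) ≠ 0) {g : PSL(2, E) →* G} (hg : Function.Injective g) {s : Eˣ} {m : ℕ}
    (c : Commute (g (toL (dS s)) ^ m) (g (toL (upper 1)))) : s ^ (m * 2) = 1 := by
  have hds : ∀ m : ℕ, dS s ^ m = dS (s ^ m) := fun m => by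
    induction m with
    | zero => simp [dS_one]
    | succ m ih => rw [pow_succ, ih, dS_mul, pow_succ]
  have := c.eq
  rw [← map_pow, ← map_pow, hds, ← map_mul, ← map_mul, dS_upper, map_mul, map_mul, mul_left_inj] at this
  rw [pow_mul]
  rcases toL_eq_iff.1 (hg this) with e' | e'
  · exact Units.ext (by simpa [upper] using congrArg (fun x : SL(2, E) => x 0 1) e')
  · have := congrArg (fun x : SL(2, E) => x 0 0) e'
    change (1 : E) = -1 at this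
    exact absurd (by linear_combination this) two

omit [Fintype E] in
theorem l2c_up {G : Type*} [Group G] (f : SL(2, E) →* G) : ∃ u : Multiplicative E →* G, ∀ t, u t = f (upper t.toAdd) :=
  ⟨f.comp (MonoidHom.mk' (fun t => upper t.toAdd) fun _ _ => (upper_mul _ _).symm), fun _ => rfl⟩

theorem Rep.l2c_card (h : Rep M) (ho : Odd (Fintype.card E)) (hc : (Fintype.card E : K) ≠ 0) (e : M ≃* PSL(2, E)) :
    Fintype.card E - 1 ∣ 4 * 2 ∨ Fintype.card E - 1 ∣ 6 * 2 := by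
  have two : (2 : E) ≠ 0 := two_ne_zero_iff_odd.2 (by rwa [Nat.card_eq_fintype_card])
  obtain ⟨u, hu⟩ := l2c_up ((emb e).comp toL)
  have hd : Nat.card u.range ∣ Fintype.card E := by
    simpa using Subgroup.card_range_dvd u
  obtain ⟨s, hs⟩ := IsCyclic.exists_ofOrder_eq_natCard (α := Eˣ)
  rw [Nat.card_units, Nat.card_eq_fintype_card] at hs
  have key : ∀ m : ℕ, (∀ a ∈ u.range, Commute (emb e (toL (dS s)) ^ m) a) → Fintype.card E - 1 ∣ m * 2 := fun m c => by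
    rw [← hs, orderOf_dvd_iff_pow_eq_one]
    exact l2c_key two (emb_injective e) (c _ ⟨.ofAdd 1, hu _⟩)
  haveI : Finite u.range := Set.finite_range u
  refine (t1_pow h.two (A := u.range) ?_ (ho.of_dvd_nat hd) (fun e => hc ?_) (x := emb e (toL (dS s))) ?_).imp
    (key 4) (key 6)
  · rintro _ ⟨a, rfl⟩ _ ⟨b, rfl⟩
    rw [← map_mul, mul_comm, map_mul]
  · obtain ⟨c, hc⟩ := hd
    rw [hc, Nat.cast_mul, e, zero_mul]
  · rintro _ ⟨a, rfl⟩
    refine ⟨.ofAdd (s ^ 2 * a.toAdd), ?_⟩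
    rw [hu, hu, toAdd_ofAdd, MonoidHom.comp_apply, MonoidHom.comp_apply, ← map_mul, ← map_mul, dS_upper, map_mul,
      map_mul, mul_inv_cancel_right]

/-- `t1_pow` for `A` = image of `upper`, `x` = image of `dS s`, `s` a generator of `Eˣ` (`dS_upper`): `s ^ 8 = 1` or `s ^ 12 = 1`, so `q - 1 ∣ 8` or
`12`, `q ∈ {5, 7, 9, 13}`.  `q = 5, 9`: `L₂(5) ≅ A₅`, `L₂(9) ≅ A₆` (Lib.PSL2.SmallIso).  `q = 7, 13`: `E ≃+* ZMod q`; `Rep.hur'` with `a = wS`,
`b = wS⁻¹ * upper (± 1)` of order three modulo `± 1` (trace `± 1`), `a b = upper (± 1)` of order `q`, conjugate to its `m`-th power by `dS` (`m = 2`, resp. `3`, is a square),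
generation `gen_sl`; one class of involutions (library: PSL2), `s`, `t` explicit matrices (search by computer). -/
theorem Rep.no_L2_cross (h : Rep M) (ho : Odd (Fintype.card E)) (h5 : 5 ≤ Fintype.card E)
    (hc : (Fintype.card E : K) ≠ 0) (e : M ≃* PSL(2, E)) : False := by
  have h1 := h.l2c_card ho hc e
  have h2 : Fintype.card E = 5 ∨ Fintype.card E = 7 ∨ Fintype.card E = 9 ∨ Fintype.card E = 13 := by
    obtain ⟨k, hk⟩ := ho
    have : k ≤ 6 := by rcases h1 with h | h <;> have := Nat.le_of_dvd (by norm_num) h <;> omega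
    rw [hk] at h1 h5 ⊢
    clear * - this h1 h5
    interval_cases k <;> simp_all
  rcases h2 with q | q | q | q
  · obtain ⟨i⟩ := equiv_psl_alt_five (F := E) (.inr (by rwa [Nat.card_eq_fintype_card]))
    exact h.no_A5 (e.trans i)
  · exact h.l2c_7 (e.trans (Linear.congrPSL (Equiv.refl _) (ZMod.ringEquivOfPrime E (by norm_num) q).symm))
  · obtain ⟨i⟩ := equiv_psl_alt_six (F := E) (by rwa [Nat.card_eq_fintype_card])
    exact hc (by rw [q]; push_cast; linear_combination 3 * h.three_of_A6 (e.trans i))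
  · exact h.l2c_13 (e.trans (Linear.congrPSL (Equiv.refl _) (ZMod.ringEquivOfPrime E (by norm_num) q).symm))

end Cfsg.Lib.O7
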