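import Cfsg.Agent.Lib.O7.F3
import Cfsg.Agent.Lib.O7.SL

/-!
# `SL₂(q)` in the centraliser of an involution, defining characteristic (STUB file of `docs/O7.md`)
-/

set_option autoImplicit false

namespace Cfsg.Lib.O7

open QuadraticMap Module Matrix Cfsg.Lib.Orth Cfsg.Lib.Oct Cfsg.Lib.PSL2
open scoped MatrixGroups

variable {K E : Type*} [Field K] [Field E]

/-- `a` is a conjugate of a Galois twist of the natural representation. -/
def Tw (σ : E →+* K) (a : SL(2, E) →* SL(2, K)) : Prop :=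
  ∃ k : SL(2, K), ∀ g, a g = k * SpecialLinearGroup.map σ g * k⁻¹

theorem Tw.trace {σ : E →+* K} {a : SL(2, E) →* SL(2, K)} (h : Tw σ a) (g : SL(2, E)) :
    (a g).1.trace = σ g.1.trace := by
  obtain ⟨k, h⟩ := h
  rw [h, Matrix.SpecialLinearGroup.coe_mul, Matrix.SpecialLinearGroup.coe_mul, trace_mul_cycle, ← Matrix.SpecialLinearGroup.coe_mul,
    inv_mul_cancel]
  simp [trace_fin_two]

theorem Tw.neg {σ : E →+* K} {a : SL(2, E) →* SL(2, K)} (h : Tw σ a) : a (-1) = -1 := by
  obtain ⟨k, h⟩ := h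
  rw [h, show SpecialLinearGroup.map σ (-1 : SL(2, E)) = -1 by apply sl_ext <;> simp]
  simp

theorem Tw.injective {σ : E →+* K} {a : SL(2, E) →* SL(2, K)} (h : Tw σ a) : Function.Injective a := by
  obtain ⟨k, h⟩ := h
  intro x y e
  rw [h, h, mul_left_inj, mul_right_inj] at e
  ext i j
  exact σ.injective (congrFun (congrFun (congrArg Subtype.val e) i) j)

theorem s2_add_inv (s : SL(2, K)) : s.1 + (s⁻¹).1 = s.1.trace • (1 : Matrix (Fin 2) (Fin 2) K) := by
  ext i j
  fin_cases i <;> fin_cases j <;> simp [SpecialLinearGroup.coe_inv, adjugate_fin_two, trace_fin_two, add_comm]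

theorem s2_span {A : SL(2, K)} (h1 : A ≠ 1) (h2 : A ≠ -1) {Y : Matrix (Fin 2) (Fin 2) K} (c : A.1 * Y = Y * A.1) :
    ∃ x y : K, Y = x • 1 + y • A.1 := by
  have c00 := congrFun (congrFun c 0) 0
  have c01 := congrFun (congrFun c 0) 1
  have c10 := congrFun (congrFun c 1) 0
  simp only [Matrix.mul_apply, Fin.sum_univ_two] at c00 c01 c10
  have k : ∀ y : K, Y 0 1 = y * A.1 0 1 → Y 1 0 = y * A.1 1 0 → Y 0 0 - Y 1 1 = y * (A.1 0 0 - A.1 1 1) →
      ∃ x y : K, Y = x • 1 + y • A.1 := fun y a b c => ⟨Y 0 0 - y * A.1 0 0, y, by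
    ext i j
    fin_cases i <;> fin_cases j <;> simp [a, b]
    linear_combination -c⟩
  by_cases b : A.1 0 1 = 0
  · by_cases b' : A.1 1 0 = 0
    · have d : A.1 0 0 - A.1 1 1 ≠ 0 := fun e => by
        have := sl_det A
        rw [b, ← sub_eq_zero.1 e, zero_mul, sub_zero, mul_self_eq_one_iff] at this
        rcases this with t | t
        · exact h1 (sl_ext t b b' ((sub_eq_zero.1 e).symm.trans t))
        · exact h2 (sl_ext (by simpa using t) (by simpa using b) (by simpa using b')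
            (by simpa using (sub_eq_zero.1 e).symm.trans t))
      refine k ((Y 0 0 - Y 1 1) / (A.1 0 0 - A.1 1 1)) ?_ ?_ (by field_simp)
      · field_simp; linear_combination c01
      · field_simp; linear_combination -c10
    · refine k (Y 1 0 / A.1 1 0) ?_ (by field_simp) ?_
      · field_simp; linear_combination -c00
      · field_simp; linear_combination c10
  · refine k (Y 0 1 / A.1 0 1) (by field_simp) ?_ ?_
    · field_simp; linear_combination c00
    · field_simp; linear_combination -c01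

/-- `Core3`.  For `h ∈ H` a non-zero `X` with `a h X = X b h` gives a common eigenvalue (over the algebraic closure; or use
Cayley-Hamilton: `(a h + (a h)⁻¹) X = X (b h + (b h)⁻¹)` reads `tr (a h) X = tr (b h) X`), so `σ = τ` on the traces of `H`
(`RingHom.eqLocusField`), so `σ = τ`.  Then `X0 = k k'⁻¹` intertwines `a` and `b`.  For the non-central `h` the solutions of
`a h X = X b h` are `C(a h) X0`, of dimension two, so they form `Z`. -/
theorem core3 {σ τ : E →+* K} {a b : SL(2, E) →* SL(2, K)} (ha : Tw σ a) (hb : Tw τ b)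
    {Z : Submodule K (Matrix (Fin 2) (Fin 2) K)} (hZ : finrank K Z = 2) {H : Set SL(2, E)}
    (hH : ∀ h ∈ H, ∀ X ∈ Z, (a h).1 * X * ((b h)⁻¹).1 = X)
    (gen : ∀ k : Subfield E, (∀ h ∈ H, h.1.trace ∈ k) → k = ⊤) (nc : ∃ h ∈ H, h ≠ 1 ∧ h ≠ -1) :
    ∃ X ∈ Z, X ≠ 0 ∧ ∀ g, (a g).1 * X * ((b g)⁻¹).1 = X := by
  have mi : ∀ s : SL(2, K), (s⁻¹).1 * s.1 = 1 := fun s => by rw [← Matrix.SpecialLinearGroup.coe_mul, inv_mul_cancel]; rfl
  have im : ∀ s : SL(2, K), s.1 * (s⁻¹).1 = 1 := fun s => by rw [← Matrix.SpecialLinearGroup.coe_mul, mul_inv_cancel]; rfl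
  have k1 : ∀ h ∈ H, ∀ X ∈ Z, (a h).1 * X = X * (b h).1 := fun h m X mX => by
    conv_rhs => rw [← hH h m X mX, Matrix.mul_assoc, mi, Matrix.mul_one]
  obtain ⟨X, mX, X0⟩ := Submodule.exists_mem_ne_zero_of_ne_bot (p := Z) fun e => by
    rw [e, finrank_bot] at hZ; omega
  obtain rfl : σ = τ := by
    have := gen (σ.eqLocusField τ) fun h m => by
      have e2 : ((a h)⁻¹).1 * X = X * ((b h)⁻¹).1 := by
        conv_lhs => rw [← hH h m X mX, ← Matrix.mul_assoc, ← Matrix.mul_assoc, mi, Matrix.one_mul]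
      have e3 := congrArg₂ (· + ·) (k1 h m X mX) e2
      simp only [← Matrix.add_mul, ← Matrix.mul_add, s2_add_inv, ha.trace, hb.trace, Matrix.smul_mul, Matrix.mul_smul,
        Matrix.one_mul, Matrix.mul_one] at e3
      exact smul_left_injective K X0 e3
    exact RingHom.ext fun x => (this.ge (Subfield.mem_top x) :)
  obtain ⟨h, m, n1, n2⟩ := nc
  have a1 : a h ≠ 1 := fun e => n1 (ha.injective (e.trans (map_one a).symm))
  have a2 : a h ≠ -1 := fun e => n2 (ha.injective (e.trans ha.neg.symm))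
  obtain ⟨k, ha⟩ := ha
  obtain ⟨k', hb⟩ := hb
  have e0 : ∀ g, a g * (k * k'⁻¹) * (b g)⁻¹ = k * k'⁻¹ := fun g => by rw [ha, hb]; group
  have l : Z ≤ Submodule.span K (Set.range ![(k * k'⁻¹).1, (a h * (k * k'⁻¹)).1]) := fun Y mY => by
    obtain ⟨x, y, e⟩ := s2_span a1 a2 (Y := Y * ((k * k'⁻¹)⁻¹).1) (by
      rw [← Matrix.mul_assoc, k1 h m Y mY, Matrix.mul_assoc, Matrix.mul_assoc, ← Matrix.SpecialLinearGroup.coe_mul,
        ← Matrix.SpecialLinearGroup.coe_mul, show b h * (k * k'⁻¹)⁻¹ = (k * k'⁻¹)⁻¹ * a h by rw [ha, hb]; group])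
    have : Y = x • (k * k'⁻¹).1 + y • (a h * (k * k'⁻¹)).1 := by
      rw [← Matrix.mul_one Y, ← mi (k * k'⁻¹), ← Matrix.mul_assoc, e, Matrix.add_mul, Matrix.smul_mul, Matrix.smul_mul,
        Matrix.one_mul, Matrix.SpecialLinearGroup.coe_mul (a h)]
    rw [this]
    exact add_mem (Submodule.smul_mem _ _ (Submodule.subset_span ⟨0, rfl⟩))
      (Submodule.smul_mem _ _ (Submodule.subset_span ⟨1, rfl⟩))
  have e := Submodule.eq_of_le_of_finrank_le l ((finrank_range_le_card _).trans (hZ.trans (Fintype.card_fin 2).symm).ge)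
  refine ⟨_, e.ge (Submodule.subset_span ⟨0, rfl⟩), fun e => ?_, fun g => congrArg Subtype.val (e0 g)⟩
  have := im (k * k'⁻¹)
  rw [show (k * k'⁻¹).1 = 0 from e, Matrix.zero_mul] at this
  exact zero_ne_one this

/-- In an abelian group `H` without non-central elements of trace `± 2` at most two elements have the same trace: if `h` is not
central, every `h' ∈ H` is `x + y h`, and trace and determinant give a quadratic equation for `y` (leading coefficient
`4 - (tr h)² ≠ 0`). -/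
theorem gen_tr [Finite E] (h2 : (2 : E) ≠ 0) {H : Subgroup SL(2, E)} (hc : ∀ a ∈ H, ∀ b ∈ H, a * b = b * a)
    (ss : ∀ h ∈ H, h.1.trace ^ 2 = 4 → h = 1 ∨ h = -1) {k : Subfield E} (hk : ∀ h ∈ H, h.1.trace ∈ k) :
    Nat.card H ≤ 2 * Nat.card k := by
  classical
  have key : ∀ g ∈ H, ∀ g' ∈ H, g.1.trace = g'.1.trace → g' = g ∨ g' = g⁻¹ := fun g m g' m' e => by
    by_cases c : g = 1 ∨ g = -1
    · have t : g'.1.trace ^ 2 = 4 := by
        rcases c with rfl | rfl <;> rw [← e] <;> simp [trace_fin_two] <;> norm_num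
      have n : ∀ x : E, x = -x → x = 0 := fun x hx => by
        have : 2 * x = 0 := by linear_combination hx
        exact (mul_eq_zero.1 this).resolve_left h2
      rcases c with rfl | rfl <;> rcases ss g' m' t with rfl | rfl
      · exact .inl rfl
      · exact absurd (n 2 (by simp [trace_fin_two] at e; linear_combination e)) h2
      · exact absurd (n 2 (by simp [trace_fin_two] at e; linear_combination -e)) h2
      · exact .inl rfl
    obtain ⟨x, y, e1⟩ := s2_span (fun e => c (.inl e)) (fun e => c (.inr e)) (Y := g'.1)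
      (congrArg Subtype.val (hc g m g' m'))
    have t : g.1.trace ^ 2 - 4 ≠ 0 := fun e => c (ss g m (sub_eq_zero.1 e))
    have d := sl_det g
    have d' := sl_det g'
    have e2 := e
    rw [e1] at d' e2
    simp [trace_fin_two] at d' e2 t
    have y2 : (y - 1) * (y + 1) = 0 := mul_left_cancel₀ t (by
      linear_combination 4 * y ^ 2 * d - 4 * d' -
        (g.1 0 0 + g.1 1 1 + (x + y * g.1 0 0 + (x + y * g.1 1 1))) * e2)
    rcases mul_eq_zero.1 y2 with y1 | y1
    · obtain rfl : y = 1 := sub_eq_zero.1 y1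
      obtain rfl : x = 0 := mul_left_cancel₀ h2 (by linear_combination -e2)
      exact .inl (Subtype.ext (by simpa using e1))
    · obtain rfl : y = -1 := eq_neg_of_add_eq_zero_left y1
      obtain rfl : x = g.1.trace := mul_left_cancel₀ h2 (by rw [trace_fin_two]; linear_combination -e2)
      exact .inr (Subtype.ext (by rw [e1, ← s2_add_inv]; simp))
  haveI := Fintype.ofFinite H
  haveI := Fintype.ofFinite k
  rw [Nat.card_eq_fintype_card, Nat.card_eq_fintype_card]
  refine Finset.card_le_mul_card_image_of_maps_to (f := fun g : H => (⟨g.1.1.trace, hk g g.2⟩ : k))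
    (fun _ _ => Finset.mem_univ _) 2 fun t _ => ?_
  rcases Finset.eq_empty_or_nonempty (Finset.univ.filter fun g : H => (⟨g.1.1.trace, hk g g.2⟩ : k) = t) with e | ⟨g, e⟩
  · simp [e]
  refine (Finset.card_le_card (t := {g, g⁻¹}) fun g' e' => ?_).trans Finset.card_le_two
  rw [Finset.mem_insert, Finset.mem_singleton]
  exact (key g g.2 g' g'.2 (congrArg Subtype.val ((Finset.mem_filter.1 e).2.trans
    (Finset.mem_filter.1 e').2.symm))).imp Subtype.ext Subtype.ext

/-- `|E| = |k| ^ [E : k]`. -/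
theorem card_subfield [Finite E] {k : Subfield E} (hk : k ≠ ⊤) :
    ∃ d, 2 ≤ d ∧ Nat.card E = Nat.card k ^ d := by
  refine ⟨finrank k E, ?_, natCard_eq_pow_finrank⟩
  have := finrank_pos (R := k) (M := E)
  have : finrank k E ≠ 1 := fun e => hk (by
    have c := natCard_eq_pow_finrank (K := k) (V := E)
    rw [e, pow_one] at c
    exact SetLike.coe_injective (congrArg SetLike.coe (k.toAddSubgroup.eq_top_of_card_eq c.symm) :))
  omega

/-- The form in which `gen_tr` is used for the tori of order `q ± 1`: `q - 1 ≤ 2 |k|`, `q = |k| ^ d`, `|k| ≥ 3` is impossible. -/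
theorem gen_tr' [Finite E] (h2 : (2 : E) ≠ 0) {H : Subgroup SL(2, E)} (hc : ∀ a ∈ H, ∀ b ∈ H, a * b = b * a)
    (ss : ∀ h ∈ H, h.1.trace ^ 2 = 4 → h = 1 ∨ h = -1) (c : Nat.card E - 1 ≤ Nat.card H) (k : Subfield E)
    (hk : ∀ h ∈ H, h.1.trace ∈ k) : k = ⊤ := by
  classical
  by_contra n
  obtain ⟨d, d2, e⟩ := card_subfield n
  have l := gen_tr h2 hc ss hk
  have m : 3 ≤ Nat.card k := by
    haveI := Fintype.ofFinite k
    have n1 : (1 : k) ≠ -1 := fun e => h2 (by
      have := congrArg Subtype.val e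
      push_cast at this
      linear_combination this)
    rw [Nat.card_eq_fintype_card]
    exact (Finset.card_eq_three.2 ⟨0, 1, -1, zero_ne_one, by simp, n1, rfl⟩).ge.trans (Finset.card_le_univ {0, 1, -1})
  have := Nat.pow_le_pow_right (by omega : 0 < Nat.card k) d2
  have : 3 * Nat.card k ≤ Nat.card k ^ 2 := by rw [pow_two]; gcongr
  omega

theorem s2_exists_sq [Finite E] (h3 : 3 < Nat.card E) : ∃ a : E, a ≠ 0 ∧ a ^ 2 ≠ 1 := by
  classical
  by_contra! h
  haveI := Fintype.ofFinite E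
  rw [Nat.card_eq_fintype_card] at h3
  refine h3.not_ge ((Finset.card_le_card (t := {0, 1, -1}) fun a _ => ?_).trans Finset.card_le_three)
  simpa using (eq_or_ne a 0).imp id fun n => sq_eq_one_iff.1 (h a n)

section Lift

variable {p : ℕ} [hp : Fact p.Prime] [CharP K p] (h2 : (2 : K) ≠ 0)
include h2

theorem s2_neg_pow (s : SL(2, K)) : (-s) ^ p = -s ^ p :=
  (hp.out.odd_of_ne_two fun e => h2 (by simpa [e] using CharP.cast_eq_zero K p)).neg_pow s

theorem s2_lift {y : PSL(2, K)} (h : y ^ p = 1) : ∃ s, toL s = y ∧ s ^ p = 1 := by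
  obtain ⟨s, rfl⟩ := toL_surjective y
  rcases toL_eq_one_iff.1 ((map_pow _ _ _).trans h) with e | e
  · exact ⟨s, rfl, e⟩
  · exact ⟨-s, toL_neg s, by rw [s2_neg_pow h2, e, neg_neg]⟩

theorem s2_uniq {s t : SL(2, K)} (e : toL s = toL t) (hs : s ^ p = 1) (ht : t ^ p = 1) : s = t :=
  (toL_eq_iff.1 e).resolve_right fun e => sl_neg_one_ne_one h2 (by rwa [e, s2_neg_pow h2, ht] at hs)

omit h2 in
theorem s2_tr {s : SL(2, K)} (hs : s ^ p = 1) : s.1 0 0 + s.1 1 1 = 2 := by
  have : IsNilpotent (s.1 - 1) := ⟨p, by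
    rw [sub_pow_char_of_commute _ (Commute.one_right _), one_pow, ← Matrix.SpecialLinearGroup.coe_pow, hs]; simp⟩
  have := (Matrix.isNilpotent_trace_of_isNilpotent this).eq_zero
  simp [trace_fin_two] at this
  linear_combination this

omit h2 hp in
theorem s2_up (b : K) : upper b ^ p = 1 := by rw [upper_pow, CharP.cast_eq_zero, zero_mul, upper_zero]

omit h2 in
theorem s2_form {s : SL(2, K)} (hs : s ^ p = 1) : ∃ n a b : K, s.1 = !![1 + n, a; b, 1 - n] ∧ n ^ 2 + a * b = 0 := by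
  have t := s2_tr hs
  have d := sl_det s
  refine ⟨s.1 0 0 - 1, s.1 0 1, s.1 1 0, ?_, by linear_combination -d + s.1 0 0 * t⟩
  ext i j
  fin_cases i <;> fin_cases j <;> simp
  linear_combination t

omit h2 hp [CharP K p] in
theorem s2_cj (s : SL(2, K)) {t : SL(2, K)} (h : t ^ p = 1) : (s * t * s⁻¹) ^ p = 1 := by rw [conj_pow, h]; simp

omit h2 in
theorem s2_pair [IsAlgClosed K] {A B : SL(2, K)} (hA : A ^ p = 1) (hB : B ^ p = 1) (br : A * B * A = B * A * B)
    (ne : A ≠ B) : ∃ k : SL(2, K), A * k = k * upper 1 ∧ B * k = k * (wS K * upper 1 * (wS K)⁻¹) := by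
  obtain ⟨n, a, b, eA, hN⟩ := s2_form hA
  obtain ⟨m, c, d, eB, hM⟩ := s2_form hB
  have e := congrArg Subtype.val br
  simp only [Matrix.SpecialLinearGroup.coe_mul, eA, eB] at e
  have e0 := congrFun (congrFun e 0) 0
  have e1 := congrFun (congrFun e 0) 1
  have e2 := congrFun (congrFun e 1) 0
  simp [Matrix.mul_apply, Fin.sum_univ_two] at e0 e1 e2
  have t : 1 + (2 * n * m + a * d + b * c) = 0 := by
    by_contra t
    obtain rfl : n = m := sub_eq_zero.1 ((mul_eq_zero.1 (by linear_combination e0 - (1 - m) * hN + (1 - n) * hM)).resolve_left t)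
    obtain rfl : a = c := sub_eq_zero.1 ((mul_eq_zero.1 (by linear_combination e1 + c * hN - a * hM)).resolve_left t)
    obtain rfl : b = d := sub_eq_zero.1 ((mul_eq_zero.1 (by linear_combination e2 + d * hN - b * hM)).resolve_left t)
    exact ne (Subtype.ext (eA.trans eB.symm))
  obtain ⟨x, y, xy, k1, k2, k3, k4⟩ : ∃ x y : K, ¬ (x = 0 ∧ y = 0) ∧ m * x + c * y = 0 ∧ d * x - m * y = 0 ∧
      m * (n * x + a * y) + c * (b * x - n * y) = -x ∧ d * (n * x + a * y) - m * (b * x - n * y) = -y := by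
    by_cases z : m = 0 ∧ d = 0
    · exact ⟨c, -m, fun z' => by simp [z.1, z.2, z'.1] at t, by ring, by linear_combination hM,
        by linear_combination c * t - a * hM, by linear_combination -m * t + n * hM⟩
    · exact ⟨m, d, z, by linear_combination hM, by ring, by linear_combination m * t - n * hM,
        by linear_combination d * t - b * hM⟩
  have dz : (n * x + a * y) * y - x * (b * x - n * y) ≠ 0 := fun z => xy
    ⟨mul_self_eq_zero.1 (by linear_combination x * k3 - (n * x + a * y) * k1 + c * z),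
      mul_self_eq_zero.1 (by linear_combination y * k4 - (b * x - n * y) * k2 - d * z)⟩
  obtain ⟨s, hs⟩ := IsAlgClosed.exists_eq_mul_self ((n * x + a * y) * y - x * (b * x - n * y))⁻¹
  obtain ⟨k, ek⟩ : ∃ k : SL(2, K), (k : Matrix (Fin 2) (Fin 2) K) =
      !![s * (n * x + a * y), s * x; s * (b * x - n * y), s * y] :=
    ⟨⟨_, by rw [det_fin_two_of, ← mul_inv_cancel₀ dz, hs]; ring⟩, rfl⟩
  refine ⟨k, ?_, ?_⟩
  · apply sl_ext <;> simp [eA, ek, Matrix.mul_apply, Fin.sum_univ_two]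
    · linear_combination s * x * hN
    · ring
    · linear_combination s * y * hN
    · ring
  · apply sl_ext <;> simp [eB, ek, wS_inv, Matrix.mul_apply, Fin.sum_univ_two]
    · linear_combination s * k3
    · linear_combination s * k1
    · linear_combination s * k4
    · linear_combination s * k2

variable (p) [CharP E p]
include p

theorem s2_core (φ : SL(2, E) →* PSL(2, K)) (hw : φ (wS E) = toL (wS K)) (hu : φ (upper 1) = toL (upper 1)) :
    ∃ σ : E →+* K, ∀ g, φ g = toL (SpecialLinearGroup.map σ g) := by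
  have ex : ∀ x : E, ∃ y : K, φ (upper x) = toL (upper y) := fun x => by
    obtain ⟨s, e, hs⟩ := s2_lift (p := p) h2 (y := φ (upper x)) (by rw [← map_pow, s2_up, map_one])
    have c := s2_uniq h2 (s := upper 1 * s * (upper 1)⁻¹) (t := s) (by
      rw [map_mul, map_mul, map_inv, e, ← hu, ← map_mul, upper_mul, add_comm, ← upper_mul, map_mul,
        mul_inv_cancel_right]) (s2_cj _ hs) hs
    rw [mul_inv_eq_iff_eq_mul] at c
    have c1 := congrFun (congrFun (congrArg Subtype.val c) 0) 0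
    have c2 := congrFun (congrFun (congrArg Subtype.val c) 0) 1
    have t := s2_tr hs
    simp [Matrix.mul_apply, Fin.sum_univ_two] at c1 c2
    have a : s.1 0 0 = 1 := mul_left_cancel₀ h2 (by linear_combination t - c2)
    exact ⟨s.1 0 1, e ▸ congrArg toL (sl_ext a rfl c1 (by simp; linear_combination t - a))⟩
  choose f hf using ex
  have inj : ∀ {x y : K}, toL (upper x) = toL (upper y) → x = y := fun e =>
    congrFun (congrFun (congrArg Subtype.val (s2_uniq (p := p) h2 e (s2_up _) (s2_up _))) 0) 1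
  have add : ∀ x y, f (x + y) = f x + f y := fun x y => inj (by
    rw [← hf, ← upper_mul, ← upper_mul, map_mul, map_mul, hf, hf])
  have one : f 1 = 1 := inj ((hf 1).symm.trans hu)
  have zero : f 0 = 0 := inj (by rw [← hf, upper_zero, upper_zero, map_one, map_one])
  have sq : ∀ x, f (x ^ 2) = f x ^ 2 := fun x => by
    rcases eq_or_ne x 0 with rfl | x0
    · simp [zero]
    obtain ⟨a, rfl⟩ : ∃ a : Eˣ, a.1 = x := ⟨Units.mk0 x x0, rfl⟩
    have b1 := congrArg φ (braid a).1
    have d := congrArg φ (dS_upper a 1)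
    simp only [map_mul, map_inv, hf, hw, one, mul_one] at b1 d
    rw [← mul_inv_eq_iff_eq_mul] at b1 d
    rw [← b1] at d
    simp only [← map_inv, ← map_mul] at d
    have e := s2_uniq (p := p) h2 d (s2_cj _ (s2_up _)) (s2_up _)
    rw [mul_inv_eq_iff_eq_mul] at e
    replace e := congrArg (fun s : SL(2, K) => (s : Matrix (Fin 2) (Fin 2) K)) e
    simp only [wS_inv, Matrix.SpecialLinearGroup.coe_mul] at e
    have e1 := congrFun (congrFun e 0) 1
    have e2 := congrFun (congrFun e 1) 1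
    simp [Matrix.mul_apply, Fin.sum_univ_two] at e1 e2
    linear_combination -f a * e1 + (f a ^ 2 + f (a ^ 2)) * e2
  have mul : ∀ x y, f (x * y) = f x * f y := fun x y => mul_left_cancel₀ h2 (by
    have := sq (x + y)
    rw [show (x + y) ^ 2 = x ^ 2 + (x * y + x * y) + y ^ 2 by ring, add, add, add, sq, sq, add] at this
    linear_combination this)
  let σ : E →+* K := ⟨⟨⟨f, one⟩, mul⟩, zero, add⟩
  refine ⟨σ, gen_sl (M := φ.eqLocusM (toL.comp (SpecialLinearGroup.map σ))) (fun t => (hf t).trans ?_) (hw.trans ?_)⟩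
  · exact congrArg toL (by apply sl_ext <;> simp [σ, one, zero])
  · exact congrArg toL (by apply sl_ext <;> simp)

end Lift

variable [IsAlgClosed K] [Finite E] (p : ℕ) [Fact p.Prime] [CharP K p] [CharP E p] (h2 : (2 : K) ≠ 0)
  (h3 : 3 < Nat.card E)
include p h2 h3

/-- `T11`.  `φ ≠ 1` has kernel `≤ ± 1` (`PSL₂(E)` is simple).  `φ (upper x)` has a unique lift `u x` of order `p`, a unipotent matrix;
these commute, so have a common fixed line; the conjugates by a lift `w` of `φ wS` fix another line (else the image, generated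
by `upper` and `wS * upper * wS⁻¹`, fixes a line, and is metabelian).  Conjugate so that `u x = upper (f x)`, the second line is
the other coordinate axis, and `f 1 = 1`.  `φ (dS c)` normalises both groups, so is diagonal: `f (c² x) = α c * f x`; so
`f (c² x) = f (c²) f x`; `f` is additive and every element is a difference of two squares: `f` is a ring homomorphism.
`w` interchanges the two lines (`w² = ± 1`), so `w = [[0, d], [-d⁻¹, 0]]`, and the relation `braid 1` gives `d = ± 1`.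
Finish with `gen_sl`. -/
theorem t11 (φ : SL(2, E) →* PSL(2, K)) :
    φ = 1 ∨ ∃ σ a, Tw σ a ∧ ∀ g, φ g = QuotientGroup.mk (a g) := by
  obtain ⟨A, eA, hA⟩ := s2_lift (p := p) h2 (y := φ (upper 1)) (by rw [← map_pow, s2_up, map_one])
  obtain ⟨w, ew⟩ := toL_surjective (φ (wS E))
  have b1 := congrArg φ (braid 1).1
  have b2 := congrArg φ (braid 1).2
  simp only [map_mul, map_inv, inv_one, Units.val_one, dS_one, one_mul, ← eA, ← ew] at b1 b2
  simp only [← map_inv, ← map_mul] at b1 b2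
  have hB := s2_cj w hA
  generalize w * A * w⁻¹ = B at b1 b2 hB
  by_cases ne : A = B
  · subst ne
    obtain ⟨a, a0, a2⟩ := s2_exists_sq h3
    have e3 : φ (wS E) = φ (upper (1 + 1 + 1)) := by simp only [← upper_mul, map_mul, ← eA, ← ew, ← b1]
    have u : ∀ t, φ (upper t) = 1 := fun t => by
      have b := congrArg φ (braid (Units.mk0 a a0)).1
      have d := congrArg φ (dS_upper (Units.mk0 a a0) (t / (a ^ 2 - 1)))
      simp only [map_mul, map_inv, e3] at b d
      rw [← mul_inv_eq_iff_eq_mul] at b d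
      rw [← b] at d
      simp only [← map_inv, ← map_mul, upper_inv, upper_mul] at d
      rw [← mul_inv_eq_one, ← map_inv, ← map_mul, upper_inv, upper_mul, ← inv_eq_one, ← map_inv, upper_inv] at d
      rw [← d]
      have := sub_ne_zero.2 a2
      congr 2
      simp
      field_simp
      ring
    exact .inl (MonoidHom.ext (gen_sl (M := φ.eqLocusM 1) u (e3.trans (u _))))
  obtain ⟨k, k1, k2⟩ := s2_pair hA hB (mul_inv_eq_iff_eq_mul.1 (s2_uniq (p := p) h2 (s := A * B * A * (A * B)⁻¹) (by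
    rw [map_mul, b1, ← b2, ← map_mul]; congr 1; group) (s2_cj _ hA) hB) |>.trans (mul_assoc _ _ _).symm) ne
  rw [← inv_mul_eq_iff_eq_mul, ← mul_assoc] at k1 k2
  have b := (braid (K := K) 1).1
  simp only [inv_one, Units.val_one, dS_one, one_mul] at b
  obtain ⟨σ, hσ⟩ := s2_core p h2 ((MulAut.conj (toL k)⁻¹).toMonoidHom.comp φ)
    (by
      rw [← b, ← k2, ← k1]
      change _ * φ _ * _ = _
      rw [← ew, ← b1]
      simp [mul_assoc]) (by
      rw [← k1]
      change _ * φ _ * _ = _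
      rw [← eA]
      simp)
  refine .inr ⟨σ, (MulAut.conj k).toMonoidHom.comp (SpecialLinearGroup.map σ), ⟨k, fun _ => rfl⟩, fun g => ?_⟩
  change _ = toL (k * _ * k⁻¹)
  rw [map_mul, map_mul, ← hσ]
  simp [mul_assoc]

/-- `T8`.  `perfect_le_Cz`, `t11` for the three projections; `g ↦ f g * (phi (psi3 ..))⁻¹` is a homomorphism to `⟨t0⟩` (`F3.ker`). -/
theorem exists_abc {f : SL(2, E) →* O (Q K)} (c : ∀ g, Commute (f g) (t0 K)) :
    ∃ a b c : SL(2, E) →* SL(2, K), (a = 1 ∨ ∃ σ, Tw σ a) ∧ (b = 1 ∨ ∃ σ, Tw σ b) ∧ (c = 1 ∨ ∃ σ, Tw σ c) ∧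
      ∀ g, f g = phi (psi3 (a g, b g, c g)) := by
  obtain ⟨x, x0, x2⟩ := s2_exists_sq h3
  have pf : ⁅(⊤ : Subgroup SL(2, E)), (⊤ : Subgroup SL(2, E))⁆ = ⊤ := SL2.commutator_eq_top x0 x2
  have l : f.range ≤ Cz K := perfect_le_Cz h2 (by rw [MonoidHom.range_eq_map, ← Subgroup.map_commutator, pf])
    (by rintro _ ⟨g, rfl⟩; exact c g)
  obtain ⟨fA, fB, fC, F⟩ := exists_F3 h2
  have k : ∀ φ : SL(2, E) →* PSL(2, K), ∃ a : SL(2, E) →* SL(2, K), (a = 1 ∨ ∃ σ, Tw σ a) ∧
      ∀ g, φ g = QuotientGroup.mk (a g) := fun φ => by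
    rcases t11 p h2 h3 φ with rfl | ⟨σ, a, h1, h2⟩
    · exact ⟨1, .inl rfl, fun _ => rfl⟩
    · exact ⟨a, .inr ⟨σ, h1⟩, h2⟩
  let f' := f.codRestrict (Cz K) fun g => l ⟨g, rfl⟩
  obtain ⟨a, a1, a2⟩ := k (fA.comp f')
  obtain ⟨b, b1, b2⟩ := k (fB.comp f')
  obtain ⟨c', c1, c2⟩ := k (fC.comp f')
  let Φ : SL(2, E) →* O (Q K) := (phi.comp psi3).comp (a.prod (b.prod c'))
  have mΦ : ∀ g, Φ g ∈ Cz K := fun g => ⟨_, rfl⟩
  have e : ∀ g, f g = Φ g ∨ f g = t0 K * Φ g := fun g => by
    obtain ⟨d1, d2, d3⟩ := F (a g, b g, c' g) ⟨Φ g, mΦ g⟩ rfl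
    refine ((F.ker (x := f' g * ⟨Φ g, mΦ g⟩⁻¹)).1 ⟨?_, ?_, ?_⟩).imp
      (fun e => congrArg Subtype.val (mul_inv_eq_one.1 e)) fun e => mul_inv_eq_iff_eq_mul.1 e
    · rw [map_mul, map_inv, d1, mul_inv_eq_one]; exact a2 g
    · rw [map_mul, map_inv, d2, mul_inv_eq_one]; exact b2 g
    · rw [map_mul, map_inv, d3, mul_inv_eq_one]; exact c2 g
  have cj : ∀ g (y : O (Q K)), y ∈ Cz K → f g * y * (f g)⁻¹ = Φ g * y * (Φ g)⁻¹ := fun g y hy => by
    rcases e g with e | e <;> rw [e]
    rw [show t0 K * Φ g * y * (t0 K * Φ g)⁻¹ = t0 K * (Φ g * y * (Φ g)⁻¹) * (t0 K)⁻¹ by group,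
      ← (commute_t0 (mul_mem (mul_mem (mΦ g) hy) (inv_mem (mΦ g)))).eq, mul_inv_cancel_right]
  refine ⟨a, b, c', a1, b1, c1, fun g => (pf.ge.trans (Subgroup.commutator_le.2 fun g _ h _ => ?_ :
    _ ≤ f.eqLocus Φ)) (Subgroup.mem_top g)⟩
  change f _ = Φ _
  rw [map_commutatorElement, map_commutatorElement, commutatorElement_def, commutatorElement_def, cj g _ (l ⟨h, rfl⟩),
    mul_assoc, mul_assoc, ← mul_assoc (f h), cj h _ (inv_mem (mΦ g))]
  group

/-- If `f (-1)` is an involution of type four, conjugate it to `t0`; exactly one of `b`, `c` is trivial (`phi_psi3_eq_t0`); use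
`exists_swap`. -/
theorem exists_ac {f : SL(2, E) →* O (Q K)} (h4 : dm (f (-1)) = 4) :
    ∃ (k : Spin K) (a c : SL(2, E) →* SL(2, K)) (σ : E →+* K), (a = 1 ∨ ∃ τ, Tw τ a) ∧ Tw σ c ∧
      ∀ g, phi k * f g * (phi k)⁻¹ = phi (psi3 (a g, 1, c g)) := by
  obtain ⟨k, hk⟩ := exists_conj_t0 h2 (t := f (-1)) (by rw [← map_mul]; simp) h4
  obtain ⟨a, b, c, a1, b1, c1, e⟩ := exists_abc p h2 h3 (f := (MulAut.conj (phi k)).toMonoidHom.comp f) fun g => by
    rw [← hk]
    exact ((show Commute g (-1) by simp).map f).map (MulAut.conj (phi k))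
  have n := sl_neg_one_ne_one h2
  rcases (phi_psi3_eq_t0.1 ((e (-1)).symm.trans hk)).2 with ⟨d1, d2⟩ | ⟨d1, d2⟩
  · obtain rfl := b1.resolve_right fun ⟨_, t⟩ => n (t.neg.symm.trans d1)
    obtain ⟨σ, t⟩ := c1.resolve_left fun e => n (by rw [e] at d2; exact d2.symm)
    exact ⟨k, a, c, σ, a1, t, e⟩
  · obtain rfl := c1.resolve_right fun ⟨_, t⟩ => n (t.neg.symm.trans d2)
    obtain ⟨σ, t⟩ := b1.resolve_left fun e => n (by rw [e] at d1; exact d1.symm)
    obtain ⟨ω, hω⟩ := exists_swap h2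
    refine ⟨ω * k, a, b, σ, a1, t, fun g => ?_⟩
    rw [← hω, map_mul, map_mul, map_mul, map_inv]
    refine Eq.trans ?_ (congrArg (fun x => phi ω * x * (phi ω)⁻¹) (e g))
    simp [mul_assoc]

/-- The character (`chi_psi3`). -/
theorem chi_sl2 {f : SL(2, E) →* O (Q K)} (h4 : dm (f (-1)) = 4) : ∃ σ : E →+* K,
    (O.fix (f (-1)) ≤ Fix f.range ∧ ∀ g, chi (f g) = 3 + 2 * σ g.1.trace) ∨
      ∃ τ : E →+* K, ∀ g, chi (f g) = τ g.1.trace ^ 2 - 1 + 2 * σ g.1.trace := by
  obtain ⟨k, a, c, σ, a1, t, e⟩ := exists_ac p h2 h3 h4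
  have ch : ∀ g, chi (f g) = (a g).1.trace ^ 2 - 1 + 2 * σ g.1.trace := fun g => by
    rw [← chi_conj _ (phi k), e, chi_psi3, t.trace]
    simp
  rcases a1 with rfl | ⟨τ, s⟩
  · refine ⟨σ, .inl ⟨fun v hv => ?_, fun g => by rw [ch]; simp; norm_num⟩⟩
    rintro _ ⟨g, rfl⟩
    have e1 : phi k * f (-1) * (phi k)⁻¹ = t0 K := by rw [e, t.neg]; rfl
    have := (fix_iff h2 (a := (1, 1, c g))).2 (.inl rfl) ((phi k).1 v) (O.mem_fix.2 (by
      rw [← e1, O.mul_apply, O.mul_apply, O.inv_apply_apply, O.mem_fix.1 hv]))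
    have e2 := e g
    rw [MonoidHom.one_apply] at e2
    rw [← e2, O.mul_apply, O.mul_apply, O.inv_apply_apply] at this
    exact (phi k).1.injective this
  · exact ⟨σ, .inr ⟨τ, fun g => by rw [ch, s.trace]⟩⟩

end Cfsg.Lib.O7
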