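import Cfsg.Agent.Lib.O7.SL
import Mathlib

/-!
# Irreducible modules of `SL₂(q)` in the defining characteristic (see `docs/O7.md`)

Let `G = SL₂(E)`, `q = |E|`, `Fn = (Fin 2 → E) → K` with the action `(g φ) x = φ (x ᵥ* g)`, and
`pw r a = fun x => ι (x ⬝ᵥ a) ^ r`, so `g (pw r a) = pw r (g *ᵥ a)`.
-/

set_option autoImplicit false

namespace Cfsg.Lib.O7

open Module Matrix Cfsg.Lib.PSL2
open scoped MatrixGroups

variable {K E U : Type*} [Field K] [Field E] [AddCommGroup U] [Module K U]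

/-- The `m ≤ r` with `p ∤ C(r, m)`. -/
def Dg (p r : ℕ) : Finset ℕ := (Finset.range (r + 1)).filter fun m => ¬ p ∣ r.choose m

theorem mem_Dg' {p r m : ℕ} : m ∈ Dg p r ↔ ¬ p ∣ r.choose m := by
  rw [Dg, Finset.mem_filter, Finset.mem_range, and_iff_right_iff_imp]
  intro h
  by_contra n
  exact h (by rw [Nat.choose_eq_zero_of_lt (by omega)]; exact dvd_zero _)

theorem le_of_mem_Dg {p r m : ℕ} (h : m ∈ Dg p r) : m ≤ r :=
  Nat.lt_succ_iff.1 (Finset.mem_range.1 (Finset.mem_filter.1 h).1)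

/-- Lucas (`Choose.choose_modEq_choose_mod_mul_choose_div_nat`): `m ∈ Dg p r ↔ m % p ≤ r % p ∧ m / p ∈ Dg p (r / p)`. -/
theorem mem_Dg {p : ℕ} (hp : p.Prime) {r m : ℕ} : m ∈ Dg p r ↔ m % p ≤ r % p ∧ m / p ∈ Dg p (r / p) := by
  have := Fact.mk hp
  rw [mem_Dg', mem_Dg', (Choose.choose_modEq_choose_mod_mul_choose_div_nat (p := p)).dvd_iff dvd_rfl, hp.dvd_mul, not_or]
  refine and_congr_left' ⟨fun h => ?_, fun h => hp.coprime_iff_not_dvd.1 (hp.coprime_choose_of_lt (Nat.mod_lt _ hp.pos) h)⟩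
  by_contra n
  exact h (by rw [Nat.choose_eq_zero_of_lt (by omega)]; exact dvd_zero _)

theorem card_Dg {p : ℕ} (hp : p.Prime) (r : ℕ) : (Dg p r).card = (r % p + 1) * (Dg p (r / p)).card := by
  rw [← Finset.card_range (r % p + 1), ← Finset.card_product]
  refine Finset.card_nbij' (fun m => (m % p, m / p)) (fun x => x.1 + p * x.2) (fun m hm => ?_) (fun x hx => ?_)
    (fun m _ => Nat.mod_add_div m p) fun x hx => ?_
  · rw [Finset.mem_coe, mem_Dg hp] at hm
    simpa [Nat.lt_succ_iff] using hm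
  all_goals
    simp only [Finset.coe_product, Finset.coe_range, Set.mem_prod, Set.mem_Iio, Finset.mem_coe] at hx
    have h1 : x.1 < p := by have := Nat.mod_lt r hp.pos; omega
    have h2 : (x.1 + p * x.2) % p = x.1 := by rw [Nat.add_mul_mod_self_left, Nat.mod_eq_of_lt h1]
    have h3 : (x.1 + p * x.2) / p = x.2 := by rw [Nat.add_mul_div_left _ _ hp.pos, Nat.div_eq_of_lt h1, zero_add]
  · rw [Finset.mem_coe, mem_Dg hp, h2, h3]
    exact ⟨by omega, hx.2⟩
  · exact Prod.ext h2 h3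

theorem zero_mem_Dg {p : ℕ} (hp : p.Prime) (r : ℕ) : 0 ∈ Dg p r := mem_Dg'.2 (by simpa using hp.ne_one)

theorem Dg_one {p : ℕ} (hp : p.Prime) {r : ℕ} (h : (Dg p r).card = 1) : r = 0 :=
  Finset.card_le_one.1 h.le _ (mem_Dg'.2 (by simpa using hp.ne_one)) _ (zero_mem_Dg hp r)

theorem card_Dg_zero {p : ℕ} (hp : p.Prime) : (Dg p 0).card = 1 :=
  le_antisymm ((Finset.card_filter_le _ _).trans (by simp)) (Finset.card_pos.2 ⟨0, zero_mem_Dg hp 0⟩)

/-- Strong induction on `r`; `card (Dg p r) = 1` only for `r = 0` (`0, r ∈ Dg p r`). -/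
theorem Dg_seven {p : ℕ} (hp : p.Prime) {r : ℕ} (h : (Dg p r).card = 7) :
    7 ≤ p ∧ ∃ k, r = 6 * p ^ k ∧ ∀ i ≤ 6, i * p ^ k ∈ Dg p r := by
  induction r using Nat.strong_induction_on with
  | _ r ih =>
  have r0 : r ≠ 0 := fun e => by rw [e, card_Dg_zero hp] at h; omega
  have e := Nat.mod_add_div r p
  rw [card_Dg hp] at h
  rcases (Nat.dvd_prime (by norm_num : Nat.Prime 7)).1 (Dvd.intro _ h) with k | k <;> rw [k] at h
  · obtain ⟨h7, j, hj, hi⟩ := ih _ (Nat.div_lt_self (by omega) hp.one_lt) (by omega)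
    refine ⟨h7, j + 1, by rw [← e, hj, show r % p = 0 by omega]; ring, fun i i6 => (mem_Dg hp).2 ?_⟩
    rw [pow_succ, ← mul_assoc, Nat.mul_mod_left, Nat.mul_div_cancel _ hp.pos]
    exact ⟨Nat.zero_le _, hi i i6⟩
  · have := Nat.mod_lt r hp.pos
    rw [Dg_one hp (r := r / p) (by omega)] at e
    refine ⟨by omega, 0, by rw [pow_zero]; omega, fun i i6 => (mem_Dg hp).2 ?_⟩
    rw [pow_zero, mul_one, Nat.mod_eq_of_lt (a := i) (by omega), Nat.div_eq_of_lt (a := i) (by omega)]
    exact ⟨by omega, zero_mem_Dg hp _⟩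

theorem Dg_step {p r f : ℕ} (hp : p.Prime) (hr : r < p ^ (f + 1)) : r / p < p ^ f :=
  Nat.div_lt_of_lt_mul (by rwa [pow_succ'] at hr)

theorem Dg_four {p : ℕ} (hp : p.Prime) (h7 : 7 ≤ p) {r f : ℕ} (h : (Dg p r).card ≤ 4) (hr : r < p ^ f) :
    2 * r + 1 ≤ p ^ f := by
  induction f generalizing r with
  | zero => rw [pow_zero] at hr ⊢; omega
  | succ f ih =>
    have h0 := Finset.card_pos.2 ⟨0, zero_mem_Dg hp (r / p)⟩
    rw [card_Dg hp] at h
    have k := Nat.mul_le_mul_left p (ih (r := r / p) ((Nat.le_mul_of_pos_left _ (Nat.succ_pos _)).trans h) (Dg_step hp hr))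
    have e := Nat.mod_add_div r p
    have : r % p ≤ 3 := by nlinarith
    rw [pow_succ']
    nlinarith

/-- The digits `r_i` satisfy `∏ (r_i + 1) = 8`, and `r ≡ ∑ r_i` mod two excludes `(7)`, `(1,1,1)`: the non-zero digits are `3, 1`.
So `f ≥ 2` and `2 r ≤ 6 p^(f-1) + 2 p^(f-2) < p^f - 1`.  (Induct: `card = 2 → r = p^k`; `card = 4 → r = 3 p^k` or
`p^j + p^k`.) -/
theorem Dg_eight {p : ℕ} (hp : p.Prime) (h7 : 7 ≤ p) {r f : ℕ} (h : (Dg p r).card = 8) (he : Even r)
    (hr : r < p ^ f) : 2 * r + 1 < p ^ f := by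
  induction f generalizing r with
  | zero =>
    rw [show r = 0 by simpa using hr, card_Dg_zero hp] at h
    omega
  | succ f ih =>
    have hr' := Dg_step hp hr
    have e := Nat.mod_add_div r p
    rw [card_Dg hp] at h
    rw [pow_succ']
    have k : r % p ≤ 2 → (Dg p (r / p)).card ≤ 4 → 2 * r + 1 < p * p ^ f := fun a b => by
      have := Nat.mul_le_mul_left p (Dg_four hp h7 b hr')
      nlinarith
    have k' : 2 * (r / p) + 1 < p ^ f → 2 * r + 1 < p * p ^ f := fun a => by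
      have := Nat.mul_le_mul_left p (Nat.succ_le_of_lt a)
      have := Nat.mod_lt r hp.pos
      nlinarith
    obtain ⟨j, hj, e'⟩ := (Nat.dvd_prime_pow Nat.prime_two (m := 3)).1 (Dvd.intro _ h)
    rw [e'] at h
    interval_cases j
    · refine k' (ih (by omega) ?_ hr')
      rw [← e, show r % p = 0 by omega, zero_add, Nat.even_mul] at he
      exact he.resolve_left (Nat.not_even_iff_odd.2 (hp.odd_of_ne_two (by omega)))
    · exact k (by omega) (by omega)
    · refine k' ?_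
      obtain _ | f := f
      · rw [show r / p = 0 from Nat.lt_one_iff.1 (by rwa [pow_zero] at hr'), card_Dg_zero hp] at h
        omega
      have h0 := Finset.card_pos.2 ⟨0, zero_mem_Dg hp (r / p / p)⟩
      rw [card_Dg hp] at h
      have k1 := Nat.mul_le_mul_left p (Dg_four hp h7 (r := r / p / p)
        ((Nat.le_mul_of_pos_left _ (show 0 < r / p % p + 1 by omega)).trans (by omega)) (Dg_step hp hr'))
      have e1 := Nat.mod_add_div (r / p) p
      have : r / p % p ≤ 1 := by nlinarith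
      rw [pow_succ']
      nlinarith
    · rw [Dg_one hp (r := r / p) (by omega)] at e
      rw [show r = 7 by omega] at he
      exact absurd he (by decide)

variable [Fintype E] (p : ℕ) [Fact p.Prime] [CharP K p] [CharP E p] (ι : E →+* K)

include p in
/-- A common fixed vector of a unipotent one-parameter group. -/
theorem sm_fix {V : Type*} [AddCommGroup V] [Module K V] [Nontrivial V] (f : E → Module.End K V) (h0 : f 0 = 1)
    (h : ∀ s t, f (s + t) = f s * f t) : ∃ v, v ≠ 0 ∧ ∀ t, f t v = v := by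
  classical
  have : CharP (Module.End K V) p := charP_of_injective_algebraMap (algebraMap K _).injective p
  have hp : ∀ t (n : ℕ), f t ^ n = f (n • t) := fun t n => by
    induction n with
    | zero => rw [pow_zero, zero_smul, h0]
    | succ n ih => rw [pow_succ, ih, succ_nsmul, h]
  have key : ∀ s : Finset E, ∃ v, v ≠ 0 ∧ ∀ t ∈ s, f t v = v := fun s => by
    induction s using Finset.induction_on with
    | empty => exact (exists_ne (0 : V)).imp fun v hv => ⟨hv, by simp⟩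
    | insert a s _ ih =>
      obtain ⟨v, hv, ih⟩ := ih
      obtain ⟨k, hk, hk'⟩ := Nat.exists_not_and_succ_of_not_zero_of_exists (p := fun k => ((f a - 1) ^ k) v = 0) hv
        ⟨p, by
          rw [sub_pow_char_of_commute p (Commute.one_right _), hp, one_pow, nsmul_eq_mul, CharP.cast_eq_zero, zero_mul, h0,
            sub_self]
          rfl⟩
      refine ⟨_, hk, fun t ht => ?_⟩
      rcases Finset.mem_insert.1 ht with rfl | ht
      · rwa [pow_succ', Module.End.mul_apply, LinearMap.sub_apply, sub_eq_zero] at hk'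
      · have : Commute (f t) ((f a - 1) ^ k) := (Commute.sub_right (by rw [Commute, SemiconjBy, ← h, ← h, add_comm])
          (Commute.one_right _)).pow_right k
        rw [← Module.End.mul_apply, this, Module.End.mul_apply, ih t ht]
  exact (key Finset.univ).imp fun v hv => ⟨hv.1, fun t => hv.2 t (Finset.mem_univ t)⟩

theorem sm_vdm {I : Type*} (s : Finset I) {n : I → ℕ} (hn : Function.Injective n) (hq : ∀ i ∈ s, n i < Fintype.card E)
    {c : I → K} (h : ∀ t : E, ∑ i ∈ s, c i * ι t ^ n i = 0) : ∀ i ∈ s, c i = 0 := fun j hj => by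
  have := Polynomial.eq_zero_of_natDegree_lt_card_of_eval_eq_zero (∑ i ∈ s, Polynomial.monomial (n i) (c i)) ι.injective
    (fun t => by simpa [Polynomial.eval_finset_sum] using h t)
    ((Polynomial.natDegree_sum_le_of_forall_le s (n := Fintype.card E - 1) _ fun i hi =>
      (Polynomial.natDegree_monomial_le _).trans (by have := hq i hi; omega)).trans_lt (by have := hq j hj; omega))
  have := congrArg (Polynomial.coeff · (n j)) this
  simp only [Polynomial.finset_sum_coeff, Polynomial.coeff_monomial, Polynomial.coeff_zero] at this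
  rwa [Finset.sum_eq_single j (fun i _ e => if_neg (hn.ne e)) (fun e => absurd hj e), if_pos rfl] at this

/-- The lower unitriangular matrices. -/
def lwS (t : E) : SL(2, E) := ⟨!![1, 0; t, 1], by simp [det_fin_two]⟩

omit [Fintype E] in
@[simp] theorem coe_lwS (t : E) : (lwS t : Matrix (Fin 2) (Fin 2) E) = !![1, 0; t, 1] := rfl

include p in
theorem sm_ell [IsAlgClosed K] [FiniteDimensional K U] [Nontrivial U] (R : SL(2, E) →* U ≃ₗ[K] U) :
    ∃ (ℓ : Dual K U) (r : ℕ), ℓ ≠ 0 ∧ 1 ≤ r ∧ r < Fintype.card E ∧ (∀ t u, ℓ (R (lwS t) u) = ℓ u) ∧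
      ∀ (s : Eˣ) u, ℓ (R (dS s) u) = ι s ^ r * ℓ u := by
  classical
  let D : Submodule K (Dual K U) :=
    { carrier := {ℓ | ∀ t u, ℓ (R (lwS t) u) = ℓ u}
      add_mem' := fun ha hb t u => by simp only [LinearMap.add_apply, ha t u, hb t u]
      zero_mem' := fun _ _ => rfl
      smul_mem' := fun c _ ha t u => by simp only [LinearMap.smul_apply, ha t u] }
  obtain ⟨ℓ₀, h0, h0'⟩ := sm_fix p (K := K) (fun t : E => (R (lwS t) : U →ₗ[K] U).dualMap)
    (by rw [show lwS (0 : E) = 1 by apply sl_ext <;> simp, map_one]; rfl) fun s t => by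
      rw [show lwS (s + t) = lwS t * lwS s by apply sl_ext <;> simp [add_comm], map_mul]
      rfl
  have : Nontrivial D := ⟨⟨⟨ℓ₀, fun t u => LinearMap.congr_fun (h0' t) u⟩, 0, fun e => h0 (congrArg Subtype.val e)⟩⟩
  obtain ⟨γ, hγ⟩ := IsCyclic.exists_monoid_generator (α := Eˣ)
  have hD : ∀ ℓ ∈ D, (R (dS γ) : U →ₗ[K] U).dualMap ℓ ∈ D := fun ℓ hl t u => by
    change ℓ ((R (dS γ) * R (lwS t)) u) = ℓ (R (dS γ) u)
    rw [← map_mul, show dS γ * lwS t = lwS ((γ : E)⁻¹ ^ 2 * t) * dS γ by apply sl_ext <;> simp; field_simp, map_mul]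
    exact hl _ _
  obtain ⟨c, hc⟩ := Module.End.exists_eigenvalue (K := K) (V := D) ((R (dS γ) : U →ₗ[K] U).dualMap.restrict hD)
  obtain ⟨⟨ℓ, hl⟩, hc⟩ := hc.exists_hasEigenvector
  have l0 : ℓ ≠ 0 := fun e => hc.2 (Subtype.ext e)
  have k1 : ∀ u, ℓ (R (dS γ) u) = c * ℓ u := LinearMap.congr_fun (congrArg Subtype.val hc.apply_eq_smul)
  have k2 : ∀ (n : ℕ) u, ℓ (R (dS (γ ^ n)) u) = c ^ n * ℓ u := fun n => by
    induction n with
    | zero => simp [dS_one]
    | succ n ih =>
      intro u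
      rw [pow_succ, ← dS_mul, map_mul, LinearEquiv.mul_apply, ih, k1, pow_succ, mul_assoc]
  have hq : orderOf γ = Fintype.card E - 1 := by
    rw [orderOf_eq_card_of_forall_mem_powers hγ, Nat.card_eq_fintype_card, Fintype.card_units]
  have q1 := Fintype.one_lt_card (α := E)
  have : NeZero (Fintype.card E - 1) := ⟨by omega⟩
  have hζ : IsPrimitiveRoot (ι γ) (Fintype.card E - 1) :=
    (IsPrimitiveRoot.coe_units_iff.2 (hq ▸ IsPrimitiveRoot.orderOf γ)).map_of_injective ι.injective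
  obtain ⟨u, hu⟩ := DFunLike.ne_iff.1 l0
  obtain ⟨i, hi, e⟩ := hζ.eq_pow_of_pow_eq_one (ξ := c) (mul_right_cancel₀ hu (by
    rw [← k2, ← hq, pow_orderOf_eq_one, dS_one, map_one, one_mul]; rfl))
  obtain ⟨r, r1, r2, e'⟩ : ∃ r, 1 ≤ r ∧ r < Fintype.card E ∧ ι γ ^ r = c := by
    rcases i.eq_zero_or_pos with rfl | i0
    · exact ⟨Fintype.card E - 1, by omega, by omega, by rw [hζ.pow_eq_one, ← e, pow_zero]⟩
    · exact ⟨i, i0, by omega, e⟩
  refine ⟨ℓ, r, l0, r1, r2, hl, fun s u => ?_⟩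
  obtain ⟨n, rfl⟩ := hγ s
  rw [k2, ← e', Units.val_pow_eq_pow_val, map_pow, pow_right_comm]

omit [Fintype E] in
theorem sm_row {x : Fin 2 → E} (hx : x ≠ 0) : ∃ g : SL(2, E), g 0 = x := by
  by_cases h : x 0 = 0
  · have h1 : x 1 ≠ 0 := fun e => hx (by ext i; fin_cases i <;> assumption)
    exact ⟨⟨!![x 0, x 1; -(x 1)⁻¹, 0], by simp [det_fin_two, h1]⟩, by ext i; fin_cases i <;> rfl⟩
  · exact ⟨⟨!![x 0, x 1; 0, (x 0)⁻¹], by simp [det_fin_two, h]⟩, by ext i; fin_cases i <;> rfl⟩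

omit [Fintype E] in
theorem sm_theta (R : SL(2, E) →* U ≃ₗ[K] U) {ℓ : Dual K U} {r : ℕ} (hr : 1 ≤ r) (h1 : ∀ t u, ℓ (R (lwS t) u) = ℓ u)
    (h2 : ∀ (s : Eˣ) u, ℓ (R (dS s) u) = ι s ^ r * ℓ u) : ∃ Θ : U →ₗ[K] (Fin 2 → E) → K, (∀ u, Θ u ![1, 0] = ℓ u) ∧
      (∀ g u x, Θ (R g u) x = Θ u (x ᵥ* g.1)) ∧ ∀ u (s : E) x, Θ u (s • x) = ι s ^ r * Θ u x := by
  classical
  choose! γ hγ using fun x : Fin 2 → E => sm_row (x := x)
  let Θ : U →ₗ[K] (Fin 2 → E) → K := LinearMap.pi fun x => if x = 0 then 0 else ℓ ∘ₗ (R (γ x) : U →ₗ[K] U)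
  have k0 : ∀ u, Θ u 0 = 0 := fun u => by simp [Θ]
  have km : ∀ a b : SL(2, E), (a * b) 0 = a 0 ᵥ* b.1 := fun _ _ => rfl
  have k : ∀ (g : SL(2, E)) u, Θ u (g 0) = ℓ (R g u) := fun g u => by
    have n : g 0 ≠ 0 := fun e => by simpa [congrFun e 0, congrFun e 1] using sl_det g
    have e : (γ (g 0) * g⁻¹) 0 = (1 : SL(2, E)) 0 := by rw [km, hγ _ n, ← km, mul_inv_cancel]
    have e0 : (γ (g 0) * g⁻¹) 0 0 = 1 := congrFun e 0
    have e1 : (γ (g 0) * g⁻¹) 0 1 = 0 := congrFun e 1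
    have e' : γ (g 0) * g⁻¹ = lwS ((γ (g 0) * g⁻¹) 1 0) :=
      sl_ext e0 e1 rfl (show _ = (1 : E) by
        simpa only [e0, e1, one_mul, zero_mul, sub_zero] using sl_det (γ (g 0) * g⁻¹))
    simp only [Θ, LinearMap.pi_apply, if_neg n, LinearMap.comp_apply, LinearEquiv.coe_coe]
    rw [mul_inv_eq_iff_eq_mul.1 e', map_mul, LinearEquiv.mul_apply, h1]
  refine ⟨Θ, fun u => ?_, fun g u x => ?_, fun u s x => ?_⟩
  · rw [show ![(1 : E), 0] = (1 : SL(2, E)) 0 by ext i; fin_cases i <;> rfl, k, map_one]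
    rfl
  · by_cases hx : x = 0
    · rw [hx, zero_vecMul, k0, k0]
    · rw [← hγ x hx, ← km, k, k, map_mul, LinearEquiv.mul_apply]
  · by_cases hx : x = 0
    · rw [hx, smul_zero, k0, mul_zero]
    by_cases hs : s = 0
    · rw [hs, zero_smul, k0, map_zero, zero_pow (by omega), zero_mul]
    have : s • x = (dS (Units.mk0 s hs) * γ x) 0 := by
      conv_lhs => rw [← hγ x hx]
      ext i
      simp [Matrix.mul_apply]
    rw [this, k, map_mul, LinearEquiv.mul_apply, h2, ← k, hγ x hx, Units.val_mk0]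

include p in
theorem sm_pw (R : SL(2, E) →* U ≃ₗ[K] U) (hi : ∀ X : Submodule K U, (∀ g, ∀ v ∈ X, R g v ∈ X) → X = ⊥ ∨ X = ⊤)
    (h1 : 1 < finrank K U) {r : ℕ} (hr : 1 ≤ r) {Θ : U →ₗ[K] (Fin 2 → E) → K} (hj : Function.Injective Θ)
    (he : ∀ g u x, Θ (R g u) x = Θ u (x ᵥ* g.1)) (hh : ∀ u (s : E) x, Θ u (s • x) = ι s ^ r * Θ u x) :
    ∃ u, Θ u = fun x => ι (x 0) ^ r := by
  classical
  have := nontrivial_of_finrank_pos (zero_lt_one.trans h1)
  have k : ∀ u, (∀ t, R (upper t) u = u) → ∀ x, Θ u x =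
      if x 0 = 0 then ι (x 1) ^ r * Θ u ![0, 1] else ι (x 0) ^ r * Θ u ![1, 0] := fun u hu x => by
    split_ifs with hx
    · rw [← hh]
      refine congrArg _ (funext fun i => ?_)
      fin_cases i <;> simp [hx]
    · rw [← hh, ← hu (-x 1 / x 0), he, hu]
      refine congrArg _ (funext fun i => ?_)
      fin_cases i <;> simp [vecMul, dotProduct]
      field_simp
      ring
  have k' : ∀ u, (∀ t, R (upper t) u = u) → Θ u ![0, 1] = 0 → Θ u ![1, 0] ≠ 0 → ∃ u, Θ u = fun x => ι (x 0) ^ r :=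
    fun u hu a b => ⟨(Θ u ![1, 0])⁻¹ • u, funext fun x => by
      rw [map_smul, Pi.smul_apply, k u hu x, a, smul_eq_mul]
      split_ifs with hx
      · rw [hx, map_zero, zero_pow (by omega), mul_zero, mul_zero]
      · field_simp⟩
  obtain ⟨u, u0, hu⟩ := sm_fix p (K := K) (fun t : E => (R (upper t) : U →ₗ[K] U)) (by rw [upper_zero, map_one]; rfl)
    fun s t => by rw [← upper_mul, map_mul]; rfl
  replace hu : ∀ t, R (upper t) u = u := hu
  by_cases hb : Θ u ![0, 1] = 0
  · refine k' u hu hb fun ha => u0 (hj (funext fun x => ?_))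
    simp [k u hu x, ha, hb]
  have hT : ∀ x, Θ (∑ t, R (upper t * wS E) u) x = ∑ t, Θ u ![-(x 0 * t + x 1), x 0] := fun x => by
    rw [map_sum, Finset.sum_apply]
    refine Finset.sum_congr rfl fun t _ => ?_
    rw [he]
    refine congrArg _ (funext fun i => ?_)
    fin_cases i <;> simp [vecMul, dotProduct]
    ring
  by_cases hc : Θ (∑ t, R (upper t * wS E) u) ![1, 0] = 0
  swap
  · refine k' _ (fun s => ?_) ?_ hc
    · rw [map_sum, ← Equiv.sum_comp (Equiv.addLeft s) fun t => R (upper t * wS E) u]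
      refine Finset.sum_congr rfl fun t _ => ?_
      rw [← LinearEquiv.mul_apply, ← map_mul, ← mul_assoc, upper_mul, Equiv.coe_addLeft]
    · rw [hT]
      simp only [cons_val_zero, zero_mul, Finset.sum_const, Finset.card_univ, nsmul_eq_mul]
      rw [← map_natCast ι, FiniteField.cast_card_eq_zero, map_zero, zero_mul]
  exfalso
  rw [hT, ← Equiv.sum_comp (Equiv.neg E), Fintype.sum_eq_add_sum_subtype_ne _ 0,
    ← Equiv.sum_comp unitsEquivNeZero] at hc
  have e1 : ∀ t : Eˣ, Θ u ![(t : E), 1] = ι (t ^ r) * Θ u ![1, 0] := fun t => by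
    rw [k u hu, if_neg (by simp), map_pow]
    rfl
  simp only [cons_val_zero, cons_val_one, one_mul, add_zero, Equiv.neg_apply, neg_neg, unitsEquivNeZero_apply_coe,
    cons_val_fin_one, e1] at hc
  rw [← Finset.sum_mul, ← map_sum, FiniteField.sum_pow_units] at hc
  split_ifs at hc with hd
  swap
  · exact hb (by simpa using hc)
  obtain ⟨j, hd⟩ := hd
  have e2 : ∀ x, x ≠ 0 → Θ u x = Θ u ![1, 0] := fun x hx => by
    have e3 : ∀ t : E, t ≠ 0 → ι t ^ r = 1 := fun t ht => by
      rw [← map_pow, hd, pow_mul, FiniteField.pow_card_sub_one_eq_one t ht, one_pow, map_one]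
    rw [k u hu x]
    split_ifs with h0
    · rw [e3 _ fun e => hx (by ext i; fin_cases i <;> assumption)]
      rw [map_neg, map_one] at hc
      linear_combination hc
    · rw [e3 _ h0, one_mul]
  have e4 : ∀ g, R g u = u := fun g => hj (funext fun x => by
    rw [he]
    by_cases hx : x = 0
    · rw [hx, zero_vecMul]
    · rw [e2 x hx, e2 _ fun e => hx (eq_zero_of_vecMul_eq_zero (by rw [g.2]; exact one_ne_zero) e)])
  rcases hi (K ∙ u) (fun g v hv => by
    obtain ⟨c, rfl⟩ := Submodule.mem_span_singleton.1 hv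
    rwa [map_smul, e4]) with e | e
  · exact u0 (Submodule.span_singleton_eq_bot.1 e)
  · rw [← finrank_top, ← e, finrank_span_singleton u0] at h1
    exact h1.false

/-- (1) The group `L = {w * upper x * w⁻¹}` of lower unitriangular matrices is a `p`-group, so fixes a non-zero functional on `U`; the
diagonal group (cyclic of order `q - 1`) normalises it, so there is `ℓ ≠ 0` with `ℓ (R l u) = ℓ u`, `ℓ (R (dS s) u) = ι s ^ r * ℓ u`,
`1 ≤ r ≤ q - 1` (the eigenvalue of a generator is a root of `X ^ (q-1) - 1`, all of which lie in `ι E`).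
(2) `Θ u x = ℓ (R g u)` for any `g` with first row `x` (`Θ u 0 = 0`; two such `g` differ by `L` on the left) is an injective
equivariant linear map `U → Fn`, and `Θ u (s • x) = ι s ^ r * Θ u x`.
(3) Take `u ≠ 0` fixed by all `upper t`; `φ = Θ u` satisfies `φ (x, y) = φ (x, t x + y)`, so `φ (x, y) = a ι x ^ r` for `x ≠ 0` and
`φ (0, y) = b ι y ^ r`.  `T = ∑ t, upper t * wS` gives `T φ = c * pw r ![1, 0]` with `c = ± b + a ∑_{t ≠ 0} (± ι t) ^ r` (at `x = 0` the sum
is `q * _ = 0`).  If `b = 0` or `c ≠ 0` then `pw r ![1, 0] ∈ range Θ`; otherwise `r = q - 1`, `a = b`, `u` is fixed by `G`,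
excluded by `1 < dim U`.
(4) So `range Θ` is the span of the `pw r a`, which is the span of the monomials `ι x ^ (r - m) * ι y ^ m`, `m ∈ Dg p r` (binomial
theorem; the functions `t ↦ ι t ^ m`, `m ≤ q - 1`, on `E` are linearly independent (a polynomial of degree `< q` with `q` roots), which
gives both the inclusion `⊇` and the independence of the monomials at `x = 1`).  `(x, y) ᵥ* wS = (-y, x)`. -/
theorem exists_basis [IsAlgClosed K] [FiniteDimensional K U] (R : SL(2, E) →* U ≃ₗ[K] U)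
    (hi : ∀ X : Submodule K U, (∀ g, ∀ v ∈ X, R g v ∈ X) → X = ⊥ ∨ X = ⊤) (h1 : 1 < finrank K U) :
    ∃ r, r < Fintype.card E ∧ ∃ b : Basis (Dg p r) K U, (∀ (s : Eˣ) (m : Dg p r),
      R (dS s) (b m) = (ι s ^ (r - m.1) * (ι s)⁻¹ ^ m.1) • b m) ∧
      ∀ m m' : Dg p r, m.1 + m'.1 = r → R (wS E) (b m) = (-1 : K) ^ m'.1 • b m' := by
  classical
  have := nontrivial_of_finrank_pos (zero_lt_one.trans h1)
  obtain ⟨ℓ, r, l0, r1, r2, hl, hd⟩ := sm_ell p ι R
  obtain ⟨Θ, hΘ, he, hh⟩ := sm_theta ι R r1 hl hd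
  have hj : Function.Injective Θ := LinearMap.ker_eq_bot.1 ((hi _ fun g v hv => funext fun x => by
    rw [he, LinearMap.mem_ker.1 hv]; rfl).resolve_right fun e => l0 (LinearMap.ext fun u => by
      rw [← hΘ, LinearMap.mem_ker.1 (e.ge Submodule.mem_top)]; rfl))
  obtain ⟨u, hu⟩ := sm_pw p ι R hi h1 r1 hj he hh
  let mon : ℕ → (Fin 2 → E) → K := fun m x => ι (x 0) ^ (r - m) * ι (x 1) ^ m
  have k1 : ∀ g : SL(2, E), Θ (R g u) =
      ∑ m ∈ Finset.range (r + 1), (ι (g 0 0) ^ (r - m) * ι (g 1 0) ^ m * r.choose m) • mon m := fun g => funext fun x => by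
    rw [he, hu, Finset.sum_apply]
    simp only [vecMul, dotProduct, Fin.sum_univ_two, map_add, map_mul]
    rw [add_comm, add_pow]
    refine Finset.sum_congr rfl fun m _ => ?_
    simp only [mon, Pi.smul_apply, smul_eq_mul, mul_pow]
    ring
  have k2 : ∀ m : Dg p r, ∃ b, Θ b = mon m := fun m => by
    refine (Subspace.forall_mem_dualAnnihilator_apply_eq_zero_iff (LinearMap.range Θ) _).1 fun φ hφ => ?_
    have := sm_vdm ι (Finset.range (r + 1)) Function.injective_id (fun i hi => (Finset.mem_range.1 hi).trans_le r2)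
      (c := fun m => r.choose m * φ (mon m)) (fun t => by
        rw [← (Submodule.mem_dualAnnihilator φ).1 hφ _ ⟨R (lwS t) u, rfl⟩, k1, map_sum]
        refine Finset.sum_congr rfl fun m _ => ?_
        simp
        ring) m (Finset.mem_filter.1 m.2).1
    exact (mul_eq_zero.1 this).resolve_left fun e => mem_Dg'.1 m.2 ((CharP.cast_eq_zero_iff K p _).1 e)
  choose b hb using k2
  have li : LinearIndependent K b := LinearIndependent.of_comp Θ (linearIndependent_iff'.2 fun s c e =>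
    sm_vdm ι s Subtype.val_injective (fun i _ => (le_of_mem_Dg i.2).trans_lt r2) fun t => by
      simpa [hb, mon] using congrFun e ![1, t])
  have sp : ⊤ ≤ Submodule.span K (Set.range b) := by
    rcases hi (Submodule.span K (Set.range fun g => R g u)) (fun g v hv => by
      refine (Submodule.span_le (p := (Submodule.span K _).comap (R g : U →ₗ[K] U))).2 ?_ hv
      rintro _ ⟨g', rfl⟩
      exact Submodule.subset_span ⟨g * g', by simp⟩) with e | e
    · have : Θ u = 0 := by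
        rw [(Submodule.eq_bot_iff _).1 e u (Submodule.subset_span ⟨1, by simp⟩), map_zero]
      simpa [hu] using congrFun this ![1, 0]
    · rw [← e, Submodule.span_le]
      rintro _ ⟨g, rfl⟩
      rw [SetLike.mem_coe, ← Submodule.comap_map_eq_of_injective hj (Submodule.span _ _), Submodule.mem_comap, k1]
      refine Submodule.sum_mem _ fun m _ => ?_
      by_cases hm : m ∈ Dg p r
      · exact Submodule.smul_mem _ _ ⟨b ⟨m, hm⟩, Submodule.subset_span ⟨_, rfl⟩, hb _⟩
      · rw [(CharP.cast_eq_zero_iff K p _).2 (not_not.1 (mt mem_Dg'.2 hm)), mul_zero, zero_smul]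
        exact zero_mem _
  refine ⟨r, r2, Basis.mk li sp, fun s m => hj (funext fun x => ?_), fun m m' e => hj (funext fun x => ?_)⟩
  · rw [Basis.mk_apply, he, map_smul, hb]
    simp [mon, vecMul, dotProduct, mul_pow, vecHead, vecTail]
    ring
  · rw [Basis.mk_apply, Basis.mk_apply, he, map_smul, hb, hb]
    simp only [mon, show r - m = m' by omega, show r - m' = m by omega]
    simp [vecMul, dotProduct, neg_pow (ι (x 1))]
    ring

end Cfsg.Lib.O7
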