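import Cfsg.Agent.Lib.O7.Hur
import Cfsg.Agent.Lib.O7.SM
import Cfsg.Agent.Lib.O7.S2
import Cfsg.Agent.S2117

/-!
# `L₂(q)` in the defining characteristic (BRANCH STUB of `docs/O7.md`; the filler may add files `O7/L2d1 ...` and imports)
-/

set_option autoImplicit false

namespace Cfsg.Lib.O7

open QuadraticMap Module Matrix Cfsg.Lib.Orth Cfsg.Lib.PSL2
open scoped MatrixGroups

variable {K : Type*} [Field K] [IsAlgClosed K] {M : Subgroup (O (Q K))} (p : ℕ) [Fact p.Prime] [CharP K p]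
  {E : Type*} [Field E] [Fintype E]

omit [IsAlgClosed K] in
/-- A diagonal map with as many different eigenvalues as the dimension. -/
theorem l2d_match {n ι : Type*} [Fintype n] [Fintype ι] (hc : Fintype.card ι = Fintype.card n) {d : n → K}
    {c : ι → K} (hi : Function.Injective c) {T : (n → K) → n → K} (hT : ∀ w i, T w i = d i * w i) {v : ι → n → K}
    (hv : ∀ m, v m ≠ 0) (he : ∀ m, T (v m) = c m • v m) : ∃ e : ι ≃ n, ∀ m, d (e m) = c m := by
  have : ∀ m, ∃ i, d i = c m := fun m => by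
    obtain ⟨i, h⟩ := Function.ne_iff.1 (hv m)
    exact ⟨i, mul_right_cancel₀ h ((hT _ i).symm.trans (congrFun (he m) i))⟩
  choose e he using this
  exact ⟨.ofBijective e ((Fintype.bijective_iff_injective_and_card e).2
    ⟨fun a b h => hi (by rw [← he, h, he]), hc⟩), he⟩

omit [IsAlgClosed K] in
theorem l2d_conj {U : Type*} [AddCommGroup U] [Module K U] {q : QuadraticForm K U} (k g : O q) {v : U} {c : K}
    (h : g.1 v = c • v) : (k * g * k⁻¹).1 (k.1 v) = c • k.1 v := by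
  change k.1 (g.1 ((k⁻¹).1 (k.1 v))) = _
  rw [O.inv_apply_apply, h, map_smul]

omit [IsAlgClosed K] in
theorem l2d_fin {x : Kˣ} (hx : ∀ a : ℤ, |a| ≤ 6 → x ^ a = 1 → a = 0) {l : Fin 4 → Kˣ} (hl : l 0 * l 1 * l 2 * l 3 = 1)
    (e : Fin 7 ≃ I7) (he : ∀ i, wV (fun i => l 0 * l i.succ) (e i) = x ^ (3 - (i.1 : ℤ)))
    (hW : Function.Injective (wW l)) : False := by
  have h1 : ∀ j, wV (fun i => l 0 * l i.succ) j = x ^ (3 - ((e.symm j).1 : ℤ)) := fun j => by
    rw [← he, e.apply_symm_apply]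
  have h2 : ∀ i j, i ≠ j → (e.symm i).1 ≠ (e.symm j).1 := fun i j h h' => h (e.symm.injective (Fin.ext h'))
  have h0 : (e.symm (.inl ())).1 = 3 := by
    have := hx _ (by rw [abs_le]; omega) (h1 (.inl ())).symm
    omega
  have h3 : ∀ j, (e.symm (.inr (.inl j))).1 + (e.symm (.inr (.inr j))).1 = 6 := fun j => by
    have := hx (3 - ((e.symm (.inr (.inl j))).1 : ℤ) + (3 - ((e.symm (.inr (.inr j))).1 : ℤ)))
      (by rw [abs_le]; omega) (by rw [_root_.zpow_add, ← h1, ← h1]; exact mul_inv_cancel _)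
    omega
  have m0 : l 0 * l 1 = _ := h1 (.inr (.inl 0))
  have m1 : l 0 * l 2 = _ := h1 (.inr (.inl 1))
  have m2 : l 0 * l 3 = _ := h1 (.inr (.inl 2))
  have n0 := h2 (.inr (.inl 0)) (.inl ()) (by simp)
  have n1 := h2 (.inr (.inl 1)) (.inl ()) (by simp)
  have n2 := h2 (.inr (.inl 2)) (.inl ()) (by simp)
  have n3 := h2 (.inr (.inl 0)) (.inr (.inl 1)) (by simp)
  have n4 := h2 (.inr (.inl 0)) (.inr (.inl 2)) (by simp)
  have n5 := h2 (.inr (.inl 1)) (.inr (.inl 2)) (by simp)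
  have n6 := h2 (.inr (.inl 0)) (.inr (.inr 1)) (by simp)
  have n7 := h2 (.inr (.inl 0)) (.inr (.inr 2)) (by simp)
  have n8 := h2 (.inr (.inl 1)) (.inr (.inr 2)) (by simp)
  have k0 := h3 0
  have k1 := h3 1
  have k2 := h3 2
  generalize (e.symm (.inr (.inl 0))).1 = a at *
  generalize (e.symm (.inr (.inl 1))).1 = b at *
  generalize (e.symm (.inr (.inl 2))).1 = c at *
  have l3 : l 3 = (l 0 * l 1 * l 2)⁻¹ := eq_inv_of_mul_eq_one_right hl
  have key : ∀ (i : Fin 4) (y : Kˣ) (n : ℤ), l i * l i = y → y = x ^ n → n = 0 → l i = (l i)⁻¹ :=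
    fun i y n h h' h'' => eq_inv_of_mul_eq_one_right (by rw [h, h', h'', _root_.zpow_zero])
  rcases (by omega : 3 - (a : ℤ) + (3 - b) + (3 - c) = 0 ∨ 3 - (a : ℤ) - (3 - b) - (3 - c) = 0 ∨
    3 - (b : ℤ) - (3 - a) - (3 - c) = 0 ∨ 3 - (c : ℤ) - (3 - a) - (3 - b) = 0) with h | h | h | h
  · exact absurd (hW (a₁ := 0) (a₂ := 7) (key 0 (l 0 * l 1 * (l 0 * l 2) * (l 0 * l 3)) _
      (by rw [l3]; ext; push_cast; field_simp) (by rw [m0, m1, m2, ← _root_.zpow_add, ← _root_.zpow_add]) h)) (by decide)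
  · exact absurd (hW (a₁ := 1) (a₂ := 4) (key 1 (l 0 * l 1 * (l 0 * l 2)⁻¹ * (l 0 * l 3)⁻¹) _
      (by rw [l3]; ext; push_cast; field_simp) (by rw [m0, m1, m2, ← _root_.zpow_sub, ← _root_.zpow_sub]) h)) (by decide)
  · exact absurd (hW (a₁ := 2) (a₂ := 5) (key 2 (l 0 * l 2 * (l 0 * l 1)⁻¹ * (l 0 * l 3)⁻¹) _
      (by rw [l3]; ext; push_cast; field_simp) (by rw [m0, m1, m2, ← _root_.zpow_sub, ← _root_.zpow_sub]) h)) (by decide)
  · exact absurd (hW (a₁ := 3) (a₂ := 6) (key 3 (l 0 * l 3 * (l 0 * l 1)⁻¹ * (l 0 * l 2)⁻¹) _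
      (by rw [l3]; ext; push_cast; field_simp) (by rw [m0, m1, m2, ← _root_.zpow_sub, ← _root_.zpow_sub]) h)) (by decide)

include p in
/-- `f = emb e ∘ toL : SL(2, E) →* O (Q K)`, `ι : E →+* K` any embedding, `q = |E|`.
`exists_basis` for `V`: `card (Dg p r) = 7`, so `p ≥ 7`, `r = 6 p^k` (`Dg_seven`), basis `b i = b (i p^k)`, `i ≤ 6`.
`wS` maps `b i` to `(-1)^i b (6 - i)`: it negates `b 3`, and one of `b i ± b (6 - i)`, `i < 3`, so `dm (f wS) ≥ 3`, `= 4` (`Pre.dm_inv`).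
`exists_split` (multiplier of `SL₂(E)` trivial: S2117, `q ≠ 4, 9`) gives `σ`; `W` is irreducible (`Rep.irr_of_le`): `exists_basis` with
`card (Dg p r') = 8`.  `σ (-1) = (σ wS)² = 1` (`lift_four`), and `-1 = dS (-1)` acts by `(-1)^r'`: `r'` is even, `2 r' + 1 < q` (`Dg_eight`).
For a generator `s` of `Eˣ` the eigenvalues `ι s ^ (r' - 2 m)` of `σ (dS s)` on `W` are therefore pairwise different.
`exists_conj_tor` for `σ (dS s)`: with `u = ι s ^ p^k` (order `q - 1`) the multiset of `wV μ` is `{u^(6 - 2 i)}` (compare `finrank_eigen`, or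
characteristic polynomials), so `μ j = u ^ (± 2), u ^ (± 4), u ^ (± 6)` in some order, and one of the products `μ₁^± μ₂^± μ₃^±` is `1`.  These are the squares
of the `wW l i` (`(l 0)² = μ₁ μ₂ μ₃`, `(l 1)² = μ₁ / (μ₂ μ₃)`, ...); so some `l i = ± 1 = (l i)⁻¹` is a repeated eigenvalue on `W`. -/
theorem Rep.no_L2_def (h : Rep M) [CharP E p] (h3 : 3 < Fintype.card E) (e : M ≃* PSL(2, E)) : False := by
  classical
  have hp : p.Prime := Fact.out
  letI : Algebra (ZMod p) E := ZMod.algebra E p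
  letI : Algebra (ZMod p) K := ZMod.algebra K p
  let ι : E →+* K := (IsAlgClosed.lift (R := ZMod p) (S := E) (M := K)).toRingHom
  let f : SL(2, E) →* O (Q K) := (emb e).comp toL
  have hfM : ∀ g ∈ M, ∃ x, f x = g := fun g hg => by
    obtain ⟨y, rfl⟩ := (range_emb e).ge hg
    obtain ⟨x, rfl⟩ := toL_surjective y
    exact ⟨x, rfl⟩
  obtain ⟨r, -, b, hd, hw⟩ := exists_basis p ι ((O (Q K)).subtype.comp f) (fun X hX => h.irrV X fun g hg => by
    obtain ⟨x, rfl⟩ := hfM g hg; exact hX x) (by rw [finrank_V]; norm_num)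
  have c7 : (Dg p r).card = 7 := by rw [← Fintype.card_coe, ← finrank_eq_card_basis b, finrank_V]
  obtain ⟨h7, k, rfl, hk⟩ := Dg_seven hp c7
  have hpk : Odd (p ^ k) := (hp.odd_of_ne_two (by omega)).pow
  obtain ⟨n, -, hn⟩ := FiniteField.card E p
  have hww : f (wS E) * f (wS E) = 1 := by
    rw [← map_mul, wS_sq]
    change emb e (toL (-1)) = 1
    rw [toL_eq_one_iff.2 (.inr rfl), map_one]
  have tr : chi (f (wS E)) = -1 := by
    rw [chi, LinearMap.trace_eq_matrix_trace K b, Matrix.trace, Finset.sum_eq_single ⟨3 * p ^ k, hk 3 (by omega)⟩]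
    · have := hw ⟨_, hk 3 (by omega)⟩ ⟨_, hk 3 (by omega)⟩ (by simp only; ring)
      rw [Matrix.diag_apply, LinearMap.toMatrix_apply]
      erw [this]
      rw [map_smul, Finsupp.smul_apply, Basis.repr_self, Finsupp.single_eq_same, smul_eq_mul, mul_one]
      exact Odd.neg_one_pow (Odd.mul (by decide) hpk)
    · intro m _ hm
      have l := le_of_mem_Dg m.2
      have := hw m ⟨6 * p ^ k - m.1, mem_Dg'.2 (by rw [Nat.choose_symm l]; exact mem_Dg'.1 m.2)⟩ (by simp only; omega)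
      rw [Matrix.diag_apply, LinearMap.toMatrix_apply]
      erw [this]
      rw [map_smul, Finsupp.smul_apply, Basis.repr_self, Finsupp.single_eq_of_ne, smul_zero]
      intro e'
      have := congrArg Subtype.val e'
      exact hm (Subtype.ext (by simp only at this ⊢; omega))
    · exact fun h => absurd (Finset.mem_univ _) h
  have d4 : dm (f (wS E)) = 4 := by
    have t := chi_of_inv h.two hww
    rw [tr, finrank_V] at t
    refine (h.toPre.dm_inv (emb_mem e _) hww fun e' => ?_).resolve_left fun e' => ?_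
    · change f (wS E) = 1 at e'
      rw [e', dm_eq_zero.2 rfl] at t
      exact pow_ne_zero 3 h.two (by push_cast at t; linear_combination -t)
    · change dm (f (wS E)) = 2 at e'
      rw [e'] at t
      exact pow_ne_zero 2 h.two (by push_cast at t; linear_combination -t)
  have hq : ∀ m, m ∣ 36 → Fintype.card E ≠ m := fun m hm e' => by
    have : p ∣ 36 := ((dvd_pow_self p n.ne_zero).trans (by rw [← hn, e'])).trans hm
    have := (Nat.Prime.dvd_mul hp).1 (hp.dvd_of_dvd_pow (show p ∣ (2 * 3) ^ 2 from this))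
    rcases this with h | h <;> have := Nat.le_of_dvd (by norm_num) h <;> omega
  obtain ⟨x0, hx0, hx2⟩ := s2_exists_sq (E := E) (by rwa [Nat.card_eq_fintype_card])
  obtain ⟨σ, hσ⟩ := exists_split h.two (SL2.commutator_eq_top hx0 hx2)
    (Cfsg.Agent.S2117.result (hq 4 (by decide)) (hq 9 (by decide))) (by simp) f
  have hi := h.irr_of_le (S := σ.range) fun g hg => by
    obtain ⟨x, rfl⟩ := hfM g hg; exact ⟨σ x, ⟨x, rfl⟩, hσ x⟩
  obtain ⟨r, hr, b', hd', -⟩ := exists_basis p ι ((O (N K)).subtype.comp (act.comp σ)) (fun X hX => hi X (by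
    rintro _ ⟨_, ⟨x, rfl⟩, rfl⟩; exact hX x)) (by rw [finrank_W]; norm_num)
  have c8 : (Dg p r).card = 8 := by rw [← Fintype.card_coe, ← finrank_eq_card_basis b', finrank_W]
  have ev : Even r := by
    have e1 : σ (dS (-1)) = 1 := by
      rw [show dS (-1 : Eˣ) = wS E * wS E by rw [wS_sq]; apply sl_ext <;> simp, map_mul]
      exact (lift_four h.two (by rw [hσ, hww]) (by rw [hσ, d4])).1
    have := hd' (-1) ⟨0, zero_mem_Dg hp r⟩
    change (act (σ (dS (-1)))).1 _ = _ at this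
    rw [e1, map_one, O.one_apply] at this
    have e2 : (-1 : K) ^ r = 1 := smul_left_injective K (b'.ne_zero ⟨0, zero_mem_Dg hp r⟩) (by simpa using this.symm)
    refine (neg_one_pow_eq_one_iff_even fun e' => h.two ?_).1 e2
    linear_combination -e'
  have h8 := Dg_eight hp h7 c8 ev (hn ▸ hr)
  have r7 : 7 ≤ r := by
    have := Finset.card_le_card (Finset.filter_subset (fun m => ¬ p ∣ r.choose m) (Finset.range (r + 1)))
    rw [Finset.card_range] at this
    change (Dg p r).card ≤ _ at this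
    omega
  obtain ⟨s, hs⟩ := IsCyclic.exists_ofOrder_eq_natCard (α := Eˣ)
  rw [Nat.card_units, Nat.card_eq_fintype_card] at hs
  let c : Kˣ := Units.map ι.toMonoidHom s
  have hc : orderOf c = Fintype.card E - 1 :=
    (orderOf_injective (Units.map ι.toMonoidHom) (Units.map_injective ι.injective) s).trans hs
  have hz : ∀ a : ℤ, |a| ≤ 2 * r → c ^ a = 1 → a = 0 := fun a ha e' =>
    Int.eq_zero_of_abs_lt_dvd (orderOf_dvd_iff_zpow_eq_one.2 e') (by rw [hc]; omega)
  have hev : ∀ {r m : ℕ}, m ≤ r → ι s ^ (r - m) * (ι s)⁻¹ ^ m = (c ^ ((r : ℤ) - 2 * m) : Kˣ) := fun {r m} l => by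
    rw [show (r : ℤ) - 2 * m = (r - m : ℕ) - m by omega, _root_.zpow_sub, _root_.zpow_natCast, _root_.zpow_natCast]
    simp [c]
  have hds : ∀ m : ℕ, dS s ^ m = dS (s ^ m) := fun m => by
    induction m with
    | zero => simp [dS_one]
    | succ m ih => rw [pow_succ, ih, dS_mul, pow_succ]
  obtain ⟨y, l, hl, hV, hW⟩ := exists_conj_tor h.two (s := σ (dS s)) (n := Fintype.card E - 1)
    (by rw [← map_pow, hds, ← hs, pow_orderOf_eq_one, dS_one, map_one]) (by
      rw [Nat.cast_sub (by omega), hn, Nat.cast_pow, CharP.cast_eq_zero, zero_pow n.ne_zero]; simp)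
  obtain ⟨eW, heW⟩ := l2d_match (K := K) (ι := Dg p r) (n := Fin 8) (by simpa using c8)
    (c := fun m => ((c ^ ((r : ℤ) - 2 * m.1) : Kˣ) : K))
    (fun a a' e' => by
      have := le_of_mem_Dg a.2
      have := le_of_mem_Dg a'.2
      have := hz ((r : ℤ) - 2 * a.1 - (r - 2 * a'.1)) (by rw [abs_le]; omega)
        (by rw [_root_.zpow_sub, Units.ext e', mul_inv_cancel])
      exact Subtype.ext (by omega)) hW (v := fun m => (act y).1 (b' m))
    (fun m => (LinearEquiv.map_ne_zero_iff _).2 (b'.ne_zero m)) fun m => by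
      rw [map_mul, map_mul, map_inv]
      exact l2d_conj _ _ (hev (le_of_mem_Dg m.2) ▸ hd' s m)
  have hx : ∀ a : ℤ, |a| ≤ 6 → (c ^ (2 * p ^ k : ℤ)) ^ a = 1 → a = 0 := fun a ha e' => by
    have e1 : ((c ^ (2 * a) : Kˣ) : K) ^ p ^ k = 1 := by
      rw [← Units.val_pow_eq_pow_val, ← _root_.zpow_natCast, ← _root_.zpow_mul, ← Units.val_one, ← e', ← _root_.zpow_mul]
      congr 2; push_cast; ring
    have e2 : ((c ^ (2 * a) : Kˣ) : K) - 1 = 0 :=
      pow_eq_zero_iff (pow_pos hp.pos k).ne' |>.1 (by rw [sub_pow_char_pow, e1, one_pow, sub_self])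
    have := hz (2 * a) (by rw [abs_le] at ha ⊢; omega) (Units.ext (sub_eq_zero.1 e2))
    omega
  obtain ⟨eV, heV⟩ := l2d_match (K := K) (ι := Fin 7) (n := I7) (by simp) (T := (dgV fun i => l 0 * l i.succ).1)
    (c := fun i => (((c ^ (2 * p ^ k : ℤ)) ^ (3 - (i.1 : ℤ)) : Kˣ) : K))
    (fun a a' e' => by
      have := hx (3 - (a.1 : ℤ) - (3 - a'.1)) (by rw [abs_le]; omega) (by rw [_root_.zpow_sub, Units.ext e', mul_inv_cancel])
      exact Fin.ext (by omega)) (dgV_apply _) (v := fun i => (phi y).1 (b ⟨i.1 * p ^ k, hk i.1 (by omega)⟩))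
    (fun m => (LinearEquiv.map_ne_zero_iff _).2 (b.ne_zero _)) fun i => by
      rw [← hV, map_mul, map_mul, map_inv, hσ]
      refine l2d_conj _ _ ((hd s _).trans ?_)
      rw [hev (Nat.mul_le_mul_right _ (by omega)), ← _root_.zpow_mul]
      congr 3; push_cast; ring
  refine l2d_fin hx hl eV (fun i => Units.ext (heV i)) fun i j e' => ?_
  obtain ⟨a, rfl⟩ := eW.surjective i
  obtain ⟨a', rfl⟩ := eW.surjective j
  have := le_of_mem_Dg a.2
  have := le_of_mem_Dg a'.2
  have := hz ((r : ℤ) - 2 * a.1 - (r - 2 * a'.1)) (by rw [abs_le]; omega)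
    (by rw [_root_.zpow_sub, ← Units.ext (heW a), e', Units.ext (heW a'), mul_inv_cancel])
  rw [Subtype.ext (by omega : a.1 = a'.1)]

end Cfsg.Lib.O7
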