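import Cfsg.Agent.Lib.O7.Tri
import Cfsg.Agent.Lib.O7.X3
import Cfsg.Agent.Lib.Linear.Simple
import Cfsg.Agent.S2086

/-!
# `L₃(q)` (BRANCH STUB of `docs/O7.md`; the filler may add files `O7/L31 ...` and imports)
-/

set_option autoImplicit false

namespace Cfsg.Lib.O7.L3

open Matrix
open scoped MatrixGroups commutatorElement

variable {E : Type*} [Field E]

local notation "tv" => SpecialLinearGroup.transvection
local notation "M3" => Matrix (Fin 3) (Fin 3)

theorem ext3 {A B : SL(3, E)} (h : (A : M3 E) = (B : M3 E)) : A = B := Subtype.ext h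

/-- `B ↦ 1 ⊕ B` -/
def up0 (B : SL(2, E)) : SL(3, E) := ⟨!![1, 0, 0; 0, B.1 0 0, B.1 0 1; 0, B.1 1 0, B.1 1 1], by
  simpa [det_fin_three] using (det_fin_two _).symm.trans B.2⟩

/-- `B ↦ 1 ⊕ B` -/
def upH : SL(2, E) →* SL(3, E) where
  toFun := up0
  map_one' := ext3 (by ext i j; fin_cases i <;> fin_cases j <;> simp [up0])
  map_mul' A B := ext3 (by
    change _ = (up0 A).1 * (up0 B).1
    ext i j; fin_cases i <;> fin_cases j <;> simp [up0, mul_apply, Fin.sum_univ_two, Fin.sum_univ_three])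

theorem coe_upH (B : SL(2, E)) :
    (upH B : M3 E) = !![1, 0, 0; 0, B.1 0 0, B.1 0 1; 0, B.1 1 0, B.1 1 1] := rfl

variable (E) in
/-- the permutation matrix of a 3-cycle -/
def r3 : SL(3, E) := ⟨!![0, 0, 1; 1, 0, 0; 0, 1, 0], by simp [det_fin_three]⟩

theorem coe_r3 : (r3 E : M3 E) = !![0, 0, 1; 1, 0, 0; 0, 1, 0] := rfl

/-- diagonal matrices -/
def dg (a b c : E) (h : a * b * c = 1) : SL(3, E) := ⟨!![a, 0, 0; 0, b, 0; 0, 0, c], by simp [det_fin_three, h]⟩

theorem coe_dg (a b c : E) (h : a * b * c = 1) : (dg a b c h : M3 E) = !![a, 0, 0; 0, b, 0; 0, 0, c] := rfl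

theorem r3_cube : r3 E ^ 3 = 1 := ext3 (by
  rw [pow_succ, sq]
  ext i j; fin_cases i <;> fin_cases j <;> simp [coe_r3, mul_apply, Fin.sum_univ_three])

theorem r3_dg (a b c : E) (h : a * b * c = 1) :
    r3 E * dg a b c h * (r3 E)⁻¹ = dg c a b (by rw [← h]; ring) :=
  mul_inv_eq_iff_eq_mul.2 (ext3 (by simp [coe_r3, coe_dg]))

theorem dg_mul (a b c a' b' c' : E) (h : a * b * c = 1) (h' : a' * b' * c' = 1) :
    dg a b c h * dg a' b' c' h' = dg (a * a') (b * b') (c * c') (by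
      rw [← mul_one (1 : E)]; nth_rw 1 [← h]; rw [← h']; ring) := ext3 (by simp [coe_dg])

theorem dg_comm (a b c a' b' c' : E) (h : a * b * c = 1) (h' : a' * b' * c' = 1) :
    Commute (dg a b c h) (dg a' b' c' h') := ext3 (by simp [coe_dg, mul_comm])

theorem upH_neg : upH (-1 : SL(2, E)) = dg 1 (-1) (-1) (by ring) := ext3 (by simp [coe_dg, coe_upH])

theorem upH_dS (l : Eˣ) : upH (dS l) = dg (1 : E) l (l : E)⁻¹ (by simp) := ext3 (by simp [coe_dg, coe_upH])

theorem not_cen (h2 : (2 : E) ≠ 0) : upH (-1 : SL(2, E)) ∉ Subgroup.center SL(3, E) := fun h => by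
  have := congrArg (fun A : SL(3, E) => A.1 1 0) (Subgroup.mem_center_iff.1 h (r3 E))
  simp [upH_neg, coe_dg, coe_r3] at this
  exact h2 (by linear_combination this)

theorem gen {H : Subgroup SL(3, E)} (hr : r3 E ∈ H)
    (ht : ∀ c, tv (show (1 : Fin 3) ≠ 2 by decide) c ∈ H) : H = ⊤ := by
  have h20 : ∀ c, tv (show (2 : Fin 3) ≠ 0 by decide) c ∈ H := fun c => by
    convert H.mul_mem (H.mul_mem hr (ht c)) (H.inv_mem hr) using 1
    refine (mul_inv_eq_iff_eq_mul.2 (ext3 ?_)).symm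
    ext i j; fin_cases i <;> fin_cases j <;>
      simp [coe_r3, SpecialLinearGroup.transvection_coe, mul_apply, Fin.sum_univ_three, single_apply]
  have h01 : ∀ c, tv (show (0 : Fin 3) ≠ 1 by decide) c ∈ H := fun c => by
    convert H.mul_mem (H.mul_mem hr (h20 c)) (H.inv_mem hr) using 1
    refine (mul_inv_eq_iff_eq_mul.2 (ext3 ?_)).symm
    ext i j; fin_cases i <;> fin_cases j <;>
      simp [coe_r3, SpecialLinearGroup.transvection_coe, mul_apply, Fin.sum_univ_three, single_apply]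
  have k : ∀ {i j l : Fin 3} (hij : i ≠ j) (hjl : j ≠ l) (hil : i ≠ l), (∀ c, tv hij c ∈ H) →
      (∀ c, tv hjl c ∈ H) → ∀ c, tv hil c ∈ H := fun hij hjl hil a b c => by
    rw [← mul_one c, ← Linear.commutator_transvection hij hjl hil, commutatorElement_def]
    exact H.mul_mem (H.mul_mem (H.mul_mem (a _) (b _)) (H.inv_mem (a _))) (H.inv_mem (b _))
  refine Linear.eq_top_of_transvection_mem H fun i j h c => ?_
  fin_cases i <;> fin_cases j
  exacts [absurd rfl h, h01 c, k _ _ h h01 ht c, k _ _ h ht h20 c, absurd rfl h, ht c, h20 c, k _ _ h h20 h01 c,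
    absurd rfl h]

theorem upH_tv (c : E) : upH (tv (show (0 : Fin 2) ≠ 1 by decide) c) =
    tv (show (1 : Fin 3) ≠ 2 by decide) c := ext3 (by
  ext i j; fin_cases i <;> fin_cases j <;> simp [coe_upH, SpecialLinearGroup.transvection_coe])

theorem conj_r3 {ω : Eˣ} (h : (ω : E) ^ 2 + ω + 1 = 0) (h3 : (3 : E) ≠ 0) : IsConj (upH (dS ω)) (r3 E) := by
  have hi : (ω : E)⁻¹ = ω ^ 2 := inv_eq_of_mul_eq_one_right (by linear_combination (ω - 1 : E) * h)
  have h1 : (ω : E) - ω ^ 2 ≠ 0 := fun e => h3 (by linear_combination (ω - ω ^ 2 : E) * -e + (ω ^ 2 - 3 * ω + 3 : E) * h)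
  have h0 : 3 * ((ω : E) - ω ^ 2) ≠ 0 := mul_ne_zero h3 h1
  obtain ⟨s, hs⟩ : ∃ s : E, s * (3 * ((ω : E) - ω ^ 2)) = 1 := ⟨_, inv_mul_cancel₀ h0⟩
  refine isConj_iff.2 ⟨⟨!![s, 1, 1; s, ω ^ 2, ω; s, ω, ω ^ 2], ?_⟩, mul_inv_eq_iff_eq_mul.2 (ext3 ?_)⟩
  · simp [det_fin_three]
    linear_combination hs + s * ω * (ω - 1 : E) * h
  · rw [upH_dS]
    change !![s, 1, 1; s, ω ^ 2, ω; s, ω, ω ^ 2] * !![1, 0, 0; 0, (ω : E), 0; 0, 0, (ω : E)⁻¹] =
      !![0, 0, 1; 1, 0, 0; 0, 1, 0] * !![s, 1, 1; s, ω ^ 2, ω; s, ω, ω ^ 2]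
    ext i j; fin_cases i <;> fin_cases j <;> simp [hi, mul_apply, Fin.sum_univ_three] <;>
      first | ring1 | linear_combination (ω - 1 : E) * h | linear_combination ω * (ω - 1 : E) * h

theorem comm_r3 (u : Eˣ) : dg (u : E)⁻¹ (u ^ 2) (u : E)⁻¹ (by field_simp) * r3 E *
    (dg (u : E)⁻¹ (u ^ 2) (u : E)⁻¹ (by field_simp))⁻¹ * (r3 E)⁻¹ = upH (dS (u ^ 3)) := by
  rw [mul_inv_eq_iff_eq_mul, mul_inv_eq_iff_eq_mul, upH_dS]
  refine ext3 ?_
  ext i j; fin_cases i <;> fin_cases j <;> simp [coe_dg, coe_r3, mul_apply, Fin.sum_univ_three] <;> field_simp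

/-- matrices over `F₃` -/
def m3 (A : M3 (ZMod 3)) (h : A.det = 1 := by rw [det_fin_three]; decide) : SL(3, ZMod 3) := ⟨A, h⟩

/-- standard generator -/
def a3 : SL(3, ZMod 3) := m3 !![0, 2, 1; 1, 1, 1; 2, 1, 1]
/-- standard generator -/
def b3 : SL(3, ZMod 3) := m3 !![0, 0, 1; 1, 0, 0; 0, 1, 0]
/-- conjugates `a b` to its cube -/
def c3 : SL(3, ZMod 3) := m3 !![0, 0, 2; 2, 0, 1; 1, 1, 0]
/-- quaternion generator -/
def u3 : SL(3, ZMod 3) := m3 !![0, 0, 2; 2, 2, 0; 0, 1, 2]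
/-- quaternion generator -/
def v3 : SL(3, ZMod 3) := m3 !![0, 1, 0; 0, 2, 1; 1, 0, 2]

theorem rel3 : a3 * a3 = 1 ∧ b3 ^ 3 = 1 ∧ (a3 * b3) ^ 13 = 1 ∧ c3 * (a3 * b3) = (a3 * b3) ^ 3 * c3 ∧
    u3 * u3 = a3 ∧ v3 * v3 = a3 ∧ u3 * v3 * (u3 * v3) = a3 ∧ b3 * a3 ≠ a3 * b3 ∧
    (a3 * b3) ^ 3 * b3 * (a3 * b3) ^ 2 * a3 = tv (show (1 : Fin 3) ≠ 2 by decide) 1 := by
  decide +kernel

theorem gen3 : Subgroup.closure {a3, b3} = ⊤ := by
  have a : a3 ∈ Subgroup.closure {a3, b3} := Subgroup.subset_closure (by simp)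
  have b : b3 ∈ Subgroup.closure {a3, b3} := Subgroup.subset_closure (by simp)
  have t := mul_mem (mul_mem (mul_mem (pow_mem (mul_mem a b) 3) b) (pow_mem (mul_mem a b) 2)) a
  rw [rel3.2.2.2.2.2.2.2.2] at t
  refine gen b fun c => ?_
  have : ∀ c : ZMod 3, tv (show (1 : Fin 3) ≠ 2 by decide) c =
    tv (show (1 : Fin 3) ≠ 2 by decide) 1 ^ c.val := by decide +kernel
  exact this c ▸ pow_mem t _

end Cfsg.Lib.O7.L3

namespace Cfsg.Lib.O7

open QuadraticMap Module Matrix Cfsg.Lib.Orth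
open scoped MatrixGroups

variable {K : Type*} [Field K] [IsAlgClosed K] {M : Subgroup (O (Q K))} (p : ℕ) [Fact p.Prime] [CharP K p]
  {E : Type*} [Field E] [Fintype E]

theorem l3_three (h : Rep M) (h3 : (3 : K) = 0) (F : SL(3, ZMod 3) →* O (Q K)) (hr : F.range = M)
    (hk : F.ker ≤ Subgroup.center _) : False := by
  obtain ⟨r1, r2, r3, r4, r5, r6, r7, r8, -⟩ := L3.rel3
  have aa : F L3.a3 * F L3.a3 = 1 := by rw [← map_mul, r1, map_one]
  refine h.hur (a := F L3.a3) (b := F L3.b3) ?_ aa (by rw [← map_pow, r2, map_one]) ?_ (.inl h3) (r := 13) (m := 3)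
    (by norm_num) (by norm_num) (by rw [← map_mul, ← map_pow, r3, map_one]) (.inr ⟨by norm_num, ?_⟩)
  · rw [← hr, F.range_eq_map, ← L3.gen3, MonoidHom.map_closure, Set.image_pair]
  · refine h.toPre.dm_of_q8 (a := F L3.u3) (b := F L3.v3) (hr ▸ ⟨_, rfl⟩) aa
      (fun e => r8 (Subgroup.mem_center_iff.1 (hk e) _)) ?_ ?_ ?_ <;> simp only [← map_mul, r5, r6, r7]
  · refine isConj_iff.2 ⟨F L3.c3, mul_inv_eq_iff_eq_mul.2 ?_⟩
    simp only [← map_mul, ← map_pow, r4]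

theorem l3_big [CharP E p] (h : Rep M) (h2 : (2 : E) ≠ 0) (h3 : 3 < Nat.card E) (F : SL(3, E) →* O (Q K))
    (hr : F.range = M) (hk : F.ker ≤ Subgroup.center _) (hs : Split M) : False := by
  have e1 : F (L3.r3 E) * F (L3.upH (-1)) * (F (L3.r3 E))⁻¹ = F (L3.dg (-1) 1 (-1) (by ring)) := by
    rw [← map_inv, ← map_mul, ← map_mul, L3.upH_neg, L3.r3_dg]
  have T : Tri M (F.comp L3.upH) (F (L3.r3 E)) := by
    refine ⟨fun g => hr ▸ ⟨_, rfl⟩, hr ▸ ⟨_, rfl⟩, fun e => L3.not_cen h2 (hk e), ?_, ?_, rfl, ?_⟩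
    · rw [MonoidHom.comp_apply, e1, L3.upH_neg]
      exact (L3.dg_comm ..).map F
    · rw [← map_pow, L3.r3_cube, map_one]
    · rw [MonoidHom.comp_apply, e1, ← map_inv, ← map_mul, ← map_mul, L3.r3_dg, L3.upH_neg, ← map_mul, L3.dg_mul]
      simp
  have G : M ≤ Subgroup.closure (Set.range (F.comp L3.upH) ∪ {F (L3.r3 E)}) := by
    rw [← hr, F.range_eq_map, Subgroup.map_le_iff_le_comap]
    refine (L3.gen ?_ fun c => ?_).ge
    · exact Subgroup.subset_closure (Or.inr rfl)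
    exact Subgroup.subset_closure (Or.inl ⟨_, congrArg F (L3.upH_tv c)⟩)
  by_cases hw : ∃ ω : Eˣ, ω ^ 3 = 1 ∧ ω ≠ 1
  · obtain ⟨ω, w3, w1⟩ := hw
    have w1' : (ω : E) - 1 ≠ 0 := sub_ne_zero.2 fun e => w1 (Units.ext e)
    have w3' : (ω : E) ^ 3 = 1 := by simpa using congrArg Units.val w3
    have w : (ω : E) ^ 2 + ω + 1 = 0 := mul_left_cancel₀ w1' (by linear_combination w3')
    have n3 : (3 : E) ≠ 0 := fun e => w1' (pow_eq_zero_iff two_ne_zero |>.1 (by linear_combination w - ω * e))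
    refine h.tri3 p h3 T G (fun e => n3 ?_) (d := dS ω) ?_ ((F.map_isConj (L3.conj_r3 w n3)))
    · exact_mod_cast (CharP.cast_eq_zero_iff E p 3).2 ((CharP.cast_eq_zero_iff K p 3).1 (by exact_mod_cast e))
    · have hi : (ω : E)⁻¹ = ω ^ 2 := inv_eq_of_mul_eq_one_right (by linear_combination w3')
      rw [coe_dS, trace_fin_two_of, hi]
      linear_combination w
  refine h.tri p h3 T G hs (big_dS h2 h3) ?_
  rintro _ ⟨l, rfl⟩
  obtain ⟨u, rfl⟩ : ∃ u : Eˣ, u ^ 3 = l := Finite.surjective_of_injective (f := powMonoidHom 3)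
    ((injective_iff_map_eq_one _).2 fun a ha => by_contra fun n => hw ⟨a, ha, n⟩) l
  refine Subgroup.subset_closure ⟨F (L3.dg (u : E)⁻¹ (u ^ 2) (u : E)⁻¹ (by field_simp)), hr.le ⟨_, rfl⟩, ?_, ?_, ?_⟩
  · rw [MonoidHom.comp_apply, L3.upH_neg]
    exact (L3.dg_comm ..).map F
  · rw [MonoidHom.comp_apply, e1]
    exact (L3.dg_comm ..).map F
  · rw [MonoidHom.comp_apply, ← L3.comm_r3]
    simp only [map_mul, map_inv]

include p in
/-- `F = emb e ∘ mk : SL(3, E) →* O (Q K)`; `char_of_SL3`, `charP_of_card`.  `q > 3`: `f = F ∘ Oct.up` (`B ↦ 1 ⊕ B`), `r = F` of the permutation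
matrix of a 3-cycle; `Tri M f r`; `up (SL₂)` and `r` generate (all transvections `x_ij`).  If `3 ∣ q - 1`: `Rep.tri3` with `d = dS ω`;
`diag (1, ω, ω²)` is conjugate in `SL₃` to the permutation matrix (eigenvectors as columns, one column rescaled).  Otherwise `Rep.tri` with
`H = range dS` (`big_dS`), `split_of` (S2086): cubing is onto `Eˣ`, and for `x = diag (a, b, c)`, `x r x⁻¹ r⁻¹ = diag (a/c, b/a, c/b)` (or its mirror image):
solve with `a = c`, `b = a⁻²`.
`q = 3 = p`: `Rep.hur` with standard generators `a² = b³ = (a b)¹³ = 1` (find by computer, with words for the transvections `x₁₂(1)`, ... and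
for an element conjugating `a b` to its cube, `m = 3`); `a ~ diag (1, -1, -1)` is the centre of a `Q₈` (`Pre.dm_of_q8`). -/
theorem Rep.no_L3 (h : Rep M) (ho : Odd (Fintype.card E)) (e : M ≃* PSL(3, E)) : False := by
  let F : SL(3, E) →* O (Q K) := (emb e).comp (QuotientGroup.mk' _)
  have hk : F.ker ≤ Subgroup.center _ := fun x hx =>
    (QuotientGroup.eq_one_iff x).1 (emb_injective e (hx.trans (map_one _).symm))
  have hr : F.range = M := by
    rw [MonoidHom.range_comp, QuotientGroup.range_mk', ← MonoidHom.range_eq_map, range_emb]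
  have := charP_of_card p (char_of_SL3 h.two ho F hk)
  have h2 : (2 : E) ≠ 0 := fun e2 => h.two (by
    exact_mod_cast (CharP.cast_eq_zero_iff K p 2).2 ((CharP.cast_eq_zero_iff E p 2).1 (by exact_mod_cast e2)))
  have c1 : 1 < Fintype.card E := Fintype.one_lt_card
  obtain ⟨k, hq⟩ := ho
  by_cases h3 : 3 < Fintype.card E
  · refine l3_big p h h2 (by rwa [Nat.card_eq_fintype_card]) F hr hk (split_of h.toPre e ?_
      (Cfsg.Agent.S2086.result rfl 3 (by norm_num) (by omega) (by simp; omega))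
      (Odd.of_dvd_nat (by decide) (Nat.gcd_dvd_left _ _)))
    have := Subgroup.map_commutator ⊤ ⊤ (QuotientGroup.mk' (Subgroup.center SL(3, E)))
    rw [← commutator_def, Linear.commutator_SL_eq_top (.inl (by simp)), ← MonoidHom.range_eq_map,
      QuotientGroup.range_mk'] at this
    exact this.symm
  have c3 : Fintype.card E = 3 := by omega
  have : Fact (Nat.Prime 3) := ⟨by norm_num⟩
  let φ : ZMod 3 ≃+* E := FiniteField.ringEquivOfCardEq (by rw [ZMod.card, c3])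
  let ψ : SL(3, ZMod 3) →* SL(3, E) := SpecialLinearGroup.map φ.toRingHom
  have inj : Function.Injective ψ := fun A B a => by
    ext i j
    exact φ.injective (congrArg (fun C : SL(3, E) => C i j) a)
  have sur : Function.Surjective ψ := fun B => ⟨SpecialLinearGroup.map φ.symm.toRingHom B, by
    ext i j
    exact φ.apply_symm_apply _⟩
  refine l3_three h (by simpa [c3] using char_of_SL3 h.two ⟨k, hq⟩ F hk) (F.comp ψ) ?_ fun x hx => ?_
  · rw [MonoidHom.range_comp, MonoidHom.range_eq_top.2 sur, ← MonoidHom.range_eq_map, hr]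
  · exact Subgroup.mem_center_iff.2 fun y => inj (by
      rw [map_mul, map_mul]; exact Subgroup.mem_center_iff.1 (hk hx) _)

end Cfsg.Lib.O7
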