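import Cfsg.Agent.Lib.O7.Sp4

/-!
# `L₄(q)`, `L₅(q)`, `q` odd (see `docs/O7.md`)
-/

set_option autoImplicit false

namespace Cfsg.Lib.O7

open QuadraticMap Module Matrix Cfsg.Lib.Orth
open scoped MatrixGroups

namespace L4

open S4 Cfsg.Lib.Symp Cfsg.Lib.PSL2 Cfsg.Lib.Linear Sum
open Matrix.SpecialLinearGroup (transvection_coe transvection_inv transvection_add)
local notation "tv" => Matrix.SpecialLinearGroup.transvection

/-- The index set -/
abbrev I4 := Fin 2 ⊕ Fin 2

section Emb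

variable {E : Type*} [Field E]

/-- `Sp₄ ≤ SL₄` -/
def j : symplecticGroup (Fin 2) E →* Matrix.SpecialLinearGroup I4 E where
  toFun g := ⟨g.1, SymplecticGroup.det_eq_one g.2⟩
  map_one' := rfl
  map_mul' _ _ := rfl

theorem coe_j (g : symplecticGroup (Fin 2) E) : (j g).1 = g.1 := rfl

theorem cmul {ι : Type*} [Fintype ι] [DecidableEq ι] (A B : Matrix.SpecialLinearGroup ι E) : (A * B).1 = A.1 * B.1 := rfl

theorem neg_mem : j (negOneSp (Fin 2) E) ∈ Subgroup.center _ :=
  Matrix.SpecialLinearGroup.mem_center_iff.2 ⟨-1, by simp [show Even 4 by decide], by rw [map_neg, map_one]; rfl⟩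

theorem ker_j {X : Type*} [Group X] {F : Matrix.SpecialLinearGroup I4 E →* X} (k : F.ker = Subgroup.center _) :
    (F.comp j).ker = Subgroup.center _ := by
  ext g
  rw [← MonoidHom.comap_ker, k, Subgroup.mem_comap]
  refine ⟨fun h => Subgroup.mem_center_iff.2 fun x => Subtype.ext
    (congrArg Subtype.val (Subgroup.mem_center_iff.1 h (j x)) :), fun h => ?_⟩
  rcases (mem_center_sp_iff g).1 h with rfl | rfl
  · rw [map_one]
    exact one_mem _
  · exact neg_mem

theorem genSL {H : Subgroup (Matrix.SpecialLinearGroup I4 E)}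
    (h1 : ∀ c, tv (show (inl 0 : I4) ≠ inr 0 by decide) c ∈ H)
    (h2 : ∀ c, tv (show (inr 0 : I4) ≠ inr 1 by decide) c ∈ H)
    (h3 : ∀ c, tv (show (inr 1 : I4) ≠ inl 1 by decide) c ∈ H)
    (h4 : ∀ c, tv (show (inl 1 : I4) ≠ inl 0 by decide) c ∈ H) : H = ⊤ := by
  have t : ∀ {a b c : I4} {u : a ≠ b} {v : b ≠ c}, (∀ x, tv u x ∈ H) → (∀ x, tv v x ∈ H) →
      ∀ (w : a ≠ c) x, tv w x ∈ H := fun {a b c u v} p q w x => by
    rw [← mul_one x, ← commutator_transvection u v w]
    exact mul_mem (mul_mem (mul_mem (p _) (q _)) (inv_mem (p _))) (inv_mem (q _))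
  have k1 := t h1 h2 (by decide)
  have k2 := t h2 h3 (by decide)
  have k3 := t h3 h4 (by decide)
  have k4 := t h4 h1 (by decide)
  refine eq_top_of_transvection_mem H ?_
  simp only [Sum.forall, Fin.forall_fin_two]
  exact ⟨⟨⟨⟨fun e => (e rfl).elim, t h1 k2⟩, fun _ => h1, fun _ => k1⟩, ⟨fun _ => h4, fun e => (e rfl).elim⟩,
    fun _ => k4, t h4 k1⟩, ⟨⟨t h2 k3, fun _ => k2⟩, fun e => (e rfl).elim, fun _ => h2⟩, ⟨fun _ => k3, fun _ => h3⟩,
    t h3 k4, fun e => (e rfl).elim⟩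

/-- lower unitriangular matrices -/
def lo (c : E) : SL(2, E) := ⟨!![1, 0; c, 1], by simp [det_fin_two]⟩

@[simp] theorem coe_lo (c : E) : (lo c : Matrix (Fin 2) (Fin 2) E) = !![1, 0; c, 1] := rfl

theorem exists_P : ∃ P : Matrix.SpecialLinearGroup I4 E, Commute (j (i1 (-1))) (P * j (i1 (-1)) * P⁻¹) ∧
    (∀ c, tv (show (inr 0 : I4) ≠ inr 1 by decide) c = P * j (i2 (upper (-c))) * P⁻¹) ∧
    ∀ c, tv (show (inl 1 : I4) ≠ inl 0 by decide) c = P * j (i1 (lo c)) * P⁻¹ := by
  obtain ⟨P, e1, e2⟩ : ∃ P : Matrix.SpecialLinearGroup I4 E,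
      P.1 = fromBlocks !![1, 0; 0, 0] !![0, 0; 1, 0] !![0, -1; 0, 0] !![0, 0; 0, 1] ∧
      P⁻¹.1 = fromBlocks !![1, 0; 0, 0] !![0, 0; -1, 0] !![0, 1; 0, 0] !![0, 0; 0, 1] := by
    have t : ∀ c : E, (tv (show (inl 1 : I4) ≠ inr 0 by decide) c : Matrix.SpecialLinearGroup I4 E).1 =
        fromBlocks 1 !![0, 0; c, 0] 0 1 := fun c => m_ext (by simp [transvection_coe, Fin.forall_fin_two])
    have t' : ∀ c : E, (tv (show (inr 0 : I4) ≠ inl 1 by decide) c : Matrix.SpecialLinearGroup I4 E).1 =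
        fromBlocks 1 0 !![0, c; 0, 0] 1 := fun c => m_ext (by simp [transvection_coe, Fin.forall_fin_two])
    refine ⟨tv (show (inl 1 : I4) ≠ inr 0 by decide) 1 * tv (show (inr 0 : I4) ≠ inl 1 by decide) (-1) *
      tv (show (inl 1 : I4) ≠ inr 0 by decide) 1, ?_, ?_⟩
    all_goals
      simp only [_root_.mul_inv_rev, transvection_inv, cmul, t, t']
      exact m_ext (by simp [fromBlocks_multiply, one_fin_two, Fin.forall_fin_two])
  refine ⟨P, Subtype.ext ?_, fun c => Subtype.ext ?_, fun c => Subtype.ext ?_⟩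
  all_goals
    simp only [cmul, e1, e2, coe_j, i1_apply, i2_apply, coe_i12, fromBlocks_multiply]
    exact m_ext (by simp [transvection_coe, Fin.forall_fin_two])

theorem exists_F {E' X : Type*} [Field E'] [Group X] (f : E' ≃+* E) {M : Subgroup X} {φ : PSL(4, E) →* X}
    (hφ : Function.Injective φ) (r : φ.range = M) : ∃ F : Matrix.SpecialLinearGroup I4 E' →* X,
      (∀ g, F g ∈ M) ∧ F.ker = Subgroup.center _ ∧ M ≤ F.range := by
  let c : Matrix.SpecialLinearGroup I4 E' ≃* SL(4, E) := congrSL finSumFinEquiv f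
  refine ⟨(φ.comp (QuotientGroup.mk' _)).comp c.toMonoidHom, fun _ => r.le ⟨_, rfl⟩, ker_comp c ?_, ?_⟩
  · rw [← MonoidHom.comap_ker, (MonoidHom.ker_eq_bot_iff _).2 hφ, MonoidHom.comap_bot, QuotientGroup.ker_mk']
  · rw [← r]
    rintro _ ⟨x, rfl⟩
    obtain ⟨x, rfl⟩ := QuotientGroup.mk'_surjective _ x
    obtain ⟨x, rfl⟩ := c.surjective x
    exact ⟨x, rfl⟩

end Emb

theorem chain' {H : Subgroup (Matrix.SpecialLinearGroup I4 (ZMod 3))} {S : List ℕ}
    (hS : ∀ n ∈ S, ∃ g ∈ H, g.1 = mx n) {l : List (ℕ × ℕ)} {a c : ℕ} (ha : ∃ g ∈ H, g.1 = mx a)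
    (h : (∀ x ∈ l, x.1 ∈ S) ∧ ck a l c) : ∃ g ∈ H, g.1 = mx c := by
  induction l generalizing a with
  | nil => exact h.2 ▸ ha
  | cons x l ih =>
    obtain ⟨g, hg, e⟩ := ha
    obtain ⟨g', hg', e'⟩ := hS _ (h.1 x List.mem_cons_self)
    exact ih ⟨g * g', mul_mem hg hg', by rw [cmul, e, e', h.2.1]⟩
      ⟨fun y hy => h.1 y (List.mem_cons_of_mem _ hy), h.2.2⟩

theorem gen3 {H : Subgroup (Matrix.SpecialLinearGroup I4 (ZMod 3))} (h0 : j (negOneSp _ _) ∈ H)
    (h1 : j (sp 1605276) ∈ H) (h2 : ∃ g ∈ H, g.1 = mx 5139179) (h3 : ∃ g ∈ H, g.1 = mx 18680456) : H = ⊤ := by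
  have hS : ∀ n ∈ [14408200, 28816400, 1605276, 5139179, 18680456], ∃ g ∈ H, g.1 = mx n := by
    simp only [List.forall_mem_cons]
    exact ⟨⟨1, one_mem _, show (1 : Matrix _ _ _) = _ by decide +kernel⟩,
      ⟨_, h0, show (-1 : Matrix _ _ _) = _ by decide +kernel⟩, ⟨_, h1, rfl⟩, h2, h3, by simp⟩
  have k : ∀ {a c : ℕ} (l : List (ℕ × ℕ)) (g : Matrix.SpecialLinearGroup I4 (ZMod 3)), g.1 = mx c →
      a ∈ [14408200, 28816400, 1605276, 5139179, 18680456] ∧
      (∀ x ∈ l, x.1 ∈ [14408200, 28816400, 1605276, 5139179, 18680456]) ∧ ck a l c → g ∈ H := fun l g e h =>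
    let ⟨_, hg, e'⟩ := chain' hS (hS _ h.1) h.2
    Subtype.ext (e'.trans e.symm) ▸ hg
  have t : ∀ {a b : I4} {u : a ≠ b}, tv u (1 : ZMod 3) ∈ H → ∀ t : ZMod 3, tv u t ∈ H := fun m t => by
    rcases (by decide : ∀ t : ZMod 3, t = 1 ∨ t = 1 + 1 ∨ t = 1 + 1 + 1) t with rfl | rfl | rfl
    · exact m
    · rw [transvection_add]
      exact mul_mem m m
    · rw [transvection_add, transvection_add]
      exact mul_mem (mul_mem m m) m
  refine genSL (t ?_) (t ?_) (t ?_) (t ?_)
  · exact k (a := 28816400) (c := 14408209) [(5139179, 9744448), (18680456, 12990738), (5139179, 23220329), (18680456,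
      11787545), (1605276, 39752786), (5139179, 2239285), (18680456, 33232210), (1605276, 22642138), (18680456,
      17136778), (5139179, 37194643), (18680456, 29385239), (1605276, 13184520), (5139179, 23061814), (18680456,
      11720418), (5139179, 34255465), (1605276, 13435523), (18680456, 30271641), (5139179, 30982777), (18680456,
      14408209)] _
      (by decide +kernel) (by decide +kernel)
  · exact k (a := 14408200) (c := 14585347) [(5139179, 5139179), (1605276, 576113), (18680456, 39466581), (1605276,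
      9405024), (5139179, 25362259), (1605276, 7958216), (18680456, 15321369), (5139179, 18610817), (18680456,
      29187973), (5139179, 9593351), (1605276, 1540497), (18680456, 20144996), (1605276, 11864759), (5139179, 34143891),
      (1605276, 13363330), (18680456, 30087859), (5139179, 31304269), (18680456, 14585347)] _
      (by decide +kernel) (by decide +kernel)
  · exact k (a := 28816400) (c := 16002523) [(1605276, 3203964), (5139179, 8943426), (18680456, 42772189), (5139179,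
      6239215), (1605276, 5772891), (5139179, 14220815), (18680456, 24727743), (5139179, 33471378), (18680456, 4452481),
      (1605276, 19511387), (5139179, 33576788), (18680456, 37388176), (5139179, 11392284), (1605276, 30017605),
      (18680456, 7789392), (5139179, 17552871), (1605276, 16002523)] _
      (by decide +kernel) (by decide +kernel)
  · exact k (a := 28816400) (c := 14408281) [(1605276, 3203964), (5139179, 8943426), (1605276, 24964692), (5139179,
      33445726), (18680456, 4658147), (5139179, 39644327), (18680456, 1254010), (1605276, 4863317), (5139179, 29209515),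
      (1605276, 3658070), (5139179, 8754799), (18680456, 42993312), (5139179, 6146089), (1605276, 5351396), (5139179,
      14215353), (18680456, 24965178), (1605276, 12574548), (5139179, 3204693), (1605276, 14408281)] _
      (by decide +kernel) (by decide +kernel)

theorem exists_cj {g a : ℕ} (h : mx g * mx 1605276 = mx a * mx g) (d : (mx g).det = 1) :
    ∃ x : Matrix.SpecialLinearGroup I4 (ZMod 3), x.1 = mx a ∧ IsConj (j (sp 1605276)) x := by
  let y : Matrix.SpecialLinearGroup I4 (ZMod 3) := ⟨mx g, d⟩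
  refine ⟨y * j (sp 1605276) * y⁻¹, ?_, isConj_iff.2 ⟨y, rfl⟩⟩
  rw [cmul, cmul, show y.1 * (j (sp 1605276)).1 = mx a * y.1 from h, mul_assoc,
    ← cmul, mul_inv_cancel, show (1 : Matrix.SpecialLinearGroup I4 (ZMod 3)).1 = 1 from rfl, mul_one]

/-! ### The diagonal `E₁₆` in dimension five -/

/-- The sign vectors of product one. -/
def sg (i : Fin 16) (k : Fin 5) : ℤ :=
  if (![0, 17, 18, 3, 20, 5, 6, 23, 24, 9, 10, 27, 12, 29, 30, 15] i : ℕ).testBit k then -1 else 1

variable {K : Type*} [Field K] {M : Subgroup (O (Q K))}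

theorem no5 (h : Pre M) (φ : Fin 16 → O (Q K)) (mem : ∀ i, φ i ∈ M)
    (mul : ∀ i j l, (∀ k, sg l k = sg i k * sg j k) → φ l = φ i * φ j) (inj : ∀ i, φ i = 1 → i = 0)
    (cj : ∀ i j (σ : Equiv.Perm (Fin 5)), σ.sign = 1 → (∀ k, sg i k = sg j (σ k)) → dm (φ i) = dm (φ j))
    (d : dm (φ 3) = 4) : False := by
  have z : φ 0 = 1 := left_eq_mul.1 (mul 0 0 0 (by decide))
  have sq : ∀ i, φ i * φ i = 1 := fun i => (mul i i 0 (by revert i; decide)).symm.trans z
  have m : ∀ i j, ∃ l, (∀ k, sg l k = sg i k * sg j k) ∧ (l = 0 → i = j) := by decide +kernel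
  let A : Subgroup (O (Q K)) :=
    { carrier := Set.range φ
      one_mem' := ⟨0, z⟩
      mul_mem' := by
        rintro _ _ ⟨i, rfl⟩ ⟨j, rfl⟩
        exact (m i j).imp fun l e => mul i j l e.1
      inv_mem' := by
        rintro _ ⟨i, rfl⟩
        exact ⟨i, (inv_eq_of_mul_eq_one_left (sq i)).symm⟩ }
  let e : Fin 16 ≃ A := Equiv.ofInjective _ fun i j e =>
    let ⟨l, a, b⟩ := m i j
    b (inj l (by rw [mul i j l a, e, sq]))
  let _ := Fintype.ofEquiv _ e
  have h1 := sum_dm h.two (E := A) (by rintro _ ⟨i, rfl⟩; exact sq i)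
  have h5 : ∀ i, dm (φ i) = if i = 0 then 0 else if ∑ k, sg i k = 1 then 4 else dm (φ 15) := fun i => by
    obtain rfl | ⟨a, b, c, d', n1, n2, e⟩ := (by decide +kernel : ∀ i, i = 0 ∨ ∃ a b c d : Fin 5, a ≠ b ∧ c ≠ d ∧ i ≠ 0 ∧
      ∀ k, sg i k = sg (if ∑ k, sg i k = 1 then 3 else 15) ((Equiv.swap a b * Equiv.swap c d) k)) i
    · rw [if_pos rfl, z, dm_eq_zero]
    rw [if_neg e.1, cj i _ _ (by simp [n1, n2]) e.2]
    split_ifs
    exacts [d, rfl]
  rw [← Equiv.sum_comp e, Nat.card_congr e.symm, Nat.card_fin, finrank_V,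
    Finset.sum_congr rfl fun i _ => show dm (e i).1 = _ from h5 i] at h1
  rcases h.dm_inv (mem 15) (sq 15) fun e => absurd (inj _ e) (by decide) with e | e <;> rw [e] at h1
  · rw [show (∑ i : Fin 16, if i = 0 then 0 else if ∑ k, sg i k = 1 then 4 else 2) = 50 by decide +kernel] at h1
    omega
  · rw [show (∑ i : Fin 16, if i = 0 then 0 else if ∑ k, sg i k = 1 then 4 else 4) = 60 by decide +kernel] at h1
    omega

end L4

open L4 S4 Cfsg.Lib.Symp Cfsg.Lib.PSL2

variable {K : Type*} [Field K] [IsAlgClosed K] {M : Subgroup (O (Q K))}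
  {E : Type*} [Field E] [Fintype E]

/-- `q > 3`: `t = diag (-1,-1,1,1)`, `L₁₂`, `L₃₄` the block groups `SL₂ ⊕ 1`, `1 ⊕ SL₂`, interchanged by the permutation matrix of `(1 3)(2 4)`: `Pre.swap_fix`; the same for
`t' = diag (-1,1,-1,1)` with `L₁₃`, `L₂₄`.  `Pre.exists_fix`: `v ≠ 0` is fixed by `L₁₂, L₃₄, L₁₃, L₂₄`, which generate `SL₄` (commutators give the other transvections).
`q = 3`: `Pre.dm_J` for `Sp₄(3) ≤ SL₄(3)`, three conjugates generate. -/
theorem Rep.no_L4 (h : Rep M) (ho : Odd (Fintype.card E)) (e : M ≃* PSL(4, E)) : False := by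
  have h2 := two_ne_zero_iff_odd_card.2 ho
  by_cases h3 : Fintype.card E = 3
  · obtain ⟨F, hF, k, hs⟩ := exists_F (ZMod.ringEquivOfPrime E Nat.prime_three h3) (emb_injective e) (range_emb e)
    have d := dm3 h.toPre (F.comp j) (fun _ => hF _) (ker_j k)
    obtain ⟨x, x1, x2⟩ := exists_cj (g := 33229484) (a := 5139179) (by decide +kernel) (by decide +kernel)
    obtain ⟨y, y1, y2⟩ := exists_cj (g := 5646159) (a := 18680456) (by decide +kernel) (by decide +kernel)
    refine h.irrV.not_three (top F _ hs (L4.gen3 ?_ ?_ ⟨x, ?_, x1⟩ ⟨y, ?_, y1⟩)) d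
      ((dm_of_isConj (F.map_isConj x2)).symm.trans d) ((dm_of_isConj (F.map_isConj y2)).symm.trans d)
    · rw [Subgroup.mem_comap, show F _ = 1 from k.ge L4.neg_mem]
      exact one_mem _
    all_goals exact Subgroup.subset_closure (by simp)
  replace h3 : 3 < Nat.card E := by
    have := Fintype.one_lt_card (α := E)
    rw [Nat.card_eq_fintype_card]
    obtain ⟨n, hn⟩ := ho
    omega
  obtain ⟨F, hF, k, hs⟩ := exists_F (RingEquiv.refl E) (emb_injective e) (range_emb e)
  obtain ⟨-, d, f1, f2⟩ := core h.toPre h2 h3 (F := F.comp j) (fun _ => hF _) (ker_j k)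
  obtain ⟨P, c, p1, p2⟩ := exists_P (E := E)
  have sq : F (j (i1 (-1))) * F (j (i1 (-1))) = 1 := tri_sq ((F.comp j).comp i1)
  have e1 : ∀ x, F (P * x * P⁻¹) = F P * F x * (F P)⁻¹ := fun x => by rw [map_mul, map_mul, map_inv]
  obtain ⟨v, v0, v1, v2⟩ := h.toPre.exists_fix (hF _) (hF (P * j (i1 (-1)) * P⁻¹)) sq
    (by rw [e1, conj_mul, sq, mul_one, mul_inv_cancel]) (c.map F) d (by rw [e1, dm_conj]; exact d)
  have m : ((F P)⁻¹).1 v ∈ O.fix (F (j (i1 (-1)))) := O.mem_fix.2 (by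
    nth_rw 2 [← v2]
    rw [e1, O.mul_apply, O.mul_apply, O.inv_apply_apply])
  have k2 : ∀ x, (F x).1 (((F P)⁻¹).1 v) = ((F P)⁻¹).1 v → P * x * P⁻¹ ∈ (stabV v).comap F := fun x a => by
    rw [Subgroup.mem_comap, mem_stabV, e1, O.mul_apply, O.mul_apply, a, O.apply_inv_apply]
  refine h.irrV.not_fix (by rw [finrank_V]; norm_num) v0 (top F _ hs (genSL (fun c => ?_)
    (fun c => p1 c ▸ k2 _ (f2 m _ ⟨_, rfl⟩)) (fun c => ?_) fun c => p2 c ▸ k2 _ (f1 m _ ⟨_, rfl⟩)))
  · rw [show Matrix.SpecialLinearGroup.transvection _ c = j (i1 (upper c)) from Subtype.ext (m_ext (by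
      simp [Matrix.SpecialLinearGroup.transvection_coe, coe_j, i1_apply, coe_i12, Fin.forall_fin_two]))]
    exact f1 (O.mem_fix.2 v1) _ ⟨_, rfl⟩
  · rw [show Matrix.SpecialLinearGroup.transvection _ c = j (i2 (lo c)) from Subtype.ext (m_ext (by
      simp [Matrix.SpecialLinearGroup.transvection_coe, coe_j, i2_apply, coe_i12, Fin.forall_fin_two]))]
    exact f2 (O.mem_fix.2 v1) _ ⟨_, rfl⟩

omit [IsAlgClosed K] in
/-- The diagonal `E₁₆` has ten involutions `diag (-,-,+,+,+)` (centres of `Q₈ ≤ SL₂`: type four) and five `diag (-,-,-,-,+)`, conjugate under even permutation matrices.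
`Pre.count16`: `8 ∣ 40 + 5 b`, `b ∈ {2, 4}`.  Best proved for a homomorphism from the group of monomial matrices; `Q₈`: `a = [[0,1],[-1,0]]`, `b = [[x,y],[y,-x]]`, `x² + y² = -1`. -/
theorem Pre.no_L5 (h : Pre M) (ho : Odd (Fintype.card E)) (e : M ≃* PSL(5, E)) : False := by
  have h2 := two_ne_zero_iff_odd_card.2 ho
  let F : SL(5, E) →* O (Q K) := (emb e).comp (QuotientGroup.mk' _)
  have hF : ∀ g, F g ∈ M := fun _ => emb_mem e _
  let D : Fin 16 → SL(5, E) := fun i => ⟨diagonal fun k => (sg i k : E), by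
    rw [det_diagonal, ← Int.cast_prod, show ∏ k, sg i k = 1 by revert i; decide +kernel, Int.cast_one]⟩
  have inj : ∀ i, F (D i) = 1 → i = 0 := fun i a => by
    obtain ⟨r, -, hr⟩ := Matrix.SpecialLinearGroup.mem_center_iff.1
      ((QuotientGroup.eq_one_iff _).1 ((map_eq_one_iff _ (emb_injective e)).1 a))
    have hr' : ∀ k, r = sg i k := fun k => by simpa [D] using congrFun₂ hr k k
    by_contra n
    obtain ⟨a, b, ha, hb⟩ := (by decide +kernel : ∀ i, i ≠ 0 → ∃ a b, sg i a = 1 ∧ sg i b = -1) i n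
    have := (hr' a).symm.trans (hr' b)
    rw [ha, hb] at this
    exact h2 (by push_cast at this; linear_combination this)
  have mul : ∀ i j l, (∀ k, sg l k = sg i k * sg j k) → F (D l) = F (D i) * F (D j) := fun i j l a => by
    rw [← map_mul]
    exact congrArg F (Subtype.ext (show diagonal _ = diagonal _ * diagonal _ by simp [a]))
  refine no5 h (fun i => F (D i)) (fun _ => hF _) mul inj (fun i j σ s a => dm_of_isConj (F.map_isConj
    (isConj_iff.2 ⟨⟨σ.permMatrix E, by simp [s]⟩, mul_inv_eq_iff_eq_mul.2 (Subtype.ext ?_)⟩)).symm) ?_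
  · change σ.permMatrix E * diagonal _ = diagonal _ * σ.permMatrix E
    ext x y
    rw [mul_diagonal, diagonal_mul, a]
    by_cases c : σ x = y
    · simp [c]
    · simp [c, Ne.symm c]
  obtain ⟨p, hp⟩ := CharP.exists E
  have : NeZero p := ⟨CharP.char_ne_zero_of_finite E p⟩
  obtain ⟨x, y, hxy⟩ := CharP.sq_add_sq E p (-1)
  have hxy' : (x : E) ^ 2 + (y : E) ^ 2 = -1 := by simpa using hxy
  let B : SL(2, E) → SL(5, E) := fun A => ⟨reindex (finSumFinEquiv (m := 2) (n := 3)) (finSumFinEquiv (m := 2) (n := 3))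
    (fromBlocks A.1 0 0 (1 : Matrix (Fin 3) (Fin 3) E)),
    by rw [det_reindex_self, det_fromBlocks_zero₂₁, A.2, det_one, mul_one]⟩
  have hB : ∀ A A', B A * B A' = B (A * A') := fun A A' => Subtype.ext (by
    rw [cmul]
    simp only [B, reindex_apply, submatrix_mul_equiv, fromBlocks_multiply]
    simp)
  have hn : B (-1) = D 3 := Subtype.ext (by
    ext a b
    simp only [D, show sg 3 = ![-1, -1, 1, 1, 1] by decide +kernel]
    fin_cases a <;> fin_cases b <;> simp [B, finSumFinEquiv, Fin.addCases, diagonal])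
  obtain ⟨b, b1, b2⟩ : ∃ b : SL(2, E), b * b = -1 ∧ wS E * b * (wS E * b) = -1 := by
    obtain ⟨b, hb⟩ : ∃ b : SL(2, E), (b : Matrix _ _ E) = !![(x : E), y; y, -x] :=
      ⟨⟨_, by rw [det_fin_two_of]; linear_combination -hxy'⟩, rfl⟩
    refine ⟨b, ?_, ?_⟩ <;> apply sl_ext <;> simp [hb] <;> first | ring1 | linear_combination hxy'
  refine h.dm_of_q8 (a := F (B (wS E))) (b := F (B b)) (hF _) ((mul 3 3 0 (by decide)).symm.trans ?_)
    (fun a => absurd (inj _ a) (by decide)) ?_ ?_ ?_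
  · exact left_eq_mul.1 (mul 0 0 0 (by decide))
  all_goals simp only [← map_mul, hB, wS_sq, b1, b2, hn]

end Cfsg.Lib.O7
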