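import Cfsg.Agent.Lib.O7.Spin

/-!
# The centraliser `SL₂ ∘ SL₂ ∘ SL₂` of an involution (`docs/O7.md`)

`psi3 (A, B, C)` acts on `W = M₂ ⊕ M₂` by `(X, Y) ↦ (A X B⁻¹, C Y A⁻¹)` and on `V = sl₂ ⊕ M₂` by
`(X, Y) ↦ (A X A⁻¹, C Y B⁻¹)`.
-/

set_option autoImplicit false

namespace Cfsg.Lib.O7

open QuadraticMap Module Matrix Cfsg.Lib.Orth Cfsg.Lib.Oct Cfsg.Lie
open scoped MatrixGroups

variable {K : Type*} [Field K]

/-- Three copies of `SL₂`. -/
abbrev S3 (K : Type*) [Field K] : Type _ := SL(2, K) × SL(2, K) × SL(2, K)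

section Aux

variable (A : SL(2, K)) (X Y P R S T : Matrix (Fin 2) (Fin 2) K)

theorem ps_c1 : (A⁻¹).1 * (A.1 * X) = X := by
  rw [← mul_assoc, show (A⁻¹).1 * A.1 = 1 from congrArg Subtype.val (inv_mul_cancel A), one_mul]

theorem ps_c2 : A.1 * (A⁻¹).1 = 1 := congrArg Subtype.val (mul_inv_cancel A)

theorem ps_det : A.1.det = 1 := A.2

theorem ps_trc : (A.1 * X * (A⁻¹).1).trace = X.trace := by rw [trace_mul_comm, ps_c1]

theorem ps_adj : adjugate A.1 = (A⁻¹).1 := (coe_inv' A).symm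

theorem ps_adj' : adjugate (A⁻¹).1 = A.1 := by rw [ps_adj, inv_inv]

theorem ps_neg_inv : ((-1 : SL(2, K))⁻¹).1 = -1 := by
  rw [inv_neg_one]; rfl

theorem ps_cancel {B : SL(2, K)} : A.1 * X * (B⁻¹).1 = Y ↔ A.1 * X = Y * B.1 := by
  have : (B⁻¹).1 * B.1 = 1 := by simpa using ps_c1 B 1
  exact ⟨fun e => by rw [← e, mul_assoc, this, mul_one], fun e => by rw [e, mul_assoc, ps_c2, mul_one]⟩

theorem ps_pm (h : ∀ X : Matrix (Fin 2) (Fin 2) K, X.trace = 0 → A.1 * X * (A⁻¹).1 = X) : A = 1 ∨ A = -1 := by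
  have h1 := (ps_cancel ..).1 (h !![0, 1; 0, 0] (by simp [trace_fin_two]))
  have h2 := (ps_cancel ..).1 (h !![0, 0; 1, 0] (by simp [trace_fin_two]))
  have a := congrFun (congrFun h1 0) 0
  have b := congrFun (congrFun h1 0) 1
  have c := congrFun (congrFun h2 0) 0
  simp [mul_apply, Fin.sum_univ_two] at a b c
  have d := A.2
  rw [det_fin_two, c, ← b, zero_mul, sub_zero] at d
  refine (mul_self_eq_one_iff.1 d).imp (fun e => ?_) fun e => ?_ <;> ext i j <;> fin_cases i <;> fin_cases j <;>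
    simp [← a, ← b, c, e]

/-- Left and right multiplications in both coordinates. -/
def psL : W K →ₗ[K] W K where
  toFun x := cd (P * cX x * R) (S * cY x * T)
  map_add' x y := by
    obtain ⟨_, _, rfl⟩ := exists_cd x
    obtain ⟨_, _, rfl⟩ := exists_cd y
    simp [cd_add, mul_add, add_mul]
  map_smul' c x := by
    obtain ⟨_, _, rfl⟩ := exists_cd x
    simp [cd_smul]

theorem psL_apply (x : W K) : psL P R S T x = cd (P * cX x * R) (S * cY x * T) := rfl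

theorem ps_neg : -cd X Y = cd (-X) (-Y) := by
  rw [← neg_one_smul K, cd_smul, neg_one_smul, neg_one_smul]

theorem ps_tr (v : V K) : (cX (jv v)).trace = 0 := by
  rw [← tr_cd _ (cY (jv v)), cd_eta, tr_jv]

variable {X} in
theorem ps_jv (h : X.trace = 0) : jv (pv (cd X Y)) = cd X Y := jv_pv ((tr_cd X Y).trans h)

theorem ps_hom {U G : Type*} [AddCommGroup U] [Module K U] {q : QuadraticForm K U} [Group G] (f : G → U →ₗ[K] U)
    (h1 : ∀ v, f 1 v = v) (hm : ∀ a b v, f (a * b) v = f a (f b v)) (hq : ∀ a v, q (f a v) = q v) :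
    ∃ F : G →* O q, ∀ a v, (F a).1 v = f a v :=
  ⟨MonoidHom.mk' (fun a => ⟨.ofLinearMap (f a) (f a⁻¹) (LinearMap.ext fun x => by simp [← hm, h1])
    (LinearMap.ext fun x => by simp [← hm, h1]), hq a⟩) fun a b => O.ext (hm a b), fun _ _ => rfl⟩

theorem ps_ext {s s' : Spin K} (h : ∀ X Y, (act s).1 (cd X Y) = (act s').1 (cd X Y)) : s = s' :=
  act_injective (O.ext fun w => cd_eta w ▸ h _ _)

end Aux

/-- As `Oct.psi`: `cd_mul`, `nm_cd`, `tr_cd`, `adjugate_mul_distrib`, `coe_inv'` (`A⁻¹ = adjugate A`); on `V` use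
`pv ∘ _ ∘ jv`, `jv_pv`, `nm_jv`. -/
theorem exists_psi3 : ∃ f : S3 K →* Spin K,
    (∀ (a : S3 K) (X Y : Matrix (Fin 2) (Fin 2) K), (act (f a)).1 (cd X Y) =
      cd (a.1.1 * X * (a.2.1⁻¹).1) (a.2.2.1 * Y * (a.1⁻¹).1)) ∧
    ∀ (a : S3 K) (v : V K), jv ((phi (f a)).1 v) =
      cd (a.1.1 * cX (jv v) * (a.1⁻¹).1) (a.2.2.1 * cY (jv v) * (a.2.1⁻¹).1) := by
  obtain ⟨F, hF⟩ := ps_hom (q := N K) (fun a : S3 K => psL a.1.1 (a.2.1⁻¹).1 a.2.2.1 (a.1⁻¹).1)
    (fun v => by simp [psL_apply, cd_eta]) (fun a b v => by simp [psL_apply, mul_assoc, -SpecialLinearGroup.coe_inv])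
    fun a v => by
      rw [N_apply, N_apply, psL_apply, ← cd_eta v, nm_cd, nm_cd]
      simp only [det_mul, ps_det, one_mul, mul_one, cX_cd, cY_cd]
  have j : ∀ (a : S3 K) v, jv ((pv ∘ₗ psL a.1.1 (a.1⁻¹).1 a.2.2.1 (a.2.1⁻¹).1 ∘ₗ jv) v) =
      cd (a.1.1 * cX (jv v) * (a.1⁻¹).1) (a.2.2.1 * cY (jv v) * (a.2.1⁻¹).1) := fun a v =>
    ps_jv _ ((ps_trc _ _).trans (ps_tr v))
  obtain ⟨G, hG⟩ := ps_hom (q := Q K) (fun a : S3 K => pv ∘ₗ psL a.1.1 (a.1⁻¹).1 a.2.2.1 (a.2.1⁻¹).1 ∘ₗ jv)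
    (fun v => jv_injective (by rw [j]; simp [cd_eta]))
    (fun a b v => jv_injective (by rw [j, j, j]; simp [mul_assoc, -SpecialLinearGroup.coe_inv]))
    fun a v => neg_injective (by
      rw [← nm_jv, ← nm_jv, j, ← cd_eta (jv v), nm_cd, nm_cd]
      simp only [det_mul, ps_det, one_mul, mul_one, cX_cd, cY_cd])
  refine ⟨(F.prod G).codRestrict (Spin K) fun a v w => ?_, fun a X Y => (hF a _).trans (by simp [psL_apply]),
    fun a v => (congrArg jv (hG a v)).trans (j a v)⟩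
  change (F a).1 (jv v ⋆ w) = jv ((G a).1 v) ⋆ (F a).1 w
  rw [hF, hF, hG, j]
  obtain ⟨X, Y, e⟩ := exists_cd (jv v)
  obtain ⟨X', Y', rfl⟩ := exists_cd w
  simp only [e, psL_apply, cd_mul, cX_cd, cY_cd, adjugate_mul_distrib, ps_adj, inv_inv, mul_assoc, ps_c1, mul_add, add_mul,
    mul_sub, sub_mul]

/-- The homomorphism `SL₂³ → Spin₇`. -/
noncomputable def psi3 : S3 K →* Spin K := exists_psi3.choose

theorem act_psi3 (a : S3 K) (X Y : Matrix (Fin 2) (Fin 2) K) : (act (psi3 a)).1 (cd X Y) =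
    cd (a.1.1 * X * (a.2.1⁻¹).1) (a.2.2.1 * Y * (a.1⁻¹).1) := exists_psi3.choose_spec.1 a X Y

theorem phi_psi3 (a : S3 K) (v : V K) : jv ((phi (psi3 a)).1 v) =
    cd (a.1.1 * cX (jv v) * (a.1⁻¹).1) (a.2.2.1 * cY (jv v) * (a.2.1⁻¹).1) :=
  exists_psi3.choose_spec.2 a v

variable (K) in
/-- The standard involution of the spin group. -/
noncomputable def z0 : Spin K := psi3 (1, 1, -1)

variable (K) in
/-- The standard involution of `SO₇`. -/
noncomputable def t0 : O (Q K) := phi (z0 K)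

variable (K) in
/-- The connected centraliser of `t0`. -/
noncomputable def Cz : Subgroup (O (Q K)) := (phi.comp psi3).range

theorem psi3_eq_one {a : S3 K} : psi3 a = 1 ↔ a = 1 ∨ a = (-1, -1, -1) := by
  obtain ⟨A, B, C⟩ := a
  refine ⟨fun e => ?_, fun e => e.elim (· ▸ map_one _) fun e => ps_ext fun X Y => by
    rw [e, act_psi3, map_one, O.one_apply]; simp⟩
  have h := fun X Y => cd_inj.1 ((act_psi3 (A, B, C) X Y).symm.trans (by rw [e, map_one, O.one_apply]))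
  obtain rfl : A = B := Subtype.ext (by simpa using (ps_cancel ..).1 (h 1 0).1)
  obtain rfl : C = A := Subtype.ext (by simpa using (ps_cancel ..).1 (h 0 1).2)
  rcases ps_pm C fun X _ => (h X 0).1 with rfl | rfl
  exacts [.inl rfl, .inr rfl]

theorem psi3_ng : psi3 (-1, 1, 1) = ng K := by
  refine ps_ext fun X Y => ?_
  rw [act_psi3, act_ng_apply, ps_neg]
  simp

theorem z0_mul_self : z0 K * z0 K = 1 := by
  rw [z0, ← map_mul]
  exact psi3_eq_one.2 (.inl (by simp [Prod.ext_iff]))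

theorem t0_mul_self : t0 K * t0 K = 1 := by
  rw [t0, ← map_mul, z0_mul_self, map_one]

theorem ps_ng_z0 : ng K * z0 K = psi3 (1, -1, 1) := by
  rw [← psi3_ng, z0, ← map_mul, ← mul_inv_eq_one, ← map_inv, ← map_mul]
  exact psi3_eq_one.2 (.inr (by simp [Prod.ext_iff]))

theorem phi_psi3_eq_one {a : S3 K} : phi (psi3 a) = 1 ↔ (a.1 = 1 ∨ a.1 = -1) ∧
    ((a.2.1 = 1 ∧ a.2.2 = 1) ∨ (a.2.1 = -1 ∧ a.2.2 = -1)) := by
  obtain ⟨A, B, C⟩ := a
  rw [phi_eq_one, ← psi3_ng, ← mul_inv_eq_one (a := psi3 _) (b := psi3 _), ← map_inv, ← map_mul, psi3_eq_one, psi3_eq_one]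
  simp only [Prod.ext_iff, Prod.inv_mk, Prod.mk_mul_mk, inv_neg_one, inv_one, mul_neg, mul_one, Prod.fst_one, Prod.snd_one,
    neg_eq_iff_eq_neg, neg_neg]
  tauto

theorem phi_psi3_eq_t0 {a : S3 K} : phi (psi3 a) = t0 K ↔ (a.1 = 1 ∨ a.1 = -1) ∧
    ((a.2.1 = 1 ∧ a.2.2 = -1) ∨ (a.2.1 = -1 ∧ a.2.2 = 1)) := by
  obtain ⟨A, B, C⟩ := a
  rw [t0, z0, ← mul_inv_eq_one, ← map_inv, ← map_mul, ← map_inv, ← map_mul, phi_psi3_eq_one]
  simp only [Prod.inv_mk, Prod.mk_mul_mk, inv_neg_one, inv_one, mul_neg, mul_one, neg_eq_iff_eq_neg, neg_neg]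

/-- Trace on `sl₂` of `Ad A` is `(tr A)² - 1`, trace of `Y ↦ C Y B⁻¹` is `tr C * tr B⁻¹ = tr C * tr B`
(e.g. `LinearMap.trace_eq_matrix_trace` in the basis `Pi.single`, entries by `phi_psi3`). -/
theorem chi_psi3 (a : S3 K) :
    chi (phi (psi3 a)) = a.1.1.trace ^ 2 - 1 + a.2.1.1.trace * a.2.2.1.trace := by
  obtain ⟨A, B, C⟩ := a
  have h : ∀ v, (phi (psi3 (A, B, C))).1 v = pv (cd (A.1 * cX (jv v) * adjugate A.1) (C.1 * cY (jv v) * adjugate B.1)) :=
    fun v => by rw [ps_adj, ps_adj, ← phi_psi3 (A, B, C), pv_jv]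
  have d := A.2
  rw [det_fin_two] at d
  rw [chi, LinearMap.trace_eq_matrix_trace K (Pi.basisFun K I7)]
  simp only [trace, diag_apply, LinearMap.toMatrix_apply, Pi.basisFun_apply, Pi.basisFun_repr, LinearEquiv.coe_coe, h,
    Fintype.sum_sum_type, Fin.sum_univ_three, Fintype.sum_unique, Fin.sum_univ_two]
  simp [pv, jv_apply, cd, cX, cY, Oct.mk, zA, zB, adjugate_fin_two, mul_apply, Fin.sum_univ_two, Pi.single_apply]
  linear_combination -d

theorem commute_t0 {x : O (Q K)} (hx : x ∈ Cz K) : Commute x (t0 K) := by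
  obtain ⟨a, rfl⟩ := hx
  exact (Commute.map (show a * (1, 1, -1) = (1, 1, -1) * a by simp [Prod.ext_iff]) psi3).map phi

theorem ps_two (h2 : (2 : K) ≠ 0) {U : Type*} [AddCommGroup U] [Module K U] {u : U} : -u = u ↔ u = 0 :=
  ⟨fun e => (smul_eq_zero.1 (by rw [two_smul]; exact neg_eq_iff_add_eq_zero.1 e)).resolve_left h2, fun e => by simp [e]⟩

variable (h2 : (2 : K) ≠ 0)
include h2

theorem mem_fix_t0 {v : V K} : v ∈ O.fix (t0 K) ↔ cY (jv v) = 0 := by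
  rw [O.mem_fix, ← jv_injective.eq_iff, t0, z0, phi_psi3]
  nth_rw 3 [← cd_eta (jv v)]
  simp [ps_two h2]

theorem mem_fix_z0 {w : W K} : w ∈ O.fix (act (z0 K)) ↔ cY w = 0 := by
  obtain ⟨X, Y, rfl⟩ := exists_cd w
  rw [O.mem_fix, z0, act_psi3]
  simp [ps_two h2]

theorem mem_fix_ng_z0 {w : W K} : w ∈ O.fix (act (ng K * z0 K)) ↔ cX w = 0 := by
  obtain ⟨X, Y, rfl⟩ := exists_cd w
  rw [O.mem_fix, ps_ng_z0, act_psi3]
  simp [ps_two h2]

theorem dm_t0 : dm (t0 K) = 4 := by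
  let f : V K →ₗ[K] Matrix (Fin 2) (Fin 2) K :=
    { toFun v := cY (jv v)
      map_add' u v := by rw [map_add, ← cd_eta (jv u), ← cd_eta (jv v), cd_add]; simp
      map_smul' c v := by rw [map_smul, ← cd_eta (jv v), cd_smul]; simp }
  have e : O.fix (t0 K) = LinearMap.ker f := Submodule.ext fun v => mem_fix_t0 h2
  have r : LinearMap.range f = ⊤ := LinearMap.range_eq_top.2 fun Y =>
    ⟨pv (cd 0 Y), (congrArg cY (ps_jv Y (trace_zero _ _))).trans (cY_cd _ _)⟩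
  have a := f.finrank_range_add_finrank_ker
  have b := dm_add_fx (t0 K)
  rw [r, finrank_top, finrank_matrix, ← e] at a
  simp only [Fintype.card_fin, finrank_self] at a
  rw [fx] at b
  omega

/-- `x` fixes `V₊ = sl₂` pointwise iff `A` commutes with all traceless matrices. -/
theorem fix_iff {a : S3 K} : (∀ v ∈ O.fix (t0 K), (phi (psi3 a)).1 v = v) ↔ a.1 = 1 ∨ a.1 = -1 := by
  refine ⟨fun h => ps_pm _ fun X t => ?_, fun h v m => jv_injective ?_⟩
  · have := congrArg jv (h (pv (cd X 0)) ((mem_fix_t0 h2).2 (by rw [ps_jv _ t, cY_cd])))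
    rw [phi_psi3, ps_jv _ t, cX_cd] at this
    exact (cd_inj.1 this).1
  · rw [phi_psi3]
    nth_rw 3 [← cd_eta (jv v)]
    rw [(mem_fix_t0 h2).1 m]
    rcases h with e | e <;> simp [e]

/-- `ω = gam b` with `jv b = cd 0 1` maps `cd X Y` to `cd (-adjugate Y) (adjugate X)`, preserves `N` (`Q b = -1`)
and lies over `-refl b` (`gam_refl`). -/
theorem exists_swap : ∃ ω : Spin K, ∀ A B C : SL(2, K), ω * psi3 (A, B, C) * ω⁻¹ = psi3 (A, C, B) := by
  have j : jv (pv (cd (0 : Matrix (Fin 2) (Fin 2) K) 1)) = cd 0 1 := ps_jv _ (trace_zero _ _)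
  generalize pv (cd (0 : Matrix (Fin 2) (Fin 2) K) 1) = b at j
  have q : -Q K b = 1 := by rw [← nm_jv, j, nm_cd]; simp
  refine ⟨⟨(O.ofLinear nd_N (gam b) fun w => by rw [N_gam, q, one_mul], O.neg _ * refl _ b), fun v w => ?_⟩,
    fun A B C => mul_inv_eq_iff_eq_mul.2 (ps_ext fun X Y => ?_)⟩
  · change gam b (gam v w) = gam (-(refl (Q K) b).1 v) (gam b w)
    rw [gam_refl (fun e => by simp [e] at q), map_neg, LinearMap.neg_apply]
  · rw [map_mul, map_mul, O.mul_apply, O.mul_apply, act_psi3]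
    change jv b ⋆ _ = (act (psi3 (A, C, B))).1 (jv b ⋆ _)
    rw [j, cd_mul, cd_mul, act_psi3]
    simp only [adjugate_mul_distrib, ps_adj, inv_inv, mul_assoc, zero_mul, mul_zero, mul_one, one_mul, zero_sub, zero_add,
      mul_neg, neg_mul]

variable [IsAlgClosed K]

/-- `s` preserves `W₊ = {cd X 0}` and `W₋ = {cd 0 Y}`.  `X0 = cX (s one)` has `det X0 = N one = 1`; with `B = X0`,
`s' = psi3 (1, B, 1) * s` fixes `one`, so is `g ∈ G₂` (`exists_g2_of_fix`) preserving `W₊`: `g = psi (A', B')` with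
`det A' = det B' = d` (`exists_eq_psi`); divide by a square root of `d`: `s' = psi3 (A, A, C)` (`act_injective`). -/
theorem exists_psi3_of_commute {s : Spin K} (h : Commute s (z0 K)) : ∃ a, psi3 a = s := by
  have k : ∀ {s : Spin K}, Commute s (z0 K) → ∀ X, cY ((act s).1 (cd X 0)) = 0 := fun {s} h X =>
    (mem_fix_z0 h2).1 (O.mem_fix.2 (by
      rw [← O.mul_apply, ← map_mul, ← h.eq, map_mul, O.mul_apply, O.mem_fix.1 ((mem_fix_z0 h2).2 (cY_cd X 0))]))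
  obtain ⟨X, Y, e⟩ := exists_cd ((act s).1 (cd 1 0))
  obtain rfl : Y = 0 := by simpa [e] using k h 1
  have d : X.det = 1 := by simpa [e, N_apply, nm_cd] using O.map_Q (act s) (cd 1 0)
  let B : SL(2, K) := ⟨X, d⟩
  obtain ⟨g, hg⟩ := exists_g2_of_fix h2 (s := psi3 (1, B, 1) * s) (by
    rw [← cd_one, map_mul, O.mul_apply, e, act_psi3]
    exact cd_inj.2 ⟨(congrArg (· * _) (one_mul X)).trans (ps_c2 B), by simp⟩)
  obtain ⟨⟨⟨A', C'⟩, m⟩, rfl⟩ := exists_eq_psi (g := g) fun X => hg _ ▸ k (Commute.mul_left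
    (Commute.map (show ((1, B, 1) : S3 K) * (1, 1, -1) = (1, 1, -1) * (1, B, 1) by simp [Prod.ext_iff]) psi3) h) X
  obtain ⟨r, hr⟩ := IsAlgClosed.exists_eq_mul_self A'.1.det
  have r0 : r ≠ 0 := fun e => A'.det_ne_zero (by rw [hr, e, mul_zero])
  have n : ∀ M : Matrix (Fin 2) (Fin 2) K, M.det = A'.1.det → (r⁻¹ • M).det = 1 := fun M e => by
    rw [det_smul, e, hr, Fintype.card_fin]; field_simp
  let A : SL(2, K) := ⟨_, n _ rfl⟩
  have i : (A⁻¹).1 = r • (A'⁻¹).1 := by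
    rw [← ps_c1 A (r • _)]
    change _ = _ * (r⁻¹ • A'.1 * _)
    rw [smul_mul_smul_comm, inv_mul_cancel₀ r0, A'.mul_inv, one_smul, mul_one]
  refine ⟨(1, B, 1)⁻¹ * (A, A, ⟨_, n _ (mem_Gam.1 m).symm⟩), ?_⟩
  rw [map_mul, map_inv, inv_mul_eq_iff_eq_mul]
  refine ps_ext fun X Y => ?_
  rw [hg, psi_smul_cd, act_psi3, i]
  simp only [A, smul_mul_assoc, mul_smul_comm, smul_smul, mul_inv_cancel₀ r0, one_smul]

theorem ps_lift {x : O (Q K)} (hx : O.det _ x = 1) (cx : Commute x (t0 K)) :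
    ∃ s, phi s = x ∧ (x ∈ Cz K ∨ s * z0 K * s⁻¹ = ng K * z0 K) := by
  obtain ⟨s, rfl⟩ := exists_lift h2 hx
  refine ⟨s, rfl, (phi_eq_iff.1 (by rw [map_mul, map_mul, map_inv]; exact mul_inv_eq_iff_eq_mul.2 cx)).imp_left fun e => ?_⟩
  obtain ⟨a, rfl⟩ := exists_psi3_of_commute h2 (mul_inv_eq_iff_eq_mul.1 e)
  exact ⟨a, rfl⟩

/-- A lift `s` of `x` satisfies `s z0 s⁻¹ = z0` or `ng * z0`; the sign is multiplicative. -/
theorem mul_mem_Cz {x y : O (Q K)} (hx : O.det _ x = 1) (hy : O.det _ y = 1) (cx : Commute x (t0 K))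
    (cy : Commute y (t0 K)) (nx : x ∉ Cz K) (ny : y ∉ Cz K) : x * y ∈ Cz K := by
  obtain ⟨s, rfl, e | e⟩ := ps_lift h2 hx cx
  · exact absurd e nx
  obtain ⟨u, rfl, f | f⟩ := ps_lift h2 hy cy
  · exact absurd f ny
  obtain ⟨a, h⟩ := exists_psi3_of_commute h2 (s := s * u) (mul_inv_eq_iff_eq_mul.1 (by
    rw [_root_.mul_inv_rev, mul_assoc s u, mul_assoc s, ← mul_assoc (u * _), f, ← mul_assoc, ← mul_assoc, ng_comm,
      mul_assoc (ng K), mul_assoc (ng K), e, ← mul_assoc, ng_mul_self, one_mul]))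
  exact ⟨a, by rw [← map_mul, ← h]; rfl⟩

/-- `Cz` has index at most two in the centraliser of `t0` in `SO`: squares, commutators and elements of odd order. -/
theorem sq_mem_Cz {x : O (Q K)} (hx : O.det _ x = 1) (cx : Commute x (t0 K)) : x * x ∈ Cz K := by
  exact (em (x ∈ Cz K)).elim (fun m => mul_mem m m) fun n => mul_mem_Cz h2 hx hx cx cx n n

theorem odd_mem_Cz {x : O (Q K)} {n : ℕ} (hn : Odd n) (hx : x ^ n = 1) (cx : Commute x (t0 K)) :
    x ∈ Cz K := by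
  have d : O.det _ x = 1 := (det_eq_one_iff_dickson (nd_Q h2) h2 x).2 ((Int.units_eq_one_or _).resolve_right fun e => by
    have := congrArg (dickson (nd_Q h2)) hx
    rw [map_pow, e, map_one, hn.neg_one_pow] at this
    exact absurd this (by decide))
  obtain ⟨k, rfl⟩ := hn
  have := pow_mem (sq_mem_Cz h2 d cx) (k + 1)
  rwa [← pow_two, ← pow_mul, mul_add, mul_one, pow_succ, hx, one_mul] at this

theorem comm_mem_Cz {x y : O (Q K)} (hx : O.det _ x = 1) (hy : O.det _ y = 1) (cx : Commute x (t0 K))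
    (cy : Commute y (t0 K)) : x * y * x⁻¹ * y⁻¹ ∈ Cz K := by
  have i : ∀ {x}, O.det (Q K) x = 1 → O.det _ x⁻¹ = 1 := fun e => by rw [map_inv, e, inv_one]
  have m : ∀ {x y}, O.det (Q K) x = 1 → O.det _ y = 1 → O.det _ (x * y) = 1 := fun e f => by rw [map_mul, e, f, mul_one]
  have k := mul_mem_Cz h2 (m hx hy) (m (i hx) (i hy)) (cx.mul_left cy) (cx.inv_left.mul_left cy.inv_left)
  rw [mul_assoc]
  by_cases a : x ∈ Cz K <;> by_cases b : y ∈ Cz K
  · exact mul_mem (mul_mem a b) (mul_mem (inv_mem a) (inv_mem b))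
  · exact k (mt (Subgroup.mul_mem_cancel_left _ a).1 b) (mt (Subgroup.mul_mem_cancel_left _ (inv_mem a)).1 (mt inv_mem_iff.1 b))
  · exact k (mt (Subgroup.mul_mem_cancel_right _ b).1 a) (mt (Subgroup.mul_mem_cancel_right _ (inv_mem b)).1 (mt inv_mem_iff.1 a))
  · exact mul_mem (mul_mem_Cz h2 hx hy cx cy a b)
      (mul_mem_Cz h2 (i hx) (i hy) cx.inv_left cy.inv_left (mt inv_mem_iff.1 a) (mt inv_mem_iff.1 b))

theorem perfect_le_Cz {L : Subgroup (O (Q K))} (hL : ⁅L, L⁆ = L) (c : ∀ x ∈ L, Commute x (t0 K)) :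
    L ≤ Cz K := by
  have d : L ≤ (O.det _).ker := hL.ge.trans (Subgroup.commutator_le.2 fun a _ b _ => by
    rw [MonoidHom.mem_ker, map_commutatorElement, commutatorElement_eq_one_iff_mul_comm, mul_comm])
  exact hL.ge.trans (Subgroup.commutator_le.2 fun a i b j => comm_mem_Cz h2 (d i) (d j) (c a i) (c b j))

/-- An element of `C(t0) ∩ SO` outside `Cz` interchanges the second and the third factor: a lift is `ω * psi3 a`. -/
theorem exists_swap_of_not_mem {x : O (Q K)} (hx : O.det _ x = 1) (cx : Commute x (t0 K)) (nx : x ∉ Cz K) :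
    ∃ k : S3 K, ∀ A B C : SL(2, K), x * phi (psi3 (A, B, C)) * x⁻¹ =
      phi (psi3 (k.1 * A * k.1⁻¹, k.2.1 * C * k.2.1⁻¹, k.2.2 * B * k.2.2⁻¹)) := by
  obtain ⟨s, rfl, e | e⟩ := ps_lift h2 hx cx
  · exact absurd e nx
  obtain ⟨ω, h⟩ := exists_swap h2
  obtain ⟨⟨a, b, c⟩, f⟩ := exists_psi3_of_commute h2 (s := ω⁻¹ * s) (mul_inv_eq_iff_eq_mul.1 (by
    rw [_root_.mul_inv_rev, mul_assoc ω⁻¹, mul_assoc ω⁻¹, ← mul_assoc (s * _), e, ps_ng_z0, ← h 1 1 (-1), z0]; group))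
  refine ⟨(a, c, b), fun A B C => ?_⟩
  rw [← map_inv, ← map_mul, ← map_mul, eq_inv_mul_iff_mul_eq.1 f |>.symm]
  refine congrArg phi (.trans ?_ (h (a * A * a⁻¹) (b * B * b⁻¹) (c * C * c⁻¹)))
  rw [show psi3 (a * A * a⁻¹, b * B * b⁻¹, c * C * c⁻¹) = psi3 ((a, b, c) * (A, B, C) * (a, b, c)⁻¹) from rfl,
    MonoidHom.map_mul, MonoidHom.map_mul, MonoidHom.map_inv]
  group

omit [IsAlgClosed K] h2 in
theorem ps_comm {t : O (Q K)} (ht : t * t = 1) {v : V K} (m : v ∈ O.comm t) : t.1 v = -v := by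
  obtain ⟨y, rfl⟩ := O.mem_comm.1 m
  rw [map_sub, ← O.mul_apply, ht, O.one_apply, neg_sub]

omit [IsAlgClosed K] in
theorem ps_eq_of_fix {t u : O (Q K)} (ht : t * t = 1) (hu : u * u = 1) (e : O.fix t = O.fix u) : t = u := O.ext fun v => by
  have a : t.1 v + v ∈ O.fix u := e ▸ O.mem_fix.2 (by rw [map_add, ← O.mul_apply, ht, O.one_apply, add_comm])
  have b : t.1 v - v ∈ O.comm u := by rw [← O.perp_fix (nd_Q h2), ← e, O.perp_fix (nd_Q h2)]; exact O.sub_mem_comm t v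
  have c := O.mem_fix.1 a
  have d := ps_comm hu b
  rw [map_add] at c
  rw [map_sub] at d
  refine sub_eq_zero.1 ((ps_two h2).1 ?_)
  linear_combination (exp := 1) c - d

theorem ps_equiv {t : O (Q K)} (ht : t * t = 1) {n : ℕ} (e : fx t = n) :
    ((Q K).restrict (O.fix t)).Equivalent (weightedSumSquares K (1 : Fin n → K)) := by
  have := invertibleOfNonzero h2
  subst e
  refine QuadraticForm.equivalent_weightedSumSquares_of_isAlgClosed _ fun x hx => Subtype.ext ((ps_two h2).1 ?_)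
  refine (ps_comm ht (O.perp_fix (nd_Q h2) t ▸ mem_perp'.2 fun y m => ?_)).symm.trans (O.mem_fix.1 x.2)
  have := DFunLike.congr_fun (DFunLike.congr_fun (two_nsmul_associated K ((Q K).restrict (O.fix t))) x) ⟨y, m⟩
  change 2 • associated ((Q K).restrict (O.fix t)) x ⟨y, m⟩ = _ at this
  rw [hx, smul_zero] at this
  exact (polar_restrict (Q K) _ x ⟨y, m⟩).symm.trans this.symm

/-- `V = V₊ ⊥ V₋` (eigenspaces, non-degenerate, dimensions 3 and 4); take orthogonal bases with all `Q`-values `1`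
(`K` is algebraically closed) for `t` and for `t0`; the isometry `k` between them conjugates `t` to `t0`; replace `k` by
`-k` if its determinant is `-1`, and lift. -/
theorem exists_conj_t0 {t : O (Q K)} (ht : t * t = 1) (h4 : dm t = 4) :
    ∃ k : Spin K, phi k * t * (phi k)⁻¹ = t0 K := by
  have f : ∀ {t : O (Q K)}, dm t = 4 → fx t = 3 := fun {t} e => by have := dm_add_fx t; rw [finrank_V] at this; omega
  obtain ⟨φ⟩ := (ps_equiv h2 ht (f h4)).trans (ps_equiv h2 t0_mul_self (f (dm_t0 h2))).symm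
  obtain ⟨g, hg⟩ := witt_equiv (nd_Q h2) φ.toLinearEquiv φ.map_app
  have e : g * t * g⁻¹ = t0 K := ps_eq_of_fix h2 (by rw [← pow_two, conj_pow, pow_two, ht, mul_one, mul_inv_cancel]) t0_mul_self (by
    refine Submodule.eq_of_le_of_finrank_eq ?_ ((fx_conj t g).trans ((f h4).trans (f (dm_t0 h2)).symm))
    rw [O.fix_conj]
    rintro _ ⟨v, m, rfl⟩
    exact (hg ⟨v, m⟩).symm ▸ (φ.toLinearEquiv ⟨v, m⟩).2)
  rcases Int.units_eq_one_or (dickson (nd_Q h2) g) with d | d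
  · obtain ⟨k, rfl⟩ := exists_lift h2 ((det_eq_one_iff_dickson _ h2 g).2 d)
    exact ⟨k, e⟩
  · obtain ⟨k, hk⟩ := exists_lift h2 (g := O.neg _ * g) (Units.ext (by
      rw [map_mul, Orth.det_neg, finrank_V, Units.val_mul, det_eq_dickson (nd_Q h2), d]; norm_num))
    refine ⟨k, ?_⟩
    rw [hk, _root_.mul_inv_rev, mul_assoc (O.neg _), mul_assoc (O.neg _), ← mul_assoc (g * t), e, ← mul_assoc,
      mul_inv_eq_iff_eq_mul]
    exact O.ext fun v => by simp [O.mul_apply]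

/-- `exists_conj_t0`, `phi_eq_iff`, and `ω z0 ω⁻¹ = psi3 (1, -1, 1) = ng * z0`. -/
theorem exists_conj_z0 {s : Spin K} (ht : phi s * phi s = 1) (h4 : dm (phi s) = 4) :
    ∃ k : Spin K, k * s * k⁻¹ = z0 K := by
  obtain ⟨k, hk⟩ := exists_conj_t0 h2 ht h4
  rcases phi_eq_iff.1 (show phi (k * s * k⁻¹) = phi (z0 K) by rwa [map_mul, map_mul, map_inv]) with e | e
  · exact ⟨k, e⟩
  obtain ⟨ω, h⟩ := exists_swap h2
  refine ⟨ω⁻¹ * k, ?_⟩
  rw [_root_.mul_inv_rev, mul_assoc ω⁻¹, mul_assoc ω⁻¹, ← mul_assoc (k * _), e, ps_ng_z0, ← h 1 1 (-1), z0]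
  group

omit [IsAlgClosed K] in
/-- The three projections (well defined by `phi_psi3_eq_one`). -/
theorem exists_f3 : ∃ fA fB fC : Cz K →* PSL(2, K), ∀ (a : S3 K) (x : Cz K), x.1 = phi (psi3 a) →
    fA x = QuotientGroup.mk a.1 ∧ fB x = QuotientGroup.mk a.2.1 ∧ fC x = QuotientGroup.mk a.2.2 := by
  have s := (phi.comp (psi3 (K := K))).rangeRestrict_surjective
  have k : ∀ g : S3 K →* SL(2, K), (∀ a, phi (psi3 a) = 1 → g a = 1 ∨ g a = -1) →
      ∃ f : Cz K →* PSL(2, K), ∀ (a : S3 K) (x : Cz K), x.1 = phi (psi3 a) → f x = QuotientGroup.mk (g a) := fun g h =>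
    ⟨MonoidHom.liftOfSurjective _ s ⟨(QuotientGroup.mk' _).comp g, fun a m => (QuotientGroup.eq_one_iff _).2 (by
      rcases h a (congrArg Subtype.val m) with e | e <;> rw [e]
      exacts [one_mem _, Subgroup.mem_center_iff.2 fun _ => by simp])⟩, fun a x e => by
        obtain rfl : x = (phi.comp psi3).rangeRestrict a := Subtype.ext e
        exact MonoidHom.liftOfRightInverse_comp_apply ..⟩
  obtain ⟨fA, hA⟩ := k (.fst _ _) fun a e => (phi_psi3_eq_one.1 e).1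
  obtain ⟨fB, hB⟩ := k ((MonoidHom.fst _ _).comp (.snd _ _)) fun a e => (phi_psi3_eq_one.1 e).2.imp And.left And.left
  obtain ⟨fC, hC⟩ := k ((MonoidHom.snd _ _).comp (.snd _ _)) fun a e => (phi_psi3_eq_one.1 e).2.imp And.right And.right
  exact ⟨fA, fB, fC, fun a x e => ⟨hA a x e, hB a x e, hC a x e⟩⟩

end Cfsg.Lib.O7
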