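import Cfsg.Agent.Lib.O7.Def
import Cfsg.Agent.Lib.Orth.Plane

/-!
# Generation and fixed spaces, for any non-degenerate form (STUB file of `docs/O7.md`)
-/

set_option autoImplicit false
set_option linter.unusedSectionVars false

namespace Cfsg.Lib.O7

open QuadraticMap Module Matrix Cfsg.Lib.Orth

variable {K U : Type*} [Field K] [AddCommGroup U] [Module K U] {q : QuadraticForm K U}
  [FiniteDimensional K U]

namespace T3

/-- Restriction to an invariant subspace. -/
def res (Z : Submodule K U) : stabS (q := q) Z →* O (q.restrict Z) where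
  toFun g := ⟨{ toFun := fun v => ⟨g.1.1 v, g.2 v v.2⟩
                invFun := fun v => ⟨(g⁻¹).1.1 v, (g⁻¹).2 v v.2⟩
                map_add' := fun u v => Subtype.ext (map_add g.1.1 u.1 v.1)
                map_smul' := fun c v => Subtype.ext (map_smul g.1.1 c v.1)
                left_inv := fun v => Subtype.ext (O.inv_apply_apply g.1 v.1)
                right_inv := fun v => Subtype.ext (O.apply_inv_apply g.1 v.1) }, fun v => g.1.2 v.1⟩
  map_one' := rfl
  map_mul' _ _ := rfl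

theorem res_eq_one {Z : Submodule K U} {g : stabS (q := q) Z} (h : res Z g = 1) {v : U} (hv : v ∈ Z) :
    g.1.1 v = v := congrArg (fun x : O (q.restrict Z) => (x.1 ⟨v, hv⟩ : U)) h

theorem le_map_add (f : U →ₗ[K] U) (X : Submodule K U) :
    finrank K X ≤ finrank K (X.map f) + finrank K (LinearMap.ker f) := by
  rw [← LinearMap.finrank_range_add_finrank_ker (f.domRestrict X), LinearMap.range_domRestrict,
    LinearMap.ker_domRestrict, ← Submodule.finrank_map_subtype_eq, Submodule.map_comap_subtype]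
  exact Nat.add_le_add_left (Submodule.finrank_mono inf_le_right) _

theorem le_pow (f : Module.End K U) (m : ℕ) :
    finrank K U ≤ finrank K (LinearMap.range (f ^ m)) + m * finrank K (LinearMap.ker f) := by
  induction m with
  | zero => rw [pow_zero, Module.End.one_eq_id, LinearMap.range_id, finrank_top]; simp
  | succ m ih =>
    have := le_map_add f (LinearMap.range (f ^ m))
    rw [← LinearMap.range_comp, ← Module.End.mul_eq_comp, ← pow_succ'] at this
    rw [Nat.succ_mul]
    omega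

/-- The underlying endomorphism. -/
def lin (q : QuadraticForm K U) : O q →* Module.End K U where
  toFun g := g.1
  map_one' := rfl
  map_mul' _ _ := rfl

theorem chi_eq (g : O q) : chi g = LinearMap.trace K U (lin q g) := rfl

theorem lin_apply (g : O q) (v : U) : lin q g v = g.1 v := rfl

theorem unip (p : ℕ) [Fact p.Prime] [CharP K p] {f g : Module.End K U} (c : Commute f g) (n : ℕ) :
    (f - g) ^ p ^ n = f ^ p ^ n - g ^ p ^ n := by
  cases subsingleton_or_nontrivial U
  · exact Subsingleton.elim _ _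
  have : CharP (Module.End K U) p := charP_of_injective_algebraMap (algebraMap K _).injective p
  exact sub_pow_char_pow_of_commute p n c

open Polynomial in
theorem trace_pow {ι : Type*} [Fintype ι] [DecidableEq ι] (p : ℕ) [hp : Fact p.Prime] [CharP K p] (M : Matrix ι ι K) :
    (M ^ p).trace = M.trace ^ p := by
  cases isEmpty_or_nonempty ι
  · simp [Matrix.trace, hp.out.ne_zero]
  have h : (M ^ p).charpoly = M.charpoly.map (frobenius K p) := by
    apply expand_injective hp.out.pos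
    rw [← map_expand, map_frobenius_expand]
    unfold charpoly
    rw [AlgHom.map_det, ← coe_detMonoidHom, ← (detMonoidHom : Matrix ι ι K[X] →* K[X]).map_pow]
    congr 1
    refine matPolyEquiv.injective ?_
    rw [map_pow, matPolyEquiv_charmatrix, sub_pow_char_of_commute, ← C_pow]
    · exact (id (matPolyEquiv_eq_X_pow_sub_C p M) :)
    · exact (C M).commute_X
  rw [trace_eq_neg_charpoly_coeff, trace_eq_neg_charpoly_coeff, h, coeff_map, frobenius_def,
    neg_pow, neg_one_pow_char, neg_one_mul]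

theorem pow_smul {g : O q} {v : U} {c : K} (h : g.1 v = c • v) (n : ℕ) : (g ^ n).1 v = c ^ n • v := by
  induction n with
  | zero => simp [O.one_apply]
  | succ n ih => rw [pow_succ, O.mul_apply, h, map_smul, ih, smul_smul, pow_succ']

theorem eq_zero (h2 : (2 : K) ≠ 0) {v : U} (h : v = -v) : v = 0 :=
  (smul_eq_zero.1 (by rw [two_smul]; exact add_eq_zero_iff_eq_neg.2 h)).resolve_left h2

theorem sum_mem {E : Subgroup (O q)} [Fintype E] (u : U) : ∑ g : E, g.1.1 u ∈ Fix E := fun h hh => by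
  rw [map_sum]
  exact Fintype.sum_equiv (Equiv.mulLeft (⟨h, hh⟩ : E)) _ _ fun _ => rfl

end T3

open T3
open scoped commutatorElement

/-- The fixed spaces of the members of `l` have a non-zero intersection (`dm_add_fx`,
`Submodule.finrank_sup_add_finrank_inf_eq`; induction on `l`: `finrank U ≤ finrank (⨅ fix) + ∑ dm`). -/
theorem exists_fix_of_sum (l : List (O q)) (h : (l.map dm).sum < finrank K U) :
    ∃ v : U, v ≠ 0 ∧ ∀ g ∈ l, g.1 v = v := by
  have k : ∃ X : Submodule K U, (∀ v ∈ X, ∀ g ∈ l, g.1 v = v) ∧ finrank K U ≤ finrank K X + (l.map dm).sum := by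
    clear h
    induction l with
    | nil => exact ⟨⊤, by simp, by simp⟩
    | cons a l ih =>
      obtain ⟨X, h1, h2⟩ := ih
      refine ⟨X ⊓ O.fix a, fun v hv g hg => ?_, ?_⟩
      · rcases List.mem_cons.1 hg with rfl | hg
        exacts [O.mem_fix.1 hv.2, h1 v hv.1 g hg]
      have e1 := Submodule.finrank_sup_add_finrank_inf_eq X (O.fix a)
      have e2 := Submodule.finrank_le (X ⊔ O.fix a)
      have e3 := dm_add_fx a
      rw [List.map_cons, List.sum_cons]
      unfold fx at e3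
      omega
  obtain ⟨X, h1, h2⟩ := k
  obtain ⟨v, hv, v0⟩ := X.exists_mem_ne_zero_of_ne_bot fun e => by
    rw [e, finrank_bot] at h2
    omega
  exact ⟨v, v0, h1 v hv⟩

/-- `T3`. -/
theorem Irr.le_sum {M : Subgroup (O q)} (h : Irr M) (h1 : 1 < finrank K U) (l : List (O q))
    (hl : M ≤ Subgroup.closure {g | g ∈ l}) : finrank K U ≤ (l.map dm).sum := by
  by_contra! n
  obtain ⟨v, v0, hv⟩ := exists_fix_of_sum l n
  exact h.not_fix h1 v0 (hl.trans ((Subgroup.closure_le _).2 hv))

/-- `T10`: the lines `g (K v)` span `U`, and there are at most `|M : Y|` of them. -/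
theorem Irr.le_index {M Y : Subgroup (O q)} (h : Irr M) [Finite M] {v : U} (h0 : v ≠ 0)
    (hv : ∀ g ∈ Y, g.1 v ∈ K ∙ v) : finrank K U ≤ Y.relIndex M := by
  have := Fintype.ofFinite (M ⧸ Y.subgroupOf M)
  let w : M ⧸ Y.subgroupOf M → U := fun c => c.out.1.1 v
  have k : ∀ g : M, g.1.1 v ∈ Submodule.span K (Set.range w) := fun g => by
    obtain ⟨y, hy⟩ := QuotientGroup.mk_out_eq_mul (Y.subgroupOf M) g
    obtain ⟨c, hc⟩ := Submodule.mem_span_singleton.1 (hv _ (inv_mem y.2))
    have : g.1.1 v = c • w g := by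
      change _ = c • (Quotient.out (g : M ⧸ Y.subgroupOf M)).1.1 v
      rw [hy, ← map_smul, hc]
      exact congrArg g.1.1 (O.apply_inv_apply y.1.1 v).symm
    exact this ▸ Submodule.smul_mem _ _ (Submodule.subset_span ⟨_, rfl⟩)
  rw [Subgroup.relIndex, Subgroup.index, Nat.card_eq_fintype_card]
  refine finrank_le_of_span_eq_top (v := w) ((h _ fun g hg u hu => ?_).resolve_left fun e => h0 (e.le (k 1)))
  refine (Submodule.span_le (p := Submodule.comap (g.1 : U →ₗ[K] U) (Submodule.span K (Set.range w)))).2 ?_ hu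
  rintro _ ⟨c, rfl⟩
  exact k (⟨g, hg⟩ * c.out)

/-- Scott's lemma (proofs to copy: `Q5.scott` in Lib/Q5/T3, `E8N.scott` in Lib/E8N/Lin).
`U³ ⊇ Z¹ = {(α, β, γ) ∈ [U,a] × [U,b] × [U,(ab)⁻¹] | α + a β + a b γ = 0} ⊇ B¹ ≅ U`, and
`(α, β, γ) ↦ α + a β + a b γ` is onto `[U,a] + [U,b] = U`; so `2 dim U ≤ dm a + dm b + dm (a b)`. -/
theorem Irr.scott {M : Subgroup (O q)} (h : Irr M) (h1 : 1 < finrank K U) {a b : O q}
    (hl : M ≤ Subgroup.closure {a, b}) : fx a + fx b + fx (a * b) ≤ finrank K U := by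
  have h3 : ∀ v, a.1 v = v → b.1 v = v → v = 0 := fun v ha hb => by_contra fun v0 =>
    h.not_fix h1 v0 (hl.trans ((Subgroup.closure_le _).2 (by rintro _ (rfl | rfl) <;> assumption)))
  have h4 : O.comm a ⊔ O.comm b = ⊤ := by
    have k : M ≤ stabS (O.comm a ⊔ O.comm b) := hl.trans ((Subgroup.closure_le _).2 (by
      rintro _ (rfl | rfl) v hv
      · simpa using add_mem (Submodule.mem_sup_left (O.sub_mem_comm _ v)) hv
      · simpa using add_mem (Submodule.mem_sup_right (O.sub_mem_comm _ v)) hv))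
    refine (h _ k).resolve_left fun e => ?_
    rw [sup_eq_bot_iff, O.comm_eq_bot_iff, O.comm_eq_bot_iff] at e
    have := finrank_pos_iff.1 (zero_lt_one.trans h1)
    obtain ⟨v, hv⟩ := exists_ne (0 : U)
    exact hv (h3 v (e.1 ▸ rfl) (e.2 ▸ rfl))
  have h5 : fx (a * b) ≤ finrank K ↥(O.comm a ⊓ O.comm b) := by
    refine LinearMap.finrank_le_finrank_of_injective
      (f := ((b.1 : U →ₗ[K] U) - LinearMap.id).restrict (p := O.fix (a * b)) (q := O.comm a ⊓ O.comm b) fun v hv =>
        ⟨by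
          have := neg_mem (O.sub_mem_comm a (b.1 v))
          rwa [← O.mul_apply, O.mem_fix.1 hv, neg_sub] at this, v, rfl⟩)
      ((injective_iff_map_eq_zero _).2 fun v hv => ?_)
    have h6 : b.1 v.1 = v.1 := sub_eq_zero.1 (congrArg Subtype.val hv)
    have h7 := O.mem_fix.1 v.2
    rw [O.mul_apply, h6] at h7
    exact Subtype.ext (h3 _ h7 h6)
  have h6 := Submodule.finrank_sup_add_finrank_inf_eq (O.comm a) (O.comm b)
  rw [h4, finrank_top] at h6
  have e1 := dm_add_fx a
  have e2 := dm_add_fx b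
  unfold dm at e1 e2
  omega

/-- `det_eq_one_iff_dickson`, `dickson_eq_one_iff`. -/
theorem even_dm (hq : ND q) (h2 : (2 : K) ≠ 0) {g : O q} (hg : O.det q g = 1) : Even (dm g) :=
  (dickson_eq_one_iff hq).1 ((det_eq_one_iff_dickson hq h2 g).1 hg)

/-- `(g - 1) ^ p ^ n = g ^ p ^ n - 1 = 0`, and `dim ker (f ^ m) ≤ m * dim ker f`. -/
theorem le_mul_fx (p : ℕ) [Fact p.Prime] [CharP K p] {g : O q} {n : ℕ} (hg : g ^ p ^ n = 1) :
    finrank K U ≤ p ^ n * fx g := by
  have := le_pow (lin q g - 1) (p ^ n)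
  rwa [unip p (Commute.one_right _), ← map_pow, hg, map_one, one_pow, sub_self, LinearMap.range_zero, finrank_bot,
    zero_add] at this

/-- `tr (g ^ p) = (tr g) ^ p` (`Q5.T3.trace_pow`, `Sp4O.trace_pow_char`: copy). -/
theorem chi_pow_char (p : ℕ) [Fact p.Prime] [CharP K p] (g : O q) (n : ℕ) :
    chi (g ^ p ^ n) = chi g ^ p ^ n := by
  induction n with
  | zero => simp
  | succ n ih =>
    rw [pow_succ, pow_mul, pow_mul, ← ih, chi_eq, chi_eq, map_pow,
      LinearMap.trace_eq_matrix_trace K (Module.finBasis K U), LinearMap.trace_eq_matrix_trace K (Module.finBasis K U),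
      ← LinearMap.toMatrix_pow, trace_pow]

/-- The trace of `g` is the trace of its `p'`-part. -/
theorem exists_reg (p : ℕ) [Fact p.Prime] [CharP K p] {g : O q} (hg : IsOfFinOrder g) :
    ∃ m : ℕ, Nat.Coprime (orderOf (g ^ m)) p ∧ chi (g ^ m) = chi g := by
  have pp : p.Prime := Fact.out
  obtain ⟨n, k, hk, e⟩ := Nat.exists_eq_pow_mul_and_not_dvd hg.orderOf_pos.ne' p pp.ne_one
  have co := (Nat.Prime.coprime_iff_not_dvd pp).2 hk
  obtain ⟨m, m0, m1⟩ := Nat.chineseRemainder (co.pow_left n) 0 1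
  refine ⟨m, co.symm.coprime_dvd_left (orderOf_dvd_of_pow_eq_one ?_), ?_⟩
  · rw [← pow_mul, ← orderOf_dvd_iff_pow_eq_one, e]
    exact Nat.mul_dvd_mul_right ((Nat.modEq_zero_iff_dvd).1 m0) k
  refine sub_eq_zero.1 (pow_eq_zero_iff (n := p ^ n) (pow_ne_zero n pp.ne_zero) |>.1 ?_)
  rw [sub_pow_char_pow, ← chi_pow_char, ← chi_pow_char, sub_eq_zero, ← pow_mul]
  congr 1
  rw [pow_eq_pow_iff_modEq, e, mul_comm (p ^ n)]
  simpa using m1.mul_right' (p ^ n)

/-- `g⁻¹` is the adjoint of `g`. -/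
theorem chi_inv (hq : ND q) (g : O q) : chi g⁻¹ = chi g := by
  rw [chi, chi, ← LinearMap.trace_conj' _ (LinearMap.BilinForm.toDual _ hq),
    ← LinearMap.trace_transpose' (g.1 : U →ₗ[K] U)]
  refine congrArg _ (LinearMap.ext fun φ => LinearMap.ext fun w => ?_)
  obtain ⟨u, rfl⟩ := (LinearMap.BilinForm.toDual _ hq).surjective φ
  rw [LinearEquiv.conj_apply_apply, LinearEquiv.symm_apply_apply]
  exact (O.polar_right g u w).symm

/-- An isometry of odd order acts trivially on a non-singular invariant line. -/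
theorem fix_of_line {g : O q} {n : ℕ} (hn : Odd n) (hg : g ^ n = 1) {v : U} (hv : q v ≠ 0)
    (h : g.1 v ∈ K ∙ v) : g.1 v = v := by
  obtain ⟨c, hc⟩ := Submodule.mem_span_singleton.1 h
  have v0 : v ≠ 0 := fun e => hv (by rw [e, map_zero])
  have e1 : c ^ 2 = 1 := mul_right_cancel₀ hv (by rw [← Q_smul, hc, O.map_Q, one_mul])
  have e2 := pow_smul hc.symm n
  obtain ⟨k, rfl⟩ := hn
  rw [hg, pow_succ, pow_mul, e1, one_pow, one_mul, hc] at e2
  exact e2.symm

/-- A perfect group acts trivially on an invariant line. -/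
theorem fix_of_line_perfect {L : Subgroup (O q)} (hL : ⁅L, L⁆ = L) {v : U} (h : ∀ g ∈ L, g.1 v ∈ K ∙ v) :
    L ≤ stabV v := by
  rw [← hL, Subgroup.commutator_le]
  intro a ha b hb
  obtain ⟨c, hc⟩ := Submodule.mem_span_singleton.1 (h _ (inv_mem ha))
  obtain ⟨d, hd⟩ := Submodule.mem_span_singleton.1 (h _ (inv_mem hb))
  change a.1 (b.1 ((a⁻¹).1 ((b⁻¹).1 v))) = v
  rw [← hd, map_smul, ← hc, smul_comm, map_smul, hd, O.apply_inv_apply, hc, O.apply_inv_apply]

/-- The isometry group of a non-degenerate plane `Z` is metabelian: isometries of determinant one commute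
(after an orthogonal basis they are `[[a, -d b], [b, a]]`). -/
theorem meta_plane (h2 : (2 : K) ≠ 0) {Z : Submodule K U} (hZ : ND (q.restrict Z)) (d : finrank K Z = 2)
    {C : Subgroup (O q)} (hC : C ≤ stabS Z) : Z ≤ Fix ⁅⁅C, C⁆, ⁅C, C⁆⁆ := by
  have k : ⁅C, C⁆ ≤ ((dickson hZ).comp (res Z)).ker.map (stabS Z).subtype := Subgroup.commutator_le.2
    fun a ha b hb => ⟨⁅(⟨a, hC ha⟩ : stabS Z), (⟨b, hC hb⟩ : stabS Z)⁆, by
      rw [SetLike.mem_coe, MonoidHom.mem_ker, map_commutatorElement, commutatorElement_eq_one_iff_mul_comm, mul_comm],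
      rfl⟩
  intro v hv
  refine fun g hg => (Subgroup.commutator_le (H₃ := stabV v)).2 (fun a ha b hb => ?_) hg
  obtain ⟨a, ha', rfl⟩ := k ha
  obtain ⟨b, hb', rfl⟩ := k hb
  refine res_eq_one (g := ⁅a, b⁆) ?_ hv
  rw [map_commutatorElement, commutatorElement_eq_one_iff_mul_comm]
  exact plane_comm hZ d ha' hb'

/-- On a non-degenerate plane an isometry with `g² = -1` has determinant one; two such commute, so `(a b)² = 1`. -/
theorem sq_plane (h2 : (2 : K) ≠ 0) {Z : Submodule K U} (hZ : ND (q.restrict Z)) (d : finrank K Z = 2)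
    {a b : O q} (ha : a ∈ stabS Z) (hb : b ∈ stabS Z) (ea : ∀ v ∈ Z, (a * a).1 v = -v)
    (eb : ∀ v ∈ Z, (b * b).1 v = -v) : ∀ v ∈ Z, (a * b * (a * b)).1 v = v := by
  have k : ∀ {a : O q} (ha : a ∈ stabS Z), (∀ v ∈ Z, (a * a).1 v = -v) → dickson hZ (res Z ⟨a, ha⟩) = 1 :=
    fun {a} ha ea => by
    have e := O.finrank_comm_add_finrank_fix (res Z ⟨a, ha⟩)
    have : O.fix (res Z ⟨a, ha⟩) = ⊥ := eq_bot_iff.2 fun v hv => by
      have h1 : a.1 v = v := congrArg Subtype.val (O.mem_fix.1 hv)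
      have := ea v v.2
      rw [O.mul_apply, h1, h1] at this
      exact Subtype.ext (eq_zero h2 this)
    rw [this, finrank_bot, d] at e
    exact (dickson_eq_one_iff hZ).2 (by rw [add_zero] at e; rw [e]; exact even_two)
  intro v hv
  have c : a.1 (b.1 (b.1 v)) = b.1 (a.1 (b.1 v)) := congrArg
    (fun x : O (q.restrict Z) => (x.1 ⟨b.1 v, hb v hv⟩ : U)) (plane_comm hZ d (k ha ea) (k hb eb))
  change a.1 (b.1 (a.1 (b.1 v))) = v
  rw [← c, ← O.mul_apply b, eb v hv, ← O.mul_apply a, ea _ (neg_mem hv), neg_neg]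

/-- In characteristic `p` an isometry of order `p ^ n` is trivial on a non-degenerate invariant plane: it fixes some `v ≠ 0`;
if `q v ≠ 0` it also fixes the line `v^⊥`; otherwise it fixes the second singular line, and the pairing. -/
theorem unip_plane (h2 : (2 : K) ≠ 0) (p : ℕ) [Fact p.Prime] [CharP K p] {Z : Submodule K U}
    (hZ : ND (q.restrict Z)) (d : finrank K Z = 2) {g : O q} {n : ℕ} (hg : g ^ p ^ n = 1) (h : g ∈ stabS Z) :
    ∀ v ∈ Z, g.1 v = v := by
  have e : res Z ⟨g, h⟩ ^ p ^ n = 1 := by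
    rw [← map_pow, ← map_one (res Z)]
    exact congrArg _ (Subtype.ext hg)
  have o : Odd (p ^ n) := ((Fact.out : p.Prime).odd_of_ne_two (by
    rintro rfl
    exact h2 (CharP.cast_eq_zero K 2))).pow
  have e1 : dickson hZ (res Z ⟨g, h⟩) = 1 := by
    have := congrArg (dickson hZ) e
    rw [map_pow, map_one] at this
    exact (Int.units_eq_one_or _).resolve_right fun k => by
      rw [k, o.neg_one_pow] at this
      exact absurd this (by decide)
  obtain ⟨w, hw, w0⟩ := (O.fix (res Z ⟨g, h⟩)).exists_mem_ne_zero_of_ne_bot fun k => by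
    have := le_mul_fx p e
    rw [fx, k, finrank_bot, d] at this
    omega
  exact fun v hv => res_eq_one (plane_eq_one_of_fix hZ d e1 w0 (O.mem_fix.1 hw)) hv

/-- The fixed space of a finite group of order prime to the characteristic is non-degenerate (average). -/
theorem nd_Fix (hq : ND q) {E : Subgroup (O q)} [Finite E] (hE : (Nat.card E : K) ≠ 0) :
    ND (q.restrict (Fix E)) := by
  have := Fintype.ofFinite E
  refine nd_restrict_iff.2 fun x hx h => hq.eq_zero fun u => (mul_eq_zero.1 ?_).resolve_left hE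
  rw [← h _ (sum_mem u), ← polarBilin_apply_apply, ← polarBilin_apply_apply, map_sum, Nat.card_eq_fintype_card,
    ← nsmul_eq_mul, ← Finset.card_univ, ← Finset.sum_const]
  refine Finset.sum_congr rfl fun g _ => ?_
  rw [polarBilin_apply_apply, polarBilin_apply_apply, ← O.map_polar g.1 x u, hx _ g.2]

/-- `dim Fix E * |E| = ∑ chi` in `K` (the averaging projection). -/
theorem sum_chi {E : Subgroup (O q)} [Fintype E] (hE : (Nat.card E : K) ≠ 0) :
    ∑ g : E, chi g.1 = (Nat.card E : K) * (finrank K (Fix E) : K) := by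
  have k : LinearMap.IsProj (Fix E) ((Nat.card E : K)⁻¹ • ∑ g : E, lin q g.1) := ⟨fun x => by
    rw [LinearMap.smul_apply, LinearMap.sum_apply]
    exact Submodule.smul_mem _ _ (sum_mem x), fun x hx => by
    rw [LinearMap.smul_apply, LinearMap.sum_apply, Finset.sum_congr rfl fun g _ => (lin_apply _ _).trans (hx g.1 g.2),
      Finset.sum_const, Finset.card_univ, ← Nat.card_eq_fintype_card, ← Nat.cast_smul_eq_nsmul K, smul_smul,
      inv_mul_cancel₀ hE, one_smul]⟩
  rw [← k.trace, map_smul, map_sum, smul_eq_mul, mul_inv_cancel_left₀ hE]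
  rfl

/-- For an involution `U = fix t ⊥ comm t`, `comm t` is the `-1`-eigenspace. -/
theorem mem_comm_inv (h2 : (2 : K) ≠ 0) {t : O q} (ht : t * t = 1) {v : U} : v ∈ O.comm t ↔ t.1 v = -v := by
  rw [O.mem_comm]
  refine ⟨?_, fun h => ⟨-((2 : K)⁻¹ • v), ?_⟩⟩
  · rintro ⟨y, rfl⟩
    rw [map_sub, ← O.mul_apply, ht, O.one_apply, neg_sub]
  · rw [map_neg, map_smul, h, smul_neg, neg_neg, sub_neg_eq_add, ← two_smul K, smul_smul, mul_inv_cancel₀ h2, one_smul]

theorem T3.disj (h2 : (2 : K) ≠ 0) {t : O q} (ht : t * t = 1) : Disjoint (O.comm t) (O.fix t) :=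
  Submodule.disjoint_def.2 fun _ h h' => eq_zero h2 ((O.mem_fix.1 h').symm.trans ((mem_comm_inv h2 ht).1 h))

theorem T3.split (h2 : (2 : K) ≠ 0) {t : O q} (ht : t * t = 1) {X : Submodule K U} (h : ∀ v ∈ X, t.1 v ∈ X) :
    finrank K ↥(X ⊓ O.comm t) + finrank K ↥(X ⊓ O.fix t) = finrank K X := by
  rw [← Submodule.finrank_sup_add_finrank_inf_eq, ((T3.disj h2 ht).mono inf_le_right inf_le_right).eq_bot,
    finrank_bot, add_zero]
  refine congrArg (fun Y : Submodule K U => finrank K Y) (le_antisymm (sup_le inf_le_left inf_le_left) fun v hv =>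
    Submodule.mem_sup.2 ⟨-((2 : K)⁻¹ • (t.1 v - v)), neg_mem (Submodule.smul_mem _ _ (Submodule.mem_inf.2
      ⟨sub_mem (h v hv) hv, O.sub_mem_comm t v⟩)), (2 : K)⁻¹ • (t.1 v + v), Submodule.smul_mem _ _
      (Submodule.mem_inf.2 ⟨add_mem (h v hv) hv, O.mem_fix.2 ?_⟩), ?_⟩)
  · rw [map_add, ← O.mul_apply, ht, O.one_apply, add_comm]
  · rw [← smul_neg, ← smul_add, neg_sub, ← add_assoc, sub_add_cancel, ← two_smul K, smul_smul, inv_mul_cancel₀ h2, one_smul]

theorem nd_comm_inv (hq : ND q) (h2 : (2 : K) ≠ 0) {t : O q} (ht : t * t = 1) :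
    ND (q.restrict (O.comm t)) ∧ ND (q.restrict (O.fix t)) := by
  rw [nd_restrict_iff_disjoint, nd_restrict_iff_disjoint, O.perp_comm hq, O.perp_fix hq]
  exact ⟨T3.disj h2 ht, (T3.disj h2 ht).symm⟩

theorem chi_of_inv (h2 : (2 : K) ≠ 0) {t : O q} (ht : t * t = 1) :
    chi t = (finrank K U : K) - 2 * (dm t : K) := by
  have k : LinearMap.IsProj (O.comm t) ((2 : K)⁻¹ • (1 - lin q t)) := ⟨fun x =>
    Submodule.smul_mem _ _ (by simpa [lin_apply] using neg_mem (O.sub_mem_comm t x)), fun x hx => by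
    rw [LinearMap.smul_apply, LinearMap.sub_apply, lin_apply, (mem_comm_inv h2 ht).1 hx, Module.End.one_apply,
      sub_neg_eq_add, ← two_smul K, smul_smul, inv_mul_cancel₀ h2, one_smul]⟩
  rw [dm, ← k.trace, map_smul, map_sub, LinearMap.trace_one, smul_eq_mul, mul_inv_cancel_left₀ h2, sub_sub_cancel]
  rfl

/-- `T2`: for an elementary abelian 2-group `∑ dm t = |E| / 2 * (dim U - dim Fix E)`.  Decompose `U` into the weight spaces
of `E` (or induct on `dim U`: a common eigenvector, `U / K v` or its complement; a non-trivial character takes the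
value `-1` on half of `E`).  Integer identity: do not pass through `K`. -/
theorem sum_dm (h2 : (2 : K) ≠ 0) {E : Subgroup (O q)} [Fintype E] (hE : ∀ g ∈ E, g * g = 1) :
    2 * ∑ g : E, dm g.1 + Nat.card E * finrank K (Fix E) = Nat.card E * finrank K U := by
  have cm : ∀ g ∈ E, ∀ s ∈ E, ∀ v, g.1 (s.1 v) = s.1 (g.1 v) := fun g hg s hs v => by
    rw [← O.mul_apply, ← O.mul_apply, ← inv_eq_of_mul_eq_one_right (hE _ (mul_mem hg hs)), _root_.mul_inv_rev,
      inv_eq_of_mul_eq_one_right (hE g hg), inv_eq_of_mul_eq_one_right (hE s hs)]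
  have ic : ∀ g ∈ E, ∀ s ∈ E, ∀ v ∈ O.comm g, s.1 v ∈ O.comm g := fun g hg s hs v hv => by
    rw [mem_comm_inv h2 (hE g hg)] at hv ⊢
    rw [cm g hg s hs, hv, map_neg]
  have k : ∀ n, ∀ X : Submodule K U, finrank K X = n → (∀ g ∈ E, ∀ v ∈ X, g.1 v ∈ X) →
      2 * ∑ g : E, finrank K ↥(X ⊓ O.comm g.1) + Nat.card E * finrank K ↥(X ⊓ Fix E) = Nat.card E * n := fun n => by
    induction n using Nat.strong_induction_on with
    | _ n ih =>
    rintro X rfl hX
    by_cases hf : X ≤ Fix E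
    · rw [inf_eq_left.2 hf, Finset.sum_eq_zero fun g _ => ?_, mul_zero, zero_add]
      rw [((T3.disj h2 (hE _ g.2)).symm.mono_left fun v hv => O.mem_fix.2 (hf hv _ g.2)).eq_bot, finrank_bot]
    obtain ⟨s, hs, n⟩ : ∃ s ∈ E, ¬ X ≤ O.fix s := by
      by_contra! c
      exact hf fun v hv g hg => O.mem_fix.1 (c g hg hv)
    have e1 := ih _ (Submodule.finrank_lt_finrank_of_lt (inf_lt_left.2 n)) (X ⊓ O.fix s) rfl fun g hg v hv =>
      ⟨hX g hg v hv.1, O.mem_fix.2 (by rw [cm s hs g hg, O.mem_fix.1 hv.2])⟩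
    rw [inf_assoc, inf_eq_right.2 (show Fix E ≤ O.fix s from fun v hv => O.mem_fix.2 (hv s hs))] at e1
    have e2 : ∑ g : E, finrank K ↥(X ⊓ O.comm s ⊓ O.comm g.1) = ∑ g : E, finrank K ↥(X ⊓ O.comm s ⊓ O.fix g.1) :=
      Fintype.sum_equiv (Equiv.mulRight (⟨s, hs⟩ : E)) _ _ fun g => by
        refine congrArg (fun Y : Submodule K U => finrank K Y) (Submodule.ext fun v => ?_)
        simp only [Submodule.mem_inf, and_congr_right_iff, mem_comm_inv h2 (hE _ g.2), mem_comm_inv h2 (hE s hs),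
          O.mem_fix]
        intro hv
        change _ ↔ g.1.1 (s.1 v) = v
        rw [hv.2, map_neg, neg_eq_iff_eq_neg]
    have e3 : ∑ g : E, (finrank K ↥(X ⊓ O.comm s ⊓ O.comm g.1) + finrank K ↥(X ⊓ O.comm s ⊓ O.fix g.1)) =
        Nat.card E * finrank K ↥(X ⊓ O.comm s) := by
      rw [Finset.sum_congr rfl fun (g : E) _ => T3.split h2 (hE _ g.2) (X := X ⊓ O.comm s) fun v hv =>
          ⟨hX _ g.2 v hv.1, ic s hs _ g.2 v hv.2⟩,
        Finset.sum_const, Finset.card_univ, Nat.card_eq_fintype_card, smul_eq_mul]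
    have e4 : ∑ g : E, finrank K ↥(X ⊓ O.comm g.1) =
        ∑ g : E, (finrank K ↥(X ⊓ O.comm s ⊓ O.comm g.1) + finrank K ↥(X ⊓ O.fix s ⊓ O.comm g.1)) :=
      Finset.sum_congr rfl fun g _ => by
        rw [inf_right_comm X (O.comm s), inf_right_comm X (O.fix s),
          T3.split h2 (hE s hs) (X := X ⊓ O.comm g.1) fun v hv => ⟨hX s hs v hv.1, ic _ g.2 s hs v hv.2⟩]
    rw [Finset.sum_add_distrib] at e3 e4
    rw [← T3.split h2 (hE s hs) (hX s hs), mul_add (Nat.card E)]
    omega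
  have := k _ ⊤ (finrank_top K U) fun _ _ _ _ => trivial
  rwa [top_inf_eq, Finset.sum_congr rfl fun g _ => by rw [top_inf_eq]] at this

end Cfsg.Lib.O7
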