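import Cfsg.Agent.Lib.O7.Spin
import Cfsg.Agent.Lib.O7.T3
import Cfsg.Agent.Lib.Oct.Chev
import Cfsg.Agent.S1055

/-!
# Reducible on the spin module: `G₂(q)` (`docs/O7.md`)
-/

set_option autoImplicit false

namespace Cfsg.Lib.O7

open QuadraticMap Module Matrix Cfsg.Lib.Orth Cfsg.Lib.Oct
open scoped MatrixGroups commutatorElement

variable {F : Type*} [Field F] [Finite F] {H P : Subgroup (O (Q F))}

section K

variable {K : Type*} [Field K] {M : Subgroup (O (Q K))}

/-- For a subspace `X` of `W` invariant under `hatW M` the annihilator `{v | ∀ w ∈ X, gam v w = 0}` is `M`-invariant (`act_gam`). -/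
theorem An_inv (hl : ∀ g ∈ M, ∃ s : Spin K, phi s = g) {X : Submodule K (W K)} (hX : hatW M ≤ stabS X) {g : O (Q K)} (hg : g ∈ M)
    {v : V K} (hv : ∀ w ∈ X, gam v w = 0) : ∀ w ∈ X, gam (g.1 v) w = 0 := by
  obtain ⟨s, rfl⟩ := hl g hg
  intro w m
  have := act_gam s v ((act s)⁻¹.1 w)
  rw [O.apply_inv_apply, hv _ (hX (inv_mem (act_mem_hatW hg)) w m), map_zero] at this
  exact this.symm

theorem rd_cj (y : W K) : cj y = ![y 7, -y 1, -y 2, -y 3, -y 4, -y 5, -y 6, y 0] := by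
  ext i
  fin_cases i <;> simp [cj, tr_apply, Oct.one, Oct.mk]

theorem rd_adj (x y a : W K) : bl x (a ⋆ y) = bl (x ⋆ cj y) a := by
  simp [bl_apply, mul_eq, rd_cj]; ring

theorem rd_cancel (x y : W K) : (x ⋆ cj y) ⋆ y = nm y • x := by
  ext i
  fin_cases i <;> simp [mul_eq, rd_cj, nm] <;> ring

theorem rd_polar (u v : V K) : polar (Q K) u v = -bl (jv u) (jv v) := by
  have := nm_add (jv u) (jv v)
  rw [← map_add, nm_jv, nm_jv, nm_jv, Q_add] at this
  linear_combination -this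

theorem rd_bl (s : Spin K) (x y : W K) : bl ((act s).1 x) ((act s).1 y) = bl x y := by
  rw [← polar_N, ← polar_N, O.map_polar]

theorem rd_skew (v : V K) (x y : W K) : bl x (gam v y) = -bl (gam v x) y := by
  simp [bl_apply, gam_apply, mul_eq, jv_apply, Oct.mk]; ring

/-- The alternating map `β : W × W → V`, `polar Q (β x y) v = bl x (gam v y)` (alternating because `bl x (a ⋆ y) = bl (cj a ⋆ x) y = -bl (a ⋆ x) y` for traceless `a`), is equivariant under `Spin`.
Explicitly `jv (β x y)` is a non-zero multiple of the traceless part of `x ⋆ cj y`. -/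
theorem exists_beta (h2 : (2 : K) ≠ 0) : ∃ β : W K →ₗ[K] W K →ₗ[K] V K, (∀ x y v, polar (Q K) (β x y) v = bl x (gam v y)) ∧
    (∀ x, β x x = 0) ∧ (∀ (s : Spin K) x y, β ((act s).1 x) ((act s).1 y) = (phi s).1 (β x y)) ∧
    ∀ x y, β x y = 0 ↔ x ⋆ cj y = (bl x y / 2) • one K := by
  let c : W K →ₗ[K] W K := tr.smulRight (one K) - LinearMap.id
  let β : W K →ₗ[K] W K →ₗ[K] V K := (mulL.compl₂ c).compr₂ (-pv ∘ₗ (LinearMap.id - (2 : K)⁻¹ • tr.smulRight (one K)))
  have j : ∀ x y, jv (β x y) = -(x ⋆ cj y - (bl x y / 2) • one K) := fun x y => by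
    change jv (-pv (x ⋆ cj y - (2 : K)⁻¹ • tr (x ⋆ cj y) • one K)) = _
    rw [map_neg, jv_pv (by rw [map_sub, map_smul, map_smul, tr_one, smul_eq_mul, smul_eq_mul]; field_simp; ring), tr_omul_cj,
      smul_smul, div_eq_inv_mul]
  have p : ∀ x y v, polar (Q K) (β x y) v = bl x (gam v y) := fun x y v => by
    rw [rd_polar, j, map_neg, LinearMap.neg_apply, neg_neg, map_sub, LinearMap.sub_apply, map_smul, LinearMap.smul_apply, one_bl,
      tr_jv, smul_zero, sub_zero, gam_apply, rd_adj]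
  refine ⟨β, p, fun x => (nd_Q h2).eq_zero fun v => ?_, fun s x y => (nd_Q h2).ext fun v => ?_, fun x y => ?_⟩
  · have := rd_skew v x x
    rw [bl_comm (gam v x)] at this
    exact (p ..).trans (T3.eq_zero h2 this)
  · rw [p, O.polar_left, p, ← rd_bl s x, act_gam, O.apply_inv_apply]
  · rw [← map_eq_zero_iff jv jv_injective, j, neg_eq_zero, sub_eq_zero]

/-- The hypothesis of `exists_An`. -/
def RdH (X : Submodule K (W K)) : Prop := ∀ x ∈ X, ∀ y ∈ X, bl x y = 0 ∧ ∀ v, bl x (gam v y) = 0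

/-- The conclusion of `exists_An`. -/
def RdC (X : Submodule K (W K)) : Prop := ∃ v : V K, v ≠ 0 ∧ ∀ w ∈ X, gam v w = 0

theorem rd_tr {X : Submodule K (W K)} (A : W K →ₗ[K] W K) (k : O (Q K)) {c : K} (h1 : ∀ v w, A (gam v w) = gam (k.1 v) (A w))
    (h2 : ∀ x y, bl (A x) (A y) = c * bl x y) (hc : c ≠ 0) (H : RdH X) (C : RdH (X.map A) → RdC (X.map A)) : RdC X := by
  obtain ⟨v, n, e⟩ := C (by
    rintro _ ⟨x, i, rfl⟩ _ ⟨y, j, rfl⟩
    exact ⟨by rw [h2, (H x i y j).1, mul_zero], fun v => by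
      rw [← O.apply_inv_apply k v, ← h1, h2, (H x i y j).2, mul_zero]⟩)
  refine ⟨(k⁻¹).1 v, O.apply_ne_zero _ n, fun w m => eq_zero_of_bl fun y => mul_left_cancel₀ hc ?_⟩
  rw [← h2, h1, O.apply_inv_apply, e _ ⟨w, m, rfl⟩, map_zero, LinearMap.zero_apply, mul_zero]

theorem rd_e0 {X : Submodule K (W K)} (H : RdH X) (m : e0 K ∈ X) : RdC X := by
  have a : ∀ y ∈ X, y 7 = 0 ∧ y 1 = 0 ∧ y 2 = 0 ∧ y 3 = 0 := fun y i => by
    have := fun k => (H _ m y i).2 (sY K k)
    have a := this 0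
    have b := this 1
    have c := this 2
    have d := (H _ m y i).1
    simp [bl_apply, gam_apply, mul_eq, jv_apply, Oct.mk, e0] at a b c d
    exact ⟨d, a, b, c⟩
  have b : ∀ x ∈ X, ∀ y ∈ X, x 5 * y 6 = x 6 * y 5 ∧ x 6 * y 4 = x 4 * y 6 ∧ x 4 * y 5 = x 5 * y 4 := fun x i y j => by
    have := fun k => (H x i y j).2 (sY K k)
    have c := this 0
    have d := this 1
    have e := this 2
    simp [bl_apply, gam_apply, mul_eq, jv_apply, Oct.mk, a x i, a y j] at c d e
    exact ⟨by linear_combination -c, by linear_combination -d, by linear_combination -e⟩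
  have k : ∀ p q r : K, ¬ (p = 0 ∧ q = 0 ∧ r = 0) → (∀ y ∈ X, p * y 4 + q * y 5 + r * y 6 = 0) → RdC X := fun p q r n h =>
    ⟨p • sX K 0 + q • sX K 1 + r • sX K 2, fun e => n ⟨by simpa using congrFun e (.inr (.inl 0)),
      by simpa using congrFun e (.inr (.inl 1)), by simpa using congrFun e (.inr (.inl 2))⟩, fun y i => by
        ext l
        fin_cases l <;> simp [gam_apply, mul_eq, jv_apply, Oct.mk, a y i, h y i]⟩
  by_cases c : ∀ y ∈ X, y 4 = 0
  · exact k 1 0 0 (by simp) (by simpa using c)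
  push Not at c
  obtain ⟨x, i, n⟩ := c
  exact k (-x 5) (x 4) 0 (fun e => n e.2.1) fun y j => by linear_combination (b x i y j).2.2

/-- Take `x ≠ 0` in `X`.  If `tr x = 0` replace `X` by `gam a X` with `Q a ≠ 0`, `tr (gam a x) ≠ 0` (the hypothesis is preserved: `exists_beta`, `bl (gam a x) (gam v (gam a y)) = Q a * bl x (gam (refl a v) y)` by `gam_refl`, `bl_omul`; and `v` kills `gam a X` iff `refl a v` kills `X`).
Then `(tr x)⁻¹ • x` is an idempotent, and after an automorphism (`Idem.exists_smul'`, `exists_g2`) `e0 ∈ X`.  `y ⋆ cj e0 = 0` gives `y = mk α 0 b 0`, and `mk α 0 b 0 ⋆ cj (mk γ 0 d 0) = mk 0 (b ⨯₃ d) 0 0`: all the `b` lie on a line; `mk 0 a 0 0 ⋆ mk α 0 b 0 = mk (a ⬝ᵥ b) 0 0 0`, so any `a ≠ 0` with `a ⬝ᵥ b = 0` works. -/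
theorem exists_An (h2 : (2 : K) ≠ 0) {X : Submodule K (W K)} (hX : ∀ x ∈ X, ∀ y ∈ X, x ⋆ cj y = 0) :
    ∃ v : V K, v ≠ 0 ∧ ∀ w ∈ X, gam v w = 0 := by
  have H : RdH X := fun x i y j => ⟨by rw [← tr_omul_cj, hX x i y j, map_zero], fun v => by
    rw [gam_apply, rd_adj, hX x i y j, map_zero, LinearMap.zero_apply]⟩
  have n : ∀ {X : Submodule K (W K)}, RdH X → ∀ x ∈ X, nm x = 0 := fun H x i =>
    (mul_eq_zero.1 ((bl_self x).symm.trans (H x i x i).1)).resolve_left h2
  have k : ∀ {X : Submodule K (W K)}, RdH X → ∀ x ∈ X, tr x ≠ 0 → RdC X := fun H x i t => by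
    obtain ⟨g, e⟩ := Idem.exists_smul' (x := (tr x)⁻¹ • x) ⟨by rw [map_smul, smul_eq_mul, inv_mul_cancel₀ t],
      by rw [nm_smul, n H x i, mul_zero]⟩
    obtain ⟨f, a, -⟩ := exists_g2 (K := K)
    exact rd_tr (act (f g)).1 (phi (f g)) (act_gam _) (fun x y => (rd_bl ..).trans (one_mul _).symm) one_ne_zero H fun H' =>
      rd_e0 H' ⟨_, Submodule.smul_mem _ _ i, (a ..).trans e⟩
  by_cases c : X = ⊥
  · exact ⟨sU K, fun e => by simpa using congrFun e (.inl ()), fun w m => by rw [show w = 0 from c.le m, map_zero]⟩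
  obtain ⟨x, i, x0⟩ := Submodule.exists_mem_ne_zero_of_ne_bot c
  by_cases t : tr x = 0
  swap
  · exact k H x i t
  obtain ⟨u, rfl⟩ : ∃ u, x = jv u := ⟨_, (jv_pv t).symm⟩
  obtain ⟨f, hf⟩ := exists_isHyp (nd_Q h2) (e := u) (neg_eq_zero.1 ((nm_jv u).symm.trans (n H _ i))) fun e => x0 (by rw [e, map_zero])
  have q : Q K (u + f) = 1 := by simpa using hf.Q_comb 1 1
  refine rd_tr (gam (u + f)) (O.neg _ * refl _ (u + f)) (c := -1) (fun v w => ?_) (fun x y => ?_) (by simp) H fun H' =>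
    k H' _ ⟨_, i, rfl⟩ ?_
  · rw [gam_refl (by simp [q]), O.mul_apply, O.neg_apply, map_neg, LinearMap.neg_apply]
  · rw [gam_apply, gam_apply, bl_omul, nm_jv, q]
  · rw [← one_bl, rd_skew, gam_apply, omul_one, ← rd_polar, polar_add_left, hf.polar_left, hf.polar_eq']
    simp

theorem rd_rank {U : Type*} [AddCommGroup U] [Module K U] (β : W K →ₗ[K] W K →ₗ[K] U) (h : ∀ x, β x x = 0) {X : Submodule K (W K)}
    (d : finrank K X ≤ 4) : finrank K (Submodule.map₂ β X X) ≤ 6 := by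
  have b := Module.finBasis K X
  generalize finrank K X = n at b d
  have e : X = Submodule.span K (Set.range (X.subtype ∘ b)) := by
    rw [Set.range_comp, ← Submodule.map_span, b.span_eq, Submodule.map_subtype_top]
  let f := fun p : {p : Fin n × Fin n // p.1 < p.2} => β (b p.1.1) (b p.1.2)
  have l : Submodule.map₂ β X X ≤ Submodule.span K (Set.range f) := by
    rw [e, Submodule.map₂_span_span, Submodule.span_le]
    rintro _ ⟨_, ⟨i, rfl⟩, _, ⟨j, rfl⟩, rfl⟩
    change β (b i) (b j) ∈ Submodule.span K (Set.range f)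
    rcases lt_trichotomy i j with c | rfl | c
    · exact Submodule.subset_span ⟨⟨(i, j), c⟩, rfl⟩
    · rw [h]; exact zero_mem _
    · have := h (b i + b j)
      rw [map_add, map_add, LinearMap.add_apply, LinearMap.add_apply, h, h, zero_add, add_zero] at this
      rw [show β (b i) (b j) = -β (b j) (b i) from eq_neg_of_add_eq_zero_right this]
      exact neg_mem (Submodule.subset_span ⟨⟨(j, i), c⟩, rfl⟩)
  have := Module.Finite.span_of_finite K (Set.finite_range f)
  refine (Submodule.finrank_mono l).trans ((finrank_range_le_card f).trans ?_)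
  interval_cases n <;> decide

theorem rd_line {x y : W K} {c : K} (h0 : nm y ≠ 0) (e : x ⋆ cj y = c • one K) : x ∈ K ∙ y := by
  have := rd_cancel x y
  rw [e, smul_omul, one_omul] at this
  exact Submodule.mem_span_singleton.2 ⟨(nm y)⁻¹ * c, by rw [mul_smul, this, inv_smul_smul₀ h0]⟩

/-- An invariant subspace `X ≠ 0, W`; replace it by `X^⊥` (`O.map_perp`) to get `dim X ≤ 4`.  The span of `β (X, X)` is `M`-invariant of dimension `≤ 6` (spanned by the `β (b i) (b j)`, `i < j`), so zero: `x ⋆ cj y` is a scalar for `x, y ∈ X`.  If some `y ∈ X` has `nm y ≠ 0`, then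
`nm y • x = (x ⋆ cj y) ⋆ y ∈ K y`: `X` is a non-singular line.  Otherwise `bl = 0` on `X`; by `exists_An`, `An_inv` every `gam v` kills `X`, absurd (`gam_gam`). -/
theorem exists_line (h2 : (2 : K) ≠ 0) (hl : ∀ g ∈ M, ∃ s : Spin K, phi s = g) (hV : Irr M) (hW : ¬ Irr (hatW M)) :
    ∃ w : W K, nm w ≠ 0 ∧ ∀ g ∈ hatW M, g.1 w ∈ K ∙ w := by
  obtain ⟨X, hX, X0, d⟩ : ∃ X : Submodule K (W K), hatW M ≤ stabS X ∧ X ≠ ⊥ ∧ finrank K X ≤ 4 := by
    simp only [Irr, not_forall, not_or] at hW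
    obtain ⟨X, hX, X0, X1⟩ := hW
    by_cases d : finrank K X ≤ 4
    · exact ⟨X, hX, X0, d⟩
    have := finrank_add_finrank_perp nd_N X
    rw [finrank_W] at this
    exact ⟨perp (N K) X, fun g m v i => mem_perp.2 fun w j => by rw [O.polar_right, mem_perp.1 i _ (hX _ (inv_mem m) w j)],
      fun e => X1 (by rw [← perp_perp nd_N X, e, perp_bot]), by omega⟩
  obtain ⟨β, -, b0, b1, b2⟩ := exists_beta h2
  have e : Submodule.map₂ β X X = ⊥ := (hV _ fun g m => by
    obtain ⟨s, rfl⟩ := hl g m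
    refine (Submodule.map₂_le (r := (Submodule.map₂ β X X).comap (phi s).1.toLinearMap)).2 fun x i y j => ?_
    exact Submodule.mem_comap.2 (b1 s x y ▸ Submodule.apply_mem_map₂ β (hX (act_mem_hatW m) x i) (hX (act_mem_hatW m) y j) :)).resolve_right
      fun e => by have := rd_rank β b0 d; rw [e, finrank_top, finrank_V] at this; omega
  have z : ∀ x ∈ X, ∀ y ∈ X, x ⋆ cj y = (bl x y / 2) • one K := fun x i y j => (b2 x y).1 (e.le (Submodule.apply_mem_map₂ β i j))
  by_cases c : ∃ y ∈ X, nm y ≠ 0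
  · obtain ⟨y, i, n⟩ := c
    exact ⟨y, n, fun g m => rd_line n (z _ (hX m y i) y i)⟩
  push Not at c
  obtain ⟨v, v0, hv⟩ := exists_An h2 (X := X) fun x i y j => by
    have := nm_add x y
    rw [c _ (add_mem i j), c x i, c y j, zero_add, zero_add] at this
    rw [z x i y j, ← this, zero_div, zero_smul]
  let A : Submodule K (V K) := ⨅ w ∈ X, LinearMap.ker (gam.flip w)
  have mA : ∀ v, v ∈ A ↔ ∀ w ∈ X, gam v w = 0 := fun v => by simp [A]
  refine absurd (le_bot_iff.1 fun w m => ?_) X0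
  have := (mA (sU K)).1 (((hV A fun g i v j => (mA _).2 (An_inv hl hX i ((mA v).1 j))).resolve_left
    fun e => v0 (e.le ((mA v).2 hv))).ge trivial) w m
  have f := gam_gam (sU K) w
  rw [this, map_zero] at f
  simpa [qOdd_apply] using f.symm

/-- Two independent fixed lines: by the argument of `exists_line` for `X = ⟨w, w'⟩`, `β w w'` spans an invariant subspace of dimension `≤ 1`. -/
theorem line_unique (h2 : (2 : K) ≠ 0) (hV : Irr M) {S : Subgroup (Spin K)} (hS : M ≤ S.map phi) {w w' : W K} (h0 : nm w ≠ 0)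
    (hw : ∀ s ∈ S, (act s).1 w = w) (hw' : ∀ s ∈ S, (act s).1 w' = w') : w' ∈ K ∙ w := by
  obtain ⟨β, -, -, b1, b2⟩ := exists_beta h2
  refine rd_line h0 ((b2 w' w).1 (by_contra fun n => hV.not_fix (by rw [finrank_V]; decide) n fun g m => ?_))
  obtain ⟨s, i, rfl⟩ := hS m
  rw [mem_stabV, ← b1, hw s i, hw' s i]

/-- A non-singular `w` is `a ⋆ b` with `a`, `b` traceless and non-singular: take `b = jv v`, `Q v ≠ 0`, `bl w b = 0` (`w^⊥ ∩ jv V` has dimension `≥ 6`, is not totally singular), `a = (nm b)⁻¹ • w ⋆ cj b` (`tr_omul_cj`). -/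
theorem exists_gam_gam (h2 : (2 : K) ≠ 0) {w : W K} (h0 : nm w ≠ 0) :
    ∃ a b : V K, Q K a ≠ 0 ∧ Q K b ≠ 0 ∧ w = gam a (gam b (one K)) := by
  obtain ⟨β, p, -⟩ := exists_beta h2
  obtain ⟨b, m, n⟩ : ∃ b ∈ perp (Q K) (K ∙ β w (one K)), Q K b ≠ 0 := by
    by_contra! c
    have l : perp (Q K) (K ∙ β w (one K)) ≤ perp (Q K) (perp (Q K) (K ∙ β w (one K))) := fun x i => mem_perp.2 fun y j => by
      have := Q_add (Q K) y x
      rwa [c _ (add_mem j i), c x i, c y j, zero_add, zero_add, eq_comm] at this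
    rw [perp_perp (nd_Q h2)] at l
    have a := Submodule.finrank_mono l
    have b := finrank_add_finrank_perp (nd_Q h2) (K ∙ β w (one K))
    have c := finrank_span_le_card (R := K) {β w (one K)}
    rw [finrank_V] at b
    simp only [Set.toFinset_singleton, Finset.card_singleton] at c
    omega
  rw [mem_perp_singleton, p, gam_apply, omul_one] at m
  have n' : nm (jv b) ≠ 0 := by rwa [nm_jv, neg_ne_zero]
  have e : w = gam (pv ((nm (jv b))⁻¹ • w ⋆ cj (jv b))) (gam b (one K)) := by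
    rw [gam_apply, gam_apply, omul_one, jv_pv (by rw [smul_omul, map_smul, tr_omul_cj, m, smul_zero]), rd_cancel,
      smul_comm, inv_smul_smul₀ n']
  refine ⟨_, b, fun z => h0 ?_, n, e⟩
  rw [e, ← N_apply, N_gam, z, neg_zero, zero_mul]

theorem rd_comm {U : Type*} [AddCommGroup U] [Module K U] {q : QuadraticForm K U} {L : Subgroup (O q)} {v : U}
    (h : ∀ g ∈ L, g.1 v ∈ K ∙ v) : ⁅L, L⁆ ≤ stabV v := Subgroup.commutator_le.2 fun a i b j => by
  obtain ⟨c, e⟩ := Submodule.mem_span_singleton.1 (h _ (inv_mem i))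
  obtain ⟨d, f⟩ := Submodule.mem_span_singleton.1 (h _ (inv_mem j))
  rw [mem_stabV, commutatorElement_def, O.mul_apply, O.mul_apply, O.mul_apply, ← f, map_smul, ← e, smul_comm, f, map_smul,
    O.apply_inv_apply, e, O.apply_inv_apply]

variable (K) in
/-- The image of the stabiliser of a vector of the spin module. -/
def rdY (w : W K) : Subgroup (O (Q K)) := ((stabV w).comap act).map phi

theorem rd_conj {a : V K} (ha : Q K a ≠ 0) (w : W K) : rdY K (gam a w) ≤ (rdY K w).map (MulAut.conj (refl (Q K) a)).toMonoidHom := by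
  rintro _ ⟨s, m, rfl⟩
  refine ⟨_, ⟨⟨(O.ofLinear nd_N ((Q K a)⁻¹ • gam a ∘ₗ (act s).1.toLinearMap ∘ₗ gam a) fun x => ?_,
    refl _ a * phi s * refl _ a), fun v x => ?_⟩, ?_, rfl⟩, ?_⟩
  · change N K ((Q K a)⁻¹ • gam a ((act s).1 (gam a x))) = _
    rw [Q_smul, N_gam, O.map_Q, N_gam]; field_simp
  · change (Q K a)⁻¹ • gam a ((act s).1 (gam a (gam v x))) =
      gam ((refl _ a).1 ((phi s).1 ((refl _ a).1 v))) ((Q K a)⁻¹ • gam a ((act s).1 (gam a x)))
    rw [gam_refl ha v, map_neg, act_gam, map_neg, gam_refl ha, neg_neg, map_smul]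
  · change (Q K a)⁻¹ • gam a ((act s).1 (gam a w)) = w
    rw [mem_stabV.1 m, gam_gam, inv_smul_smul₀ ha]
  · change refl _ a * (refl _ a * phi s * refl _ a) * (refl _ a)⁻¹ = _
    rw [← mul_assoc, ← mul_assoc, refl_mul_self, one_mul, mul_inv_cancel_right]

end K

/-- `P̂ = P.comap phi ≤ Spin F` maps onto `P` (`exists_lift_fin`); `S = ⁅P̂, P̂⁆` maps onto `P` (perfect).  Over `K`, `exists_line` gives a non-singular line on which `P̂` acts by signs, so `S` fixes a vector `≠ 0`; `exists_fix_bcW` gives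
`w ≠ 0` over `F`, non-singular (`line_unique` over `K`).  Lifts of `h ∈ H` normalise `S`, so fix the line `F w`, and act on it by `± 1` (norm): every `h ∈ H` has a lift fixing `w`.  With `w = gam a (gam b one)` conjugation by `gam a gam b` (on `W`) and `k = refl a * refl b` (on `V`) normalises `Spin F`:
`k⁻¹ h k` has a lift fixing `one`, so lies in `Y₀`, the image of the injective map `phi ∘ g2 : G2 F → O (Q F)` (`exists_g2`, `exists_g2_of_fix`).  `Y₀ ≤ Ω` as `G2 F` is simple (S1055, `nonempty_chev_equiv`, `|F| ≥ 3`), so perfect.  `H ≤ Y = k Y₀ k⁻¹ ≤ Ω`.  `Ω ≤ Y` would give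
`Ω ≤ Y₀`, which is false since `refl u * refl v` (`u ⊥ v`, `Q u = Q v = 1`) lies in `Ω` and its lifts square to `ng`, so fix no vector.  Hence `Y ≤ H`, `H = Y` is simple and `P = H`. -/
theorem Core.g2 (h : Core P) (m : Mx H P) {K : Type*} [Field K] [IsAlgClosed K] (ι : F →+* K) (hV : Irr (P.map (bc ι)))
    (hW : ¬ Irr (hatW (P.map (bc ι)))) : Nonempty (P ≃* Lie.G2 F) := by
  have h2 := h.two
  have hs := h.simple
  have pf : ⁅P, P⁆ = P := by
    rw [← Subgroup.map_subtype_commutator, (hs.eq_bot_or_eq_top_of_normal (commutator P) inferInstance).resolve_left fun e =>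
      h.nab (IsMulCommutative.of_comm fun a b => commutatorElement_eq_one_iff_mul_comm.1
        (e.le (Subgroup.commutator_mem_commutator trivial trivial))), ← MonoidHom.range_eq_map, Subgroup.range_subtype]
  have e₁ : (P.comap phi).map phi = P := Subgroup.map_comap_eq_self fun g i => exists_lift_fin h2 (h.le i)
  have e₂ : ⁅P.comap phi, P.comap phi⁆.map phi = P := by rw [Subgroup.map_commutator, e₁, pf]
  generalize hS : ⁅P.comap phi, P.comap phi⁆ = S at e₂
  obtain ⟨f, hf⟩ := exists_bcS ι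
  have h2' : (2 : K) ≠ 0 := by rw [← map_ofNat ι 2]; exact (map_ne_zero ι).2 h2
  obtain ⟨w₀, n₀, hw₀⟩ := exists_line h2' (by
    rintro _ ⟨g, i, rfl⟩
    obtain ⟨s, rfl⟩ := exists_lift_fin h2 (h.le i)
    exact ⟨f s, (hf s).1⟩) hV hW
  have k₀ : ∀ s ∈ S.map f, (act s).1 w₀ = w₀ := fun s i => rd_comm (L := hatW (P.map (bc ι))) hw₀ (by
    have l : ((P.comap phi).map f).map act ≤ hatW (P.map (bc ι)) := by
      rintro _ ⟨_, ⟨s, i, rfl⟩, rfl⟩
      exact act_mem_hatW ⟨_, i, (hf s).1.symm⟩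
    refine Subgroup.commutator_mono l l ?_
    rw [← Subgroup.map_commutator, ← Subgroup.map_commutator, hS]
    exact ⟨s, i, rfl⟩)
  obtain ⟨w, w0, hw⟩ := exists_fix_bcW ι (M := S.map act) (v := w₀) (fun e => n₀ (by rw [e, nm_zero])) (by
    rintro _ ⟨s, i, rfl⟩
    exact (hf s).2 ▸ k₀ _ ⟨s, i, rfl⟩)
  replace hw : ∀ s ∈ S, (act s).1 w = w := fun s i => hw _ ⟨s, i, rfl⟩
  have n : nm w ≠ 0 := fun z => by
    obtain ⟨c, e⟩ := Submodule.mem_span_singleton.1 (line_unique h2' hV (S := S.map f) (w' := ι ∘ w) (by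
      rintro _ ⟨g, i, rfl⟩
      obtain ⟨s, j, rfl⟩ := e₂.ge i
      exact ⟨_, ⟨s, j, rfl⟩, (hf s).1⟩) n₀ k₀ (by
      rintro _ ⟨s, i, rfl⟩
      rw [(hf s).2, bcW_apply, hw s i]))
    have := nm_comp w ι
    rw [z, map_zero, ← e, nm_smul, mul_eq_zero, pow_eq_zero_iff two_ne_zero] at this
    rw [this.resolve_right n₀, zero_smul] at e
    exact w0 (funext fun i => (map_eq_zero ι).1 (congrFun e i).symm)
  have l₁ : H ≤ rdY F w := fun g i => by
    obtain ⟨s, rfl⟩ := exists_lift_fin h2 (m.le i)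
    have l : (P.comap phi).map (MulAut.conj s⁻¹).toMonoidHom ≤ P.comap phi := by
      rintro _ ⟨x, j, rfl⟩
      simpa using m.norm _ (inv_mem i) _ j
    obtain ⟨c, e⟩ := Submodule.mem_span_singleton.1 (line_unique h2 h.irr e₂.ge n hw (w' := (act s).1 w) fun u j => by
      have := hw (s⁻¹ * u * s⁻¹⁻¹) (hS ▸ Subgroup.commutator_mono l l (by rw [← Subgroup.map_commutator, hS]; exact ⟨u, j, rfl⟩))
      rwa [inv_inv, map_mul, map_mul, map_inv, O.mul_apply, O.mul_apply, O.inv_apply_eq] at this)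
    have := O.map_Q (act s) w
    rw [← e, Q_smul, N_apply, mul_eq_right₀ n, pow_two, mul_self_eq_one_iff] at this
    rcases this with rfl | rfl
    · exact ⟨s, e.symm.trans (one_smul ..), rfl⟩
    · exact ⟨ng F * s, show (act (ng F * s)).1 w = w by
        rw [map_mul, O.mul_apply, act_ng_apply, ← e, neg_one_smul, neg_neg],
        by rw [map_mul, phi_ng, one_mul]⟩
  obtain ⟨a, b, ha, hb, rfl⟩ := exists_gam_gam h2 n
  obtain ⟨g2, g1, -⟩ := exists_g2 (K := F)
  let κ := MulAut.conj (refl (Q F) a) * MulAut.conj (refl (Q F) b)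
  let ψ := κ.toMonoidHom.comp (phi.comp g2)
  have l₂ : H ≤ ψ.range := fun g i => by
    obtain ⟨_, j, rfl⟩ := rd_conj ha _ (l₁ i)
    obtain ⟨_, ⟨s, k, rfl⟩, rfl⟩ := rd_conj hb _ j
    obtain ⟨g, e⟩ := exists_g2_of_fix h2 k
    exact ⟨g, by rw [show s = g2 g from act_injective (O.ext fun w => (e w).trans (g1 g w).symm)]; rfl⟩
  obtain ⟨ε⟩ := nonempty_chev_equiv (F := F)
  obtain ⟨s₁, s₂⟩ := Agent.S1055.result (F := F) ⟨-1, neg_ne_zero.2 one_ne_zero, fun e => h2 (by linear_combination -e)⟩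
  have sG := ε.symm.isSimpleGroup
  have l₃ : ψ.range ≤ commutator (O (Q F)) := by
    rw [MonoidHom.range_eq_map, ← (sG.eq_bot_or_eq_top_of_normal (commutator _) inferInstance).resolve_left fun e =>
      s₂ (IsMulCommutative.of_comm fun a b => ε.injective (by
        rw [map_mul, map_mul]
        exact commutatorElement_eq_one_iff_mul_comm.1 (e.le (Subgroup.commutator_mem_commutator trivial trivial)))),
      commutator_def, Subgroup.map_commutator]
    exact Subgroup.commutator_mono le_top le_top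
  have l₄ : ψ.range ≤ H := (m.max _ l₂ l₃).resolve_right fun l => by
    have q₁ : Q F (sU F) = 1 := by simp [qOdd_apply]
    have q₂ : Q F (sX F 0 + sY F 0) = 1 := by simp [qOdd_apply, Fin.sum_univ_three]
    obtain ⟨g, e⟩ := l ((mem_commutator_equiv κ).2 (refl_mul_refl_mem_commutator' (nd_Q h2) (q₁ ▸ one_ne_zero) (q₂ ▸ one_ne_zero)
      (by rw [q₁, q₂])))
    obtain ⟨s, i, j⟩ := exists_refl_refl (c := 1) (q₁ ▸ one_ne_zero) (q₂ ▸ one_ne_zero) (by rw [q₁, q₂, one_pow, one_mul])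
    have k := g1 g (one F)
    rw [smul_one'] at k
    rcases phi_eq_iff.1 ((κ.injective e).trans i.symm) with c | c <;> rw [c] at k
    · rw [j] at k
      simpa [gam_apply, mul_eq, jv_apply, Oct.mk, Oct.one] using congrFun k 0
    · rw [map_mul, O.mul_apply, act_ng_apply, j] at k
      simpa [gam_apply, mul_eq, jv_apply, Oct.mk, Oct.one] using congrFun k 0
  have nt : ¬ P ≤ ⊥ := fun e => h.nab (by rw [le_bot_iff.1 e]; infer_instance)
  have l₅ := m.sub.trans l₂
  have inj : Function.Injective ψ := ψ.ker_eq_bot_iff.1 ((sG.eq_bot_or_eq_top_of_normal _ inferInstance).resolve_right fun e =>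
    nt fun x i => by obtain ⟨g, rfl⟩ := l₅ i; exact e.ge (Subgroup.mem_top g))
  have e : P.comap ψ = ⊤ := (sG.eq_bot_or_eq_top_of_normal _ ⟨fun x i g => by
    simpa using m.norm _ (l₄ ⟨g, rfl⟩) _ i⟩).resolve_left fun e => nt fun x i => by
      obtain ⟨g, rfl⟩ := l₅ i
      rw [Subgroup.mem_bot.1 (e.le i), map_one]; exact one_mem _
  exact ⟨(MulEquiv.subgroupCongr (le_antisymm l₅ (by rintro _ ⟨g, rfl⟩; exact e.ge (Subgroup.mem_top g)))).trans
    (MonoidHom.ofInjective inj).symm⟩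

end Cfsg.Lib.O7
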