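import Cfsg.Agent.Lib.O7.Tri
import Cfsg.Agent.Lib.O7.T1
import Cfsg.Agent.Lib.Ree.Inst
import Cfsg.Agent.Lib.Ree.Quarter
import Cfsg.Agent.Lib.BS.Cor
import Cfsg.Agent.S1116
import Cfsg.Agent.S2113

/-!
# The Ree groups (BRANCH STUB of `docs/O7.md`; the filler may add files `O7/Ree1 ...` and imports)
-/

set_option autoImplicit false

namespace Cfsg.Lib.O7

open QuadraticMap Module Matrix Cfsg.Lib.Orth
open scoped MatrixGroups

section Abs

open Cfsg.Lib.PSL2 Cfsg.Lib.Ree Subgroup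

variable {E G : Type*} [Field E] [Finite E] [Group G] (R : Ree.Model E G)

/-- An overgroup of `C(a)` fusing a four-group is the whole group (Bender-Suzuki). -/
theorem ree_top (hq : 27 ≤ Nat.card E) {t : PSL(2, E)} (ht : orderOf t = 2) {Y : Subgroup G} (hC : centralizer {R.a} ≤ Y)
    (hV : ∀ v ∈ R.ext (zpowers t), v ≠ 1 → ∃ y ∈ Y, y * v * y⁻¹ = R.a) : Y = ⊤ := by
  have := R.finite
  have := R.simple (by omega)
  by_contra n
  have aY : R.a ∈ Y := hC (mem_centralizer_singleton_iff.2 rfl)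
  have key : ∀ u ∈ Y, orderOf u = 2 → ∃ y ∈ Y, y * u * y⁻¹ = R.a := fun u m o => by
    obtain ⟨y, hy⟩ := exists_conj_mem (p := 2) (A := (centralizer {R.a}).subgroupOf Y) (x := ⟨u, m⟩) (k := 1)
      (fun d => R.odd_index_centralizer_a (d.trans (relIndex_dvd_index_of_le hC)))
      (Subtype.ext (by simpa using o ▸ pow_orderOf_eq_one u))
    obtain ⟨s, hs⟩ := R.mem_centralizer_a.1 (show y.1 * u * y.1⁻¹ ∈ _ from hy)
    have o' : orderOf (y.1 * u * y.1⁻¹) = 2 := (Ree.orderOf_conj _ _).trans o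
    have s2 := R.θ_eq_one.1 ((R.mul_self_eq hs).symm.trans (Inv.mul_self_of_orderOf o'))
    obtain ⟨c, hc⟩ : ∃ c, c * s * c⁻¹ ∈ zpowers t := by
      by_cases s1 : s = 1
      · exact ⟨1, by simp [s1]⟩
      · obtain ⟨c, e⟩ := isConj_iff.1 (R.isConj_psl (orderOf_eq_prime ((sq s).trans s2) s1) ht)
        exact ⟨c, e ▸ mem_zpowers t⟩
    obtain ⟨z, mz, ez⟩ := hV (R.θ c * (y.1 * u * y.1⁻¹) * (R.θ c)⁻¹) (R.mem_ext.2 ⟨_, hc, hs.imp (fun e => by simp [e])
      fun e => by rw [e, ← mul_assoc, R.θ_mul_a]; simp [mul_assoc]⟩) (Inv.conj_ne_one (Inv.ne_one_of_orderOf o'))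
    exact ⟨z * R.θ c * y.1, mul_mem (mul_mem mz (hC (R.mem_centralizer_a.2 ⟨c, .inl rfl⟩))) y.2, by rw [← ez]; group⟩
  have se : IsStronglyEmbedded Y := Inv.se_iff.2 ⟨n, even_iff_two_dvd.2 (R.orderOf_a ▸ orderOf_dvd_natCard _ aY),
    fun u g o m m' => by
      obtain ⟨y, my, e⟩ := key u m o
      obtain ⟨z, mz, e'⟩ := key _ m' ((Ree.orderOf_conj _ _).trans o)
      have := hC (show z * g * y⁻¹ ∈ centralizer {R.a} from mem_centralizer_singleton_iff.2 (by
        nth_rw 1 [← e]; rw [← e']; group))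
      simpa using mul_mem (inv_mem mz) (mul_mem this my)⟩
  obtain ⟨Q, D, w, ro⟩ := BS.exists_ro_simple se
  obtain ⟨S, rfl⟩ := BS.RO.exists_sylow_eq ro (BS.rk2_of_se se)
  have l := card_le_of_le (hC.trans ro.norm)
  rw [(R.sylow_two (by omega) S).2, R.card_centralizer_a] at l
  have := Nat.mul_le_mul hq (Nat.sub_le_sub_right (Nat.pow_le_pow_left hq 2) 1)
  omega

theorem ree_data (hq : 27 ≤ Nat.card E) : ∃ (A : Subgroup G) (s r : G), r ^ 3 = 1 ∧ r * R.a * r⁻¹ = s ∧ r * s * r⁻¹ = R.a * s ∧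
    Commute R.a s ∧ closure (Set.range R.φ ∪ {r}) = ⊤ ∧ IsCyclic A ∧ Nat.card A = (Nat.card E + 1) / 4 ∧ A ≤ R.φ.range ∧
    ∀ x ∈ A, ∃ y, Commute y R.a ∧ Commute y s ∧ x = y * r * y⁻¹ * r⁻¹ := by
  have := R.finite
  have hm := R.card_mod
  obtain ⟨T, t, ht, c1, c2, c3, c4, c5⟩ := R.exists_torQ (by omega)
  have hW := R.isKleinFour_ext ht
  have aV := R.a_mem_ext (zpowers t)
  have : Fact (Nat.Prime 3) := ⟨Nat.prime_three⟩
  obtain ⟨⟨r, rN⟩, o⟩ := exists_prime_orderOf_dvd_card' (G := T.N) 3 (by rw [c3]; omega)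
  rw [orderOf_mk] at o
  have r3 : r ^ 3 = 1 := o ▸ pow_orderOf_eq_one r
  have cj : ∀ v ∈ R.ext (zpowers t), r * v * r⁻¹ ∈ R.ext (zpowers t) := fun v => Inv.conj_mem_of_mem_normalizer (c4 ▸ rN)
  have ra : r * R.a * r⁻¹ ≠ R.a := fun e => by
    have h1 : {y | ∃ n ∈ T.N, n * R.a * n⁻¹ = y} = {x | x ∈ R.ext (zpowers t) ∧ x ≠ 1} := by
      rw [c4]
      ext y
      constructor
      · rintro ⟨n, hn, rfl⟩
        exact ⟨Inv.conj_mem_of_mem_normalizer hn aV, Inv.conj_ne_one R.a_ne_one⟩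
      · rintro ⟨h1, h2⟩
        obtain ⟨n, h3, h4⟩ := R.exists_conj_four (by omega) ht hW h1 h2
        exact ⟨n⁻¹, inv_mem (Transfer.conj_eq_self_iff.1 h4), by rw [← h3]; group⟩
    have h2 := card_eq_ncard_mul T.N R.a
    rw [h1, ← Nat.card_coe_set_eq, c3] at h2
    replace h2 := h2.trans (congrArg (· * _) (Inv.k4_card_ne_one hW))
    have := o ▸ orderOf_dvd_natCard (T.N ⊓ centralizer {R.a}) (x := r)
      ⟨rN, mem_centralizer_singleton_iff.2 (mul_inv_eq_iff_eq_mul.1 e)⟩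
    omega
  have sV := cj _ aV
  have s1 : r * R.a * r⁻¹ ≠ 1 := Inv.conj_ne_one R.a_ne_one
  have rs : r * (r * R.a * r⁻¹) * r⁻¹ = R.a * (r * R.a * r⁻¹) := Inv.k4_eq_mul hW aV sV (cj _ sV) R.a_ne_one s1 ra.symm
    (Inv.conj_ne_one s1) (fun e => ra (by
      calc r * R.a * r⁻¹ = r * (r * (r * R.a * r⁻¹) * r⁻¹) * r⁻¹ := by rw [e]
        _ = r ^ 3 * R.a * (r ^ 3)⁻¹ := by rw [pow_three, _root_.mul_inv_rev, _root_.mul_inv_rev]; simp only [mul_assoc]
        _ = R.a := by rw [r3]; group)) fun e => ra (mul_left_cancel (mul_right_cancel e))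
  have cA : ∀ x ∈ T.A, ∀ v ∈ R.ext (zpowers t), Commute x v := fun x m v mv => T.comm _ (T.A_le m) _ ((c5 v).1 mv).1
  refine ⟨T.A, _, r, r3, rfl, rs, Inv.k4_comm hW aV sV, ?_, T.cyc, c2, fun x m => ?_, fun x m => ?_⟩
  · set Y := closure (Set.range R.φ ∪ {r})
    have rY : r ∈ Y := subset_closure (.inr rfl)
    have θY : ∀ z, R.θ z ∈ Y := fun z => by
      obtain ⟨z, rfl⟩ := toL_surjective z
      exact subset_closure (.inl ⟨z, rfl⟩)
    have sY : r * R.a * r⁻¹ ∈ Y := by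
      obtain ⟨z, -, e | e⟩ := R.mem_ext.1 sV
      · exact e ▸ θY z
      · have := mul_mem (mul_mem (inv_mem rY) (θY z)) rY
        rwa [← one_mul (R.θ z), ← R.a_mul_a, mul_assoc R.a, ← e, ← rs, mul_assoc, inv_mul_cancel_right,
          inv_mul_cancel_left] at this
    have aY : R.a ∈ Y := by simpa [mul_assoc] using mul_mem (mul_mem (inv_mem rY) sY) rY
    refine ree_top R hq ht (fun g m => ?_) fun v m v1 => ?_
    · obtain ⟨z, rfl | rfl⟩ := R.mem_centralizer_a.1 m
      exacts [θY z, mul_mem aY (θY z)]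
    by_cases e1 : v = R.a
    · exact ⟨1, one_mem _, by simp [e1]⟩
    by_cases e2 : v = r * R.a * r⁻¹
    · exact ⟨r⁻¹, inv_mem rY, by rw [e2]; group⟩
    exact ⟨r⁻¹ * r⁻¹, mul_mem (inv_mem rY) (inv_mem rY), by
      rw [Inv.k4_eq_mul hW aV sV m R.a_ne_one s1 ra.symm v1 e1 e2, ← rs]; group⟩
  · obtain ⟨z, e⟩ := R.mem_centralizer_a.1 (mem_centralizer_singleton_iff.2 (cA x m _ aV).eq)
    obtain ⟨z, rfl⟩ := toL_surjective z
    exact ⟨z, (R.eq_θ_of_odd e ((T.mem_A x).1 m).2).symm⟩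
  · let g : T.A → T.A := fun y => ⟨y.1 * r * y.1⁻¹ * r⁻¹, by
      simpa only [mul_assoc] using mul_mem y.2 (Inv.conj_mem_of_mem_normalizer (T.normalizer_A_aux rN) (inv_mem y.2))⟩
    obtain ⟨y, e⟩ := Finite.surjective_of_injective (f := g) (fun y z e => by
      by_contra n
      have e1 : y.1 * r * y.1⁻¹ = z.1 * r * z.1⁻¹ := mul_right_cancel (congrArg Subtype.val e :)
      have := T.cent_A (mul_mem (inv_mem z.2) y.2) fun e => n (Subtype.ext (inv_mul_eq_one.1 e).symm)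
      have := o ▸ c1 ▸ orderOf_dvd_natCard T.T (x := r) (this ▸ mem_centralizer_singleton_iff.2 (by
        calc r * (z.1⁻¹ * y.1) = z.1⁻¹ * (z.1 * r * z.1⁻¹) * y.1 := by group
          _ = _ := by rw [← e1]; group))
      omega) ⟨x, m⟩
    exact ⟨y, cA _ y.2 _ aV, cA _ y.2 _ sV, (congrArg Subtype.val e).symm⟩

theorem ree_big (hq : 27 ≤ Nat.card E) {A : Subgroup G} (c : IsCyclic A) (hA : Nat.card A = (Nat.card E + 1) / 4)
    (l : A ≤ R.φ.range) : Big (A.comap R.φ : Set SL(2, E)) := by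
  have := R.finite
  have hm := R.card_mod
  have k1 : ∀ {g}, R.φ g = 1 ↔ g = 1 ∨ g = -1 := fun {g} => by rw [← R.θ_toL, R.θ_eq_one, toL_eq_one_iff]
  refine ⟨fun k hk => ?_, ?_⟩
  · by_contra n
    obtain ⟨d, d2, e⟩ := card_subfield n
    have h1 := gen_tr R.two_ne_zero' (H := A.comap R.φ) (fun a ma b mb => congrArg Subtype.val
      (((R.φ.subgroupComap A).isMulCommutative_of_isCyclic_of_ker_le_center fun g m => mem_center_iff.2 fun x => Subtype.ext (by
        rcases k1.1 (congrArg Subtype.val m :) with e | e <;> simp [e])).is_comm.comm ⟨a, ma⟩ ⟨b, mb⟩)) (fun g m t => k1.1 ?_) hk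
    · have h2 := Nat.card_le_card_of_surjective (R.φ.subgroupComap A) fun x =>
        let ⟨g, e⟩ := l x.2; ⟨⟨g, (e ▸ x.2 : R.φ g ∈ A)⟩, Subtype.ext e⟩
      have h3 : Nat.card k ^ 2 ≤ Nat.card E := e ▸ Nat.pow_le_pow_right Nat.card_pos d2
      have h4 : Nat.card k < 8 := by nlinarith [show Nat.card E + 1 ≤ 8 * Nat.card k by omega]
      have h5 : d < 3 := (Nat.pow_lt_pow_iff_right (by norm_num : 1 < 4)).1
        ((Nat.pow_le_pow_left (by omega : 4 ≤ Nat.card k) d).trans_lt (by omega))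
      obtain rfl : d = 2 := by omega
      generalize Nat.card k = x at *
      interval_cases x <;> omega
    · have h3 : R.φ g ^ 3 = 1 := by
        have d := sl_det g
        have m : ∀ (X Y : SL(2, E)) i j, (X * Y) i j = X i 0 * Y 0 j + X i 1 * Y 1 j := fun X Y i j =>
          (mul_apply (M := X.1) (N := Y.1)).trans (Fin.sum_univ_two _)
        rw [trace_fin_two] at t
        have c3 := R.three
        rw [← map_pow, k1, pow_three]
        refine (sq_eq_sq_iff_eq_or_eq_neg.1 (t.trans (show (4 : E) = 2 ^ 2 by norm_num))).imp (fun e => ?_) fun e => ?_ <;>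
          refine sl_ext ?_ ?_ ?_ ?_ <;> simp only [m] <;> simp <;> grind
      refine orderOf_eq_one_iff.1 (((Nat.dvd_prime Nat.prime_three).1 (orderOf_dvd_of_pow_eq_one h3)).resolve_right fun d => ?_)
      have := hA ▸ d ▸ orderOf_dvd_natCard A m
      omega
  · obtain ⟨x, m, x1⟩ := A.bot_or_exists_ne_one.resolve_left (by rintro rfl; rw [card_bot] at hA; omega)
    obtain ⟨g, rfl⟩ := l m
    exact ⟨g, m, not_or.1 (mt k1.2 x1)⟩

end Abs

variable {K : Type*} [Field K] [IsAlgClosed K] {M : Subgroup (O (Q K))} (p : ℕ) [Fact p.Prime] [CharP K p]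

set_option linter.unusedSectionVars false in
include p in
/-- `q = 3^(2m+1) ≥ 27`; use S1152 (`C(t) ≅ 2 × L₂(q)`, Sylow 2-subgroups `S = E₈`), S1157 (`C(S) = S`, `|N(S)| = 168`), S1159 (orders), S1156, S2113, Lib.Ree, Lib.ReeU, Lib.R2.
Characteristic: `L₂(q) ≤ M`: `t1_pow` as in `no_L2_cross` (`q - 1 ∤ 8, 12`) gives `p = 3`.  All involutions are conjugate (`N(S)/S` of order 21 acts faithfully on `S`), of type four (`Pre.dm_of_eight`).
`f : SL(2, E) → L = C(t)'`; `s = f wS`, `S ⊇ F = ⟨t, s⟩`; `r ∈ N(S)` of order three with `t → s → t s` or `t → t s → s` (all four-subgroups of `S` are normalised by an element of order three of `N(S)`, which acts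
non-trivially on exactly one four-group and `7` permutes these).  `R` = odd part of `C_L(s) = D_{q+1}`, cyclic of order `(q+1)/4`, is `O(C(F))`, so normalised by `r`, with `C_R(r) = 1` (no element of order `3 k`, `k > 2`: S1159): `R = [R, r] ≤ Cm`.
`H` = preimage of `R` of odd order `(q+1)/4`: `Big H` by `gen_tr`, `card_subfield` (`d` is odd, so `≥ 3`: `2 |k| < (q+1)/4`).
Generation: `Y = ⟨L, r⟩ ∋ s, t`, so `Y > C(t)`, and `C(t)` is maximal (search the library; else: `Y ⊇ C(t)`, `Y ⊇ N(S)` as `S : 3` (the `3` in `L`) is maximal in `N(S)` and `r` does not centralise `t`; so `Y` has one class of involutions and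
contains the centraliser of each of them, and `N(S)`: `Y = M` or `Y` is strongly embedded (S0223), and S0222 with `|S| = 8` gives `M ≅ L₂(8)`, of order `504 ≠ |M|` (S1069)).  Then `Rep.ree`. -/
theorem Rep.no_Ree (h : Rep M) (e : Lie.IsoRee M) : False := by
  obtain ⟨E, _, _, m, hm, hE, ⟨e⟩⟩ := e
  obtain ⟨R, -⟩ := Ree.exists_model hE
  have := R.finite
  have := h.fin
  have := R.charP
  have : Fact (Nat.Prime 3) := ⟨Nat.prime_three⟩
  have hE' := Nat.card_eq_fintype_card.trans hE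
  have hq : 27 ≤ Nat.card E := hE' ▸ Nat.pow_le_pow_right (n := 3) (i := 3) three_pos (by omega)
  have i := emb_injective e
  have c3 : (3 : K) = 0 := by
    by_contra n
    let u : Multiplicative (E × E) →* _ := .mk' (fun x => R.u 0 x.toAdd.1 x.toAdd.2) fun x y => (R.u_mul_zero ..).symm
    have c : Nat.card ((emb e).comp u).range = 3 ^ (2 * m + 1) * 3 ^ (2 * m + 1) := by
      rw [← Nat.card_congr (MonoidHom.ofInjective (f := (emb e).comp u) fun x y e =>
          Prod.ext (R.u_inj.1 (i e)).2.1 (R.u_inj.1 (i e)).2.2).toEquiv,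
        Nat.card_congr Multiplicative.toAdd, Nat.card_prod, hE']
    have : Finite ((emb e).comp u).range := Nat.finite_of_card_ne_zero (by rw [c]; positivity)
    have := t1_rank h.two (A := ((emb e).comp u).range) (by
      rintro _ ⟨x, rfl⟩ _ ⟨y, rfl⟩; rw [← map_mul, ← map_mul, mul_comm]) (by rw [c]; exact (Odd.pow (by decide)).mul (Odd.pow (by decide)))
      (by rw [c]; push_cast; exact mul_ne_zero (pow_ne_zero _ n) (pow_ne_zero _ n)) three_pos (by
        rintro _ ⟨x, rfl⟩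
        exact (map_pow (emb e) _ _).symm.trans ((congrArg _ (R.u_pow_three_eq_one.2 rfl)).trans (map_one _)))
    rw [c, ← hE'] at this
    nlinarith
  have : CharP K 3 := (CharP.charP_iff_prime_eq_zero Nat.prime_three).2 c3
  have d4 : ∀ u, orderOf u = 2 → dm (emb e u) = 4 := by
    have k : ∀ u, orderOf u = 2 → dm (emb e u) = dm (emb e R.a) := fun u o =>
      dm_of_isConj ((emb e).map_isConj (R.isConj_a (by omega) o))
    obtain ⟨S, hS⟩ := Inv.exists_sylow_mem_of_mul_self R.a_mul_a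
    have k' : ∀ g ∈ S.1.map (emb e), g ≠ 1 → dm g = dm (emb e R.a) := by
      rintro _ ⟨u, m, rfl⟩ n
      exact k u (orderOf_eq_prime ((sq u).trans (R.mul_self_of_mem_sylow S m)) fun e => n (by rw [e, map_one]))
    exact fun u o => (k u o).trans (h.toPre.dm_of_eight (E := S.1.map (emb e)) (by rintro _ ⟨u, -, rfl⟩; exact emb_mem e u)
      (by rintro _ ⟨u, m, rfl⟩; rw [← map_mul, R.mul_self_of_mem_sylow S m, map_one])
      ((Subgroup.card_map_of_injective i).trans (R.card_sylow_two S))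
      (fun g m g' m' n n' => (k' g m n).trans (k' g' m' n').symm) _ ⟨_, hS, rfl⟩ ((map_ne_one_iff _ i).2 R.a_ne_one))
  obtain ⟨A, s, r, r3, ea, eb, c, gen, cy, cA, l, cm⟩ := ree_data R hq
  have rho : Rho (emb e R.a) (emb e s) (emb e r) := ⟨by rw [← map_pow, r3, map_one], by rw [← ea]; simp,
    by rw [← map_mul _ R.a, ← eb]; simp⟩
  have k1 : ∀ {g}, R.φ g = 1 ↔ g = 1 ∨ g = -1 := fun {g} => by rw [← R.θ_toL, R.θ_eq_one, PSL2.toL_eq_one_iff]
  refine h.ree 3 (by omega) (f := (emb e).comp R.φ) (emb_mem e _) (emb_mem e _)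
    (rho.four h.two (by rw [← map_mul, R.a_mul_a, map_one]) (c.map _) (d4 _ R.orderOf_a)) rho (fun g => emb_mem e _)
    (fun g => Commute.map (R.φ_mul_a g) _) ((congrArg (emb e) (k1.2 (.inr rfl))).trans (map_one _))
    (d4 _ (orderOf_eq_prime (by rw [pow_two, ← map_mul, wS_sq, k1.2 (.inr rfl)]) fun e => ?_)) (fun e => R.φ_ne_a _ (i e)) ?_
    (split_of h.toPre e (Agent.S1116.result hE hm) (Agent.S2113.result hm hE) odd_one) (ree_big R hq cy cA l) fun g m => ?_
  · rcases k1.1 e with e | e <;> simpa using congrArg (fun x : SL(2, E) => x 0 1) e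
  · refine (range_emb e).ge.trans (le_of_eq ?_)
    rw [MonoidHom.range_eq_map, ← gen, MonoidHom.map_closure, Set.image_union, Set.image_singleton,
      ← Set.range_comp]
    rfl
  · obtain ⟨y, c1, c2, e1⟩ := cm _ m
    exact Subgroup.subset_closure ⟨_, emb_mem e y, c1.map _, c2.map _, by
      rw [MonoidHom.comp_apply, e1, map_mul, map_mul, map_mul, map_inv, map_inv]⟩

end Cfsg.Lib.O7
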