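import Cfsg.Agent.Lib.O7.E7
import Cfsg.Agent.Lib.O7.T3
import Cfsg.Agent.Lib.Fi.Cox2

/-!
# `P` contains the negative of a reflection: `Sp₆(2)` (`docs/O7.md`)
-/

set_option autoImplicit false

namespace Cfsg.Lib.O7

open QuadraticMap Module Matrix Cfsg.Lib.Orth Cfsg.Lib.Sp4O

section Gen

variable {K U : Type*} [Field K] [AddCommGroup U] [Module K U] [FiniteDimensional K U] {q : QuadraticForm K U}

theorem rf_chi {x : U} (hx : q x = 1) (g : O q) : chi (refl q x * g) = chi g - polar q x (g.1 x) := by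
  have : ((refl q x * g).1 : U →ₗ[K] U) = (g.1 : U →ₗ[K] U) - (polarBilin q x ∘ₗ (g.1 : U →ₗ[K] U)).smulRight x :=
    LinearMap.ext fun w => by simp [refl_apply, hx]
  rw [chi, this, map_sub, LinearMap.trace_smulRight]; rfl

omit [FiniteDimensional K U] in
theorem rf_ind {Φ : Set U} {p : O q → Prop} (h1 : p 1) (h2 : ∀ x ∈ Φ, ∀ g, p g → p (refl q x * g)) {g : O q}
    (hg : g ∈ Subgroup.closure (refl q '' Φ)) : p g := by
  induction hg using Subgroup.closure_induction_left with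
  | one => exact h1
  | mul_left x hx y _ h => obtain ⟨a, ha, rfl⟩ := hx; exact h2 a ha y h
  | inv_mul_cancel x hx y _ h => obtain ⟨a, ha, rfl⟩ := hx; exact refl_inv (Q := q) a ▸ h2 a ha y h

/-- An involution with a one-dimensional fixed space is the negative of a reflection. -/
theorem rf_neg (hq : ND q) (h2 : (2 : K) ≠ 0) {t : O q} (ht : t * t = 1) (h1 : fx t = 1) :
    ∃ v, q v ≠ 0 ∧ t = O.neg q * refl q v := by
  obtain ⟨⟨v, hv⟩, v0, e⟩ := finrank_eq_one_iff'.1 h1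
  have a : ∀ w ∈ O.fix t, ∃ c : K, c • v = w := fun w hw =>
    (e ⟨w, hw⟩).imp fun c hc => congrArg Subtype.val hc
  have b : q v ≠ 0 := fun n => v0 (Subtype.ext (nd_restrict_iff.1 (nd_comm_inv hq h2 ht).2 v hv fun w hw => by
    obtain ⟨c, rfl⟩ := a w hw
    simp [n]))
  refine ⟨v, b, O.ext fun x => ?_⟩
  have c : x - ((2 * q v)⁻¹ * polar q v x) • v ∈ O.comm t := by
    rw [← O.perp_fix hq, mem_perp]
    intro w hw
    obtain ⟨c, rfl⟩ := a w hw
    rw [polar_smul_left', polar_sub_right, polar_smul_right', polar_self']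
    field_simp; ring
  rw [mem_comm_inv h2 ht, map_sub, map_smul, O.mem_fix.1 hv, sub_eq_iff_eq_add] at c
  rw [c, O.mul_apply, O.neg_apply, refl_apply, neg_sub, neg_sub, sub_add_eq_add_sub, ← add_smul]
  congr 2
  field_simp; ring

theorem rf_gen (hq : ND q) (h2 : (2 : K) ≠ 0) {P : Subgroup (O q)} (hs : IsSimpleGroup P) (hi : Irr P)
    (h1 : 1 < finrank K U) (hk : ∀ k : Subfield K, (∀ g ∈ P, chi g ∈ k) → k = ⊤) {v : U} (hv : q v = 1)
    (ht : O.neg q * refl q v ∈ P) : ∃ Φ : Set U, RK (Subgroup.closure (refl q '' Φ)) Φ ∧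
      O.neg q ∈ Subgroup.closure (refl q '' Φ) ∧ P ≤ Subgroup.closure (refl q '' Φ) ∧
      ∀ g ∈ Subgroup.closure (refl q '' Φ), g ∈ P ∨ O.neg q * g ∈ P := by
  let Φ : Set U := {x | ∃ g ∈ P, x = g.1 v ∨ x = -g.1 v}
  have cm : ∀ g : O q, g * O.neg q = O.neg q * g := Subgroup.mem_center_iff.1 neg_mem_center
  have hv' : v ∈ Φ := ⟨1, one_mem _, .inl rfl⟩
  have a2 : ∀ x ∈ Φ, O.neg q * refl q x ∈ P := by
    have : ∀ g ∈ P, O.neg q * refl q (g.1 v) ∈ P := fun g hg => by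
      have := mul_mem (mul_mem hg ht) (inv_mem hg)
      rwa [← mul_assoc, cm, mul_assoc, mul_assoc, ← mul_assoc g, conj_refl] at this
    rintro x ⟨g, hg, rfl | rfl⟩
    exacts [this g hg, (refl_neg (Q := q) _).symm ▸ this g hg]
  have a3 : ∀ a ∈ P, ∀ x ∈ Φ, a.1 x ∈ Φ ∧ -a.1 x ∈ Φ := by
    rintro a ha x ⟨b, hb, rfl | rfl⟩ <;>
      exact ⟨⟨a * b, mul_mem ha hb, by simp⟩, a * b, mul_mem ha hb, by simp⟩
  have a4 : ∀ g ∈ Subgroup.closure (refl q '' Φ), g ∈ P ∨ O.neg q * g ∈ P := fun g hg =>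
    rf_ind (p := fun g => g ∈ P ∨ O.neg q * g ∈ P) (.inl (one_mem _)) (fun x hx g h => by
      rcases h with h | h
      · exact .inr (mul_assoc (O.neg q) _ _ ▸ mul_mem (a2 x hx) h)
      · have := mul_mem (a2 x hx) h
        rw [← cm, mul_assoc, ← mul_assoc (O.neg q), Orth.neg_mul_neg, one_mul] at this
        exact .inl this) hg
  have m : ∀ x ∈ Φ, refl q x ∈ Subgroup.closure (refl q '' Φ) := fun x hx => Subgroup.subset_closure ⟨x, hx, rfl⟩
  have a5 : P ≤ Subgroup.closure (refl q '' Φ) := by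
    have n : ((Subgroup.closure (refl q '' Φ)).subgroupOf P).Normal := ⟨fun x hx g =>
      rf_ind (p := fun y => g.1 * y * g.1⁻¹ ∈ Subgroup.closure (refl q '' Φ)) (by simp) (fun y hy z hz => by
        have := mul_mem (m _ (a3 _ g.2 y hy).1) hz
        rw [← conj_refl] at this
        convert this using 1; group) hx⟩
    refine Subgroup.subgroupOf_eq_top.1 (n.eq_bot_or_eq_top.resolve_left fun e =>
      hi.not_line h1 (v := v) (fun e => by simp [e] at hv) fun g hg => ?_)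
    have b1 : refl q (g.1 v) * refl q v ∈ P := by
      have := mul_mem (a2 _ (a3 g hg v hv').1) ht
      rwa [← cm, mul_assoc, ← mul_assoc (O.neg q), Orth.neg_mul_neg, one_mul] at this
    have b2 : refl q (g.1 v) * refl q v = 1 := congrArg Subtype.val (Subgroup.mem_bot.1
      (e.le (x := ⟨_, b1⟩) (mul_mem (m _ (a3 g hg v hv').1) (m v hv'))))
    have b3 := refl_apply_self (Q := q) (v := g.1 v) (by simp [hv])
    rw [eq_inv_of_mul_eq_one_left b2, refl_inv, refl_apply, sub_eq_iff_eq_add, eq_neg_add_iff_add_eq,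
      ← two_smul K] at b3
    exact (Submodule.smul_mem_iff _ h2).1 (b3 ▸ Submodule.smul_mem _ _ (Submodule.mem_span_singleton_self v))
  have a7 : O.neg q ∈ Subgroup.closure (refl q '' Φ) := by
    have := mul_mem (a5 ht) (m v hv')
    rwa [mul_assoc, refl_mul_self, mul_one] at this
  have a8 : ∀ x ∈ Φ, q x = 1 := by rintro x ⟨a, -, rfl | rfl⟩ <;> simp [hv]
  have a9 : ∀ g ∈ Subgroup.closure (refl q '' Φ), ∀ x ∈ Φ, g.1 x ∈ Φ := fun g hg x hx => by
    rcases a4 g hg with b | b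
    exacts [(a3 g b x hx).1, by simpa [O.mul_apply] using (a3 _ b x hx).2]
  have a10 : ∀ u ∈ Φ, ∀ w ∈ Φ, ∃ g ∈ Subgroup.closure (refl q '' Φ), g.1 u = w := by
    have : ∀ u ∈ Φ, ∃ g ∈ Subgroup.closure (refl q '' Φ), g.1 v = u := by
      rintro _ ⟨a, ha, rfl | rfl⟩
      exacts [⟨_, a5 ha, rfl⟩, ⟨_, mul_mem a7 (a5 ha), rfl⟩]
    intro u hu w hw
    obtain ⟨g, hg, rfl⟩ := this u hu
    obtain ⟨g', hg', rfl⟩ := this w hw
    exact ⟨_, mul_mem hg' (inv_mem hg), by simp⟩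
  have a11 : ∀ x ∈ Φ, ∀ w ∈ Φ, (refl q x).1 w ∈ Φ := fun x hx => a9 _ (m x hx)
  refine ⟨Φ, ⟨hq, h2, a8, m, a9, fun M hM => hi M fun a ha =>
    rf_ind (p := fun g => ∀ w ∈ M, g.1 w ∈ M) (fun _ h => h) (fun x hx g hg w hw => ?_) (a5 ha),
    fun k hk' => ?_, a10⟩, a7, a5, a4⟩
  · rw [O.mul_apply]
    rcases hM x hx with b | b
    · rw [refl_apply]; exact sub_mem (hg w hw) (M.smul_mem _ b)
    · rw [refl_apply_of_perp (mem_perp'.1 b _ (hg w hw))]; exact hg w hw
  have H : RS (fun x y : Φ => polar q x.1 y.1) fun x w => ⟨(refl _ x.1).1 w.1, a11 _ x.2 _ w.2⟩ :=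
    ⟨fun x y => polar_comm _ _ _, fun x => by simp [a8 _ x.2], fun x w u => by
      simp [refl_apply, a8 _ x.2, polar_sub_left]⟩
  have b : ∀ x ∈ Φ, ∀ y ∈ Φ, polar q x y ∈ k := fun x hx y hy => by
    refine H.descent k.toSubring (fun x y a b c => ?_) (fun a b => ?_) (fun x y => hk' _ x.2 _ y.2)
      (fun v T hv hT w => ?_) ⟨x, hx⟩ ⟨y, hy⟩
    · simpa [b] using k.div_mem c (hk' _ x.2 _ y.2)
    · simpa [mul_div_cancel_left₀ a h2] using k.div_mem b (natCast_mem k 2)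
    · obtain ⟨g, hg, e⟩ := a10 _ v.2 _ w.2
      obtain ⟨u, hu, e'⟩ := rf_ind (p := fun g => ∃ u ∈ T, u.1 = g.1 v.1) ⟨v, hv, rfl⟩
        (fun x hx g ⟨u, hu, e⟩ => ⟨_, hT ⟨x, hx⟩ u hu, by rw [O.mul_apply, ← e]⟩) hg
      exact (Subtype.ext (e'.trans e) : u = w) ▸ hu
  refine hk k fun g hg => (rf_ind (p := fun g => g ∈ Subgroup.closure (refl q '' Φ) ∧ chi g ∈ k)
    ⟨one_mem _, ?_⟩ (fun x hx g h => ⟨mul_mem (m x hx) h.1, ?_⟩) (a5 hg)).2
  · rw [chi, show ((1 : O q).1 : U →ₗ[K] U) = LinearMap.id from rfl, LinearMap.trace_id]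
    exact natCast_mem k _
  · rw [rf_chi (a8 x hx)]
    exact sub_mem h.2 (b x hx _ (a9 g h.1 x hx))

omit [FiniteDimensional K U] in
theorem rf_mul {x y a b : O q} (hx : x = a ∨ x = O.neg q * a) (hy : y = b ∨ y = O.neg q * b) :
    x * y = a * b ∨ x * y = O.neg q * (a * b) := by
  have cm : ∀ g : O q, g * O.neg q = O.neg q * g := Subgroup.mem_center_iff.1 neg_mem_center
  rcases hx with rfl | rfl <;> rcases hy with rfl | rfl
  · exact .inl rfl
  · exact .inr (by rw [← mul_assoc, cm, mul_assoc])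
  · exact .inr (mul_assoc _ _ _)
  · exact .inl (by rw [← cm a, mul_assoc, ← mul_assoc (O.neg q), Orth.neg_mul_neg, one_mul])

end Gen

variable {F : Type*} [Field F] [Finite F] {P : Subgroup (O (Q F))}

/-- Model: Lib/Sp4O/CaseA.  `fix t = F v`, `δ = Q v ≠ 0`, `t = -refl v`.  Put `c = δ⁻¹`, transport by `O.congr (LinearEquiv.refl ..)`; `L = ± P`, `Φ = {± g v | g ∈ P}`.
`L₀ = ⟨refl Φ⟩ ⊴ L`; `L₀ ⊓ P ⊴ P` is not trivial (else the products `refl u * refl w ∈ P` are trivial, `F v` is invariant), so `P ≤ L₀`, `-1 = t * refl v ∈ L₀ = L`.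
`irr`: a subspace `X` with `Φ ⊆ X ∪ X^⊥` is invariant under all `refl w`.  `ns`: suppose all `polar²` lie in `k`.  For `w ∈ Φ` joined to `v` by a path of non-orthogonal roots let `λ w` be the product of the polar values along the path; `polar (refl a b) c ² ∈ k` gives
`polar a b * polar b c * polar c a ∈ k`; by `RS.descent`-type induction (shorten a cycle `a, b, c, d, ..` by replacing `b` with `refl b a`-images) all cyclic products lie in `k`.  The trace of a product of reflections `1 - polar w · w` is an integral combination of cyclic products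
(cf. `Sp4O.trace_mem_of_ev`, `OMax` reflection files); so `chi g ∈ k` on `P`, `Core.nosub`.  `π : L → P`, `g ↦ det g • g`.  `Ω ≤ L` would give `Ω ≤ P` (determinant one). -/
theorem Core.exists_RK (h : Core P) {t : O (Q F)} (ht : t ∈ P) (h2 : t * t = 1) (h6 : dm t = 6) :
    ∃ (c : F) (L : Subgroup (O (c • Q F))) (Φ : Set (V F)), RK L Φ ∧ L = Subgroup.closure (refl _ '' Φ) ∧
      O.neg _ ∈ L ∧ ¬ commutator (O (c • Q F)) ≤ L ∧ ∃ π : L →* P, Function.Surjective π := by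
  obtain ⟨v, hv, rfl⟩ := rf_neg (nd_Q h.two) h.two h2 (by have := dm_add_fx t; rw [finrank_V] at this; omega)
  have he : ∀ x, ((Q F v)⁻¹ • Q F) (LinearEquiv.refl F (V F) x) = (Q F v)⁻¹ * Q F x := fun _ => rfl
  let E := O.congr (LinearEquiv.refl F (V F)) (inv_ne_zero hv) he
  have E1 : ∀ g, E g ∈ P.map (E : O (Q F) →* _) ↔ g ∈ P := fun g => Subgroup.mem_map_iff_mem E.injective
  have E2 : E (O.neg _) = O.neg _ := O.congr_neg _ _ _
  have := h.simple
  obtain ⟨Φ, R, hn, h3, h4⟩ := rf_gen (nd_of_sim _ (inv_ne_zero hv) he (nd_Q h.two)) h.two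
    (P := P.map (E : O (Q F) →* _)) (E.subgroupMap P).symm.isSimpleGroup
    (fun X hX => h.irr X fun g hg => hX _ ((E1 g).2 hg)) (by simp)
    (fun k hk => h.nosub k fun g hg => hk _ ((E1 g).2 hg)) (v := v) (inv_mul_cancel₀ hv)
    ⟨_, ht, by rw [map_mul]; exact congrArg₂ _ E2 (O.congr_refl _ _ _ _)⟩
  have n1 : ∀ g ∈ commutator (O (Q F)), O.neg _ * g ∉ P := fun g hg n => by
    have := commutator_le_ker_det (mul_mem (h.le n) (inv_mem hg))
    rw [mul_inv_cancel_right, MonoidHom.mem_ker, Orth.det_neg, finrank_V, Units.ext_iff] at this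
    exact h.two (by simp at this; linear_combination -this)
  have h5 : ∀ g : Subgroup.closure (refl ((Q F v)⁻¹ • Q F) '' Φ), ∃ p : P, E.symm g = p ∨
      E.symm g = O.neg _ * p.1 := fun g => by
    rcases h4 g g.2 with b | b
    · exact ⟨⟨_, (E1 _).1 (by rwa [E.apply_symm_apply])⟩, .inl rfl⟩
    · exact ⟨⟨O.neg _ * E.symm g, (E1 _).1 (by rwa [map_mul, E2, E.apply_symm_apply])⟩,
        .inr (by rw [← mul_assoc, Orth.neg_mul_neg, one_mul])⟩
  choose f hf using h5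
  have u : ∀ g (p : P), E.symm g.1 = p ∨ E.symm g.1 = O.neg _ * p.1 → f g = p := fun g p hp => by
    rcases hf g with a | a <;> rcases hp with b | b
    · exact Subtype.ext (a.symm.trans b)
    · exact (n1 _ (h.le p.2) (a.symm.trans b ▸ (f g).2)).elim
    · exact (n1 _ (h.le (f g).2) (b.symm.trans a ▸ p.2)).elim
    · exact Subtype.ext (mul_left_cancel (a.symm.trans b))
  refine ⟨_, _, Φ, R, rfl, hn, fun n => h.ne fun g hg => ?_, MonoidHom.mk' f fun a b => u _ _ ?_,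
    fun p => ⟨⟨E p, h3 ((E1 _).2 p.2)⟩, u _ _ (.inl (E.symm_apply_apply _))⟩⟩
  · rcases hf ⟨E g, n ((mem_commutator_equiv E).2 hg)⟩ with a | a <;> rw [E.symm_apply_apply] at a
    · exact a ▸ Subtype.prop _
    · exact (n1 g hg (by rw [a, ← mul_assoc, Orth.neg_mul_neg, one_mul]; exact Subtype.prop _)).elim
  · exact (map_mul E.symm a.1 b.1).symm ▸ rf_mul (hf a) (hf b)

/-- The image of the second factor is normal, and not trivial since `X` is not abelian; `F2.simple_sp`. -/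
theorem iso_of_surj {X : Type*} [Group X] [IsSimpleGroup X] (hX : ¬ IsMulCommutative X)
    {f : Multiplicative (ZMod 2) × PSp 3 (ZMod 2) →* X} (hf : Function.Surjective f) :
    Nonempty (X ≃* PSp 3 (ZMod 2)) := by
  have : IsSimpleGroup (PSp 3 (ZMod 2)) :=
    Symp.isSimpleGroup_psp (Symp.commutator_sp_eq_top (F := ZMod 2) (l := Fin 3) (.inl (by simp)))
  let g := f.comp (MonoidHom.inr _ _)
  have n : g.range.Normal := ⟨by
    rintro _ ⟨a, rfl⟩ x
    obtain ⟨y, rfl⟩ := hf x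
    exact ⟨y.2 * a * y.2⁻¹, by
      rw [← map_inv, MonoidHom.comp_apply, MonoidHom.comp_apply, ← map_mul, ← map_mul]
      exact congrArg f (Prod.ext (by simp) rfl)⟩⟩
  have k : g.range ≠ ⊥ := fun e => hX ⟨⟨fun x y => by
    have a : ∀ z, f z = f (z.1, 1) := fun z => by
      have : f (1, z.2) = 1 := Subgroup.mem_bot.1 (e.le ⟨z.2, rfl⟩)
      rw [← mul_one (f (z.1, 1)), ← this, ← map_mul]; simp
    obtain ⟨x, rfl⟩ := hf x
    obtain ⟨y, rfl⟩ := hf y
    rw [a x, a y, ← map_mul, ← map_mul, Prod.mk_mul_mk, Prod.mk_mul_mk, mul_comm x.1]⟩⟩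
  exact ⟨(MulEquiv.ofBijective g ⟨(MonoidHom.ker_eq_bot_iff g).1 (g.normal_ker.eq_bot_or_eq_top.resolve_right
    fun e => k (MonoidHom.range_eq_bot_iff.2 (MonoidHom.ker_eq_top_iff.1 e))),
    MonoidHom.range_eq_top.1 (n.eq_bot_or_eq_top.resolve_left k)⟩).symm⟩

theorem Core.sp6 (h : Core P) {t : O (Q F)} (ht : t ∈ P) (h2 : t * t = 1) (h6 : dm t = 6) :
    Nonempty (P ≃* PSp 3 (ZMod 2)) ∧ (Nat.card F).Prime := by
  obtain ⟨c, L, Φ, R, hL, hneg, hc, π, hπ⟩ := h.exists_RK ht h2 h6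
  obtain ⟨e, E⟩ := exists_E7 R finrank_V hL.le hneg hc
  obtain ⟨f, hf⟩ := E.exists_hom
  obtain ⟨i⟩ := Fi.e7_iso
  have := h.simple
  refine ⟨iso_of_surj h.nab (f := π.comp ((f.codRestrict L fun x => hL ▸ hf ▸ ⟨x, rfl⟩).comp i.symm.toMonoidHom))
    (hπ.comp fun y => ?_), ?_⟩
  · obtain ⟨x, hx⟩ := (hL.trans hf.symm).le y.2
    exact ⟨i x, Subtype.ext (by simpa using hx)⟩
  · have hb := R.ns ⊥ fun u hu v hv => pow_mem (E.polar_mem hu hv) 2
    have : Fact (ringChar F).Prime := ⟨CharP.char_is_prime F _⟩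
    rw [← Nat.card_congr (Subfield.topEquiv (K := F)).toEquiv, ← hb, Subfield.card_bot F (ringChar F)]
    exact Fact.out

end Cfsg.Lib.O7
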