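import Cfsg.Agent.Lib.Core.Basic

/-!
# 2-subgroups of `(C ⋊ 2) ≀ S₃` without certain involutions need at most four generators
-/

set_option autoImplicit false

namespace Cfsg.Lib.O7.SR

open Equiv Subgroup

theorem s4 {B W : Subgroup (Perm (Fin 4))} (hB : IsPGroup 2 B) (h : ∀ x ∈ B, x * x ∈ W) :
    Nat.card B ≤ 4 * Nat.card W := by
  obtain ⟨n, hn⟩ := IsPGroup.iff_card.1 hB
  have c : Nat.card (Perm (Fin 4)) = 24 := by simp [Fintype.card_perm, Nat.factorial]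
  have d := card_subgroup_dvd_card B
  have p : 0 < Nat.card W := Nat.card_pos
  rw [c, hn] at d
  have : n ≤ 3 := by
    by_contra l
    exact absurd ((pow_dvd_pow 2 (by omega : 4 ≤ n)).trans d) (by decide)
  rcases this.lt_or_eq with l | rfl
  · have := Nat.pow_le_pow_right two_pos (by omega : n ≤ 2); omega
  suffices W ≠ ⊥ by have := (one_lt_card_iff_ne_bot W).2 this; omega
  rintro rfl
  let S : Sylow 2 (Perm (Fin 4)) := Sylow.ofCard B (by
    rw [hn, c, show 24 = 2 ^ 3 * 3 from rfl, Nat.factorization_mul (by decide) (by decide),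
      Nat.prime_two.factorization_pow, Nat.prime_three.factorization]; simp)
  have o : orderOf (finRotate 4) = 2 ^ 2 := orderOf_eq_prime_pow (by decide) (by decide)
  obtain ⟨T, hT⟩ := (IsPGroup.of_card ((Nat.card_zpowers _).trans o)).exists_le_sylow
  obtain ⟨g, rfl⟩ := MulAction.exists_smul_eq (Perm (Fin 4)) S T
  obtain ⟨x, hx, e⟩ := hT (mem_zpowers _)
  have e : MulAut.conj g x = finRotate 4 := e
  exact absurd (by rw [← e, ← map_mul, mem_bot.1 (h x hx), map_one]) (by decide : finRotate 4 * finRotate 4 ≠ 1)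

theorem s4' {G ι : Type*} [Group G] [Finite G] (hG : IsPGroup 2 G) (e : ι ≃ Fin 4) (σ : G →* Perm ι)
    {W : Subgroup G} (h : ∀ x, x * x ∈ W) :
    Nat.card G * Nat.card ↥(W ⊓ σ.ker) ≤ 4 * Nat.card W * Nat.card σ.ker := by
  let f := e.permCongrHom.toMonoidHom.comp σ
  have k : f.ker = σ.ker := MonoidHom.ker_comp_of_injective _ _ e.permCongrHom.injective
  have a := Core.card_map_mul_card_inf_ker f ⊤
  have b := s4 (W := W.map f) ((hG.to_subgroup ⊤).map f) (by rintro _ ⟨x, -, rfl⟩; exact ⟨_, h x, map_mul _ _ _⟩)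
  rw [top_inf_eq, card_top] at a
  rw [← a, ← Core.card_map_mul_card_inf_ker f W, k]
  calc _ ≤ 4 * Nat.card (W.map f) * Nat.card σ.ker * Nat.card ↥(W ⊓ σ.ker) := by gcongr
    _ = _ := by ring

/-- A faithful monomial action on three hyperbolic pairs. -/
structure Dat (G C : Type*) [Group G] [CommGroup C] where
  π : G →* Perm (Fin 3)
  t : G → Fin 3 → ℤˣ
  c : G → Fin 3 → C
  φ : ℤˣ →* C
  inj : Function.Injective φ
  sq : ∀ c, c * c = 1 → ∃ ε, φ ε = c
  tm : ∀ x y i, t (x * y) i = t x (π y i) * t y i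
  cm : ∀ x y i, c (x * y) i = c x (π y i) ^ (t y i : ℤ) * c y i
  F : ∀ x y, (∀ i, π x i = π y i ∧ t x i = t y i ∧ c x i = c y i) → x = y
  N : ∀ y k, y * y = 1 → (∀ i, i ≠ k → π y i = i ∧ t y i = 1 ∧ c y i = φ (-1)) → t y k = 1 ∧ c y k = 1

/-- The sign vector with a single `-1`. -/
def ek (k : Fin 3) : Fin 3 → ℤˣ := fun i => if i = k then -1 else 1

namespace Dat

variable {G C : Type*} [Group G] [CommGroup C] (D : Dat G C)

theorem t1 (i : Fin 3) : D.t 1 i = 1 := by simpa using D.tm 1 1 i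

theorem c1 (i : Fin 3) : D.c 1 i = 1 := by simpa [t1] using D.cm 1 1 i

/-- The diagonal elements. -/
def A : Subgroup G where
  carrier := {x | D.π x = 1 ∧ ∀ i, D.t x i = 1}
  one_mem' := ⟨map_one _, D.t1⟩
  mul_mem' ha hb := ⟨by rw [map_mul, ha.1, hb.1, mul_one], fun i => by rw [D.tm, ha.2, hb.2, mul_one]⟩
  inv_mem' {a} ha := ⟨by rw [map_inv, ha.1, inv_one], fun i => by simpa [t1, ha.2] using (D.tm a a⁻¹ i).symm⟩

variable {D}

theorem cA {u : G} (hu : u ∈ D.A) (x : G) (i : Fin 3) : D.c (x * u) i = D.c x i * D.c u i := by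
  simp [D.cm, hu.1, hu.2]

theorem tA {u : G} (hu : u ∈ D.A) (x : G) (i : Fin 3) : D.t (x * u) i = D.t x i := by simp [D.tm, hu.1, hu.2]

theorem comm {u x : G} (hu : u ∈ D.A) (hx : D.π x = 1) (h : ∀ i, D.t x i = -1 → D.c u i * D.c u i = 1) :
    Commute x u := D.F _ _ fun i => ⟨by simp [hu.1], by simp [D.tm, hu.1, hu.2], by
  rw [cA hu, D.cm, hx, mul_comm]
  rcases Int.units_eq_one_or (D.t x i) with e | e <;> simp [e]
  exact eq_inv_of_mul_eq_one_left (h i e)⟩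

theorem eqA {u v : G} (hu : u ∈ D.A) (hv : v ∈ D.A) (h : ∀ i, D.c u i = D.c v i) : u = v :=
  D.F _ _ fun i => ⟨by rw [hu.1, hv.1], by rw [hu.2, hv.2], h i⟩

variable (D) in
/-- The diagonal involutions. -/
def R : Subgroup (Fin 3 → ℤˣ) where
  carrier := {ε | ∃ u ∈ D.A, ∀ i, D.c u i = D.φ (ε i)}
  one_mem' := ⟨1, one_mem _, by simp [c1]⟩
  mul_mem' := by
    rintro _ _ ⟨u, hu, h⟩ ⟨v, hv, k⟩
    exact ⟨_, mul_mem hu hv, fun i => by simp [cA hv, h, k]⟩
  inv_mem' := by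
    rintro ε ⟨u, hu, h⟩
    exact ⟨u, hu, fun i => by simp [h, Int.units_inv_eq_self]⟩

theorem usq {u : G} {ε : Fin 3 → ℤˣ} (hu : u ∈ D.A) (h : ∀ i, D.c u i = D.φ (ε i)) (i : Fin 3) :
    D.c u i * D.c u i = 1 := by rw [h, ← map_mul, Int.units_mul_self, map_one]

theorem usq' {u : G} {ε : Fin 3 → ℤˣ} (hu : u ∈ D.A) (h : ∀ i, D.c u i = D.φ (ε i)) : u * u = 1 :=
  eqA (mul_mem hu hu) (one_mem _) fun i => by rw [cA hu, usq hu h, c1]

theorem neg_notMem : (-1 : Fin 3 → ℤˣ) ∉ D.R := by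
  rintro ⟨u, hu, h⟩
  have := (D.N u 0 (usq' hu h) fun i _ => ⟨by simp [hu.1], hu.2 i, h i⟩).2
  exact absurd (D.inj ((h 0).symm.trans (this.trans (map_one _).symm))) (by decide)

theorem card_R : Nat.card D.R ≤ 4 := by
  have c : Nat.card (Fin 3 → ℤˣ) = 8 := by simp
  have := D.R.card_mul_index
  have := one_lt_index_of_ne_top (H := D.R) fun e => neg_notMem (D := D) (e.ge trivial)
  nlinarith

theorem conj {ε : Fin 3 → ℤˣ} (h : ε ∈ D.R) (g : G) : (fun i => ε (D.π g i)) ∈ D.R := by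
  obtain ⟨u, hu, h⟩ := h
  have e : g * (g⁻¹ * u * g) = u * g := by group
  have p : D.π (g⁻¹ * u * g) = 1 := by simp [hu.1]
  have m : g⁻¹ * u * g ∈ D.A := ⟨p, fun i => by simpa [e, p, D.tm u, hu.2] using (D.tm g (g⁻¹ * u * g) i).symm⟩
  refine ⟨_, m, fun i => mul_left_cancel (a := D.c g i) ?_⟩
  rw [← cA m, e, D.cm, mul_comm, h, ← map_zpow]
  rcases Int.units_eq_one_or (D.t g i) with e | e <;> simp [e, Int.units_inv_eq_self]

theorem pick (h : 2 < Nat.card D.R) (w : Fin 3 → ℤˣ) : ∃ v ∈ D.R, v ≠ 1 ∧ v ≠ w := by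
  by_contra! k
  have : (D.R : Set (Fin 3 → ℤˣ)) ⊆ {1, w} := fun v m => or_iff_not_imp_left.2 (k v m)
  have := (Set.ncard_le_ncard this).trans ((Set.ncard_insert_le _ _).trans (by simp : _ ≤ 2))
  exact absurd h (not_lt.2 this)

set_option synthInstance.maxSize 1000 in
/-- If every diagonal element which is the square of a reflection is the square of a diagonal element ... -/
theorem key (h : 2 < Nat.card D.R) {k : Fin 3} {x a : G} (px : D.π x = 1) (tx : ∀ i, i ≠ k → D.t x i = 1)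
    (tk : D.t x k = -1) (ha : a ∈ D.A) (e : x * x * (a * a) = 1) : ek k ∈ D.R := by
  have ik : ∀ {i}, D.t x i = -1 → i = k := fun o => by_contra fun n => absurd ((tx _ n).symm.trans o) (by decide)
  have c : Commute x a := comm ha px fun i o => by
    have := cA (mul_mem ha ha) (x * x) i
    rwa [e, c1, D.cm x, px, o, cA ha, Perm.one_apply, Units.val_neg, Units.val_one, zpow_neg_one, inv_mul_cancel,
      one_mul, eq_comm] at this
  have y2 : x * a * (x * a) = 1 := by rw [← e, c.symm.mul_mul_mul_comm]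
  have py : D.π (x * a) = 1 := by simp [px, ha.1]
  have : ∀ i, ∃ η, i ≠ k → D.φ η = D.c (x * a) i := fun i => by
    by_cases o : i = k
    · exact ⟨1, fun n => absurd o n⟩
    · exact (D.sq _ (by simpa [y2, c1, py, tA ha, tx i o] using (D.cm (x * a) (x * a) i).symm)).imp fun _ h _ => h
  choose η hη using this
  have no : ∀ ε ∈ D.R, ¬ ∀ i, i ≠ k → η i * ε i = -1 := by
    rintro ε ⟨u, hu, h⟩ o
    have := (D.N (x * a * u) k (by
      rw [(comm hu py fun i _ => usq hu h i).symm.mul_mul_mul_comm, y2, usq' hu h, mul_one]) fun i n =>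
      ⟨by simp [px, ha.1, hu.1], by rw [tA hu, tA ha, tx i n], by rw [cA hu, ← hη i n, h, ← map_mul, o i n]⟩).1
    rw [tA hu, tA ha, tk] at this
    exact absurd this (by decide)
  obtain ⟨u, hu, u1, -⟩ := pick h 1
  obtain ⟨v, hv, v1, uv⟩ := pick h u
  have dc : ∀ (k : Fin 3) (u v η : Fin 3 → ℤˣ), u ≠ 1 → v ≠ 1 → v ≠ u →
      (∃ w ∈ [1, u, v, u * v], ∀ i, i ≠ k → η i * w i = -1) ∨ ek k ∈ [u, v, u * v] := by
    decide +kernel
  have m : ∀ w ∈ [u, v, u * v], w ∈ D.R := by simp [hu, hv, mul_mem]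
  refine m _ ((dc k u v η u1 v1 uv).resolve_left ?_)
  rintro ⟨w, hw, o⟩
  exact no w ((List.mem_cons.1 hw).elim (fun o => o ▸ one_mem _) (m w)) o

theorem fixed [Finite G] (hG : IsPGroup 2 G) {W : Subgroup G} (hW : ∀ x, x * x ∈ W)
    (h : 16 * Nat.card W < Nat.card G) {k : Fin 3} (hk : ∀ x, D.π x k = k) : 2 < Nat.card D.R ∧ ek k ∈ D.R := by
  have ne : ∀ x {i}, i ≠ k → D.π x i ≠ k := fun x i n o => n ((D.π x).injective (o.trans (hk x).symm))
  let σ : G →* Perm ({i // i ≠ k} × ℤˣ) := MonoidHom.toHomPerm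
    { toFun := fun x p => (⟨D.π x p.1, ne x p.1.2⟩, D.t x p.1 * p.2)
      map_one' := funext fun p => by simp [t1]; rfl
      map_mul' := fun x y => funext fun p => by simp [D.tm, mul_assoc]; rfl }
  have mY : ∀ {x}, x ∈ σ.ker ↔ ∀ i, i ≠ k → D.π x i = i ∧ D.t x i = 1 := by
    refine ⟨fun m i n => ?_, fun m => Perm.ext fun p => Prod.ext (Subtype.ext (m _ p.1.2).1) ?_⟩
    · have := Prod.ext_iff.1 (Perm.ext_iff.1 m (⟨i, n⟩, 1))
      exact ⟨congrArg Subtype.val this.1, (mul_one _).symm.trans this.2⟩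
    · exact (congrArg (· * p.2) (m _ p.1.2).2).trans (one_mul _)
  have pY : ∀ {x}, x ∈ σ.ker → D.π x = 1 := fun {x} m => Perm.ext fun i => by
    by_cases o : i = k
    exacts [o ▸ hk x, (mY.1 m i o).1]
  let τ : G →* ℤˣ := .mk' (fun x => D.t x k) fun x y => by rw [D.tm, hk]
  have eA : σ.ker ⊓ τ.ker = D.A := le_antisymm (fun x m => ⟨pY m.1, fun i => by
      by_cases o : i = k
      exacts [o ▸ m.2, (mY.1 m.1 i o).2]⟩) fun x m => ⟨mY.2 fun i _ => ⟨by simp [m.1], m.2 i⟩, m.2 k⟩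
  let f : D.A →* G := .mk' (fun a => a * a) fun a b =>
    (comm b.2 a.2.1 fun i o => absurd ((a.2.2 i).symm.trans o) (by decide)).symm.mul_mul_mul_comm _ _
  have h1 := s4' hG (Fintype.equivFinOfCardEq (by simp)) σ hW
  have h2 := Core.card_map_mul_card_inf_ker τ σ.ker
  have h3 : Nat.card (σ.ker.map τ) ≤ 2 := (card_le_card_group _).trans (by simp)
  have h4 := Core.card_map_mul_card_inf_ker f ⊤
  have h5 : Nat.card f.ker ≤ Nat.card D.R := by
    have : ∀ u : f.ker, ∃ ε : D.R, ∀ i, D.c u i = D.φ (ε.1 i) := fun u => by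
      choose ε hε using fun i => D.sq (D.c u i) (by rw [← cA u.1.2, show u.1.1 * u.1.1 = 1 from u.2, c1])
      exact ⟨⟨ε, u, u.1.2, fun i => (hε i).symm⟩, fun i => (hε i).symm⟩
    choose g hg using this
    exact Nat.card_le_card_of_injective g fun u v e => Subtype.ext (Subtype.ext (eqA u.1.2 v.1.2 fun i => by
      rw [hg, hg, e]))
  have h6 := card_R (D := D)
  have l : (⊤ : Subgroup D.A).map f ≤ W ⊓ D.A := by rintro _ ⟨a, -, rfl⟩; exact ⟨hW _, mul_mem a.2 a.2⟩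
  obtain ⟨n, h7⟩ := card_dvd_of_le l
  have h8 : Nat.card ↥(W ⊓ D.A) ≤ Nat.card ↥(W ⊓ σ.ker) := card_le_of_le (inf_le_inf_left _ (eA ▸ inf_le_left))
  have h9 : ¬ σ.ker ≤ D.A ∨ Nat.card σ.ker ≤ Nat.card D.A := or_iff_not_imp_left.2 fun o => card_le_of_le (not_not.1 o)
  have p1 : 0 < Nat.card W := Nat.card_pos
  have p2 : 0 < Nat.card ↥(W ⊓ D.A) := Nat.card_pos
  have p3 : 0 < Nat.card ↥(W ⊓ σ.ker) := Nat.card_pos
  rw [eA] at h2
  rw [top_inf_eq, card_top] at h4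
  have k1 : 4 * Nat.card ↥(W ⊓ σ.ker) < Nat.card σ.ker := by nlinarith
  have n0 : 1 ≤ n := Nat.pos_of_ne_zero (by rintro rfl; omega)
  have k2 : Nat.card σ.ker ≤ 2 * Nat.card D.A := by nlinarith
  have k3 : Nat.card D.A ≤ 4 * Nat.card ((⊤ : Subgroup D.A).map f) := by nlinarith
  have k4 : Nat.card ((⊤ : Subgroup D.A).map f) ≤ Nat.card ↥(W ⊓ D.A) := card_le_of_le l
  have k5 : 2 < Nat.card D.R := by nlinarith
  have k6 : W ⊓ D.A = (⊤ : Subgroup D.A).map f := (eq_of_le_of_card_ge l (by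
    have : n < 2 := by nlinarith
    nlinarith)).symm
  obtain ⟨x, hx, nx⟩ := SetLike.not_le_iff_exists.1 (h9.resolve_right (by omega))
  have tk : D.t x k = -1 := (Int.units_eq_one_or _).resolve_left fun o => nx (eA ▸ ⟨hx, o⟩)
  obtain ⟨a, -, e⟩ := k6.le (inv_mem (show x * x ∈ W ⊓ D.A from ⟨hW x, eA ▸ ⟨mul_mem hx hx,
    (map_mul τ x x).trans (Int.units_mul_self _)⟩⟩))
  exact ⟨k5, key k5 (pY hx) (fun i o => (mY.1 hx i o).2) tk a.2 (mul_eq_one_iff_inv_eq.2 e.symm)⟩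

set_option synthInstance.maxSize 1000 in
theorem main [Finite G] (D : Dat G C) (hG : IsPGroup 2 G) {W : Subgroup G} (hW : ∀ x, x * x ∈ W) :
    Nat.card G ≤ 16 * Nat.card W := by
  by_contra! h
  by_cases p : ∀ g, D.π g = 1
  · have := fun k => (fixed (D := D) hG hW h (k := k) fun x => by simp [p]).2
    exact neg_notMem ((by decide : ek 0 * ek 1 * ek 2 = -1) ▸ mul_mem (mul_mem (this 0) (this 1)) (this 2))
  obtain ⟨g, p⟩ := not_forall.1 p
  letI := MulAction.compHom (Fin 3) D.π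
  obtain ⟨k, hk⟩ := hG.nonempty_fixed_point_of_prime_not_dvd_card (Fin 3) (by simp)
  obtain ⟨c, m⟩ := fixed (D := D) hG hW h hk
  obtain ⟨v, hv, v1, vk⟩ := pick c (ek k)
  have dc : ∀ (k : Fin 3) (p : Perm (Fin 3)) (v : Fin 3 → ℤˣ), p ≠ 1 → p k = k → v ≠ 1 → v ≠ ek k →
      -1 ∈ [v, v * ek k, v * (fun i => v (p i)) * ek k] := by decide +kernel
  have := conj hv g
  exact neg_notMem ((by simp [*, mul_mem] : ∀ w ∈ _, w ∈ D.R) _ (dc k _ v p (hk g) v1 vk))

end Dat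

end Cfsg.Lib.O7.SR
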