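import Cfsg.Agent.Lib.O7.SR2
import Cfsg.Agent.Lib.O7.SR3
import Cfsg.Agent.Lib.FGS.HaradaDB
import Cfsg.Prelude.Def_CaseTheorems

/-!
# Sectional 2-rank (`docs/O7.md`)
-/

set_option autoImplicit false

namespace Cfsg.Lib.O7

open QuadraticMap Module Matrix Cfsg.Lib.Orth
open scoped MatrixGroups

variable {K : Type*} [Field K] [IsAlgClosed K] {M : Subgroup (O (Q K))}

omit [IsAlgClosed K] in
/-- `S` permutes the three mutually orthogonal non-degenerate planes `P i`. -/
def Planes (S : Subgroup (O (Q K))) (P : Fin 3 → Submodule K (V K)) : Prop :=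
  (∀ i, finrank K (P i) = 2 ∧ ND ((Q K).restrict (P i))) ∧ (∀ i j, i ≠ j → P i ≤ perp (Q K) (P j)) ∧
    ∀ g ∈ S, ∀ i, ∃ j, (P i).map (g.1 : V K →ₗ[K] V K) = P j

/-- A finite 2-group permutes three mutually orthogonal non-degenerate planes. -/
theorem exists_planes (h2 : (2 : K) ≠ 0) {S : Subgroup (O (Q K))} [Finite S] (hS : IsPGroup 2 S) :
    ∃ P, Planes S P :=
  (SR.planes h2 hS S.subtype).imp fun _ h => ⟨h.1, h.2.1, fun g hg => h.2.2 ⟨g, hg⟩⟩

namespace SR

variable {U : Type*} [AddCommGroup U] [Module K U] {q : QuadraticForm K U}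

theorem hyp_of_plane [FiniteDimensional K U] (h2 : (2 : K) ≠ 0) {P : Submodule K U} (d : finrank K P = 2)
    (nd : ND (q.restrict P)) : ∃ e f, IsHyp q e f ∧ Submodule.span K {e, f} = P := by
  haveI : NeZero (2 : K) := ⟨h2⟩
  let b := finBasisOfFinrankEq K P d
  obtain ⟨e, e0, he⟩ : ∃ e : P, e ≠ 0 ∧ q.restrict P e = 0 := by
    by_cases o : q.restrict P (b 0) = 0
    · exact ⟨_, b.ne_zero 0, o⟩
    obtain ⟨x, hx⟩ := exists_quadratic_eq_zero o
      (IsAlgClosed.exists_eq_mul_self (discrim _ (polar (q.restrict P) (b 0) (b 1)) (q.restrict P (b 1))))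
    refine ⟨x • b 0 + b 1, fun z => by simpa using congrArg (b.repr · 1) z, ?_⟩
    rw [Q_add, Q_smul, polar_smul_left']; linear_combination hx
  obtain ⟨f, h⟩ := exists_isHyp nd he e0
  have h' : IsHyp q e.1 f.1 := ⟨h.1, h.2, h.3⟩
  exact ⟨_, _, h', Submodule.eq_of_le_of_finrank_eq (Submodule.span_le.2 (Set.pair_subset e.2 f.2))
    (h'.finrank_span.trans d.symm)⟩

omit [IsAlgClosed K] in
theorem mon {e f e' f' : U} (h : IsHyp q e f) (h' : IsHyp q e' f') (he : e' ∈ Submodule.span K {e, f})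
    (hf : f' ∈ Submodule.span K {e, f}) : ∃ c : Kˣ, (e' = (c : K) • e ∧ f' = ((c⁻¹ : Kˣ) : K) • f) ∨
      (e' = (c : K) • f ∧ f' = ((c⁻¹ : Kˣ) : K) • e) := by
  obtain ⟨a, b, rfl⟩ := Submodule.mem_span_pair.1 he
  obtain ⟨a', b', rfl⟩ := Submodule.mem_span_pair.1 hf
  have h1 := h.Q_comb a b ▸ h'.1
  have h2 := h.Q_comb a' b' ▸ h'.2
  have h3 := h'.3
  simp only [polar_add_left, polar_add_right, polar_smul_left', polar_smul_right', h.polar_left, h.polar_right,
    h.3, h.polar_eq'] at h3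
  rcases mul_eq_zero.1 h1 with rfl | rfl <;> rcases mul_eq_zero.1 h2 with rfl | rfl
  · simp at h3
  · exact ⟨⟨b, a', by linear_combination h3, by linear_combination h3⟩, .inr (by simp)⟩
  · exact ⟨⟨a, b', by linear_combination h3, by linear_combination h3⟩, .inl (by simp)⟩
  · simp at h3

theorem dat (h : Pre M) {G : Type*} [Group G] [Finite G] (hG : IsPGroup 2 G) (ρ : G →* O (Q K))
    (inj : Function.Injective ρ) (hM : ∀ x, ρ x ∈ M) : Nonempty (Dat G Kˣ) := by
  obtain ⟨P, hP, o, m⟩ := planes h.two hG ρ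
  choose e f hy sp using fun i => hyp_of_plane h.two (hP i).1 (hP i).2
  let b : Fin 3 → ℤˣ → V K := fun i s => if s = 1 then e i else f i
  have me : ∀ i, e i ∈ P i := fun i => sp i ▸ Submodule.subset_span (by simp)
  have mf : ∀ i, f i ∈ P i := fun i => sp i ▸ Submodule.subset_span (by simp)
  have n1 : (-1 : ℤˣ) ≠ 1 := by decide
  have mb : ∀ i s, b i s ∈ P i := fun i s => by
    rcases Int.units_eq_one_or s with rfl | rfl <;> simp [b, me, mf, n1]
  have le : ∀ {i} {Y : Submodule K (V K)}, (∀ s, b i s ∈ Y) → P i ≤ Y := fun {i Y} k =>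
    sp i ▸ Submodule.span_le.2 (Set.pair_subset (by simpa [b] using k 1) (by simpa [b, n1] using k (-1)))
  have un : ∀ {i j s t} {a a' : Kˣ}, (a : K) • b i s = (a' : K) • b j t → i = j ∧ s = t ∧ a = a' := by
    intro i j s t a a' k
    have := congrArg (polar (Q K) (b i (-s))) k
    rw [polar_smul_right', polar_smul_right'] at this
    by_cases ij : i = j
    · subst ij
      rcases Int.units_eq_one_or s with rfl | rfl <;> rcases Int.units_eq_one_or t with rfl | rfl <;>
        simpa [b, n1, n1.symm, (hy i).3, (hy i).polar_eq', (hy i).1, (hy i).2, Units.val_inj] using this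
    · rw [mem_perp'.1 (o i j ij (mb i _)) _ (mb j _)] at this
      rcases Int.units_eq_one_or s with rfl | rfl <;> simp [b, n1, (hy i).3, (hy i).polar_eq'] at this
  have : ∀ x i, ∃ j, ∃ t : ℤˣ, ∃ c : Kˣ, ∀ s : ℤˣ, (ρ x).1 (b i s) = ((c ^ (s : ℤ) : Kˣ) : K) • b j (t * s) := by
    intro x i
    obtain ⟨j, k⟩ := m x i
    obtain ⟨c, k | k⟩ := mon (hy j) ((hy i).map (ρ x)) ((sp j).ge (k.le ⟨_, me i, rfl⟩)) ((sp j).ge (k.le ⟨_, mf i, rfl⟩))
    exacts [⟨j, 1, c, fun s => by rcases Int.units_eq_one_or s with rfl | rfl <;> simp [b, n1, k]⟩,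
      ⟨j, -1, c, fun s => by rcases Int.units_eq_one_or s with rfl | rfl <;> simp [b, n1, k]⟩]
  choose p t c hb using this
  have co : ∀ x y i, p (x * y) i = p x (p y i) ∧ t (x * y) i = t x (p y i) * t y i ∧
      c (x * y) i = c x (p y i) ^ (t y i : ℤ) * c y i := fun x y i => un (by
    have := hb (x * y) i 1
    rw [map_mul, O.mul_apply, hb, map_smul, hb, smul_smul] at this
    simpa [mul_comm] using this.symm)
  have fi : ∀ {x i}, (ρ x).1 (b i 1) = b i 1 → p x i = i ∧ t x i = 1 ∧ c x i = 1 := fun {x i} k =>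
    un (by simpa [k] using (hb x i 1).symm)
  have d4 : ∀ i j, i ≠ j → finrank K ↥(P i ⊔ P j) = 4 := fun i j n => by
    rw [finrank_sup' (hP i).2 (o j i n.symm), (hP i).1, (hP j).1]
  refine ⟨⟨MonoidHom.toHomPerm ⟨⟨p, funext fun i => (fi (by rw [map_one]; rfl)).1⟩, fun x y => funext fun i =>
    (co x y i).1⟩, t, c, Units.map (Int.castRingHom K).toMonoidHom, (injective_iff_map_eq_one _).2 fun s k => ?_,
    fun a k => ?_, fun x y i => (co x y i).2.1, fun x y i => (co x y i).2.2, fun x y k => inj ?_, fun y k y2 a => ?_⟩⟩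
  · refine (Int.units_eq_one_or s).resolve_right ?_
    rintro rfl
    exact h.two (by linear_combination -(by simpa using congrArg Units.val k : (-1 : K) = 1))
  · exact (mul_self_eq_one_iff.1 (congrArg Units.val k)).elim (fun z => ⟨1, Units.ext (by simp [z])⟩)
      fun z => ⟨-1, Units.ext (by simp [z])⟩
  · have l : ∀ i, P i ≤ O.fix ((ρ y)⁻¹ * ρ x) := fun i => le fun s => O.mem_fix.2 ((O.inv_apply_eq _).2 (by
      rw [hb, ← show p x i = p y i from (k i).1, ← (k i).2.1, ← (k i).2.2]; exact hb x i s))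
    have d := Submodule.finrank_mono (sup_le (sup_le (l 0) (l 1)) (l 2))
    rw [finrank_sup' (nd_sup (hP 0).2 (hP 1).2 (o 1 0 (by decide)))
      (by rw [perp_sup]; exact le_inf (o 2 0 (by decide)) (o 2 1 (by decide))), d4 0 1 (by decide), (hP 2).1] at d
    have d' := dm_add_fx ((ρ y)⁻¹ * ρ x)
    obtain ⟨n, hn⟩ := even_dm (nd_Q h.two) h.two (h.det _ (mul_mem (inv_mem (hM y)) (hM x)))
    rw [finrank_V, fx] at d'
    exact (inv_mul_eq_one.1 (dm_eq_zero.1 (by omega))).symm
  · have t2 : ρ y * ρ y = 1 := by rw [← map_mul, y2, map_one]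
    have l : ∀ i, i ≠ k → P i ≤ O.comm (ρ y) := fun i n => le fun s => (mem_comm_inv h.two t2).2 (by
      rw [hb, show p y i = i from (a i n).1, (a i n).2.1, (a i n).2.2]
      rcases Int.units_eq_one_or s with rfl | rfl <;> simp)
    obtain ⟨i, j, ij, ik, jk⟩ := (by decide : ∀ k : Fin 3, ∃ i j, i ≠ j ∧ i ≠ k ∧ j ≠ k) k
    have d := Submodule.finrank_mono (sup_le (l i ik) (l j jk))
    have := h.dm_inv (hM y) t2 fun z => by rw [d4 i j ij, z, O.comm_one, finrank_bot] at d; omega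
    have z := Submodule.eq_of_le_of_finrank_le (sup_le (l i ik) (l j jk)) (by rw [d4 i j ij]; unfold dm at this; omega)
    refine (fi (O.mem_fix.1 ?_)).2
    rw [← O.perp_comm (nd_Q h.two), ← z, perp_sup]
    exact ⟨o k i ik.symm (mb k 1), o k j jk.symm (mb k 1)⟩

end SR

/-- A finite subgroup of `SO₇(K)` without involutions `-refl` has sectional 2-rank at most four. -/
theorem Pre.sect (h : Pre M) : SectionalPRankLE 2 4 M := by
  haveI := h.fin
  obtain ⟨S, hS⟩ := BG.Syl.exists (p := 2) (⊤ : Subgroup M)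
  refine Harada.sectional_of_sr hS fun W X l s => ?_
  have hX : IsPGroup 2 X := hS.pgroup.to_le l
  obtain ⟨D⟩ := SR.dat h hX (M.subtype.comp X.subtype) (M.subtype_injective.comp X.subtype_injective) fun x => x.1.2
  have := D.main hX (W := W.subgroupOf X) fun x => by simpa [pow_two, Subgroup.mem_subgroupOf] using s.pow x x.2
  rwa [Nat.card_congr (Subgroup.subgroupOfEquivOfLe s.le).toEquiv] at this

end Cfsg.Lib.O7
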