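import Cfsg.Agent.Lib.O7.T2
import Cfsg.Agent.Lib.Orth.Gen
import Cfsg.Agent.Lib.PGroup.Basic

/-!
# A finite 2-group acting on an orthogonal space of dimension at least three is imprimitive
-/

set_option autoImplicit false
set_option linter.unusedSectionVars false

namespace Cfsg.Lib.O7.SR

open QuadraticMap Module Cfsg.Lib.Orth

variable {K U : Type*} [Field K] [AddCommGroup U] [Module K U] {q : QuadraticForm K U}
  {G : Type*} [Group G] {X Y : Submodule K U}

/-- The image of a subspace. -/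
abbrev mp (g : O q) (X : Submodule K U) : Submodule K U := X.map (g.1 : U →ₗ[K] U)

theorem mp_mul (g h : O q) (X : Submodule K U) : mp (g * h) X = mp g (mp h X) := by
  rw [mp, mp, mp, ← Submodule.map_comp]; rfl

theorem mp_one (X : Submodule K U) : mp (1 : O q) X = X := Submodule.map_id X

theorem finrank_mp (g : O q) (X : Submodule K U) : finrank K (mp g X) = finrank K X :=
  LinearEquiv.finrank_map_eq g.1 X

theorem mp_perp (g : O q) (h : X ≤ perp q Y) : mp g X ≤ perp q (mp g Y) :=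
  O.map_perp g Y ▸ Submodule.map_mono h

theorem nd_mp (g : O q) (h : ND (q.restrict X)) : ND (q.restrict (mp g X)) := by
  rw [nd_restrict_iff] at h ⊢
  rintro _ ⟨x, hx, rfl⟩ e
  rw [h x hx fun y hy => by simpa using e _ ⟨y, hy, rfl⟩, map_zero]

theorem mp_line (g : O q) (v : U) : mp g (K ∙ v) = K ∙ g.1 v := by
  rw [mp, Submodule.map_span, Set.image_singleton]; rfl

theorem mp_pair (g : O q) (u v : U) : mp g (Submodule.span K {u, v}) = Submodule.span K {g.1 u, g.1 v} := by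
  rw [mp, Submodule.map_span, Set.image_pair]; rfl

theorem span_pair_smul {a b : K} (ha : a ≠ 0) (hb : b ≠ 0) (u v : U) :
    Submodule.span K {a • u, b • v} = Submodule.span K {u, v} := by
  rw [Submodule.span_insert, Submodule.span_insert, Submodule.span_singleton_smul_eq ha.isUnit,
    Submodule.span_singleton_smul_eq hb.isUnit]

theorem nd_line (h2 : (2 : K) ≠ 0) {v : U} (hv : q v ≠ 0) : ND (q.restrict (K ∙ v)) := by
  rw [nd_restrict_iff]
  intro x hx e
  obtain ⟨c, rfl⟩ := Submodule.mem_span_singleton.1 hx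
  have := e v (Submodule.mem_span_singleton_self v)
  rw [polar_smul_left', polar_self'] at this
  rw [(mul_eq_zero.1 this).resolve_right (mul_ne_zero h2 hv), zero_smul]

theorem exists_cen [Finite G] (hG : IsPGroup 2 G) (A B : Subgroup G) [A.Normal] [B.Normal] (h : ¬ A ≤ B) :
    ∃ y ∈ A, y ∉ B ∧ y * y ∈ B ∧ ∀ s, s * y * s⁻¹ * y⁻¹ ∈ B := by
  obtain ⟨_, ⟨y, hy, rfl⟩, hc, ho⟩ := PGroup.exists_mem_center_orderOf_eq (hG.to_quotient B)
    (A.map (QuotientGroup.mk' B)) (by rw [Ne, Subgroup.map_eq_bot_iff, QuotientGroup.ker_mk']; exact h)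
  refine ⟨y, hy, fun m => ?_, ?_, fun s => ?_⟩
  · rw [QuotientGroup.mk'_apply, (QuotientGroup.eq_one_iff y).2 m, orderOf_one] at ho
    exact absurd ho (by decide)
  · rw [← QuotientGroup.ker_mk' B, MonoidHom.mem_ker, map_mul, ← pow_two, ← ho, pow_orderOf_eq_one]
  · rw [← QuotientGroup.ker_mk' B, MonoidHom.mem_ker, map_mul, map_mul, map_mul,
      Subgroup.mem_center_iff.1 hc, map_inv, map_inv]; group

theorem ncomm (g : O q) : g * O.neg q = O.neg q * g := O.ext fun v => by simp [O.mul_apply]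

variable (q) in
/-- The group `± 1`. -/
def pm : Subgroup (O q) where
  carrier := {g | g = 1 ∨ g = O.neg q}
  one_mem' := .inl rfl
  mul_mem' := by rintro _ _ (rfl | rfl) (rfl | rfl) <;> simp [Orth.neg_mul_neg]
  inv_mem' := by
    rintro _ (rfl | rfl)
    exacts [.inl inv_one, .inr (inv_eq_of_mul_eq_one_right Orth.neg_mul_neg)]

instance pm_normal : (pm q).Normal := ⟨by
  rintro _ (rfl | rfl) g
  exacts [.inl (by group), .inr (by rw [ncomm]; group)]⟩

/-- A proper non-degenerate subspace of `X` with at most one other image, which is orthogonal to it. -/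
def Spl (ρ : G →* O q) (X : Submodule K U) : Prop :=
  ∃ Y Y', Y ≤ X ∧ Y ≠ ⊥ ∧ Y ≠ X ∧ ND (q.restrict Y) ∧ Y' ≤ perp q Y ∧ ∀ s, mp (ρ s) Y = Y ∨ mp (ρ s) Y = Y'

variable [FiniteDimensional K U] {ρ : G →* O q}

theorem spl_inv (hq : ND q) (h2 : (2 : K) ≠ 0) {t : O q} (ht : t * t = 1) (h1 : t ∉ pm q)
    (hs : ∀ s, ρ s * t * (ρ s)⁻¹ * t⁻¹ ∈ pm q) : Spl ρ ⊤ := by
  refine ⟨O.fix t, O.comm t, le_top, fun e => h1 (.inr (O.ext fun v => ?_)), fun e => h1 (.inl (O.ext fun v =>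
    O.mem_fix.1 (e.ge trivial))), (nd_comm_inv hq h2 ht).2, (O.perp_fix hq t).ge, fun s => ?_⟩
  · have : t.1 v + v ∈ O.fix t := by rw [O.mem_fix, map_add, T2.app2 ht, add_comm]
    exact eq_neg_of_add_eq_zero_left (e.le this)
  · rw [mp, ← O.fix_conj]
    refine (hs s).imp (fun e => by rw [mul_inv_eq_one.1 e]) fun e => ?_
    rw [mul_inv_eq_iff_eq_mul.1 e]
    ext v
    rw [O.mem_fix, mem_comm_inv h2 ht, O.mul_apply, O.neg_apply, neg_eq_iff_eq_neg]

/-- The elements acting as `c` on the `i`-eigenspace of `z` and as `c⁻¹` on the `-i`-eigenspace. -/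
def Z1 (z : O q) (i : K) : Subgroup (O q) where
  carrier := {g | ∃ c : Kˣ, (∀ v, z.1 v = i • v → g.1 v = (c : K) • v) ∧
    ∀ v, z.1 v = (-i) • v → g.1 v = ((c⁻¹ : Kˣ) : K) • v}
  one_mem' := ⟨1, by simp [O.one_apply]⟩
  mul_mem' := by
    rintro a b ⟨c, h, h'⟩ ⟨d, k, k'⟩
    exact ⟨d * c, fun v m => by rw [O.mul_apply, k v m, map_smul, h v m, smul_smul, Units.val_mul],
      fun v m => by rw [O.mul_apply, k' v m, map_smul, h' v m, smul_smul, mul_inv, Units.val_mul]⟩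
  inv_mem' := by
    rintro a ⟨c, h, h'⟩
    exact ⟨c⁻¹, fun v m => (O.inv_apply_eq a).2 (by rw [map_smul, h v m, smul_smul]; simp),
      fun v m => (O.inv_apply_eq a).2 (by rw [map_smul, h' v m, smul_smul]; simp)⟩

section
variable (h2 : (2 : K) ≠ 0) {z : O q} (hz : z * z = O.neg q) {i : K} (hi : i * i = -1)

include h2 in
theorem sing {j : K} (hj : j * j = -1) {v : U} (h : z.1 v = j • v) : q v = 0 := by
  have := z.2 v
  rw [h, Q_smul, pow_two, hj] at this
  exact (mul_eq_zero.1 (by linear_combination -this : 2 * q v = 0)).resolve_left h2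

include h2 in
theorem sing2 {j : K} (hj : j * j = -1) {u v : U} (h : z.1 u = j • u) (h' : z.1 v = j • v) :
    polar q u v = 0 := by
  have := Q_add q u v
  rwa [sing h2 hj h, sing h2 hj h', sing h2 hj (by rw [map_add, h, h', smul_add]), zero_add, zero_add,
    eq_comm] at this

include h2 hz hi

theorem zdec (v : U) : ∃ a b, z.1 a = i • a ∧ z.1 b = (-i) • b ∧ v = a + b := by
  have e : z.1 (z.1 v) = -v := congrArg (fun g : O q => g.1 v) hz
  refine ⟨(2 : K)⁻¹ • (v - i • z.1 v), (2 : K)⁻¹ • (v + i • z.1 v), ?_, ?_, ?_⟩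
  · rw [map_smul, map_sub, map_smul, e]; match_scalars
    · linear_combination (2 : K)⁻¹ * hi
    · ring
  · rw [map_smul, map_add, map_smul, e]; match_scalars
    · linear_combination (2 : K)⁻¹ * hi
    · ring
  · match_scalars
    · field_simp; ring
    · ring

theorem zext {g h : O q} (e : ∀ v, z.1 v = i • v → g.1 v = h.1 v) (e' : ∀ v, z.1 v = (-i) • v → g.1 v = h.1 v) :
    g = h := O.ext fun v => by
  obtain ⟨a, b, ha, hb, rfl⟩ := zdec h2 hz hi v
  rw [map_add, map_add, e a ha, e' b hb]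

theorem Z1_comm {b g : O q} (hb : b ∈ Z1 z i) (hg : ∀ v, z.1 (g.1 v) = g.1 (z.1 v)) : b * g = g * b := by
  obtain ⟨c, h, h'⟩ := hb
  exact zext h2 hz hi
    (fun v m => by rw [O.mul_apply, O.mul_apply, h v m, h _ (by rw [hg, m, map_smul]), map_smul])
    fun v m => by rw [O.mul_apply, O.mul_apply, h' v m, h' _ (by rw [hg, m, map_smul]), map_smul]

theorem exists_Z1 (hq : ND q) (μ : Kˣ) : ∃ c : O q, (∀ v, z.1 v = i • v → c.1 v = (μ : K) • v) ∧
    ∀ v, z.1 v = (-i) • v → c.1 v = ((μ⁻¹ : Kˣ) : K) • v := by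
  let f : U →ₗ[K] U := ((2 : K)⁻¹ * (μ + (μ⁻¹ : Kˣ))) • LinearMap.id +
    ((2 : K)⁻¹ * ((μ⁻¹ : Kˣ) - μ) * i) • (z.1 : U →ₗ[K] U)
  have a : ∀ v, z.1 v = i • v → f v = (μ : K) • v := fun v m => by
    change (_ : K) • v + (_ : K) • z.1 v = _
    rw [m]; match_scalars
    linear_combination ((2 : K)⁻¹ * ((μ : K)⁻¹ - μ)) * hi + μ * mul_inv_cancel₀ h2
  have b : ∀ v, z.1 v = (-i) • v → f v = ((μ⁻¹ : Kˣ) : K) • v := fun v m => by
    change (_ : K) • v + (_ : K) • z.1 v = _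
    rw [m]; match_scalars
    linear_combination (-(2 : K)⁻¹ * ((μ : K)⁻¹ - μ)) * hi + (μ : K)⁻¹ * mul_inv_cancel₀ h2
  refine ⟨O.ofLinear hq f fun v => ?_, a, b⟩
  obtain ⟨x, y, hx, hy, rfl⟩ := zdec h2 hz hi v
  rw [map_add, a x hx, b y hy, Q_add, Q_add, Q_smul, Q_smul, sing h2 hi hx, sing h2 (by rwa [_root_.neg_mul_neg]) hy,
    polar_smul_left', polar_smul_right']
  simp

theorem Z1_sq {d : O q} (hd : d ∈ Z1 z i) (e : d * d = 1) : d ∈ pm q := by
  obtain ⟨c, h, h'⟩ := hd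
  have e' := T2.app2 e
  by_cases hc : c * c = 1
  · rcases mul_self_eq_one_iff.1 (congrArg Units.val hc) with k | k
    · exact .inl (zext h2 hz hi (fun v m => by simpa [k] using h v m) fun v m => by simpa [k] using h' v m)
    · exact .inr (zext h2 hz hi (fun v m => by simpa [k] using h v m) fun v m => by simpa [k] using h' v m)
  · have k : ∀ (c : Kˣ) v, c * c ≠ 1 → d.1 v = (c : K) • v → d.1 v = v := fun c v n m => by
      have : ((c * c : Kˣ) - 1 : K) • v = 0 := by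
        rw [sub_smul, one_smul, Units.val_mul, ← smul_smul, ← m, ← map_smul, ← m, e', sub_self]
      rw [(smul_eq_zero.1 this).resolve_left fun o => n (Units.ext (sub_eq_zero.1 o)), map_zero]
    exact .inl (zext h2 hz hi (fun v m => k c v hc (h v m)) fun v m => k c⁻¹ v (by
      rwa [← mul_inv, Ne, inv_eq_one]) (h' v m))

omit h2 hz hi in
theorem Z1_conj {b g : O q} (hb : b ∈ Z1 z i) (hg : g * z * g⁻¹ * z⁻¹ ∈ pm q) : g⁻¹ * b * g ∈ Z1 z i := by
  obtain ⟨c, h, h'⟩ := hb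
  have k : ∀ v (c : K), b.1 (g.1 v) = c • g.1 v → (g⁻¹ * b * g).1 v = c • v := fun v c m => by
    rw [O.mul_apply, O.mul_apply, m, map_smul, O.inv_apply_apply]
  rcases hg with hg | hg
  · have e : ∀ v, z.1 (g.1 v) = g.1 (z.1 v) := fun v =>
      congrArg (fun g : O q => g.1 v) (mul_inv_eq_iff_eq_mul.1 (mul_inv_eq_one.1 hg)).symm
    exact ⟨c, fun v m => k v _ (h _ (by rw [e, m, map_smul])), fun v m => k v _ (h' _ (by rw [e, m, map_smul]))⟩
  · have e : ∀ v, z.1 (g.1 v) = -g.1 (z.1 v) := fun v => neg_eq_iff_eq_neg.1 (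
      congrArg (fun g : O q => g.1 v) (mul_inv_eq_iff_eq_mul.1 (mul_inv_eq_iff_eq_mul.1 hg)).symm)
    exact ⟨c⁻¹, fun v m => k v _ (h' _ (by rw [e, m, map_smul, neg_smul])),
      fun v m => k v _ (by rw [inv_inv]; exact h _ (by rw [e, m, map_smul, neg_smul, neg_neg]))⟩

omit h2 hz hi in
theorem spl_plane (h3 : 3 ≤ finrank K U) {e f : U} (he : q e = 0) (hf : q f = 0) (p : polar q e f ≠ 0)
    {Y' : Submodule K U} (hY : Y' ≤ perp q (Submodule.span K {e, f}))
    (hs : ∀ s, mp (ρ s) (Submodule.span K {e, f}) = Submodule.span K {e, f} ∨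
      mp (ρ s) (Submodule.span K {e, f}) = Y') : Spl ρ ⊤ := by
  have h : IsHyp q e ((polar q e f)⁻¹ • f) :=
    ⟨he, by rw [Q_smul, hf, mul_zero], by rw [polar_smul_right', inv_mul_cancel₀ p]⟩
  have k := span_pair_smul one_ne_zero (inv_ne_zero p) e f
  rw [one_smul] at k
  have d := k ▸ h.finrank_span
  exact ⟨_, Y', le_top, fun o => by rw [o, finrank_bot] at d; omega, fun o => by rw [o, finrank_top] at d; omega,
    k ▸ h.nd_span, hY, hs⟩

theorem spl_scal (hq : ND q) (h3 : 3 ≤ finrank K U) (hs : ∀ s, ρ s * z * (ρ s)⁻¹ * z⁻¹ ∈ pm q)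
    (hZ : ∀ s, (∀ v, z.1 ((ρ s).1 v) = (ρ s).1 (z.1 v)) → ρ s ∈ Z1 z i) : Spl ρ ⊤ := by
  have hi' : -i * -i = -1 := by rwa [_root_.neg_mul_neg]
  let C : G → Prop := fun s => ∀ v, z.1 ((ρ s).1 v) = (ρ s).1 (z.1 v)
  have an : ∀ s, ¬ C s → ∀ v, z.1 ((ρ s).1 v) = -(ρ s).1 (z.1 v) := fun s n v => by
    rcases hs s with hg | hg
    · exact absurd (fun v => congrArg (fun g : O q => g.1 v)
        (mul_inv_eq_iff_eq_mul.1 (mul_inv_eq_one.1 hg)).symm) n
    · exact neg_eq_iff_eq_neg.1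
        (congrArg (fun g : O q => g.1 v) (mul_inv_eq_iff_eq_mul.1 (mul_inv_eq_iff_eq_mul.1 hg)).symm)
  have mu : ∀ s t, ¬ C s → ¬ C t → C (s * t) := fun s t a b v => by
    rw [map_mul, O.mul_apply, O.mul_apply, an s a, an t b, map_neg, neg_neg]
  have iv : ∀ s, ¬ C s → ¬ C s⁻¹ := fun s a b => a fun v => (ρ s⁻¹).1.injective (by
    rw [← b, map_inv, O.inv_apply_apply, O.inv_apply_apply])
  have sw : ∀ s, ¬ C s → ∀ (j : K) v, z.1 v = j • v → z.1 ((ρ s).1 v) = (-j) • (ρ s).1 v := fun s a j v m => by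
    rw [an s a, m, map_smul, neg_smul]
  have pl : ∀ e f, z.1 e = i • e → z.1 f = (-i) • f → ∀ s, C s →
      mp (ρ s) (Submodule.span K {e, f}) = Submodule.span K {e, f} := fun e f he hf s a => by
    obtain ⟨c, h, h'⟩ := hZ s a
    rw [mp_pair, h e he, h' f hf, span_pair_smul c.ne_zero (c⁻¹).ne_zero]
  have ot : ∀ e f, z.1 e = i • e → z.1 f = (-i) • f → ∀ g, ¬ C g → ∀ s,
      mp (ρ s) (Submodule.span K {e, f}) = Submodule.span K {e, f} ∨
      mp (ρ s) (Submodule.span K {e, f}) = mp (ρ g) (Submodule.span K {e, f}) := fun e f he hf g a s => by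
    by_cases b : C s
    · exact .inl (pl e f he hf s b)
    · exact .inr (by rw [← mul_inv_cancel_left g s, map_mul, mp_mul, pl e f he hf _ (mu _ _ (iv g a) b)])
  by_cases c1 : ∃ g, ¬ C g ∧ ∃ e, z.1 e = i • e ∧ polar q e ((ρ g).1 e) ≠ 0
  · obtain ⟨g, a, e, he, p⟩ := c1
    have hf := sw g a i e he
    refine spl_plane h3 (sing h2 hi he) (sing h2 hi' hf) p bot_le fun s => .inl ((ot e _ he hf g a s).elim id fun o => ?_)
    obtain ⟨c, h, -⟩ := hZ _ (mu g g a a)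
    have := h e he
    rw [map_mul, O.mul_apply] at this
    rw [o, mp_pair, this, Set.pair_comm, ← span_pair_smul c.ne_zero one_ne_zero e, one_smul]
  push_neg at c1
  haveI : Nontrivial U := Module.nontrivial_of_finrank_pos (R := K) (by omega)
  obtain ⟨v, hv⟩ := hq.exists_Q_ne
  obtain ⟨e, f, he, hf, rfl⟩ := zdec h2 hz hi v
  rw [Q_add, sing h2 hi he, sing h2 hi' hf, zero_add, zero_add] at hv
  by_cases c2 : ∃ g, ¬ C g
  · obtain ⟨g, a⟩ := c2
    refine spl_plane h3 (sing h2 hi he) (sing h2 hi' hf) hv ?_ (ot e f he hf g a)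
    have k := sw g a _ f hf
    rw [neg_neg] at k
    have := c1 _ (iv g a) _ k
    rw [map_inv, O.inv_apply_apply, polar_comm] at this
    rw [mp_pair, Submodule.span_le, Set.pair_subset_iff]
    exact ⟨mem_perp_pair.2 ⟨c1 g a e he, sing2 h2 hi' hf (sw g a i e he)⟩,
      mem_perp_pair.2 ⟨sing2 h2 hi he k, this⟩⟩
  · exact spl_plane h3 (sing h2 hi he) (sing h2 hi' hf) hv bot_le fun s => .inl (pl e f he hf s
      (not_not.1 fun a => c2 ⟨s, a⟩))

theorem spl_cx [IsAlgClosed K] [Finite G] (hG : IsPGroup 2 G) (hq : ND q) (h3 : 3 ≤ finrank K U)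
    (hs : ∀ s, ρ s * z * (ρ s)⁻¹ * z⁻¹ ∈ pm q) : Spl ρ ⊤ := by
  let A := (Subgroup.centralizer {z}).comap ρ
  let B := (Z1 z i).comap ρ
  have mA : ∀ {s}, s ∈ A ↔ ρ s * z = z * ρ s := Subgroup.mem_centralizer_singleton_iff
  haveI : A.Normal := ⟨fun a ha s => mA.2 (by
    have k : Commute (ρ a) (ρ s⁻¹ * z * (ρ s⁻¹)⁻¹) := by
      rcases hs s⁻¹ with h | h
      · rw [mul_inv_eq_one.1 h]; exact mA.1 ha
      · rw [mul_inv_eq_iff_eq_mul.1 h]; exact Commute.mul_right (ncomm _) (mA.1 ha)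
    have := (k.map (MulAut.conj (ρ s))).eq
    simp only [MulAut.conj_apply, map_mul, map_inv] at this ⊢
    convert this using 2 <;> group)⟩
  haveI : B.Normal := ⟨fun a ha s => by
    have := Z1_conj ha (hs s⁻¹)
    rwa [← map_inv, inv_inv, ← map_mul, ← map_mul] at this⟩
  have ap : ∀ {g : O q}, g * z = z * g → ∀ v, z.1 (g.1 v) = g.1 (z.1 v) := fun h v =>
    congrArg (fun g : O q => g.1 v) h.symm
  by_cases h : A ≤ B
  · exact spl_scal h2 hz hi hq h3 hs fun s a => h (mA.2 (O.ext fun v => (a v).symm))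
  obtain ⟨y, hy, nB, ⟨l, sq, sq'⟩, cm⟩ := exists_cen hG A B h
  obtain ⟨μ, hμ⟩ := IsAlgClosed.exists_eq_mul_self (l : K)
  have μ0 : μ ≠ 0 := fun o => l.ne_zero (by rw [hμ, o, mul_zero])
  obtain ⟨c, hc, hc'⟩ := exists_Z1 h2 hz hi hq (Units.mk0 μ μ0)⁻¹
  have cZ : c ∈ Z1 z i := ⟨_, hc, hc'⟩
  have ya := ap (mA.1 hy)
  have za : ∀ {d}, d ∈ Z1 z i → ∀ v, z.1 (d.1 v) = d.1 (z.1 v) := fun m => ap (Z1_comm h2 hz hi m fun _ => rfl)
  have cy := Z1_comm h2 hz hi cZ ya
  have t2 : ρ y * c * (ρ y * c) = 1 := by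
    rw [mul_assoc, ← mul_assoc c, cy, mul_assoc, ← mul_assoc, ← map_mul]
    refine zext h2 hz hi (fun v m => ?_) fun v m => ?_
    · rw [O.mul_apply, O.mul_apply, hc v m, map_smul, hc v m, map_smul, map_smul, sq v m, hμ, O.one_apply]
      match_scalars; simp; field_simp
    · rw [O.mul_apply, O.mul_apply, hc' v m, map_smul, hc' v m, map_smul, map_smul, sq' v m, O.one_apply]
      match_scalars; simp [hμ]; field_simp
  have pZ : pm q ≤ Z1 z i := by
    rintro _ (rfl | rfl)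
    exacts [one_mem _, ⟨-1, by simp⟩]
  refine spl_inv hq h2 t2 (fun m => nB ((Subgroup.mul_mem_cancel_right _ cZ).1 (pZ m))) fun s => ?_
  have c' : ρ s * c * (ρ s)⁻¹ ∈ Z1 z i := by
    have := Z1_conj cZ (hs s⁻¹)
    rwa [map_inv, inv_inv] at this
  have dZ : ρ s * (ρ y * c) * (ρ s)⁻¹ * (ρ y * c)⁻¹ ∈ Z1 z i := by
    have k := mul_mem (show ρ _ ∈ Z1 z i from cm s) (mul_mem c' (inv_mem cZ))
    have k' := Z1_comm h2 hz hi (mul_mem c' (inv_mem cZ)) ya
    simp only [map_mul, map_inv] at k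
    convert k using 1
    rw [mul_assoc _ (ρ y)⁻¹, ← mul_inv_cancel_right (_ * c⁻¹) (ρ y), k']; group
  refine Z1_sq h2 hz hi dZ ?_
  have k := Z1_comm h2 hz hi dZ (g := ρ y * c) fun v => by rw [O.mul_apply, O.mul_apply, ya, za cZ]
  generalize ρ y * c = t at *
  have ti := inv_eq_of_mul_eq_one_right t2
  rw [inv_mul_cancel_right] at k
  calc _ = ρ s * t * (ρ s)⁻¹ * (t⁻¹ * (ρ s * t * (ρ s)⁻¹)) * t⁻¹ := by group
    _ = ρ s * (t * t) * (ρ s)⁻¹ * (t * t)⁻¹ := by nth_rw 2 [k]; group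
    _ = 1 := by rw [t2]; group

end

theorem spl_top [IsAlgClosed K] [Finite G] (hG : IsPGroup 2 G) (h2 : (2 : K) ≠ 0) (hq : ND q)
    (h3 : 3 ≤ finrank K U) (ρ : G →* O q) : Spl ρ ⊤ := by
  by_cases h : ⊤ ≤ (pm q).comap ρ
  · haveI : Nontrivial U := Module.nontrivial_of_finrank_pos (R := K) (by omega)
    obtain ⟨v, hv⟩ := hq.exists_Q_ne
    have v0 : v ≠ 0 := fun o => hv (by rw [o, map_zero])
    refine ⟨K ∙ v, ⊥, le_top, by simpa, fun o => ?_, nd_line h2 hv, bot_le, fun s => .inl ?_⟩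
    · have := finrank_span_singleton (K := K) v0
      rw [o, finrank_top] at this; omega
    · rw [mp_line]
      rcases h (Subgroup.mem_top s) with o | o <;> rw [o]
      exacts [rfl, by rw [O.neg_apply, ← Set.neg_singleton, Submodule.span_neg]]
  obtain ⟨z, -, n, sq, cm⟩ := exists_cen hG ⊤ _ h
  have hs : ∀ s, ρ s * ρ z * (ρ s)⁻¹ * (ρ z)⁻¹ ∈ pm q := fun s => by simpa using cm s
  obtain ⟨i, hi⟩ := IsAlgClosed.exists_eq_mul_self (-1 : K)
  rcases sq with o | o <;> rw [map_mul] at o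
  exacts [spl_inv hq h2 o n hs, spl_cx h2 o hi.symm hG hq h3 hs]

theorem spl [IsAlgClosed K] [Finite G] (hG : IsPGroup 2 G) (h2 : (2 : K) ≠ 0) (hX : ND (q.restrict X))
    (h3 : 3 ≤ finrank K X) (hs : ∀ s, ρ s ∈ stabS X) : Spl ρ X := by
  obtain ⟨Y, Y', -, h0, h1, nd, pp, h⟩ := spl_top hG h2 hX h3 ((T3.res X).comp (ρ.codRestrict _ hs))
  have k : ∀ s, mp (ρ s) (Y.map X.subtype) = (mp ((T3.res X).comp (ρ.codRestrict _ hs) s) Y).map X.subtype :=
    fun s => by rw [mp, mp, ← Submodule.map_comp, ← Submodule.map_comp]; rfl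
  refine ⟨Y.map X.subtype, Y'.map X.subtype, Submodule.map_subtype_le _ _, fun o => h0 ?_, fun o => h1 ?_, ?_, ?_,
    fun s => (h s).imp (fun o => by rw [k, o]) fun o => by rw [k, o]⟩
  · exact Submodule.map_injective_of_injective X.injective_subtype (by rw [o, Submodule.map_bot])
  · exact Submodule.map_injective_of_injective X.injective_subtype (by rw [o, Submodule.map_subtype_top])
  · rw [nd_restrict_iff] at nd ⊢
    rintro _ ⟨x, hx, rfl⟩ e
    rw [nd x hx fun y hy => e _ ⟨y, hy, rfl⟩, map_zero]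
  · rintro _ ⟨x, hx, rfl⟩
    exact mem_perp.2 (by rintro _ ⟨y, hy, rfl⟩; exact mem_perp.1 (pp hx) y hy)

end Cfsg.Lib.O7.SR
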