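import Cfsg.Agent.Lib.O7.SR1

/-!
# A finite 2-group permutes a maximal set of mutually orthogonal non-degenerate planes
-/

set_option autoImplicit false
set_option linter.unusedSectionVars false

namespace Cfsg.Lib.O7.SR

open QuadraticMap Module Cfsg.Lib.Orth

universe u

variable {K U : Type*} [Field K] [AddCommGroup U] [Module K U] {q : QuadraticForm K U}
  [FiniteDimensional K U] {X Y L L' : Submodule K U} {D D' : Finset (Submodule K U)} {n : ℕ}

theorem disj (hX : ND (q.restrict X)) (h : Y ≤ perp q X) : Disjoint X Y :=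
  (nd_restrict_iff_disjoint.1 hX).mono_right h

theorem finrank_sup' (hX : ND (q.restrict X)) (h : Y ≤ perp q X) :
    finrank K ↥(X ⊔ Y) = finrank K X + finrank K Y := by
  rw [← Submodule.finrank_sup_add_finrank_inf_eq, (disj hX h).eq_bot, finrank_bot, add_zero]

theorem nd_sup (hX : ND (q.restrict X)) (hY : ND (q.restrict Y)) (h : Y ≤ perp q X) :
    ND (q.restrict (X ⊔ Y)) := by
  rw [nd_restrict_iff] at *
  intro v hv e
  obtain ⟨x, hx, y, hy, rfl⟩ := Submodule.mem_sup.1 hv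
  rw [hX x hx fun w hw => by
      simpa [polar_add_left, mem_perp'.1 (h hy) w hw] using e w (Submodule.mem_sup_left hw),
    hY y hy fun w hw => by
      simpa [polar_add_left, mem_perp.1 (h hw) x hx] using e w (Submodule.mem_sup_right hw), add_zero]

theorem mp_eq {g : O q} (h : g ∈ stabS X) : mp g X = X :=
  Submodule.eq_of_le_of_finrank_eq (by rintro _ ⟨w, hw, rfl⟩; exact h w hw) (finrank_mp g X)

theorem of_mp {g : O q} (h : mp g X = X) : g ∈ stabS X := fun v hv => h.le ⟨v, hv, rfl⟩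

theorem mp_inj (g : O q) : Function.Injective (mp g) := Submodule.map_injective_of_injective g.1.injective

variable (q) in
/-- `X` is the orthogonal sum of the planes in `D` and of `L`. -/
structure St (n : ℕ) (X : Submodule K U) (D : Finset (Submodule K U)) (L : Submodule K U) : Prop where
  pl : ∀ P ∈ D, finrank K P = 2 ∧ ND (q.restrict P) ∧ P ≤ X
  orth : ∀ P ∈ D, ∀ P' ∈ D, P ≠ P' → P ≤ perp q P'
  dL : finrank K L ≤ n
  nL : ND (q.restrict L)
  lL : L ≤ X
  oL : ∀ P ∈ D, P ≤ perp q L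
  cnt : finrank K X = finrank K L + 2 * D.card

open scoped Classical in
theorem St.map (h : St q n X D L) (g : O q) : St q n (mp g X) (D.image (mp g)) (mp g L) := by
  refine ⟨?_, ?_, (finrank_mp g L).trans_le h.dL, nd_mp g h.nL, Submodule.map_mono h.lL, ?_, ?_⟩
  · simp only [Finset.forall_mem_image]
    exact fun P m => ⟨(finrank_mp g P).trans (h.pl P m).1, nd_mp g (h.pl P m).2.1, Submodule.map_mono (h.pl P m).2.2⟩
  · simp only [Finset.forall_mem_image]
    exact fun P m P' m' e => mp_perp g (h.orth P m P' m' fun o => e (by rw [o]))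
  · simp only [Finset.forall_mem_image]
    exact fun P m => mp_perp g (h.oL P m)
  · rw [finrank_mp, finrank_mp, Finset.card_image_of_injective _ (mp_inj g), h.cnt]

open scoped Classical in
theorem St.join (h : St q 1 X D L) (h' : St q 1 Y D' L') (hX : ND (q.restrict X)) (o : Y ≤ perp q X) :
    St q 2 (X ⊔ Y) (D ∪ D') (L ⊔ L') := by
  have k : ∀ {A B}, A ≤ X → B ≤ Y → B ≤ perp q A := fun a b => (b.trans o).trans (perp_anti a)
  have d := finrank_sup' h.nL (k h.lL h'.lL)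
  refine ⟨?_, ?_, by have := h.dL; have := h'.dL; omega, nd_sup h.nL h'.nL (k h.lL h'.lL), sup_le_sup h.lL h'.lL, ?_, ?_⟩
  · simp only [Finset.mem_union]
    rintro P (m | m)
    exacts [(h.pl P m).imp id (And.imp id (le_sup_of_le_left ·)), (h'.pl P m).imp id (And.imp id (le_sup_of_le_right ·))]
  · simp only [Finset.mem_union]
    rintro P (m | m) P' (m' | m') e
    exacts [h.orth P m P' m' e, le_perp_comm.1 (k (h.pl P m).2.2 (h'.pl P' m').2.2),
      k (h.pl P' m').2.2 (h'.pl P m).2.2, h'.orth P m P' m' e]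
  · simp only [Finset.mem_union, perp_sup, le_inf_iff]
    rintro P (m | m)
    exacts [⟨h.oL P m, le_perp_comm.1 (k (h.pl P m).2.2 h'.lL)⟩, ⟨k h.lL (h'.pl P m).2.2, h'.oL P m⟩]
  · rw [finrank_sup' hX o, d, h.cnt, h'.cnt, Finset.card_union_of_disjoint (Finset.disjoint_left.2 fun P m m' => by
      have := (h.pl P m).1
      rw [le_bot_iff.1 (disj hX o (h.pl P m).2.2 (h'.pl P m').2.2), finrank_bot] at this; omega)]
    ring

/-- An invariant decomposition. -/
def Fr {G : Type*} [Group G] (ρ : G →* O q) (n : ℕ) (X : Submodule K U) : Prop :=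
  ∃ D L, St q n X D L ∧ ∀ s, (∀ P ∈ D, mp (ρ s) P ∈ D) ∧ mp (ρ s) L = L

theorem Fr.two {G : Type*} [Group G] {ρ : G →* O q} (h : Fr ρ 2 X) : Fr ρ 1 X := by
  classical
  obtain ⟨D, L, h, i⟩ := h
  rcases h.dL.lt_or_eq with d | d
  · exact ⟨D, L, { h with dL := by omega }, i⟩
  refine ⟨insert L D, ⊥, ⟨?_, ?_, by simp, by simp [nd_restrict_iff], bot_le, fun P _ => le_perp_comm.1 bot_le, ?_⟩,
    fun s => ⟨?_, Submodule.map_bot _⟩⟩
  · simp only [Finset.forall_mem_insert]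
    exact ⟨⟨d, h.nL, h.lL⟩, h.pl⟩
  · simp only [Finset.forall_mem_insert]
    exact ⟨⟨fun e => absurd rfl e, fun P m _ => le_perp_comm.1 (h.oL P m)⟩, fun P m => ⟨fun _ => h.oL P m, h.orth P m⟩⟩
  · rw [Finset.card_insert_of_notMem fun m => by
      rw [(disj h.nL (h.oL L m)).eq_bot_of_self, finrank_bot] at d; omega, h.cnt, d, finrank_bot]
    ring
  · rw [Finset.forall_mem_insert, (i s).2]
    exact ⟨Finset.mem_insert_self _ _, fun P m => Finset.mem_insert_of_mem ((i s).1 P m)⟩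

theorem exists_fr [IsAlgClosed K] (h2 : (2 : K) ≠ 0) (n : ℕ) : ∀ (X : Submodule K U) (G : Type u) [Group G]
    [Finite G] (ρ : G →* O q), finrank K X = n → IsPGroup 2 G → ND (q.restrict X) → (∀ s, ρ s ∈ stabS X) →
    Fr ρ 1 X := by
  classical
  induction n using Nat.strong_induction_on with
  | _ n ih =>
  intro X G _ _ ρ hn hG hX hs
  subst hn
  by_cases h3 : finrank K X ≤ 2
  · exact Fr.two ⟨∅, X, ⟨by simp, by simp, h3, hX, le_rfl, by simp, by simp⟩, fun s => ⟨by simp, mp_eq (hs s)⟩⟩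
  have k1 : ∀ Y, Y ≤ X → Y ≠ ⊥ → Y ≠ X → ND (q.restrict Y) → (∀ s, mp (ρ s) Y = Y) → Fr ρ 1 X :=
      fun Y l y0 y1 nd i => by
    have e : Y ⊔ X ⊓ perp q Y = X := by
      rw [sup_comm, inf_sup_assoc_of_le _ l, sup_comm, (isCompl_perp nd).sup_eq_top, inf_top_eq]
    have nd' : ND (q.restrict (X ⊓ perp q Y)) := by
      rw [nd_restrict_iff] at hX ⊢
      refine fun x m o => hX x m.1 fun v hv => ?_
      obtain ⟨a, ha, b, hb, rfl⟩ := Submodule.mem_sup.1 (e.ge hv)
      rw [polar_add_right, o b hb, mem_perp'.1 m.2 a ha, add_zero]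
    have d := finrank_sup' nd (inf_le_right : X ⊓ perp q Y ≤ _)
    rw [e] at d
    have p := Submodule.finrank_eq_zero.not.2 y0
    obtain ⟨D, L, h, a⟩ := ih _ (Submodule.finrank_lt_finrank_of_lt (l.lt_of_ne y1)) Y G ρ rfl hG nd fun s => of_mp (i s)
    obtain ⟨D', L', h', a'⟩ := ih _ (by omega) (X ⊓ perp q Y) G ρ rfl hG nd' fun s => T2.stab_inf (hs s)
      (of_mp (by rw [mp, O.map_perp]; exact congrArg _ (i s)))
    refine Fr.two ⟨_, _, e ▸ h.join h' nd inf_le_right, fun s => ⟨fun P m => ?_, ?_⟩⟩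
    · exact Finset.mem_union.2 ((Finset.mem_union.1 m).imp ((a s).1 P) ((a' s).1 P))
    · rw [mp, Submodule.map_sup]; exact congrArg₂ _ (a s).2 (a' s).2
  obtain ⟨Y, Y', l, y0, y1, nd, o, i⟩ := spl hG h2 hX (by omega) hs
  by_cases c : ∀ s, mp (ρ s) Y = Y
  · exact k1 Y l y0 y1 nd c
  obtain ⟨g, c⟩ := not_forall.1 c
  obtain rfl := (i g).resolve_left c
  have l' : mp (ρ g) Y ≤ X := mp_eq (hs g) ▸ Submodule.map_mono l
  let S := (stabS (q := q) Y).comap ρ
  have cs : ∀ s, s ∈ S ∨ g⁻¹ * s ∈ S := fun s => (i s).imp of_mp fun e => of_mp (by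
    rw [map_mul, mp_mul, e, ← mp_mul, ← map_mul, inv_mul_cancel, map_one, mp_one])
  obtain ⟨D, L, h, a⟩ := ih _ (Submodule.finrank_lt_finrank_of_lt (l.lt_of_ne y1)) Y S (ρ.comp S.subtype) rfl
    (hG.to_subgroup S) nd fun s => s.2
  have k2 : ∀ {Z}, (∀ s : S, mp (ρ s) Z = Z) → ∀ s, mp (ρ s) (Z ⊔ mp (ρ g) Z) = Z ⊔ mp (ρ g) Z := fun {Z} b => by
    have b' : ∀ s, mp (ρ s) Z ≤ Z ⊔ mp (ρ g) Z := fun s => (cs s).elim (fun m => (b ⟨s, m⟩).trans_le le_sup_left)
      fun m => by rw [← mul_inv_cancel_left g s, map_mul, mp_mul, b ⟨_, m⟩]; exact le_sup_right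
    refine fun s => Submodule.eq_of_le_of_finrank_eq ?_ (finrank_mp _ _)
    rw [mp, Submodule.map_sup]
    exact sup_le (b' s) (by have := b' (s * g); rwa [map_mul, mp_mul] at this)
  by_cases e : Y ⊔ mp (ρ g) Y = X
  swap
  · exact k1 _ (sup_le l l') (fun z => y0 (sup_eq_bot_iff.1 z).1) e (nd_sup nd (nd_mp _ nd) o)
      (k2 fun s => mp_eq s.2)
  refine Fr.two ⟨_, _, e ▸ h.join (h.map (ρ g)) nd o, fun s => ⟨fun P m => ?_, k2 (fun s => (a s).2) s⟩⟩
  have b' : ∀ s, ∀ P ∈ D, mp (ρ s) P ∈ D ∪ D.image (mp (ρ g)) := fun s P m => Finset.mem_union.2 <|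
    (cs s).imp (fun x => (a ⟨s, x⟩).1 P m) fun x => Finset.mem_image.2 ⟨_, (a ⟨_, x⟩).1 P m, by
      rw [← mp_mul]; simp⟩
  rcases Finset.mem_union.1 m with m | m
  · exact b' s P m
  · obtain ⟨P, m', rfl⟩ := Finset.mem_image.1 m
    rw [← mp_mul, ← map_mul]; exact b' _ P m'

theorem planes [IsAlgClosed K] (h2 : (2 : K) ≠ 0) {G : Type*} [Group G] [Finite G] (hG : IsPGroup 2 G)
    (ρ : G →* O (Q K)) : ∃ P : Fin 3 → Submodule K (V K), (∀ i, finrank K (P i) = 2 ∧ ND ((Q K).restrict (P i))) ∧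
      (∀ i j, i ≠ j → P i ≤ perp (Q K) (P j)) ∧ ∀ g i, ∃ j, mp (ρ g) (P i) = P j := by
  obtain ⟨D, L, h, a⟩ := exists_fr h2 _ ⊤ G ρ rfl hG
    (nd_restrict_iff.2 fun x _ e => (nd_Q h2).eq_zero fun y => e y trivial) fun _ _ _ => trivial
  have c := h.cnt
  have d := h.dL
  rw [finrank_top, finrank_V] at c
  let e := (Finset.equivFinOfCardEq (show D.card = 3 by omega)).symm
  exact ⟨fun i => e i, fun i => (h.pl _ (e i).2).imp id And.left, fun i j n => h.orth _ (e i).2 _ (e j).2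
    fun o => n (e.injective (Subtype.ext o)), fun g i => ⟨e.symm ⟨_, (a g).1 _ (e i).2⟩, by simp⟩⟩

end Cfsg.Lib.O7.SR
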