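import Cfsg.Agent.Lib.O7.Tri
import Cfsg.Agent.Lib.Symp.Group

/-!
# `PSp₄(q)`, `q` odd (see `docs/O7.md`)
-/

set_option autoImplicit false

namespace Cfsg.Lib.O7

open QuadraticMap Module Matrix Cfsg.Lib.Orth
open scoped MatrixGroups

namespace S4

open Cfsg.Lib.Symp Cfsg.Lib.PSL2

section Emb

variable {E : Type*} [Field E]

theorem m_ext {A B : Matrix (Fin 2 ⊕ Fin 2) (Fin 2 ⊕ Fin 2) E} (h : ∀ i j, A i j = B i j) : A = B := Matrix.ext h

theorem coe_mul' (A B : symplecticGroup (Fin 2) E) : (A * B).1 = A.1 * B.1 := rfl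

/-- `SL₂ × SL₂ ≤ Sp₄` -/
def i12 : SL(2, E) × SL(2, E) →* symplecticGroup (Fin 2) E :=
  MonoidHom.mk' (fun x => ⟨fromBlocks !![x.1 0 0, 0; 0, x.2 0 0] !![x.1 0 1, 0; 0, x.2 0 1] !![x.1 1 0, 0; 0, x.2 1 0]
    !![x.1 1 1, 0; 0, x.2 1 1], SymplecticGroup.mem_iff.2 (m_ext (by
      have h1 := sl_det x.1
      have h2 := sl_det x.2
      simp [J, mul_apply, Fin.forall_fin_two, Fintype.sum_sum_type]
      grind))⟩) fun a b => Subtype.ext (m_ext (by
        simp [coe_mul', mul_apply, Fin.forall_fin_two, Fintype.sum_sum_type]))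

theorem coe_i12 (x : SL(2, E) × SL(2, E)) : (i12 x).1 = fromBlocks !![x.1 0 0, 0; 0, x.2 0 0] !![x.1 0 1, 0; 0, x.2 0 1]
    !![x.1 1 0, 0; 0, x.2 1 0] !![x.1 1 1, 0; 0, x.2 1 1] := rfl

/-- the first factor -/
def i1 : SL(2, E) →* symplecticGroup (Fin 2) E := i12.comp (MonoidHom.inl _ _)

/-- the second factor -/
def i2 : SL(2, E) →* symplecticGroup (Fin 2) E := i12.comp (MonoidHom.inr _ _)

theorem i1_apply (A : SL(2, E)) : i1 A = i12 (A, 1) := rfl

theorem i2_apply (A : SL(2, E)) : i2 A = i12 (1, A) := rfl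

/-- `e₁ + e₂` -/
def e12 (E : Type*) [Field E] : Fin 2 ⊕ Fin 2 → E := Sum.elim ![1, 1] 0

theorem i1_upper (c : E) : i1 (upper c) = tvSp (Sum.elim ![1, 0] 0) c := Subtype.ext (m_ext (by
  simp [i1_apply, coe_i12, tvMat, J, Fin.forall_fin_two, vecMulVec, mulVec, dotProduct, Fintype.sum_sum_type]))

theorem i2_upper (c : E) : i2 (upper c) = tvSp (Sum.elim ![0, 1] 0) c := Subtype.ext (m_ext (by
  simp [i2_apply, coe_i12, tvMat, J, Fin.forall_fin_two, vecMulVec, mulVec, dotProduct, Fintype.sum_sum_type]))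

theorem exists_col {a b : E} (h : ¬ (a = 0 ∧ b = 0)) : ∃ A : SL(2, E), A 0 0 = a ∧ A 1 0 = b := by
  by_cases ha : a = 0
  · have hb : b ≠ 0 := fun e => h ⟨ha, e⟩
    exact ⟨⟨!![a, -b⁻¹; b, 0], by simp [det_fin_two, hb]⟩, rfl, rfl⟩
  · exact ⟨⟨!![a, 0; b, a⁻¹], by simp [det_fin_two, ha]⟩, rfl, rfl⟩

theorem gen {H : Subgroup (symplecticGroup (Fin 2) E)} (h1 : ∀ A, i1 A ∈ H) (h2 : ∀ A, i2 A ∈ H)
    (h3 : ∀ c, tvSp (e12 E) c ∈ H) : H = ⊤ := by
  have h : ∀ A B, i12 (A, B) ∈ H := fun A B => by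
    simpa [i1_apply, i2_apply, ← map_mul] using mul_mem (h1 A) (h2 B)
  have k : ∀ A B u v, (∀ c, tvSp u c ∈ H) → (∀ i, ((i12 (A, B)).1 *ᵥ u) i = v i) → ∀ c, tvSp v c ∈ H :=
    fun A B u v hu e c => by
      rw [← funext e, ← conj_tvSp]
      exact mul_mem (mul_mem (h A B) (hu c)) (inv_mem (h A B))
  refine eq_top_of_tvSp_mem H fun v => ?_
  by_cases a : v (.inl 0) = 0 ∧ v (.inr 0) = 0 <;> by_cases b : v (.inl 1) = 0 ∧ v (.inr 1) = 0
  · rw [show v = 0 from funext (by simp [Fin.forall_fin_two, a, b])]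
    simp
  · obtain ⟨B, b1, b2⟩ := exists_col b
    exact k 1 B _ v (fun c => i2_upper c ▸ h2 _) (by
      simp [coe_i12, Fin.forall_fin_two, mulVec, dotProduct, Fintype.sum_sum_type, a, b1, b2])
  · obtain ⟨A, a1, a2⟩ := exists_col a
    exact k A 1 _ v (fun c => i1_upper c ▸ h1 _) (by
      simp [coe_i12, Fin.forall_fin_two, mulVec, dotProduct, Fintype.sum_sum_type, b, a1, a2])
  · obtain ⟨A, a1, a2⟩ := exists_col a
    obtain ⟨B, b1, b2⟩ := exists_col b
    exact k A B _ v h3 (by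
      simp [e12, coe_i12, Fin.forall_fin_two, mulVec, dotProduct, Fintype.sum_sum_type, a1, a2, b1, b2])

/-- the swap of the two planes -/
def sw (E : Type*) [Field E] : symplecticGroup (Fin 2) E :=
  ⟨fromBlocks !![0, 1; 1, 0] 0 0 !![0, 1; 1, 0], SymplecticGroup.mem_iff.2 (m_ext (by
    simp [J, mul_apply, Fin.forall_fin_two, Fintype.sum_sum_type]))⟩

theorem sw_i12 (A B : SL(2, E)) : sw E * i12 (A, B) * (sw E)⁻¹ = i12 (B, A) :=
  mul_inv_eq_iff_eq_mul.2 (Subtype.ext (m_ext (by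
    simp [sw, coe_mul', coe_i12, mul_apply, Fin.forall_fin_two, Fintype.sum_sum_type])))

theorem i12_neg : i12 ((-1, -1) : SL(2, E) × SL(2, E)) = negOneSp _ _ := Subtype.ext (m_ext (by
  simp [coe_i12, Fin.forall_fin_two]))

theorem exists_g (h2 : (2 : E) ≠ 0) : ∃ g : symplecticGroup (Fin 2) E, g * i1 (-1) * g⁻¹ = sw E ∧
    g.1 *ᵥ Sum.elim ![0, 1] 0 = e12 E :=
  ⟨⟨fromBlocks !![1, 1; -1, 1] 0 0 !![2⁻¹, 2⁻¹; -2⁻¹, 2⁻¹], SymplecticGroup.mem_iff.2 (m_ext (by
    simp [J, mul_apply, Fin.forall_fin_two, Fintype.sum_sum_type]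
    field_simp
    norm_num))⟩, mul_inv_eq_iff_eq_mul.2 (Subtype.ext (m_ext (by
      simp [sw, coe_mul', i1_apply, coe_i12, mul_apply, Fin.forall_fin_two, Fintype.sum_sum_type]))), funext (by
    simp [e12, Fin.forall_fin_two, mulVec, dotProduct, Fintype.sum_sum_type])⟩

end Emb

/-! ### `Sp₄(3)` -/

/-- A matrix from its code. -/
def mx (n : ℕ) : Matrix (Fin 2 ⊕ Fin 2) (Fin 2 ⊕ Fin 2) (ZMod 3) := of fun i j =>
  ((n / 3 ^ (4 * Sum.elim Fin.val (·.1 + 2) i + Sum.elim Fin.val (·.1 + 2) j) : ℕ) : ZMod 3)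

/-- A chain of products. -/
def ck : ℕ → List (ℕ × ℕ) → ℕ → Prop
  | a, [], c => a = c
  | a, x :: l, c => mx a * mx x.1 = mx x.2 ∧ ck x.2 l c

instance dk : ∀ a l c, Decidable (ck a l c)
  | a, [], c => inferInstanceAs (Decidable (a = c))
  | a, x :: l, c => @instDecidableAnd (mx a * mx x.1 = mx x.2) _ _ (dk x.2 l c)

theorem chain {H : Subgroup (symplecticGroup (Fin 2) (ZMod 3))} {S : List ℕ} (hS : ∀ n ∈ S, ∃ g ∈ H, g.1 = mx n)
    {l : List (ℕ × ℕ)} {a c : ℕ} (ha : ∃ g ∈ H, g.1 = mx a) (h : (∀ x ∈ l, x.1 ∈ S) ∧ ck a l c) :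
    ∃ g ∈ H, g.1 = mx c := by
  induction l generalizing a with
  | nil => exact h.2 ▸ ha
  | cons x l ih =>
    obtain ⟨g, hg, e⟩ := ha
    obtain ⟨g', hg', e'⟩ := hS _ (h.1 x List.mem_cons_self)
    exact ih ⟨g * g', mul_mem hg hg', by rw [coe_mul', e, e', h.2.1]⟩
      ⟨fun y hy => h.1 y (List.mem_cons_of_mem _ hy), h.2.2⟩

/-- An element from its code. -/
def sp (n : ℕ) (h : mx n * J (Fin 2) (ZMod 3) * (mx n)ᵀ = J (Fin 2) (ZMod 3) := by decide +kernel) :
    symplecticGroup (Fin 2) (ZMod 3) := ⟨mx n, SymplecticGroup.mem_iff.2 h⟩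

theorem symJ_eq : SymplecticGroup.symJ (Fin 2) (ZMod 3) = sp 1605276 := Subtype.ext (show J _ _ = mx _ by decide +kernel)

theorem gen3 {H : Subgroup (symplecticGroup (Fin 2) (ZMod 3))} (h0 : negOneSp _ _ ∈ H) (h1 : sp 1605276 ∈ H)
    (h2 : sp 39664615 ∈ H) (h3 : sp 29739907 ∈ H) : H = ⊤ := by
  have hS : ∀ n ∈ [14408200, 28816400, 1605276, 39664615, 29739907], ∃ g ∈ H, g.1 = mx n := by
    simp only [List.forall_mem_cons]
    exact ⟨⟨1, one_mem _, show (1 : Matrix _ _ _) = _ by decide +kernel⟩,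
      ⟨_, h0, show (-1 : Matrix _ _ _) = _ by decide +kernel⟩, ⟨_, h1, rfl⟩, ⟨_, h2, rfl⟩, ⟨_, h3, rfl⟩, by simp⟩
  have k : ∀ {a c : ℕ} (l : List (ℕ × ℕ)) (g : symplecticGroup (Fin 2) (ZMod 3)), g.1 = mx c →
      a ∈ [14408200, 28816400, 1605276, 39664615, 29739907] ∧
      (∀ x ∈ l, x.1 ∈ [14408200, 28816400, 1605276, 39664615, 29739907]) ∧ ck a l c → g ∈ H := fun l g e h =>
    let ⟨_, hg, e'⟩ := chain hS (hS _ h.1) h.2
    Subtype.ext (e'.trans e.symm) ▸ hg
  have t : ∀ (f : ZMod 3 → symplecticGroup (Fin 2) (ZMod 3)), (∀ s t, f s * f t = f (s + t)) → f 1 ∈ H → ∀ t, f t ∈ H :=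
    fun f hf m t => by
      rcases (by decide : ∀ t : ZMod 3, t = 1 ∨ t = 1 + 1 ∨ t = 1 + 1 + 1) t with rfl | rfl | rfl
      · exact m
      · exact hf 1 1 ▸ mul_mem m m
      · exact hf _ 1 ▸ hf 1 1 ▸ mul_mem (mul_mem m m) m
  refine gen (gen_sl (M := (H.comap i1).toSubmonoid) (t (fun t => i1 (upper t))
    (fun _ _ => by rw [← map_mul, upper_mul]) ?_) ?_) (gen_sl (M := (H.comap i2).toSubmonoid) (t (fun t => i2 (upper t))
    (fun _ _ => by rw [← map_mul, upper_mul]) ?_) ?_) (t _ (tvSp_mul _) ?_)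
  · exact k (a := 14408200) (c := 14408209) [(39664615, 39664615), (1605276, 9249953), (39664615, 38679620), (29739907,
      36819125), (1605276, 18559485), (29739907, 27925770), (39664615, 21508243), (29739907, 18752212), (39664615,
      12608885), (1605276, 35057459), (29739907, 39891253), (39664615, 17667074), (29739907, 13226870), (1605276,
      15698220), (29739907, 14408209)] _
      (by decide +kernel) (by decide +kernel)
  · exact k (a := 14408200) (c := 14362281) [(1605276, 1605276), (39664615, 22113633), (1605276, 36113587), (39664615,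
      16569486), (1605276, 40278308), (39664615, 17673652), (29739907, 12859469), (1605276, 15599833), (29739907,
      14362281)] _
      (by decide +kernel) (by decide +kernel)
  · exact k (a := 28816400) (c := 14410387) [(1605276, 3203964), (29739907, 28538321), (1605276, 21889511), (39664615,
      3276208), (29739907, 28566784), (1605276, 22124442), (39664615, 3310901), (29739907, 28451039), (1605276,
      22116711), (39664615, 3204450), (1605276, 14410387)] _
      (by decide +kernel) (by decide +kernel)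
  · exact k (a := 28816400) (c := 3249883) [(29739907, 15698261), (1605276, 6702117), (29739907, 17667082), (39664615,
      22367161), (1605276, 16772857), (39664615, 28377779), (1605276, 22225175), (39664615, 3249883)] _
      (by decide +kernel) (by decide +kernel)
  · exact k (a := 28816400) (c := 14411152) [(1605276, 3203964), (39664615, 42455715), (29739907, 16018996), (39664615,
      2161700), (29739907, 7697919), (1605276, 34398081), (39664615, 10736992), (29739907, 8221576), (1605276,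
      14969366), (39664615, 6517717), (29739907, 17669885), (1605276, 16021383), (29739907, 22111902), (39664615,
      3204620), (1605276, 14411152)] _
      (by decide +kernel) (by decide +kernel)

/-- Representatives of `2^{1+4}_-` modulo the centre. -/
def cL : Fin 16 → ℕ := ![14408200, 4960200, 28757350, 572292, 10314762, 5709018, 1605276, 30419236, 16011524, 552636,
  3197412, 10472196, 17667082, 5137350, 5512164, 31956698]

/-- Conjugating elements. -/
def gL : Fin 16 → ℕ := ![14408200, 41910365, 5511324, 6866634, 22572008, 22572448, 14408200, 14410396, 14412592, 22801612,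
  31950127, 41547043, 31947706, 22526057, 41697934, 31946014]

/-- The elements. -/
def ψ (i : Fin 16) : symplecticGroup (Fin 2) (ZMod 3) := sp (cL i) (by revert i; decide +kernel)

variable {K : Type*} [Field K] {M : Subgroup (O (Q K))}

theorem eq_of_neg {X : Type*} [Group X] {F : symplecticGroup (Fin 2) (ZMod 3) →* X} (k : F.ker = Subgroup.center _)
    {a b : symplecticGroup (Fin 2) (ZMod 3)} : F a = F b ↔ a.1 = b.1 ∨ a.1 = -b.1 := by
  rw [← mul_inv_eq_one, ← map_inv, ← map_mul, ← MonoidHom.mem_ker, k, mem_center_sp_iff, mul_inv_eq_one,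
    mul_inv_eq_iff_eq_mul, Subtype.ext_iff, Subtype.ext_iff, coe_mul', coe_negOneSp, neg_one_mul]

theorem dm3 (h : Pre M) (F : symplecticGroup (Fin 2) (ZMod 3) →* O (Q K)) (hF : ∀ g, F g ∈ M)
    (k : F.ker = Subgroup.center _) : dm (F (sp 1605276)) = 2 := by
  have k1 : ∀ {a}, F a = 1 ↔ a.1 = 1 ∨ a.1 = -1 := by
    intro a
    rw [← map_one F]
    exact eq_of_neg k
  have sq : ∀ i, F (ψ i) * F (ψ i) = 1 := fun i => by
    rw [← map_mul, k1]
    revert i
    change ∀ i, mx (cL i) * mx (cL i) = 1 ∨ mx (cL i) * mx (cL i) = -1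
    decide +kernel
  have z : F (ψ 0) = 1 := k1.2 (.inl (show mx _ = 1 by decide +kernel))
  let A : Subgroup (O (Q K)) :=
    { carrier := Set.range fun i => F (ψ i)
      one_mem' := ⟨0, z⟩
      mul_mem' := by
        rintro _ _ ⟨i, rfl⟩ ⟨j, rfl⟩
        refine ((by decide +kernel : ∀ i j, ∃ l, mx (cL l) = mx (cL i) * mx (cL j) ∨
          mx (cL l) = -(mx (cL i) * mx (cL j))) i j).imp fun l e => ?_
        rw [← map_mul]
        exact (eq_of_neg k).2 e
      inv_mem' := by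
        rintro _ ⟨i, rfl⟩
        exact ⟨i, (inv_eq_of_mul_eq_one_left (sq i)).symm⟩ }
  let e : Fin 16 ≃ A := Equiv.ofInjective _ fun i j e =>
    (by decide +kernel : ∀ i j, mx (cL i) = mx (cL j) ∨ mx (cL i) = -mx (cL j) → i = j) i j ((eq_of_neg k).1 e)
  let _ := Fintype.ofEquiv _ e
  have h1 := sum_dm h.two (E := A) (by rintro _ ⟨i, rfl⟩; exact sq i)
  have h4 : dm (F (sp 14467250)) = 4 := by
    refine h.dm_of_q8 (a := F (sp 14362281)) (b := F (sp 14473819)) (hF _) ?_ (fun e => ?_) ?_ ?_ ?_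
    · rw [← map_mul, k1]
      exact .inl (show mx _ * mx _ = 1 by decide +kernel)
    · exact absurd (k1.1 e) (show ¬ (mx _ = 1 ∨ mx _ = -1) by decide +kernel)
    all_goals
      simp only [← map_mul]
      exact congrArg F (Subtype.ext (by simp only [coe_mul', sp]; decide +kernel))
  have hg : ∀ i, mx (gL i) * J (Fin 2) (ZMod 3) * (mx (gL i))ᵀ = J (Fin 2) (ZMod 3) := by decide +kernel
  have h5 : ∀ i, dm (F (ψ i)) = if i = 0 then 0 else if i < 6 then 4 else dm (F (sp 1605276)) := fun i => by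
    have c : ∀ b : symplecticGroup (Fin 2) (ZMod 3), mx (gL i) * b.1 = mx (cL i) * mx (gL i) → dm (F (ψ i)) = dm (F b) :=
      fun b e => dm_of_isConj (F.map_isConj (a := b) (b := ψ i) (isConj_iff.2 ⟨sp (gL i) (hg i),
        mul_inv_eq_iff_eq_mul.2 (Subtype.ext e)⟩)).symm
    split_ifs with a b
    · rw [a, z, dm_eq_zero]
    · rw [← h4]
      exact c _ ((by decide +kernel : ∀ i, i ≠ 0 → i < 6 → mx (gL i) * mx 14467250 = mx (cL i) * mx (gL i)) i a b)
    · exact c _ ((by decide +kernel : ∀ i, ¬ i < 6 → mx (gL i) * mx 1605276 = mx (cL i) * mx (gL i)) i b)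
  rw [← Equiv.sum_comp e, Nat.card_congr e.symm, Nat.card_fin, finrank_V,
    Finset.sum_congr rfl fun i _ => show dm (e i).1 = _ from h5 i] at h1
  simp only [Fin.sum_univ_succ] at h1
  simp at h1
  have h6 := h.dm_inv (hF (ψ 6)) (sq 6) fun e => absurd (k1.1 e) (show ¬ (mx _ = 1 ∨ mx _ = -1) by decide +kernel)
  rw [h5, if_neg (by decide), if_neg (by decide)] at h6
  omega

theorem exists_equiv {E : Type*} [Field E] [Fintype E] (h3 : Fintype.card E = 3) :
    ∃ c : symplecticGroup (Fin 2) (ZMod 3) ≃* symplecticGroup (Fin 2) E, c (sp 1605276) = SymplecticGroup.symJ (Fin 2) E :=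
  ⟨congrSp (Equiv.refl _) (ZMod.ringEquivOfPrime E Nat.prime_three h3), symJ_eq ▸ Subtype.ext (m_ext (by
    simp [SymplecticGroup.coe_J, J, Fin.forall_fin_two]))⟩

theorem ker_comp {G H X : Type*} [Group G] [Group H] [Group X] (c : G ≃* H) {F : H →* X} (k : F.ker = Subgroup.center _) :
    (F.comp c.toMonoidHom).ker = Subgroup.center _ := by
  ext x
  rw [← mem_center_mulEquiv_iff c, ← k]
  rfl

theorem top {G X : Type*} [Group G] [Group X] {M : Subgroup X} (F : G →* X) (Y : Subgroup X) (a : M ≤ F.range)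
    (b : Y.comap F = ⊤) : M ≤ Y := fun x hx => by
  obtain ⟨g, rfl⟩ := a hx
  exact b.ge (Subgroup.mem_top g)

end S4

open S4 Cfsg.Lib.Symp Cfsg.Lib.PSL2

variable {K : Type*} [Field K] [IsAlgClosed K] {M : Subgroup (O (Q K))}
  {E : Type*} [Field E] [Fintype E]

omit [IsAlgClosed K] in
/-- In `Sp₄(3)`: the group `2^{1+4}_- = Q₈ ⊗ D₈` (`J = [[0,1],[-1,0]]`, `I = [[1,1],[1,-1]]`, `X = [[0,1],[1,0]]`, `Z = diag (1,-1)`, form `J ⊗ 1`) has image `E₁₆` with five involutions conjugate to `t` (centre of a `Q₈`: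
`Pre.dm_of_q8`) and ten conjugate to `s = J ⊗ 1` (`s² = -1`).  `Pre.count16`: `8 ∣ 20 + 10 b` gives `dm s = 2`.  Three conjugates of `s` generate `PSp₄(3)` (41% of random triples) and `L₄(3)` (28%): find them by
computer with words for the standard generators, then `Irr.not_three`. -/
theorem Pre.dm_J (h : Pre M) (h3 : Fintype.card E = 3) (F : Matrix.symplecticGroup (Fin 2) E →* O (Q K))
    (hF : ∀ g, F g ∈ M) (k : F.ker = Subgroup.center _) : dm (F (SymplecticGroup.symJ (Fin 2) E)) = 2 := by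
  obtain ⟨c, e⟩ := exists_equiv h3
  exact e ▸ dm3 h (F.comp c.toMonoidHom) (fun _ => hF _) (ker_comp c k)

theorem S4.core (h : Pre M) (h2 : (2 : E) ≠ 0) (h3 : 3 < Nat.card E) {F : symplecticGroup (Fin 2) E →* O (Q K)}
    (hF : ∀ g, F g ∈ M) (k : F.ker = Subgroup.center _) : Commute (F (sw E)) (F (i1 (-1))) ∧ dm (F (i1 (-1))) = 4 ∧
      O.fix (F (i1 (-1))) ≤ Fix (F.comp i1).range ∧ O.fix (F (i1 (-1))) ≤ Fix (F.comp i2).range := by
  have n1 : F (negOneSp _ _) = 1 := k.ge ((mem_center_sp_iff _).2 (.inr rfl))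
  have cn : Commute (F (sw E)) (F (i1 (-1))) := by
    rw [Commute, SemiconjBy, ← mul_inv_eq_iff_eq_mul, ← map_inv, ← map_mul, ← map_mul, i1_apply, sw_i12,
      ← one_mul (F (i12 (-1, 1))), ← n1, ← i12_neg, ← map_mul, ← map_mul]
    simp
  have cj : ∀ f f' : SL(2, E) →* symplecticGroup (Fin 2) E, (∀ A, sw E * f A * (sw E)⁻¹ = f' A) →
      (F.comp f').range = (F.comp f).range.map (MulAut.conj (F (sw E))).toMonoidHom := fun f f' a => by
    rw [MonoidHom.map_range]
    congr 1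
    ext1 A
    simp [← a]
  exact ⟨cn, h.swap_fix (t := F (i1 (-1))) (hF _) (tri_sq (F.comp i1)) (fun a => by
      rcases (mem_center_sp_iff _).1 (k.le a) with a | a
      · have : (-1 : E) = 1 := by simpa [i1_apply, coe_i12] using congrFun₂ (congrArg Subtype.val a) (.inl 0) (.inl 0)
        exact h2 (by linear_combination -this)
      · have : (1 : E) = -1 := by simpa [i1_apply, coe_i12] using congrFun₂ (congrArg Subtype.val a) (.inl 1) (.inl 1)
        exact h2 (by linear_combination this))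
    (tri_range h3 (F.comp i1)) ⟨-1, rfl⟩ (by rintro _ ⟨A, rfl⟩; exact tri_cen (F.comp i1) A) cn
    (cj i1 i2 fun A => sw_i12 A 1) (cj i2 i1 fun A => sw_i12 1 A) (by
      rintro _ ⟨A, rfl⟩ _ ⟨B, rfl⟩
      exact ((MonoidHom.commute_inl_inr A B).map i12).map F)⟩

/-- `F = emb e ∘ mk`.  `q > 3`: `L₁`, `L₂` the images of the `SL₂` on the two hyperbolic planes `⟨e₁, f₁⟩`, `⟨e₂, f₂⟩`, `t = F (diag (-1 on the first plane))`, `n` the swap `e₁ ↔ e₂`, `f₁ ↔ f₂`:
`Pre.swap_fix`.  `t' = F n = g t g⁻¹` (`g` maps the planes to `⟨e₁ ∓ e₂, f₁ ∓ f₂⟩`) commutes with `t`.  `Pre.exists_fix` gives `v ≠ 0` fixed by `L₁, L₂, g L₂ g⁻¹`, which contain the transvection groups of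
`e₁, f₁, e₂, f₂, e₁ + e₂`; these generate `Sp₄` (`T_{e₁+e₂}(x) T_{e₁}(-x) T_{e₂}(-x)` is a short root element; Lib.Symp, Lib.SP4).  `Irr.not_fix`.
`q = 3`: `three_le`.  -/
theorem Rep.no_Sp4 (h : Rep M) (ho : Odd (Fintype.card E)) (e : M ≃* PSp 2 E) : False := by
  have h2 := two_ne_zero_iff_odd_card.2 ho
  obtain ⟨F, hF, k, hs⟩ : ∃ F : symplecticGroup (Fin 2) E →* O (Q K), (∀ g, F g ∈ M) ∧ F.ker = Subgroup.center _ ∧
      M ≤ F.range := ⟨(emb e).comp (QuotientGroup.mk' _), fun _ => emb_mem e _, by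
        rw [← MonoidHom.comap_ker, (MonoidHom.ker_eq_bot_iff _).2 (emb_injective e), MonoidHom.comap_bot,
          QuotientGroup.ker_mk'], by
        rw [MonoidHom.range_comp, MonoidHom.range_eq_top.2 (QuotientGroup.mk'_surjective _), ← MonoidHom.range_eq_map,
          range_emb]⟩
  by_cases h3 : Fintype.card E = 3
  · obtain ⟨c, -⟩ := exists_equiv h3
    have d := dm3 h.toPre (F.comp c.toMonoidHom) (fun _ => hF _) (ker_comp c k)
    have n2 : F.comp c.toMonoidHom (negOneSp _ _) = 1 := (ker_comp c k).ge ((mem_center_sp_iff _).2 (.inr rfl))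
    replace hs : M ≤ (F.comp c.toMonoidHom).range := by
      rwa [MonoidHom.range_comp, MonoidHom.range_eq_top.2 c.surjective, ← MonoidHom.range_eq_map]
    generalize F.comp c.toMonoidHom = F at d n2 hs
    have cj : ∀ a g : symplecticGroup (Fin 2) (ZMod 3), g.1 * mx 1605276 = a.1 * g.1 → dm (F a) = 2 := fun a g e =>
      (dm_of_isConj (F.map_isConj (isConj_iff.2 ⟨g, mul_inv_eq_iff_eq_mul.2 (Subtype.ext e)⟩))).symm.trans d
    refine h.irrV.not_three (top F _ hs (gen3 ?_ ?_ ?_ ?_)) d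
      (cj (sp 39664615) (sp 22571550) (show mx _ * _ = mx _ * mx _ by decide +kernel))
      (cj (sp 29739907) (sp 27289460) (show mx _ * _ = mx _ * mx _ by decide +kernel))
    · rw [Subgroup.mem_comap, n2]
      exact one_mem _
    all_goals exact Subgroup.subset_closure (by simp)
  replace h3 : 3 < Nat.card E := by
    have := Fintype.one_lt_card (α := E)
    rw [Nat.card_eq_fintype_card]
    obtain ⟨n, hn⟩ := ho
    omega
  obtain ⟨cn, d, f1, f2⟩ := core h.toPre h2 h3 hF k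
  obtain ⟨g, g1, g2⟩ := exists_g h2
  have e1 : F (sw E) = F g * F (i1 (-1)) * (F g)⁻¹ := by rw [← g1, map_mul, map_mul, map_inv]
  obtain ⟨v, v0, v1, v2⟩ := h.toPre.exists_fix (hF _) (hF (sw E)) (tri_sq (F.comp i1))
    (by rw [e1, conj_mul, show F _ * F _ = 1 from tri_sq (F.comp i1), mul_one, mul_inv_cancel]) cn.symm d (by rw [e1, dm_conj, d])
  refine h.irrV.not_fix (by rw [finrank_V]; norm_num) v0 (top F _ hs (gen
    (fun A => f1 (O.mem_fix.2 v1) _ ⟨A, rfl⟩) (fun A => f2 (O.mem_fix.2 v1) _ ⟨A, rfl⟩) fun c => ?_))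
  have m : ((F g)⁻¹).1 v ∈ O.fix (F (i1 (-1))) := O.mem_fix.2 (by
    nth_rw 2 [← v2]
    rw [e1, O.mul_apply, O.mul_apply, O.inv_apply_apply])
  rw [Subgroup.mem_comap, mem_stabV, ← g2, ← conj_tvSp, ← i2_upper, map_mul, map_mul, map_inv, O.mul_apply, O.mul_apply,
    show (F (i2 (upper c))).1 _ = _ from f2 m _ ⟨upper c, rfl⟩, O.apply_inv_apply]

end Cfsg.Lib.O7
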