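import Cfsg.Agent.Lib.O7.Def

/-!
# The spin group: kernel, image, extension of scalars (see `docs/O7.md`)
-/

set_option autoImplicit false

namespace Cfsg.Lib.O7

open QuadraticMap Module Matrix Cfsg.Lib.Orth Cfsg.Lib.Oct Cfsg.Lie
open scoped MatrixGroups commutatorElement

variable {K : Type*} [Field K]

/-- `ext i; fin_cases i; simp [mul_eq, jv_apply, Oct.mk, qOdd_apply, Fin.sum_univ_three]; ring`. -/
theorem gam_gam (v : V K) (w : W K) : gam v (gam v w) = Q K v • w := by
  ext i
  fin_cases i <;> simp [gam_apply, mul_eq, jv_apply, Oct.mk, qOdd_apply, Fin.sum_univ_three] <;> ring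

/-- Polarise `gam_gam`. -/
theorem gam_anti (u v : V K) (w : W K) : gam u (gam v w) + gam v (gam u w) = polar (Q K) u v • w := by
  have h := gam_gam (u + v) w
  rw [map_add, LinearMap.add_apply, LinearMap.add_apply, map_add, map_add, gam_gam, gam_gam, Q_add, add_smul,
    add_smul] at h
  linear_combination (norm := abel) h

theorem N_gam (v : V K) (w : W K) : N K (gam v w) = -Q K v * N K w := by
  rw [N_apply, gam_apply, nm_omul, nm_jv, N_apply]

/-- `gam v (one K) = jv v`. -/
theorem gam_injective : Function.Injective (gam (K := K)) := fun u v e => jv_injective (by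
  simpa only [gam_apply, omul_one] using LinearMap.congr_fun e (one K))

/-- `gam a (gam v w) = -gam (refl a v) (gam a w)`, from `gam_anti`, `gam_gam`. -/
theorem gam_refl {a : V K} (ha : Q K a ≠ 0) (v : V K) (w : W K) :
    gam a (gam v w) = -gam ((refl (Q K) a).1 v) (gam a w) := by
  rw [refl_apply, map_sub, map_smul, LinearMap.sub_apply, LinearMap.smul_apply, gam_gam, smul_smul,
    mul_right_comm, inv_mul_cancel₀ ha, one_mul, ← gam_anti]
  abel

variable (K) in
/-- Basis vectors of `V`. -/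
abbrev sX (i : Fin 3) : V K := Pi.single (.inr (.inl i)) 1

variable (K) in
/-- Basis vectors of `V`. -/
abbrev sY (i : Fin 3) : V K := Pi.single (.inr (.inr i)) 1

variable (K) in
/-- Basis vectors of `V`. -/
abbrev sU : V K := Pi.single (.inl ()) 1

theorem gam_xxx (w : W K) : gam (sX K 0) (gam (sX K 1) (gam (sX K 2) w)) = w 7 • e0 K := by
  ext i
  fin_cases i <;> simp [gam_apply, mul_eq, jv_apply, Oct.mk, e0]

theorem gam_sU_e0 : gam (sU K) (e0 K) = e0 K := by
  ext i
  fin_cases i <;> simp [gam_apply, mul_eq, jv_apply, Oct.mk, e0]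

theorem gam_span (w : W K) : w = w 0 • e0 K + w 4 • gam (sY K 0) (e0 K) + w 5 • gam (sY K 1) (e0 K) +
    w 6 • gam (sY K 2) (e0 K) + w 1 • gam (sY K 2) (gam (sY K 1) (e0 K)) + w 2 • gam (sY K 0) (gam (sY K 2) (e0 K)) +
    w 3 • gam (sY K 1) (gam (sY K 0) (e0 K)) + w 7 • gam (sY K 0) (gam (sY K 2) (gam (sY K 1) (e0 K))) := by
  ext i
  fin_cases i <;> simp [gam_apply, mul_eq, jv_apply, Oct.mk, e0]

theorem gam_xxx_e7 : gam (sX K 0) (gam (sX K 1) (gam (sX K 2) (e7 K))) = e0 K := by
  rw [gam_xxx]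
  exact one_smul _ _

/-- An endomorphism commuting with all `gam v` is a scalar.  With `x i = Pi.single (.inr (.inl i)) 1`,
`y i = Pi.single (.inr (.inr i)) 1` the common kernel of suitable three of the six nilpotent maps
`gam (x i)`, `gam (y i)` is a line (`K e0`, `K e7`, ...: `gam (x 0) (gam (x 1) (gam (x 2) ·))` has rank one), so
`A w0 = c w0` for a basis vector `w0`, and the vectors `gam .. gam w0` run through the basis (up to sign).
Direct route: write `A` on `Pi.single`s and compare entries. -/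
theorem scalar_of_comm {A : Module.End K (W K)} (h : ∀ v w, A (gam v w) = gam v (A w)) :
    ∃ c : K, ∀ w, A w = c • w := by
  have k : A (e0 K) = A (e7 K) 7 • e0 K := by rw [← gam_xxx, ← h, ← h, ← h, gam_xxx_e7]
  refine ⟨A (e7 K) 7, fun w => ?_⟩
  rw [gam_span w]
  simp only [map_add, map_smul, h, k, smul_add, smul_comm (A (e7 K) 7)]

/-- `phi s` is determined by `act s` (`gam_injective`). -/
theorem act_injective : Function.Injective (act (K := K)) := fun s s' e => Subtype.ext (Prod.ext e (O.ext fun v =>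
  gam_injective (LinearMap.ext fun w => by
    obtain ⟨w, rfl⟩ := (act s).1.surjective w
    exact (act_gam s v w).symm.trans (e ▸ act_gam s' v w))))

theorem ng_mul_self : ng K * ng K = 1 := act_injective (O.ext fun w => neg_neg w)

theorem ng_comm (s : Spin K) : s * ng K = ng K * s := act_injective (O.ext fun w => map_neg (act s).1 w)

theorem ng_ne_one (h2 : (2 : K) ≠ 0) : ng K ≠ 1 := fun e => h2 (by
  have : -(1 : K) = 1 := congrFun (congrArg (fun s : Spin K => (act s).1 (one K)) e) 0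
  linear_combination -this)

/-- `scalar_of_comm`, and `c ^ 2 = 1` as `N` is preserved (`N (one K) = 1`). -/
theorem phi_eq_one {s : Spin K} : phi s = 1 ↔ s = 1 ∨ s = ng K := by
  refine ⟨fun h => ?_, by rintro (rfl | rfl); exacts [map_one _, rfl]⟩
  obtain ⟨c, hc⟩ := scalar_of_comm (A := ((act s).1 : W K →ₗ[K] W K)) fun v w =>
    (act_gam s v w).trans (by rw [h]; rfl)
  have h1 := O.map_Q (act s) (one K)
  rw [show (act s).1 (one K) = c • one K from hc _, Q_smul, N_apply, nm_one, mul_one, sq_eq_one_iff] at h1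
  rcases h1 with rfl | rfl
  · exact .inl (act_injective (O.ext fun w => (hc w).trans (one_smul _ _)))
  · exact .inr (act_injective (O.ext fun w => (hc w).trans (neg_one_smul _ _)))

theorem phi_eq_iff {s s' : Spin K} : phi s = phi s' ↔ s = s' ∨ s = ng K * s' := by
  rw [← mul_inv_eq_one, ← map_inv, ← map_mul, phi_eq_one, mul_inv_eq_one, mul_inv_eq_iff_eq_mul]

theorem prod_gam {l : List (V K)} (hl : ∀ a ∈ l, Q K a ≠ 0) (v : V K) (w : W K) : (l.map gam).prod (gam v w) =
    (-1 : K) ^ l.length • gam ((l.map (refl (Q K))).prod.1 v) ((l.map gam).prod w) := by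
  induction l with
  | nil => simp [O.one_apply]
  | cons a l ih =>
    simp only [List.map_cons, List.prod_cons, List.length_cons, Module.End.mul_apply, O.mul_apply]
    rw [ih fun b hb => hl b (List.mem_cons_of_mem _ hb), map_smul, gam_refl (hl a List.mem_cons_self), pow_succ,
      mul_neg_one, neg_smul, smul_neg]

theorem N_prod_gam (l : List (V K)) (w : W K) :
    N K ((l.map gam).prod w) = (-1 : K) ^ l.length * (l.map (Q K)).prod * N K w := by
  induction l with
  | nil => simp
  | cons a l ih =>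
    simp only [List.map_cons, List.prod_cons, List.length_cons, Module.End.mul_apply]
    rw [N_gam, ih]
    ring

theorem prod_gam_eq_zero {l : List (V K)} (hl : ∀ a ∈ l, Q K a ≠ 0) {w : W K} (h : (l.map gam).prod w = 0) :
    w = 0 := by
  induction l with
  | nil => exact h
  | cons a l ih =>
    refine ih (fun b hb => hl b (List.mem_cons_of_mem _ hb)) ?_
    have := gam_gam a ((l.map gam).prod w)
    rw [show gam a ((l.map gam).prod w) = 0 from h, map_zero] at this
    exact (smul_eq_zero.1 this.symm).resolve_left (hl a List.mem_cons_self)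

theorem list_lift {l : List (V K)} (hl : ∀ a ∈ l, Q K a ≠ 0) (he : Even l.length) {c : K}
    (hc : c ^ 2 = (l.map (Q K)).prod) : ∃ s : Spin K, phi s = (l.map (refl (Q K))).prod ∧
      ∀ w, (act s).1 w = c⁻¹ • (l.map gam).prod w := by
  have c0 : c ≠ 0 := fun e => prod_map_Q_ne_zero hl (by rw [← hc, e, zero_pow two_ne_zero])
  refine ⟨⟨(O.ofLinear nd_N (c⁻¹ • (l.map gam).prod) fun w => ?_, (l.map (refl (Q K))).prod), fun v w => ?_⟩, rfl,
    fun w => rfl⟩
  · rw [LinearMap.smul_apply, Q_smul, N_prod_gam, he.neg_one_pow, ← hc]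
    field_simp
  · change c⁻¹ • (l.map gam).prod (gam v w) = gam ((l.map (refl (Q K))).prod.1 v) (c⁻¹ • (l.map gam).prod w)
    rw [prod_gam hl, he.neg_one_pow, one_smul, map_smul]

/-- The lift `c⁻¹ gam a gam b` of a product of two reflections (`O.ofLinear nd_N`, `N_gam`, `gam_refl`). -/
theorem exists_refl_refl {a b : V K} {c : K} (ha : Q K a ≠ 0) (hb : Q K b ≠ 0)
    (hc : c ^ 2 = Q K a * Q K b) : ∃ s : Spin K, phi s = refl _ a * refl _ b ∧
      ∀ w, (act s).1 w = c⁻¹ • gam a (gam b w) := by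
  simpa using list_lift (l := [a, b]) (c := c) (by simp [ha, hb]) (by simp) (by simpa using hc)

/-- More generally for a list of even length: `c⁻¹ ∏ gam (a i)` lifts `∏ refl (a i)` (each `gam a` conjugates
`gam v` to `-gam (refl a v)`; `N` is multiplied by `∏ (-Q (a i)) / c ^ 2 = 1`). -/
theorem exists_list_lift {l : List (V K)} (hl : ∀ a ∈ l, Q K a ≠ 0) (he : Even l.length) {c : K}
    (hc : c ^ 2 = (l.map (Q K)).prod) : ∃ s : Spin K, phi s = (l.map (refl (Q K))).prod ∧
      ∀ w, (act s).1 w = c⁻¹ • (l.map gam).prod w := list_lift hl he hc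

theorem exists_even_list (h2 : (2 : K) ≠ 0) {g : O (Q K)} (hg : dickson (nd_Q h2) g = 1) :
    ∃ l : List (V K), (∀ a ∈ l, Q K a ≠ 0) ∧ Even l.length ∧ (l.map (refl (Q K))).prod = g := by
  obtain ⟨l, hl, rfl⟩ := exists_list_refl (nd_Q h2) (not_exc_of_two_ne_zero h2) g
  rw [dickson_list _ hl, neg_one_pow_eq_one_iff_even (by decide)] at hg
  exact ⟨l, hl, hg, rfl⟩

/-- `exists_list_refl` (Orth/Gen, `not_exc_of_two_ne_zero`), `det_refl`; square roots exist. -/
theorem exists_lift [IsAlgClosed K] (h2 : (2 : K) ≠ 0) {g : O (Q K)} (hg : O.det _ g = 1) :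
    ∃ s : Spin K, phi s = g := by
  obtain ⟨l, hl, he, rfl⟩ := exists_even_list h2 ((det_eq_one_iff_dickson _ h2 g).1 hg)
  obtain ⟨c, hc⟩ := IsAlgClosed.exists_pow_nat_eq (l.map (Q K)).prod two_pos
  exact (list_lift hl he hc).imp fun _ h => h.1

/-- `mem_commutator_iff`, `dickson_list`, `spinor_list`. -/
theorem exists_lift_fin [Finite K] (h2 : (2 : K) ≠ 0) {g : O (Q K)} (hg : g ∈ commutator (O (Q K))) :
    ∃ s : Spin K, phi s = g := by
  rw [mem_commutator_iff (nd_Q h2) (not_exc_of_two_ne_zero h2)] at hg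
  obtain ⟨l, hl, he, rfl⟩ := exists_even_list h2 hg.1
  obtain ⟨c, hc⟩ := sqsign_eq_one_iff.1 ((spinor_list _ hl).symm.trans hg.2)
  exact (list_lift hl he ((pow_two c).trans hc.symm)).imp fun _ h => h.1

section BC

variable {L : Type*} [Field L] (ι : K →+* L)

section Gen

variable {n : Type} [Fintype n] [DecidableEq n]

omit [Fintype n] in
theorem sp_single (i : n) : ι ∘ (Pi.single i 1 : n → K) = Pi.single i 1 := by
  ext j; simp [Pi.single_apply, apply_ite ι]

omit [DecidableEq n] in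
theorem sp_mulVec (M : Matrix n n K) (v : n → K) : M.map ι *ᵥ (ι ∘ v) = ι ∘ (M *ᵥ v) := by
  ext i; simp [mulVec, dotProduct]

theorem sp_lin_ext {M : Type*} [AddCommGroup M] [Module L M] {f g : (n → L) →ₗ[L] M}
    (h : ∀ v : n → K, f (ι ∘ v) = g (ι ∘ v)) : f = g :=
  (Pi.basisFun L n).ext fun i => by rw [Pi.basisFun_apply, ← sp_single ι, h]

theorem sp_quad_ext {q₁ q₂ : QuadraticForm L (n → L)} (h : ∀ v : n → K, q₁ (ι ∘ v) = q₂ (ι ∘ v)) (v : n → L) :
    q₁ v = q₂ v := by
  have hp : polarBilin q₁ = polarBilin q₂ := sp_lin_ext ι fun a => sp_lin_ext ι fun b => by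
    have : ι ∘ a + ι ∘ b = ι ∘ (a + b) := by ext; simp
    simp only [polarBilin_apply_apply, polar, this, h]
  induction (Pi.basisFun L n).mem_span v using Submodule.span_induction with
  | mem x hx =>
    obtain ⟨i, rfl⟩ := hx
    rw [Pi.basisFun_apply, ← sp_single ι, h]
  | zero => rw [map_zero, map_zero]
  | add x y _ _ hx hy =>
    rw [Q_add, Q_add, hx, hy, ← polarBilin_apply_apply, hp, polarBilin_apply_apply]
  | smul a x _ hx => rw [Q_smul, Q_smul, hx]

theorem sp_bc {q : QuadraticForm K (n → K)} {q' : QuadraticForm L (n → L)} (h : ∀ v, q' (ι ∘ v) = ι (q v)) :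
    ∃ f : O q →* O q', ∀ g v, (f g).1 (ι ∘ v) = ι ∘ g.1 v := by
  let m : isometryGroup K ⇑q →* isometryGroup L ⇑q' :=
    ((GeneralLinearGroup.map ι).comp (isometryGroup K ⇑q).subtype).codRestrict _ fun g => mem_isometryGroup.2
      (sp_quad_ext ι (q₁ := q'.comp (Matrix.toLin' (g.1.1.map ι))) fun v => by
        rw [QuadraticMap.comp_apply, toLin'_apply, sp_mulVec, h, h, mem_isometryGroup.1 g.2])
  refine ⟨(isoEquiv q' : _ →* O q').comp (m.comp ((isoEquiv q).symm : O q →* _)), fun g v => ?_⟩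
  rw [← isoEquiv_symm_mulVec g, ← sp_mulVec]
  rfl

theorem sp_toMatrix {f : (n → L) →ₗ[L] n → L} {g : (n → K) →ₗ[K] n → K} (h : ∀ v, f (ι ∘ v) = ι ∘ g v) :
    LinearMap.toMatrix' f = (LinearMap.toMatrix' g).map ι := by
  ext i j
  rw [map_apply, LinearMap.toMatrix'_apply, LinearMap.toMatrix'_apply, ← sp_single ι, h]
  rfl

theorem sp_rank (A : Matrix n n K) : (A.map ι).rank = A.rank := by
  obtain ⟨T, T', D, h⟩ := Matrix.Pivot.exists_list_transvec_mul_diagonal_mul_list_transvec A
  have hu := fun T : List (TransvectionStruct n K) => TransvectionStruct.det_toMatrix_prod T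
  have hu' : ∀ T : List (TransvectionStruct n K), IsUnit (((T.map TransvectionStruct.toMatrix).prod).map ι).det :=
    fun T => by
      rw [← RingHom.mapMatrix_apply, ← ι.map_det, hu, map_one]
      exact isUnit_one
  classical
  rw [h, Matrix.map_mul, Matrix.map_mul, rank_mul_eq_left_of_isUnit_det _ _ (hu' _),
    rank_mul_eq_right_of_isUnit_det _ _ (hu' _), rank_mul_eq_left_of_isUnit_det _ _ (by rw [hu]; exact isUnit_one),
    rank_mul_eq_right_of_isUnit_det _ _ (by rw [hu]; exact isUnit_one), diagonal_map (map_zero ι), rank_diagonal,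
    rank_diagonal]
  exact Fintype.card_congr (Equiv.subtypeEquivRight fun i => by simp)

theorem sp_fix {q : QuadraticForm K (n → K)} {q' : QuadraticForm L (n → L)} {f : O q →* O q'}
    (hf : ∀ g v, (f g).1 (ι ∘ v) = ι ∘ g.1 v) {M : Subgroup (O q)} {v : n → L} (h0 : v ≠ 0)
    (h : ∀ g ∈ M, (f g).1 v = v) : ∃ u : n → K, u ≠ 0 ∧ ∀ g ∈ M, g.1 u = u := by
  letI := ι.toAlgebra
  obtain ⟨i, hi⟩ := Function.ne_iff.1 h0
  obtain ⟨φ, hφ⟩ : ∃ φ : Module.Dual K L, φ (v i) ≠ 0 := by
    by_contra! k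
    exact hi ((Module.forall_dual_apply_eq_zero_iff K _).1 k)
  refine ⟨φ ∘ v, Function.ne_iff.2 ⟨i, hφ⟩, fun g hg => funext fun j => ?_⟩
  have k := congrFun (h g hg) j
  change ((f g).1 : (n → L) →ₗ[L] n → L) v j = _ at k
  rw [← LinearMap.toMatrix'_mulVec, sp_toMatrix ι (g := (g.1 : (n → K) →ₗ[K] n → K)) (hf g)] at k
  change (g.1 : (n → K) →ₗ[K] n → K) _ j = φ (v j)
  rw [← LinearMap.toMatrix'_mulVec, ← k, mulVec, mulVec, dotProduct, dotProduct, map_sum]
  refine Finset.sum_congr rfl fun l _ => ?_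
  rw [Function.comp_apply, ← smul_eq_mul, ← map_smul]
  rfl

end Gen

theorem Q_comp (v : V K) : Q L (ι ∘ v) = ι (Q K v) := by simp [qOdd_apply]

theorem comp_jv (v : V K) : ι ∘ jv v = jv (ι ∘ v) := by
  rw [jv_apply, comp_mk, map_neg]
  rfl

theorem comp_gam (v : V K) (w : W K) : ι ∘ gam v w = gam (ι ∘ v) (ι ∘ w) := by
  rw [gam_apply, comp_omul, comp_jv, gam_apply]

/-- Extension of scalars (`LinearMap.toMatrix'`, `Matrix.map`; the quadratic identity holds on all `L`-vectors
as `Q` is determined by its values and polar values on the basis `Pi.single i 1`). -/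
theorem exists_bc : ∃ f : O (Q K) →* O (Q L), ∀ g v, (f g).1 (ι ∘ v) = ι ∘ g.1 v := sp_bc ι (Q_comp ι)

theorem exists_bcW : ∃ f : O (N K) →* O (N L), ∀ g v, (f g).1 (ι ∘ v) = ι ∘ g.1 v := sp_bc ι fun v => nm_comp v ι

/-- Extension of scalars on `V`. -/
noncomputable def bc : O (Q K) →* O (Q L) := (exists_bc ι).choose

/-- Extension of scalars on `W`. -/
noncomputable def bcW : O (N K) →* O (N L) := (exists_bcW ι).choose

theorem bc_apply (g : O (Q K)) (v : V K) : (bc ι g).1 (ι ∘ v) = ι ∘ g.1 v := (exists_bc ι).choose_spec g v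

theorem bcW_apply (g : O (N K)) (v : W K) : (bcW ι g).1 (ι ∘ v) = ι ∘ g.1 v :=
  (exists_bcW ι).choose_spec g v

theorem bc_injective : Function.Injective (bc ι) := fun g g' e => O.ext fun v => funext fun i => ι.injective
  (congrFun ((bc_apply ι g v).symm.trans (e ▸ bc_apply ι g' v) : ι ∘ g.1 v = ι ∘ g'.1 v) i)

theorem toMatrix_bc (g : O (Q K)) : LinearMap.toMatrix' ((bc ι g).1 : V L →ₗ[L] V L) =
    (LinearMap.toMatrix' (g.1 : V K →ₗ[K] V K)).map ι := sp_toMatrix ι (bc_apply ι g)

theorem chi_bc (g : O (Q K)) : chi (bc ι g) = ι (chi g) := by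
  rw [chi, chi, ← Matrix.toLin'_toMatrix' ((bc ι g).1 : V L →ₗ[L] V L), ← Matrix.toLin'_toMatrix' (g.1 : V K →ₗ[K] V K),
    trace_toLin'_eq, trace_toLin'_eq, toMatrix_bc, AddMonoidHom.map_trace]

theorem det_bc (g : O (Q K)) : (O.det _ (bc ι g) : L) = ι (O.det _ g) := by
  rw [O.coe_det, O.coe_det, ← LinearMap.det_toMatrix', ← LinearMap.det_toMatrix', toMatrix_bc, RingHom.map_det,
    RingHom.mapMatrix_apply]

/-- The rank of a matrix does not change under `Matrix.map ι`. -/
theorem dm_bc (g : O (Q K)) : dm (bc ι g) = dm g := by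
  have k : ∀ {F : Type _} [Field F] (f : V F →ₗ[F] V F), finrank F (LinearMap.range f) = (LinearMap.toMatrix' f).rank :=
    fun f => by rw [Matrix.rank, ← toLin'_apply', Matrix.toLin'_toMatrix']
  have k' : ∀ {F : Type _} [Field F] (f : V F →ₗ[F] V F), finrank F (LinearMap.range f) = (LinearMap.toMatrix' f).rank :=
    fun f => by rw [Matrix.rank, ← toLin'_apply', Matrix.toLin'_toMatrix']
  rw [dm, dm, O.comm, O.comm, k, k', ← sp_rank ι, ← sp_toMatrix ι]
  intro v
  rw [LinearMap.sub_apply, LinearMap.sub_apply, LinearEquiv.coe_coe, bc_apply]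
  ext
  simp

/-- A homogeneous linear system over `K` with a non-zero solution over `L` has one over `K` (apply a `K`-linear
functional `L → K` to the coordinates). -/
theorem exists_fix_bc {M : Subgroup (O (Q K))} {v : V L} (h0 : v ≠ 0) (h : ∀ g ∈ M, (bc ι g).1 v = v) :
    ∃ u : V K, u ≠ 0 ∧ ∀ g ∈ M, g.1 u = u := sp_fix ι (bc_apply ι) h0 h

theorem exists_fix_bcW {M : Subgroup (O (N K))} {v : W L} (h0 : v ≠ 0) (h : ∀ g ∈ M, (bcW ι g).1 v = v) :
    ∃ u : W K, u ≠ 0 ∧ ∀ g ∈ M, g.1 u = u := sp_fix ι (bcW_apply ι) h0 h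

/-- Extension of scalars on the spin group (both sides of the defining identity are `L`-bilinear; `comp_omul`). -/
theorem exists_bcS : ∃ f : Spin K →* Spin L, ∀ s, phi (f s) = bc ι (phi s) ∧ act (f s) = bcW ι (act s) := by
  refine ⟨(((bcW ι).prodMap (bc ι)).comp (Spin K).subtype).codRestrict _ fun s v w => ?_, fun s => ⟨rfl, rfl⟩⟩
  refine LinearMap.congr_fun₂ (sp_lin_ext ι (f := gam.compr₂ ((bcW ι (act s)).1 : W L →ₗ[L] W L))
    (g := gam.compl₁₂ ((bc ι (phi s)).1 : V L →ₗ[L] V L) ((bcW ι (act s)).1 : W L →ₗ[L] W L)) fun v =>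
      sp_lin_ext ι fun w => ?_) v w
  change (bcW ι (act s)).1 (gam _ _) = gam ((bc ι (phi s)).1 _) ((bcW ι (act s)).1 _)
  rw [← comp_gam, bcW_apply, bcW_apply, bc_apply, act_gam, comp_gam]

end BC

theorem inv_prod_gam (s : Spin K) {l : List (V K)} (hl : ∀ a ∈ l, Q K a ≠ 0) (e : (l.map (refl (Q K))).prod = phi s)
    (v : V K) (w : W K) : (act s⁻¹).1 ((l.map gam).prod (gam v w)) =
      (-1 : K) ^ l.length • gam v ((act s⁻¹).1 ((l.map gam).prod w)) := by
  rw [prod_gam hl, map_smul, act_gam, e, map_inv (phi (K := K)), O.inv_apply_apply]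

theorem e0_ne_zero : e0 K ≠ 0 := fun e => one_ne_zero (congrFun e 0)

/-- `s` has determinant one on `V`: extend scalars to the algebraic closure; if `det (phi s) = -1`
(`det_eq_dickson`) then `-phi s` lifts to `s'` (`exists_lift`, `det_neg`), and `A = act (s'⁻¹ s)` anticommutes with
all `gam v`.  But for an orthogonal basis `b` the product `gam (b 1) ⋯ gam (b 7)` commutes with every `gam (b i)`, so is a
non-zero scalar, and anticommutes with `A`.  (Or compute the product for an explicit basis.) -/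
theorem det_phi (h2 : (2 : K) ≠ 0) (s : Spin K) : O.det _ (phi s) = 1 := by
  obtain ⟨l, hl, e⟩ := exists_list_refl (nd_Q h2) (not_exc_of_two_ne_zero h2) (phi s)
  rcases l.length.even_or_odd with he | he
  · rw [det_eq_one_iff_dickson (nd_Q h2) h2, ← e, dickson_list _ hl, he.neg_one_pow]
  have k := inv_prod_gam s hl e
  simp only [he.neg_one_pow, neg_smul, one_smul] at k
  set A : W K → W K := fun w => (act s⁻¹).1 ((l.map gam).prod w)
  have k' : ∀ v w, A (gam v w) = -gam v (A w) := k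
  have k1 : A (e0 K) = -(A (e7 K) 7 • e0 K) := by
    rw [← gam_xxx, ← gam_xxx_e7, k', k', k', map_neg, map_neg, map_neg, neg_neg]
  have k2 : A (e0 K) = -A (e0 K) := by
    conv_lhs => rw [← gam_sU_e0, k', k1, map_neg, map_smul, gam_sU_e0, ← k1]
  rw [eq_neg_iff_add_eq_zero, ← two_smul K, smul_eq_zero] at k2
  exact absurd (prod_gam_eq_zero hl ((act s⁻¹).1.map_eq_zero_iff.1 (k2.resolve_left h2))) e0_ne_zero

theorem det_gam_eq (h2 : (2 : K) ≠ 0) {a b : V K} (ha : Q K a ≠ 0) (e : Q K a = Q K b) :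
    LinearMap.det (gam a) = LinearMap.det (gam b) := by
  have k : ∀ b, Q K a = Q K b → Q K (a + b) ≠ 0 → LinearMap.det (gam a) = LinearMap.det (gam b) := fun b e n => by
    have h1 : gam (a + b) * gam a = gam b * gam (a + b) := LinearMap.ext fun w => by
      simp only [map_add, Module.End.mul_apply, LinearMap.add_apply, gam_gam, e, add_comm]
    have h3 : gam (a + b) * gam (a + b) = Q K (a + b) • (1 : Module.End K (W K)) := LinearMap.ext (gam_gam _)
    have h4 : LinearMap.det (gam (a + b)) ≠ 0 := fun z => by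
      have := congrArg LinearMap.det h3
      rw [map_mul, z, zero_mul, LinearMap.det_smul, map_one, mul_one] at this
      exact pow_ne_zero _ n this.symm
    have := congrArg LinearMap.det h1
    rw [map_mul, map_mul, mul_comm] at this
    exact mul_right_cancel₀ h4 this
  by_cases n : Q K (a + b) = 0
  · rw [k (-b) (by rw [QuadraticMap.map_neg, e]) fun n' => ?_, map_neg, ← neg_one_smul K, LinearMap.det_smul, finrank_W]
    · norm_num
    rw [← sub_eq_add_neg, Q_sub, ← e] at n'
    rw [Q_add, ← e] at n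
    exact mul_ne_zero h2 (mul_ne_zero h2 ha) (by linear_combination n + n')
  · exact k b e n

theorem det_gam (h2 : (2 : K) ≠ 0) {a : V K} (ha : Q K a ≠ 0) : LinearMap.det (gam a) = Q K a ^ 4 := by
  have h1 : gam (sU K) = toLin' (diagonal ![1, 1, 1, 1, -1, -1, -1, -1]) := LinearMap.ext fun w => by
    ext i
    fin_cases i <;> simp [gam_apply, mul_eq, jv_apply, Oct.mk, mulVec_diagonal]
  have h3 : ∀ t : K, gam (sX K 0 + t • sY K 0) = gam (sX K 0 + sY K 0) * toLin' (diagonal ![t, t, 1, 1, 1, t, t, 1]) :=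
    fun t => LinearMap.ext fun w => by
      ext i
      fin_cases i <;> simp [gam_apply, mul_eq, jv_apply, Oct.mk, mulVec_diagonal]
  have h4 : Q K (sU K) = 1 := by simp [qOdd_apply]
  rw [det_gam_eq h2 ha (b := sX K 0 + Q K a • sY K 0) (by simp [qOdd_apply, Fin.sum_univ_three]), h3, map_mul,
    ← det_gam_eq h2 (a := sU K) (by rw [h4]; exact one_ne_zero) (by rw [h4]; simp [qOdd_apply, Fin.sum_univ_three]), h1,
    LinearMap.det_toLin', LinearMap.det_toLin', det_diagonal, det_diagonal, Fin.prod_univ_eight, Fin.prod_univ_eight]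
  simp
  ring

/-- Over the algebraic closure `s = ± c⁻¹ ∏ gam (a i)`; for a pair, `det (c⁻¹ gam a gam b) = 1`: e.g. the map
`s ↦ det (act s)` is trivial on `ng`; `Spin` is generated by the lifts of `refl a * refl b` with `Q a = Q b = 1`, and
`gam a`, `gam b` are conjugate under a lift of an element of `SO` mapping `a` to `b` with `(gam a) ^ 2 = 1`, so
`det (gam a) = det (gam b) = ± 1`. -/
theorem det_act (h2 : (2 : K) ≠ 0) (s : Spin K) : O.det _ (act s) = 1 := by
  obtain ⟨l, hl, he, e⟩ := exists_even_list h2 ((det_eq_one_iff_dickson _ h2 _).1 (det_phi h2 s))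
  obtain ⟨c, hc⟩ := scalar_of_comm (A := ((act s⁻¹).1 : W K →ₗ[K] W K) ∘ₗ (l.map gam).prod) fun v w =>
    (inv_prod_gam s hl e v w).trans (by rw [he.neg_one_pow, one_smul]; rfl)
  have h1 : (l.map gam).prod = c • ((act s).1 : W K →ₗ[K] W K) := LinearMap.ext fun w => by
    have := congrArg (act s).1 (hc w)
    rwa [map_inv, map_smul, LinearMap.comp_apply, LinearEquiv.coe_coe, O.apply_inv_apply] at this
  have h3 := N_prod_gam l (one K)
  rw [h1, LinearMap.smul_apply, Q_smul, LinearEquiv.coe_coe, O.map_Q, he.neg_one_pow, N_apply, nm_one, mul_one,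
    mul_one, one_mul] at h3
  have h4 : ∀ l : List (V K), (∀ a ∈ l, Q K a ≠ 0) → LinearMap.det (l.map gam).prod = (l.map (Q K)).prod ^ 4 := by
    intro l hl
    induction l with
    | nil => simp
    | cons a l ih =>
      simp only [List.map_cons, List.prod_cons, map_mul, mul_pow]
      rw [ih fun b hb => hl b (List.mem_cons_of_mem _ hb), det_gam h2 (hl a List.mem_cons_self)]
  have h5 := h4 l hl
  rw [h1, LinearMap.det_smul, finrank_W, ← h3, ← pow_mul, ← O.coe_det] at h5
  have c0 : c ≠ 0 := fun e => prod_map_Q_ne_zero hl (by rw [← h3, e, zero_pow two_ne_zero])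
  exact Units.ext (mul_left_cancel₀ (pow_ne_zero 8 c0) (h5.trans (mul_one _).symm))

theorem ng_mul_pow (s : Spin K) {n : ℕ} (hn : Odd n) : (ng K * s) ^ n = ng K * s ^ n := by
  obtain ⟨k, rfl⟩ := hn
  rw [Commute.mul_pow (ng_comm s).symm, pow_succ (ng K), pow_mul (ng K), pow_two, ng_mul_self, one_pow, one_mul]

/-- An element of odd order lifts to an element of the same order (`s` or `ng * s`). -/
theorem exists_odd_lift [IsAlgClosed K] (h2 : (2 : K) ≠ 0) {g : O (Q K)} {n : ℕ} (hn : Odd n)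
    (hg : g ^ n = 1) : ∃ s : Spin K, phi s = g ∧ s ^ n = 1 := by
  have hd : dickson (nd_Q h2) g = 1 := by
    have := congrArg (dickson (nd_Q h2)) hg
    rw [map_pow, map_one] at this
    rcases Int.units_eq_one_or (dickson (nd_Q h2) g) with e | e
    · exact e
    · rw [e, hn.neg_one_pow] at this
      exact absurd this (by decide)
  obtain ⟨s, rfl⟩ := exists_lift h2 ((det_eq_one_iff_dickson _ h2 g).2 hd)
  rcases phi_eq_one.1 ((map_pow phi s n).trans hg) with e | e
  · exact ⟨s, rfl, e⟩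
  · exact ⟨ng K * s, by rw [map_mul, phi_ng, one_mul], by rw [ng_mul_pow s hn, e, ng_mul_self]⟩

/-- Lifts of the same odd order agree. -/
theorem odd_lift_unique (h2 : (2 : K) ≠ 0) {s s' : Spin K} {n : ℕ} (hn : Odd n) (e : phi s = phi s')
    (h : s ^ n = 1) (h' : s' ^ n = 1) : s = s' := (phi_eq_iff.1 e).resolve_right fun e' =>
  ng_ne_one h2 (by rwa [e', ng_mul_pow s' hn, h', mul_one] at h)

/-- Two lifts of a homomorphism from a perfect group agree: `x ↦ σ x * (σ' x)⁻¹` is a homomorphism to `⟨ng⟩`. -/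
theorem lift_unique {X : Type*} [Group X] (hX : commutator X = ⊤) {σ σ' : X →* Spin K}
    (e : ∀ x, phi (σ x) = phi (σ' x)) : σ = σ' := by
  have k : ∀ a b : Spin K, ⁅ng K * a, b⁆ = ⁅a, b⁆ := fun a b => by
    rw [commutatorElement_def, commutatorElement_def, _root_.mul_inv_rev, ← mul_assoc, mul_assoc (ng K),
      mul_assoc (ng K), ← ng_comm, mul_inv_cancel_right]
  have k' : ∀ a b : Spin K, ⁅a, ng K * b⁆ = ⁅a, b⁆ := fun a b => by
    rw [← commutatorElement_inv, k, commutatorElement_inv]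
  refine MonoidHom.eq_of_eqOn_top fun x hx => ?_
  refine (show commutator X ≤ σ.eqLocus σ' from Subgroup.commutator_le.2 fun a _ b _ => ?_) (hX.ge hx)
  change σ _ = σ' _
  rw [map_commutatorElement, map_commutatorElement]
  rcases phi_eq_iff.1 (e a) with e1 | e1 <;> rcases phi_eq_iff.1 (e b) with e2 | e2 <;> simp only [e1, e2, k, k']

/-- If `S` maps onto `M` then `hatW M ≤ ± act S`. -/
theorem Rep.irr_of_le {M : Subgroup (O (Q K))} (h : Rep M) {S : Subgroup (Spin K)} (hS : M ≤ S.map phi) :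
    Irr (S.map act) := by
  refine fun X hX => h.irrW X ?_
  rintro _ ⟨s, hs, rfl⟩ v hv
  obtain ⟨s', hs', e⟩ := hS hs
  rcases phi_eq_iff.1 e.symm with rfl | rfl
  · exact hX _ ⟨_, hs', rfl⟩ v hv
  · exact X.neg_mem (hX _ ⟨_, hs', rfl⟩ v hv)

/-- No non-zero vector of `W` is fixed by lifts of generators of `M`: `S = (stabV w).comap act`. -/
theorem Rep.not_fixW {M : Subgroup (O (Q K))} (h : Rep M) {w : W K} (h0 : w ≠ 0) {T : Set (Spin K)}
    (hT : M ≤ Subgroup.closure (phi '' T)) (hw : ∀ s ∈ T, (act s).1 w = w) : False := by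
  refine (h.irr_of_le (S := (stabV w).comap act) (hT.trans ((Subgroup.closure_le _).2 ?_))).not_fix
    (by rw [finrank_W]; norm_num) h0 (Subgroup.map_comap_le _ _)
  rintro _ ⟨s, hs, rfl⟩
  exact ⟨s, hw s hs, rfl⟩

theorem Pre.conj {M : Subgroup (O (Q K))} (h : Pre M) (k : O (Q K)) :
    Pre (M.map (MulAut.conj k).toMonoidHom) := by
  refine ⟨h.two, ?_, ?_, ?_⟩
  · have := h.fin
    exact Finite.of_equiv _ (M.equivMapOfInjective _ (MulAut.conj k).injective).toEquiv
  · rintro _ ⟨g, hg, rfl⟩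
    change O.det _ (k * g * k⁻¹) = 1
    rw [map_mul, map_mul, h.det g hg, mul_one, ← map_mul, mul_inv_cancel, map_one]
  · rintro _ ⟨g, hg, rfl⟩ e
    rw [← map_mul] at e
    exact (dm_conj g k).trans_ne (h.nt6 g hg ((MulAut.conj k).map_eq_one_iff.1 e))

theorem Irr.conj {U : Type*} [AddCommGroup U] [Module K U] {q : QuadraticForm K U} {M : Subgroup (O q)} (h : Irr M)
    (k : O q) : Irr (M.map (MulAut.conj k).toMonoidHom) := fun X hX => by
  have := h (X.comap (k.1 : U →ₗ[K] U)) fun g hg v hv => by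
    have := hX _ ⟨g, hg, rfl⟩ _ hv
    change k.1 (g.1 ((k⁻¹).1 (k.1 v))) ∈ X at this
    rwa [O.inv_apply_apply] at this
  rw [← Submodule.map_comap_eq_of_surjective (f := (k.1 : U →ₗ[K] U)) k.1.surjective X]
  refine this.imp (fun e => by rw [e, Submodule.map_bot]) fun e => ?_
  rw [e, Submodule.map_top, LinearEquiv.range]

theorem Rep.conj {M : Subgroup (O (Q K))} (h : Rep M) (k : Spin K) :
    Rep (M.map (MulAut.conj (phi k)).toMonoidHom) := by
  refine ⟨h.toPre.conj _, h.irrV.conj _, (h.irrW.conj (act k)).mono ?_⟩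
  rintro _ ⟨_, ⟨s, hs, rfl⟩, rfl⟩
  refine ⟨k * s * k⁻¹, ⟨phi s, hs, ?_⟩, ?_⟩ <;> simp

/-- `G₂` is the stabiliser of the unit: `g ↦ (g, pv ∘ g ∘ jv)` (`tr_smul_and`, `smul_omul_smul`). -/
theorem exists_g2 : ∃ f : G2 K →* Spin K, (∀ g w, (act (f g)).1 w = g • w) ∧
    ∀ g v, jv ((phi (f g)).1 v) = g • jv v := by
  have k : ∀ (g : G2 K) v, jv (pv (g • jv v)) = g • jv v := fun g v => jv_pv (by rw [tr_smul, tr_jv])
  have k1 : ∀ g : G2 K, (pv ∘ₗ lin g ∘ₗ jv) ∘ₗ (pv ∘ₗ lin g⁻¹ ∘ₗ jv) = LinearMap.id := fun g => LinearMap.ext fun v => by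
    change pv (g • jv (pv (g⁻¹ • jv v))) = v
    rw [k, smul_inv_smul, pv_jv]
  have : ∀ g : G2 K, ∃ s : Spin K, (∀ w, (act s).1 w = g • w) ∧ ∀ v, jv ((phi s).1 v) = g • jv v := fun g =>
    ⟨⟨(O.ofLinear nd_N (lin g) fun w => nm_smul' g w, ⟨LinearEquiv.ofLinear _ _ (k1 g) (by simpa using k1 g⁻¹),
      fun v => neg_injective (by
        rw [← nm_jv, ← nm_jv]
        exact (congrArg nm (k g v)).trans (nm_smul' _ _))⟩), fun v w => by
      change g • (jv v ⋆ w) = jv (pv (g • jv v)) ⋆ g • w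
      rw [k, smul_omul_smul]⟩, fun _ => rfl, k g⟩
  choose f h1 h2 using this
  exact ⟨MonoidHom.mk' f fun a b => act_injective (O.ext fun w => by
    rw [map_mul, O.mul_apply, h1, h1, h1, mul_smul]), h1, h2⟩

/-- If `s` fixes `one` then `jv (phi s v) = s (jv v)`, so `s (x ⋆ w) = s x ⋆ s w` for `x = jv v` and for `x = one`;
these span (`2 ≠ 0`); `ofEquiv`. -/
theorem exists_g2_of_fix (h2 : (2 : K) ≠ 0) {s : Spin K} (h : (act s).1 (one K) = one K) :
    ∃ g : G2 K, ∀ w, (act s).1 w = g • w := by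
  refine ⟨ofEquiv (act s).1 fun x w => ?_, fun w => (ofEquiv_smul _ _ _).symm⟩
  have k : ∀ v, (act s).1 (jv v) = jv ((phi s).1 v) := fun v => by
    simpa only [gam_apply, omul_one, h] using act_gam s v (one K)
  have e : x = (tr x / 2) • one K + jv (pv (x - (tr x / 2) • one K)) := by
    rw [jv_pv (by rw [map_sub, map_smul, tr_one, smul_eq_mul, div_mul_cancel₀ _ h2, sub_self]), add_sub_cancel]
  rw [e, add_omul, smul_omul, one_omul, map_add, map_add, map_smul, map_smul, h, k, add_omul, smul_omul, one_omul,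
    ← gam_apply, ← gam_apply, act_gam]

end Cfsg.Lib.O7
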