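import Cfsg.Agent.Lib.O7.T3

/-!
# Involutions, four-groups and eight-groups of `SO₇` over any field (STUB file of `docs/O7.md`)
-/

set_option autoImplicit false
set_option linter.unusedSectionVars false
set_option linter.unusedVariables false

namespace Cfsg.Lib.O7

open QuadraticMap Module Matrix Cfsg.Lib.Orth

namespace T2

variable {K U : Type*} [Field K] [AddCommGroup U] [Module K U] {q : QuadraticForm K U} [FiniteDimensional K U]
  {a b t x : O q} {X : Submodule K U}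

omit [FiniteDimensional K U] in
theorem app (c : Commute a b) (v : U) : a.1 (b.1 v) = b.1 (a.1 v) := congrArg (fun g : O q => g.1 v) c.eq

omit [FiniteDimensional K U] in
theorem app2 (ht : t * t = 1) (v : U) : t.1 (t.1 v) = v := congrArg (fun g : O q => g.1 v) ht

theorem stab_fix (c : Commute x t) : x ∈ stabS (O.fix t) := fun v hv =>
  O.mem_fix.2 (by rw [← app c, O.mem_fix.1 hv])

theorem stab_comm (c : Commute x t) : x ∈ stabS (O.comm t) := fun _ hv => by
  obtain ⟨y, rfl⟩ := O.mem_comm.1 hv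
  exact O.mem_comm.2 ⟨x.1 y, by rw [map_sub, app c]⟩

theorem stab_inf {Y : Submodule K U} (h1 : x ∈ stabS X) (h2 : x ∈ stabS Y) : x ∈ stabS (X ⊓ Y) :=
  fun v hv => ⟨h1 v hv.1, h2 v hv.2⟩

theorem nd_inf (h2 : (2 : K) ≠ 0) (ht : t * t = 1) (hX : ND (q.restrict X)) (s : t ∈ stabS X) :
    ND (q.restrict (X ⊓ O.fix t)) ∧ ND (q.restrict (X ⊓ O.comm t)) := by
  simp only [nd_restrict_iff] at hX ⊢
  refine ⟨fun v hv h => hX v hv.1 fun y hy => (mul_eq_zero.1 ?_).resolve_left h2,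
    fun v hv h => hX v hv.1 fun y hy => (mul_eq_zero.1 ?_).resolve_left h2⟩
  · rw [← h (t.1 y + y) ⟨add_mem (s y hy) hy, O.mem_fix.2 (by rw [map_add, app2 ht, add_comm])⟩, polar_add_right,
      two_mul]
    congr 1
    rw [← O.map_polar t, O.mem_fix.1 hv.2]
  · rw [← h (-(t.1 y - y)) (neg_mem ⟨sub_mem (s y hy) hy, O.sub_mem_comm t y⟩), neg_sub, polar_sub_right, two_mul,
      sub_eq_add_neg]
    congr 1
    rw [← O.map_polar t, (mem_comm_inv h2 ht).1 hv.2, polar_neg_left]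

theorem dec (h2 : (2 : K) ≠ 0) (ht : t * t = 1) (s : t ∈ stabS X) {P : Submodule K U} (h0 : X ⊓ O.fix t ≤ P)
    (h1 : X ⊓ O.comm t ≤ P) : X ≤ P := fun v hv => by
  refine (P.smul_mem_iff h2).1 ?_
  have := sub_mem (h0 (x := t.1 v + v) ⟨add_mem (s v hv) hv, O.mem_fix.2 (by rw [map_add, app2 ht, add_comm])⟩)
    (h1 ⟨sub_mem (s v hv) hv, O.sub_mem_comm t v⟩)
  rwa [add_sub_sub_cancel, ← two_smul K] at this

theorem line (h2 : (2 : K) ≠ 0) (d : finrank K X = 1) (hX : ND (q.restrict X)) : ∃ v, q v ≠ 0 ∧ X = K ∙ v := by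
  obtain ⟨v, hv, v0⟩ := X.exists_mem_ne_zero_of_ne_bot fun e => by
    rw [e, finrank_bot] at d
    omega
  have e := eq_span_singleton_of_mem_of_finrank_eq_one d hv v0
  refine ⟨v, fun z => v0 (nd_restrict_iff.1 hX v hv fun y hy => ?_), e⟩
  obtain ⟨c, rfl⟩ := Submodule.mem_span_singleton.1 (e ▸ hy)
  rw [polar_smul_right', polar_self', z, mul_zero, mul_zero]

theorem dims (h2 : (2 : K) ≠ 0) (ha : a * a = 1) (hb : b * b = 1) (c : Commute a b) :
    dm (a * b) + 2 * finrank K ↥(O.fix a ⊓ O.fix b) = fx a + fx b ∧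
      finrank K ↥(O.fix a ⊓ O.comm b) + finrank K ↥(O.fix a ⊓ O.fix b) = fx a := by
  have hab : a * b * (a * b) = 1 := by rw [c.symm.mul_mul_mul_comm, ha, hb, one_mul]
  have e1 := T3.split h2 hb (stab_fix c.symm)
  have e2 := T3.split h2 ha (stab_fix c)
  have e3 := T3.split h2 ha (stab_comm ((Commute.refl a).mul_right c))
  have e4 : O.comm (a * b) ⊓ O.comm a = O.fix b ⊓ O.comm a := Submodule.ext fun v => by
    simp only [Submodule.mem_inf, and_congr_left_iff, mem_comm_inv h2 ha, mem_comm_inv h2 hab, O.mem_fix, c.eq,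
      O.mul_apply]
    intro h
    rw [mem_comm_inv h2 (c.eq ▸ hab), O.mul_apply, h, map_neg, neg_inj]
  have e5 : O.comm (a * b) ⊓ O.fix a = O.fix a ⊓ O.comm b := Submodule.ext fun v => by
    rw [inf_comm (O.fix a)]
    simp only [Submodule.mem_inf, and_congr_left_iff, mem_comm_inv h2 hb, mem_comm_inv h2 hab, O.mem_fix]
    intro h
    rw [c.eq, O.mul_apply, h]
  rw [e4, e5] at e3
  rw [inf_comm (O.fix b) (O.fix a)] at e2
  unfold dm fx
  omega

omit [FiniteDimensional K U] in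
theorem comm_line {C : Subgroup (O q)} {v : U} (h : ∀ g ∈ C, g.1 v ∈ K ∙ v) : ⁅C, C⁆ ≤ stabV v := by
  rw [Subgroup.commutator_le]
  intro a ha b hb
  obtain ⟨c, hc⟩ := Submodule.mem_span_singleton.1 (h _ (inv_mem ha))
  obtain ⟨d, hd⟩ := Submodule.mem_span_singleton.1 (h _ (inv_mem hb))
  change a.1 (b.1 ((a⁻¹).1 ((b⁻¹).1 v))) = v
  rw [← hd, map_smul, ← hc, smul_comm, map_smul, hd, O.apply_inv_apply, hc, O.apply_inv_apply]

theorem sum_split {E : Subgroup (O q)} [Fintype E] {S : Set (O q)} (hS : S ⊆ E) (h1 : 1 ∉ S) {m n : ℕ}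
    (ha : ∀ g ∈ S, dm g = m) (hb : ∀ g ∈ E, g ≠ 1 → g ∉ S → dm g = n) :
    ∑ g : E, dm g.1 = S.ncard * m + (Nat.card E - 1 - S.ncard) * n := by
  classical
  have e : S.ncard = (Finset.univ.filter fun g : E => g.1 ∈ S).card := by
    rw [← Set.ncard_coe_finset, ← Set.ncard_image_of_injective _ (Subtype.val_injective (p := (· ∈ E)))]
    refine congrArg Set.ncard (Set.ext fun g => ?_)
    exact ⟨fun hg => ⟨⟨g, hS hg⟩, by simpa using hg, rfl⟩, by rintro ⟨g, hg, rfl⟩; simpa using hg⟩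
  have m1 : (1 : E) ∈ Finset.univ.filter fun g : E => ¬ g.1 ∈ S := by simpa using h1
  rw [← Finset.sum_filter_add_sum_filter_not _ fun g : E => g.1 ∈ S, ← Finset.add_sum_erase _ _ m1,
    Finset.sum_const_nat (m := m) fun g hg => ha _ (by simpa using hg),
    Finset.sum_const_nat (m := n) fun g hg => hb _ g.2 (by simpa using (Finset.mem_erase.1 hg).1)
      (by simpa using (Finset.mem_erase.1 hg).2), dm_eq_zero.2 (show (1 : E).1 = 1 from rfl), zero_add,
    Finset.card_erase_of_mem m1, e, Nat.card_eq_fintype_card, ← Finset.card_univ,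
    ← Finset.card_filter_add_card_filter_not (s := Finset.univ) fun g : E => g.1 ∈ S]
  congr 2
  omega

theorem count (h2 : (2 : K) ≠ 0) {E : Subgroup (O q)} (hE : ∀ g ∈ E, g * g = 1) {c n : ℕ} (hc : Nat.card E = c + 1)
    (hb : ∀ g ∈ E, g ≠ 1 → dm g = n) : 2 * (c * n) + (c + 1) * finrank K (Fix E) = (c + 1) * finrank K U := by
  have := Nat.finite_of_card_ne_zero (hc.trans_ne c.succ_ne_zero)
  have := Fintype.ofFinite E
  have e := sum_dm h2 hE
  rwa [sum_split (S := ∅) (m := 0) (by simp) (by simp) (by simp) fun g hg h1 _ => hb g hg h1, Set.ncard_empty,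
    zero_mul, zero_add, hc] at e

end T2

open T2

variable {K : Type*} [Field K] {M : Subgroup (O (Q K))}

/-- `a`, `b`, `a * b` are commuting involutions of type four. -/
structure Four (a b : O (Q K)) : Prop where
  two : (2 : K) ≠ 0
  ha : a * a = 1
  hb : b * b = 1
  comm : Commute a b
  da : dm a = 4
  db : dm b = 4
  dab : dm (a * b) = 4

/-- `r` has order three and permutes `a → b → a b`. -/
structure Rho (a b r : O (Q K)) : Prop where
  cube : r ^ 3 = 1
  ea : r * a * r⁻¹ = b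
  eb : r * b * r⁻¹ = a * b

/-- `even_dm`, `dm_eq_zero`, `dm ≤ 7`. -/
theorem Pre.dm_inv (h : Pre M) {t : O (Q K)} (ht : t ∈ M) (h2 : t * t = 1) (h1 : t ≠ 1) :
    dm t = 2 ∨ dm t = 4 := by
  obtain ⟨k, hk⟩ := even_dm (nd_Q h.two) h.two (h.det t ht)
  have e1 := dm_add_fx t
  have e2 := h.nt6 t ht h2
  have e3 := dm_eq_zero.not.2 h1
  rw [finrank_V] at e1
  omega

/-- The centre of a quaternion group (`sq_plane` on `comm t`). -/
theorem Pre.dm_of_q8 (h : Pre M) {t a b : O (Q K)} (ht : t ∈ M) (h2 : t * t = 1) (h1 : t ≠ 1)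
    (ea : a * a = t) (eb : b * b = t) (eab : a * b * (a * b) = t) : dm t = 4 := by
  refine (h.dm_inv ht h2 h1).resolve_left fun d => ?_
  have k : ∀ v ∈ O.comm t, t.1 v = -v := fun v hv => (mem_comm_inv h.two h2).1 hv
  have := sq_plane h.two (nd_comm_inv (nd_Q h.two) h.two h2).1 d
    (stab_comm (ea ▸ (Commute.refl a).mul_right (.refl a))) (stab_comm (eb ▸ (Commute.refl b).mul_right (.refl b)))
    (ea ▸ k) (eb ▸ k)
  exact h1 (O.comm_eq_bot_iff.1 (eq_bot_iff.2 fun v hv => T3.eq_zero h.two ((eab ▸ this v hv :).symm.trans (k v hv))))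

/-- `t ∈ C(t)''` (`meta_plane` on `comm t`). -/
theorem Pre.dm_of_meta (h : Pre M) {t : O (Q K)} (ht : t ∈ M) (h2 : t * t = 1) (h1 : t ≠ 1)
    {C : Subgroup (O (Q K))} (c : ∀ x ∈ C, Commute x t) (m : t ∈ ⁅⁅C, C⁆, ⁅C, C⁆⁆) : dm t = 4 := by
  refine (h.dm_inv ht h2 h1).resolve_left fun d => ?_
  have := meta_plane h.two (nd_comm_inv (nd_Q h.two) h.two h2).1 d (C := C) fun x hx => stab_comm (c x hx)
  exact h1 (O.comm_eq_bot_iff.1 (eq_bot_iff.2 fun v hv => T3.eq_zero h.two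
    ((this hv t m).symm.trans ((mem_comm_inv h.two h2).1 hv))))

/-- No `E₁₆` all of whose involutions have the same type: `30 w + 16 m = 112`, `w ∈ {2, 4}`. -/
theorem Pre.no16 (h : Pre M) {E : Subgroup (O (Q K))} (l : E ≤ M) (hE : ∀ g ∈ E, g * g = 1)
    (c : Nat.card E = 16) (e : ∀ g ∈ E, ∀ g' ∈ E, g ≠ 1 → g' ≠ 1 → dm g = dm g') : False := by
  obtain ⟨g, hg, g1⟩ := E.bot_or_exists_ne_one.resolve_left (by rintro rfl; simp at c)
  have := count h.two hE c fun x hx x1 => e x hx g hg x1 g1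
  have := h.dm_inv (l hg) (hE g hg) g1
  rw [finrank_V] at *
  omega

/-- `sum_dm` for an `E₁₆` whose involutions are split into a set `S` of `n` elements with `dm = a` and the rest with `dm = b`. -/
theorem Pre.count16 (h : Pre M) {E : Subgroup (O (Q K))} (l : E ≤ M) (hE : ∀ g ∈ E, g * g = 1)
    (c : Nat.card E = 16) {S : Set (O (Q K))} (hS : S ⊆ E) (h1 : 1 ∉ S) {n a b : ℕ} (hn : S.ncard = n)
    (ha : ∀ g ∈ S, dm g = a) (hb : ∀ g ∈ E, g ≠ 1 → g ∉ S → dm g = b) :
    8 ∣ n * a + (15 - n) * b := by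
  have := Nat.finite_of_card_ne_zero (c ▸ by decide : Nat.card E ≠ 0)
  have := Fintype.ofFinite E
  have e := sum_dm h.two hE
  rw [sum_split hS h1 ha hb, c, hn, finrank_V] at e
  change 2 * (n * a + (15 - n) * b) + _ = _ at e
  omega

/-- A pure `E₈` has type four and no fixed vectors: `14 w + 8 m = 56`. -/
theorem Pre.dm_of_eight (h : Pre M) {E : Subgroup (O (Q K))} (l : E ≤ M) (hE : ∀ g ∈ E, g * g = 1)
    (c : Nat.card E = 8) (e : ∀ g ∈ E, ∀ g' ∈ E, g ≠ 1 → g' ≠ 1 → dm g = dm g') :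
    ∀ g ∈ E, g ≠ 1 → dm g = 4 := by
  intro g hg g1
  have := count h.two hE c fun x hx x1 => e x hx g hg x1 g1
  have := h.dm_inv (l hg) (hE g hg) g1
  rw [finrank_V] at *
  omega

/-- The frame of an `E₈` of type four: an orthogonal basis of common eigenvectors with seven different non-trivial
characters.  (If `m χ` is the multiplicity of `χ`, then `∑_{χ t = -1} m χ = 4` for all `t ≠ 1`; `sum_dm` for `E` gives
`m 1 = 0`, for `ker χ` gives `m 1 + m χ = 1`.) -/
theorem exists_frame8 (h2 : (2 : K) ≠ 0) {E : Subgroup (O (Q K))} (hE : ∀ g ∈ E, g * g = 1)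
    (c : Nat.card E = 8) (e : ∀ g ∈ E, g ≠ 1 → dm g = 4) :
    ∃ (b : Basis (Fin 7) K (V K)) (χ : Fin 7 → E →* ℤˣ), Function.Injective χ ∧ (∀ i, χ i ≠ 1) ∧
      (∀ i, Q K (b i) ≠ 0) ∧ (∀ i j, i ≠ j → polar (Q K) (b i) (b j) = 0) ∧
      ∀ i (g : E), g.1.1 (b i) = ((χ i g : ℤ) : K) • b i := by
  have := Nat.finite_of_card_ne_zero (c ▸ by decide : Nat.card E ≠ 0)
  have cm : ∀ g s : E, g * s = s * g := fun g s => Subtype.ext (by
    change g.1 * s.1 = s.1 * g.1
    rw [← inv_eq_of_mul_eq_one_right (hE _ (mul_mem g.2 s.2)), _root_.mul_inv_rev,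
      inv_eq_of_mul_eq_one_right (hE _ g.2), inv_eq_of_mul_eq_one_right (hE _ s.2)])
  have c8 : Nat.card (E →* ℤˣ) = 8 := by
    let : CommGroup E := { (inferInstance : Group E) with mul_comm := cm }
    have : HasEnoughRootsOfUnity ℤ 2 := ⟨⟨-1, IsPrimitiveRoot.neg_one 0 (by decide)⟩, inferInstance⟩
    have : HasEnoughRootsOfUnity ℤ (Monoid.exponent E) := .of_dvd ℤ
      (Monoid.exponent_dvd_of_forall_pow_eq_one (n := 2) fun g => Subtype.ext ((pow_two _).trans (hE _ g.2)))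
    exact (CommGroup.card_monoidHom_of_hasEnoughRootsOfUnity E ℤ).trans c
  have := Nat.finite_of_card_ne_zero (c8 ▸ by decide : Nat.card (E →* ℤˣ) ≠ 0)
  have c7 : Nat.card {χ : E →* ℤˣ // χ ≠ 1} = 7 := by
    classical
    have := Fintype.ofFinite (E →* ℤˣ)
    rw [Nat.card_eq_fintype_card] at c8 ⊢
    rw [Fintype.card_subtype_compl, c8, Fintype.card_subtype_eq]
  let χ := (Finite.equivFinOfCardEq c7).symm
  have f0 : Fix E = ⊥ := by
    have := count h2 hE c e
    rw [finrank_V] at this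
    exact Submodule.finrank_eq_zero.1 (by omega)
  have k : ∀ φ : E →* ℤˣ, φ ≠ 1 → ∃ v, Q K v ≠ 0 ∧ ∀ g : E, g.1.1 v = ((φ g : ℤ) : K) • v := fun φ h1 => by
    obtain ⟨s, hs⟩ := DFunLike.ne_iff.1 h1
    have hs := (Int.units_eq_one_or _).resolve_left hs
    have c4 : Nat.card (φ.ker.map E.subtype) = 3 + 1 := by
      have := φ.ker.card_mul_index
      rw [Subgroup.index_ker, MonoidHom.range_eq_top.2 (fun u => (Int.units_eq_one_or u).elim
        (fun e => ⟨1, e ▸ map_one φ⟩) fun e => ⟨s, e ▸ hs⟩), Subgroup.card_top, c, Nat.card_eq_fintype_card (α := ℤˣ),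
        Fintype.card_units_int] at this
      rw [Subgroup.card_subtype]
      omega
    have := Nat.finite_of_card_ne_zero (c4 ▸ by decide : Nat.card (φ.ker.map E.subtype) ≠ 0)
    have d := count h2 (fun g hg => hE g (E.map_subtype_le _ hg)) c4 fun g hg => e g (E.map_subtype_le _ hg)
    rw [finrank_V] at d
    obtain ⟨v, qv, hv⟩ := line h2 (show finrank K (Fix (φ.ker.map E.subtype)) = 1 by omega) (nd_Fix (nd_Q h2) (by
      rw [c4, show ((3 + 1 : ℕ) : K) = 2 * 2 by norm_num]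
      exact mul_ne_zero h2 h2))
    have fx : ∀ g : E, φ g = 1 → g.1.1 v = v := fun g hg => (hv.ge (Submodule.mem_span_singleton_self v)) _ ⟨g, hg, rfl⟩
    have sp : ∀ g : E, φ g = -1 → g.1.1 v = s.1.1 v := fun g hg => by
      have := congrArg s.1.1 (fx (s * g) (by rw [map_mul, hg, hs]; rfl))
      exact (app2 (hE _ s.2) _).symm.trans this
    obtain ⟨a, ha⟩ := Submodule.mem_span_singleton.1 (hv.le (x := s.1.1 v) (by
      rintro _ ⟨g, hg, rfl⟩
      exact (app (congrArg Subtype.val (cm g s)) v).trans (congrArg _ (fx g hg))))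
    have a2 : a ^ 2 = 1 := mul_right_cancel₀ qv (by rw [← Q_smul, ha, O.map_Q, one_mul])
    refine ⟨v, qv, fun g => (Int.units_eq_one_or (φ g)).elim (fun hg => by simp [hg, fx g hg]) fun hg => ?_⟩
    rcases sq_eq_one_iff.1 a2 with rfl | rfl
    · refine (qv ?_).elim
      rw [show v = 0 from f0.le fun g hg => (Int.units_eq_one_or (φ ⟨g, hg⟩)).elim (fx _) fun k =>
        (sp _ k).trans (ha.symm.trans (one_smul _ _)), map_zero]
    · rw [sp g hg, ← ha, hg]
      simp
  choose v qv hv using fun i => k (χ i).1 (χ i).2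
  have inj : Function.Injective fun i => (χ i).1 := Subtype.val_injective.comp χ.injective
  have o : ∀ i j, i ≠ j → polar (Q K) (v i) (v j) = 0 := fun i j n => by
    obtain ⟨g, hg⟩ := DFunLike.ne_iff.1 (inj.ne n)
    have := O.map_polar g.1 (v i) (v j)
    rw [hv, hv, polar_smul_left', polar_smul_right'] at this
    refine (mul_eq_zero.1 ?_).resolve_left h2
    rcases Int.units_eq_one_or ((χ i).1 g) with e1 | e1 <;> rcases Int.units_eq_one_or ((χ j).1 g) with e2 | e2 <;>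
      simp only [e1, e2, ne_eq, not_true_eq_false] at hg this <;> push_cast at this <;> linear_combination -this
  have li : LinearIndependent K v := LinearMap.linearIndependent_of_isOrthoᵢ (B := polarBilin (Q K)) o fun i => by
    rw [polarBilin_apply_apply, polar_self']
    exact mul_ne_zero h2 (qv i)
  refine ⟨basisOfLinearIndependentOfCardEqFinrank li (by simp), _, inj, fun i => (χ i).2, ?_⟩
  simpa only [coe_basisOfLinearIndependentOfCardEqFinrank] using ⟨qv, o, hv⟩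

/-- Its centraliser fixes the seven non-singular lines. -/
theorem sq_eq_one_of_eight (h2 : (2 : K) ≠ 0) {E : Subgroup (O (Q K))} (hE : ∀ g ∈ E, g * g = 1)
    (c : Nat.card E = 8) (e : ∀ g ∈ E, g ≠ 1 → dm g = 4) {x : O (Q K)} (hx : ∀ g ∈ E, Commute x g) :
    x * x = 1 := by
  obtain ⟨b, χ, inj, -, qv, o, hv⟩ := exists_frame8 h2 hE c e
  have k : ∀ i, ∃ a : K, x.1 (b i) = a • b i := fun i => by
    have n : polar (Q K) (b i) (b i) ≠ 0 := polar_self' (Q K) _ ▸ mul_ne_zero h2 (qv i)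
    refine ⟨polar (Q K) (x.1 (b i)) (b i) / polar (Q K) (b i) (b i), sub_eq_zero.1 ((nd_Q h2).eq_zero fun y => ?_)⟩
    refine LinearMap.congr_fun (b.ext (f₁ := polarBilin (Q K) _) (f₂ := 0) fun j => ?_) y
    rw [polarBilin_apply_apply, polar_sub_left, polar_smul_left', LinearMap.zero_apply]
    by_cases n' : i = j
    · rw [← n', div_mul_cancel₀ _ n, sub_self]
    obtain ⟨g, hg⟩ := DFunLike.ne_iff.1 (inj.ne n')
    have := O.map_polar g.1 (x.1 (b i)) (b j)
    rw [← app (hx _ g.2), hv, hv, map_smul, polar_smul_left', polar_smul_right'] at this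
    rw [o i j n', mul_zero, sub_zero]
    refine (mul_eq_zero.1 ?_).resolve_left h2
    rcases Int.units_eq_one_or (χ i g) with e1 | e1 <;> rcases Int.units_eq_one_or (χ j g) with e2 | e2 <;>
      simp only [e1, e2, ne_eq, not_true_eq_false] at hg this <;> push_cast at this <;> linear_combination -this
  refine O.ext (LinearMap.congr_fun (b.ext (f₁ := T3.lin _ (x * x)) (f₂ := LinearMap.id) fun i => ?_))
  obtain ⟨a, ha⟩ := k i
  have a2 : a ^ 2 = 1 := mul_right_cancel₀ (qv i) (by rw [← Q_smul, ← ha, O.map_Q, one_mul])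
  change x.1 (x.1 (b i)) = b i
  rw [ha, map_smul, ha, smul_smul, ← pow_two, a2, one_smul]

/-- Two commuting involutions of type four have a common fixed vector: with `m ± ±` the dimensions of the common
eigenspaces, `dm (a b) = 6 - 2 m₊₊`. -/
theorem Pre.exists_fix (h : Pre M) {a b : O (Q K)} (ha : a ∈ M) (hb : b ∈ M) (ea : a * a = 1) (eb : b * b = 1)
    (c : Commute a b) (da : dm a = 4) (db : dm b = 4) : ∃ v : V K, v ≠ 0 ∧ a.1 v = v ∧ b.1 v = v := by
  have e1 := (dims h.two ea eb c).1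
  have e2 := h.nt6 _ (mul_mem ha hb) (by rw [c.symm.mul_mul_mul_comm, ea, eb, one_mul])
  have e3 := dm_add_fx a
  have e4 := dm_add_fx b
  rw [finrank_V] at e3 e4
  obtain ⟨v, hv, v0⟩ := (O.fix a ⊓ O.fix b).exists_mem_ne_zero_of_ne_bot fun e => by
    rw [e, finrank_bot] at e1
    omega
  exact ⟨v, v0, O.mem_fix.1 hv.1, O.mem_fix.1 hv.2⟩

namespace Four

variable {a b r x : O (Q K)} (h : Four a b)
include h

theorem symm : Four b a :=
  ⟨h.two, h.hb, h.ha, h.comm.symm, h.db, h.da, h.comm.eq ▸ h.dab⟩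

theorem rot : Four b (a * b) :=
  ⟨h.two, h.hb, by rw [h.comm.symm.mul_mul_mul_comm, h.ha, h.hb, one_mul], h.comm.symm.mul_right (.refl b), h.db, h.dab,
    by rw [h.comm.eq, ← mul_assoc, h.hb, one_mul, h.da]⟩

theorem fx3 : fx a = 3 := by
  have := dm_add_fx a
  rw [finrank_V, h.da] at this
  omega

/-- `V = V₀ ⊥ V₁ ⊥ V₂ ⊥ V₃` with dimensions `1, 2, 2, 2` (`sum_dm` for `⟨a, b⟩`). -/
theorem fix : finrank K ↥(O.fix a ⊓ O.fix b) = 1 ∧ ND ((Q K).restrict (O.fix a ⊓ O.fix b)) := by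
  have := (dims h.two h.ha h.hb h.comm).1
  rw [h.dab, h.fx3, h.symm.fx3] at this
  exact ⟨by omega, (nd_inf h.two h.hb (nd_comm_inv (nd_Q h.two) h.two h.ha).2 (stab_fix h.comm.symm)).1⟩

theorem plane : finrank K ↥(O.fix a ⊓ O.comm b) = 2 ∧ ND ((Q K).restrict (O.fix a ⊓ O.comm b)) := by
  have := (dims h.two h.ha h.hb h.comm).2
  rw [h.fix.1, h.fx3] at this
  exact ⟨by omega, (nd_inf h.two h.hb (nd_comm_inv (nd_Q h.two) h.two h.ha).2 (stab_fix h.comm.symm)).2⟩

/-- A generator of `V₀`. -/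
theorem exists_v0 : ∃ v : V K, Q K v ≠ 0 ∧ O.fix a ⊓ O.fix b = K ∙ v :=
  line h.two h.fix.1 h.fix.2

/-- The centraliser of a four-group of type four is metabelian (`meta_plane`). -/
theorem metab {C : Subgroup (O (Q K))} (ca : ∀ x ∈ C, Commute x a) (cb : ∀ x ∈ C, Commute x b) :
    ⁅⁅C, C⁆, ⁅C, C⁆⁆ = ⊥ := by
  have k : ∀ {a b}, Four a b → (∀ x ∈ C, Commute x a) → (∀ x ∈ C, Commute x b) →
      O.fix a ⊓ O.comm b ≤ Fix ⁅⁅C, C⁆, ⁅C, C⁆⁆ := fun h ca cb =>
    meta_plane h.two h.plane.2 h.plane.1 fun x hx => stab_inf (stab_fix (ca x hx)) (stab_comm (cb x hx))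
  have l : ⁅C, C⁆ ≤ C := Subgroup.commutator_le.2 fun x hx y hy =>
    mul_mem (mul_mem (mul_mem hx hy) (inv_mem hx)) (inv_mem hy)
  obtain ⟨v, -, hv⟩ := h.exists_v0
  have top : ⊤ ≤ Fix ⁅⁅C, C⁆, ⁅C, C⁆⁆ := by
    refine dec h.two h.ha (X := ⊤) (fun _ _ => trivial) ?_ ?_ <;> rw [top_inf_eq]
    · refine dec h.two h.hb (stab_fix h.comm.symm) ?_ (k h ca cb)
      rw [hv, Submodule.span_singleton_le_iff_mem]
      exact comm_line fun g hg => hv.le (stab_inf (stab_fix (ca g (l hg))) (stab_fix (cb g (l hg))) v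
        (hv.ge (Submodule.mem_span_singleton_self v)))
    · refine dec h.two h.hb (stab_comm h.comm.symm) (inf_comm (O.fix b) _ ▸ k h.symm cb ca)
        (le_trans (fun w hw => Submodule.mem_inf.2 ⟨O.mem_fix.2 ?_, hw.2⟩) (k h.rot.symm (fun x hx => (ca x hx).mul_right (cb x hx)) cb))
      rw [O.mul_apply, (mem_comm_inv h.two h.hb).1 hw.2, map_neg, (mem_comm_inv h.two h.ha).1 hw.1, neg_neg]
  exact eq_bot_iff.2 fun g hg => O.ext fun w => top trivial g hg

theorem line_fix {n : ℕ} (hn : Odd n) (hx : x ^ n = 1) (s : x ∈ stabS (O.fix a ⊓ O.fix b)) :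
    ∀ v ∈ O.fix a ⊓ O.fix b, x.1 v = v := by
  obtain ⟨v, qv, hv⟩ := h.exists_v0
  rw [hv] at s ⊢
  intro w hw
  obtain ⟨c, rfl⟩ := Submodule.mem_span_singleton.1 hw
  rw [map_smul, fix_of_line hn hx qv (s v (Submodule.mem_span_singleton_self v))]

theorem rho_app (hr : Rho a b r) (v : V K) : b.1 (r.1 v) = r.1 (a.1 v) ∧ a.1 (b.1 (r.1 v)) = r.1 (b.1 v) ∧
    a.1 (r.1 v) = r.1 (a.1 (b.1 v)) := by
  have e1 : ∀ v, b.1 (r.1 v) = r.1 (a.1 v) := fun v =>
    (congrArg (fun g : O (Q K) => g.1 v) (mul_inv_eq_iff_eq_mul.1 hr.ea)).symm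
  have e2 : ∀ v, a.1 (b.1 (r.1 v)) = r.1 (b.1 v) := fun v =>
    (congrArg (fun g : O (Q K) => g.1 v) (mul_inv_eq_iff_eq_mul.1 hr.eb)).symm
  exact ⟨e1 v, e2 v, by rw [← e1, ← e2, ← app h.comm, app2 h.hb]⟩

/-- `r` fixes `V₀` pointwise (`fix_of_line`). -/
theorem rho_fix (hr : Rho a b r) : ∀ v ∈ O.fix a ⊓ O.fix b, r.1 v = v :=
  h.line_fix (by decide) hr.cube fun v hv =>
    ⟨O.mem_fix.2 (by rw [(h.rho_app hr v).2.2, O.mem_fix.1 hv.2, O.mem_fix.1 hv.1]),
      O.mem_fix.2 (by rw [(h.rho_app hr v).1, O.mem_fix.1 hv.1])⟩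

/-- `r` permutes `V₁, V₂, V₃` cyclically: its fixed space is `V₀ ⊕ {v + r v + r² v | v ∈ V₁}`. -/
theorem dm_rho (hr : Rho a b r) : dm r = 4 := by
  have r3 : ∀ v, r.1 (r.1 (r.1 v)) = v := fun v =>
    congrArg (fun g : O (Q K) => g.1 v) ((pow_three r).symm.trans hr.cube)
  have e1 : dickson (nd_Q h.two) r = 1 := by
    have := congrArg (dickson (nd_Q h.two)) hr.cube
    rw [map_pow, map_one] at this
    exact (Int.units_eq_one_or _).resolve_right fun k => absurd (k ▸ this) (by decide)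
  obtain ⟨k, hk⟩ := (dickson_eq_one_iff _).1 e1
  have e2 := Submodule.finrank_add_finrank_le_of_disjoint (s := O.fix r) (t := O.comm a)
    (Submodule.disjoint_def.2 fun w h1 h2 => by
      obtain ⟨k1, k2, -⟩ := h.rho_app hr w
      rw [O.mem_fix] at h1
      rw [mem_comm_inv h.two h.ha] at h2
      rw [h1, h2, map_neg, h1] at k1
      rw [h1, k1, map_neg, map_neg, h1, h2, neg_neg] at k2
      exact T3.eq_zero h.two k2)
  obtain ⟨v, hv, v0⟩ := (O.fix a ⊓ O.comm b).exists_mem_ne_zero_of_ne_bot fun e => by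
    have := h.plane.1
    rw [e, finrank_bot] at this
    omega
  have e3 := Submodule.finrank_lt_finrank_of_lt (lt_of_le_of_ne (fun w hw => O.mem_fix.2 (h.rho_fix hr w hw))
    fun e : O.fix a ⊓ O.fix b = O.fix r => by
      have k1 := O.mem_fix.1 hv.1
      have k2 := (mem_comm_inv h.two h.hb).1 hv.2
      have k3 := O.mem_fix.1 (e.ge (O.mem_fix.2 (show r.1 (v + r.1 v + r.1 (r.1 v)) = _ by
        rw [map_add, map_add, r3]; abel))).2
      rw [map_add, map_add, (h.rho_app hr _).1, (h.rho_app hr _).1, (h.rho_app hr _).2.2, k2, map_neg, k1, map_neg,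
        map_neg] at k3
      have k4 : r.1 (r.1 v) = -v := eq_neg_of_add_eq_zero_left (T3.eq_zero h.two (by
        linear_combination (exp := 1) -k3))
      have k5 := (h.rho_app hr (r.1 v)).2.2
      rw [(h.rho_app hr v).2.1, k2, map_neg, map_neg, k4, map_neg, k1, neg_neg] at k5
      exact v0 (T3.eq_zero h.two k5.symm))
  have e4 := dm_add_fx r
  have e5 := h.da
  rw [h.fix.1] at e3
  rw [finrank_V] at e2 e4
  unfold dm fx at *
  omega

theorem sum4 (hx : ∀ v ∈ O.fix a ⊓ O.fix b, x.1 v = v) :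
    chi x + chi (x * a) + chi (x * b) + chi (x * (a * b)) = 4 := by
  have h4 : (4 : K) ≠ 0 := by
    rw [show (4 : K) = 2 * 2 by norm_num]
    exact mul_ne_zero h.two h.two
  have m : ∀ v, v + a.1 v + b.1 v + a.1 (b.1 v) ∈ O.fix a ⊓ O.fix b := fun v =>
    ⟨O.mem_fix.2 (by simp only [map_add, app2 h.ha]; abel),
      O.mem_fix.2 (by simp only [map_add, ← app h.comm, app2 h.hb]; abel)⟩
  have e : ∀ v, ((4 : K)⁻¹ • (T3.lin _ x + T3.lin _ (x * a) + T3.lin _ (x * b) + T3.lin _ (x * (a * b)))) v =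
      (4 : K)⁻¹ • (v + a.1 v + b.1 v + a.1 (b.1 v)) := fun v => by
    rw [← hx _ (m v), map_add, map_add, map_add]
    rfl
  have k : LinearMap.IsProj (O.fix a ⊓ O.fix b)
      ((4 : K)⁻¹ • (T3.lin _ x + T3.lin _ (x * a) + T3.lin _ (x * b) + T3.lin _ (x * (a * b)))) :=
    ⟨fun v => e v ▸ Submodule.smul_mem _ _ (m v), fun v hv => by
      rw [e, O.mem_fix.1 hv.2, O.mem_fix.1 hv.1, inv_smul_eq_iff₀ h4]
      module⟩
  have := k.trace
  rwa [h.fix.1, map_smul, map_add, map_add, map_add, smul_eq_mul, Nat.cast_one, inv_mul_eq_one₀ h4, eq_comm] at this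

/-- `chi r = chi (r a) = chi (r b) = chi (r a b)` (conjugates under `a`, `b`) and `sum_chi'`. -/
theorem chi_rho (hr : Rho a b r) : chi r = 1 := by
  have h4 : (4 : K) ≠ 0 := by
    rw [show (4 : K) = 2 * 2 by norm_num]
    exact mul_ne_zero h.two h.two
  have e := h.sum4 (h.rho_fix hr)
  have e1 : a * r * a⁻¹ = r * b := mul_inv_eq_iff_eq_mul.2 (O.ext fun v => by
    change a.1 (r.1 v) = r.1 (b.1 (a.1 v))
    rw [(h.rho_app hr v).2.2, app h.comm])
  have e2 : b * r * b⁻¹ = r * (a * b) := mul_inv_eq_iff_eq_mul.2 (O.ext fun v => by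
    change b.1 (r.1 v) = r.1 (a.1 (b.1 (b.1 v)))
    rw [(h.rho_app hr v).1, app2 h.hb])
  have e3 : a * b * r * (a * b)⁻¹ = r * a := mul_inv_eq_iff_eq_mul.2 (O.ext fun v => by
    change a.1 (b.1 (r.1 v)) = r.1 (a.1 (a.1 (b.1 v)))
    rw [(h.rho_app hr v).2.1, app2 h.ha])
  rw [← e3, ← e2, ← e1, chi_conj, chi_conj, chi_conj] at e
  exact mul_left_cancel₀ h4 (by linear_combination e)

/-- `(1 + a) (1 + b) / 4` is the projection onto `V₀`; if `x` normalises `V₀` and fixes it pointwise then `x` composed with it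
has trace one. -/
theorem sum_chi' (hx : ∀ v ∈ O.fix a ⊓ O.fix b, x.1 v = v) :
    chi x + chi (x * a) + chi (x * b) + chi (x * (a * b)) = 4 :=
  h.sum4 hx

/-- An element of odd order centralising the four-group fixes `V₀`. -/
theorem odd_fix {n : ℕ} (hn : Odd n) (hx : x ^ n = 1) (ca : Commute x a) (cb : Commute x b) :
    ∀ v ∈ O.fix a ⊓ O.fix b, x.1 v = v :=
  h.line_fix hn hx (stab_inf (stab_fix ca) (stab_fix cb))

end Four

/-- A four-group permuted by `r` is of type four as soon as one involution is. -/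
theorem Rho.four {a b r : O (Q K)} (hr : Rho a b r) (h2 : (2 : K) ≠ 0) (ha : a * a = 1) (c : Commute a b)
    (da : dm a = 4) : Four a b :=
  have db : dm b = 4 := by rw [← hr.ea, dm_conj, da]
  ⟨h2, ha, by rw [← hr.ea, conj_mul, ha, mul_one, mul_inv_cancel], c, da, db, by rw [← hr.eb, dm_conj, db]⟩

/-- Three involutions of type two generate a reducible group (`Irr.le_sum`). -/
theorem Irr.not_three (h : Irr M) {a b c : O (Q K)} (hl : M ≤ Subgroup.closure {a, b, c}) (da : dm a = 2)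
    (db : dm b = 2) (dc : dm c = 2) : False := by
  have := h.le_sum (by simp) [a, b, c] (hl.trans (Subgroup.closure_mono fun x hx => by simpa using hx))
  simp [da, db, dc] at this

end Cfsg.Lib.O7
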