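import Cfsg.Agent.Lib.O7.Psi
import Cfsg.Agent.Lib.O7.T2

/-!
# The maximal torus: eigenvalues on `V` and on `W` (see `docs/O7.md`)
-/

set_option autoImplicit false

namespace Cfsg.Lib.O7

open QuadraticMap Module Matrix Cfsg.Lib.Orth Cfsg.Lib.Oct
open scoped MatrixGroups

variable {K : Type*} [Field K]

/-- The diagonal entries `1; μ i; (μ i)⁻¹`. -/
def wV (μ : Fin 3 → Kˣ) : I7 → Kˣ := Sum.elim (fun _ => 1) (Sum.elim μ fun i => (μ i)⁻¹)

/-- The diagonal entries `l 0; l i; (l i)⁻¹; (l 0)⁻¹`. -/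
def wW (l : Fin 4 → Kˣ) : Fin 8 → Kˣ := ![l 0, l 1, l 2, l 3, (l 1)⁻¹, (l 2)⁻¹, (l 3)⁻¹, (l 0)⁻¹]

/-- A diagonal automorphism. -/
def torDg {n : Type} (d : n → Kˣ) : (n → K) ≃ₗ[K] (n → K) where
  toFun v i := d i * v i
  invFun v i := (d i)⁻¹ * v i
  map_add' u v := by ext i; simp [mul_add]
  map_smul' c v := by ext i; simp [mul_left_comm]
  left_inv v := by ext i; simp
  right_inv v := by ext i; simp

theorem torDg_apply {n : Type} (d : n → Kˣ) (v : n → K) (i : n) : torDg d v i = d i * v i := rfl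

theorem tor_mem (μ : Fin 3 → Kˣ) : torDg (wV μ) ∈ O (Q K) := fun v => by
  simp only [qOdd_apply, torDg_apply, wV, Sum.elim_inl, Sum.elim_inr, Units.val_one, one_mul, Units.val_inv_eq_inv_val]
  congr 1
  refine Finset.sum_congr rfl fun i _ => ?_
  have := (μ i).ne_zero
  field_simp

theorem exists_dgV : ∃ f : (Fin 3 → Kˣ) →* O (Q K), ∀ μ v i, (f μ).1 v i = wV μ i * v i := by
  refine ⟨MonoidHom.mk' (fun μ => ⟨torDg (wV μ), tor_mem μ⟩) fun μ ν => O.ext fun v => ?_, fun _ _ _ => rfl⟩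
  ext i
  rw [O.mul_apply]
  rcases i with _ | i | i <;> simp [torDg_apply, wV, mul_assoc, mul_left_comm]

/-- The diagonal torus of `SO₇`. -/
noncomputable def dgV : (Fin 3 → Kˣ) →* O (Q K) := exists_dgV.choose

theorem dgV_apply (μ : Fin 3 → Kˣ) (v : V K) (i : I7) : (dgV μ).1 v i = wV μ i * v i :=
  exists_dgV.choose_spec μ v i

theorem dgV_injective : Function.Injective (dgV (K := K)) := by
  intro μ ν e
  ext i
  have := dgV_apply μ (fun _ => 1) (.inr (.inl i))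
  rw [e, dgV_apply] at this
  simpa [wV] using this.symm

open Classical in
theorem tor_finrank_eigen {n : Type} [Fintype n] {f : Module.End K (n → K)} {d : n → K}
    (h : ∀ w i, f w i = d i * w i) (c : K) :
    finrank K (f.eigenspace c) = (Finset.univ.filter fun i => d i = c).card := by
  have e : f.eigenspace c = LinearMap.ker (LinearMap.funLeft K K (Subtype.val : {i // ¬ d i = c} → n)) := by
    ext w
    rw [End.mem_eigenspace_iff, LinearMap.mem_ker]
    constructor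
    · intro hw
      ext i
      have := congrFun hw i.1
      rw [h, Pi.smul_apply, smul_eq_mul, ← sub_eq_zero, ← sub_mul, mul_eq_zero, sub_eq_zero] at this
      exact this.resolve_left i.2
    · intro hw
      ext i
      rw [h, Pi.smul_apply, smul_eq_mul]
      by_cases hi : d i = c
      · rw [hi]
      · have : w i = 0 := congrFun hw ⟨i, hi⟩
        rw [this, mul_zero, mul_zero]
  have h1 := LinearMap.finrank_range_add_finrank_ker (LinearMap.funLeft K K (Subtype.val : {i // ¬ d i = c} → n))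
  rw [LinearMap.range_eq_top.2 (LinearMap.funLeft_surjective_of_injective K K _ Subtype.val_injective), finrank_top,
    finrank_fintype_fun_eq_card, finrank_fintype_fun_eq_card, Fintype.card_subtype_compl, Fintype.card_subtype] at h1
  have h2 := Finset.card_le_univ (Finset.univ.filter fun i => d i = c)
  rw [e]
  omega

theorem tor_fix_eq {U : Type*} [AddCommGroup U] [Module K U] {q : QuadraticForm K U} (g : O q) :
    O.fix g = Module.End.eigenspace (g.1 : U →ₗ[K] U) 1 := by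
  ext v
  rw [O.mem_fix, End.mem_eigenspace_iff, one_smul]
  rfl

open Classical in
theorem tor_fx {n : Type} [Fintype n] {q : QuadraticForm K (n → K)} {g : O q} {d : n → Kˣ}
    (h : ∀ w i, g.1 w i = d i * w i) : fx g = ∑ i, if d i = 1 then 1 else 0 := by
  rw [fx, tor_fix_eq, tor_finrank_eigen (d := fun i => (d i : K)) h, Finset.card_filter]
  simp only [Units.val_eq_one]

theorem tor_matrix {n : Type} [Fintype n] [DecidableEq n] {f : Module.End K (n → K)} {d : n → K}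
    (h : ∀ w i, f w i = d i * w i) : f = Matrix.toLin' (diagonal d) := by
  ext j i
  simp only [h, Pi.single_apply, LinearMap.comp_apply, LinearMap.coe_single, toLin'_apply, mulVec_diagonal]

theorem tor_trace {n : Type} [Fintype n] {f : Module.End K (n → K)} {d : n → K}
    (h : ∀ w i, f w i = d i * w i) : LinearMap.trace K _ f = ∑ i, d i := by
  classical
  rw [tor_matrix h, Matrix.trace_toLin'_eq, trace_diagonal]

theorem tor_det {n : Type} [Fintype n] {f : Module.End K (n → K)} {d : n → K}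
    (h : ∀ w i, f w i = d i * w i) : LinearMap.det f = ∏ i, d i := by
  classical
  rw [tor_matrix h, LinearMap.det_toLin', det_diagonal]

open Classical in
theorem dm_dgV (μ : Fin 3 → Kˣ) : dm (dgV μ) = 2 * (Finset.univ.filter fun i => μ i ≠ 1).card := by
  have h1 := dm_add_fx (dgV μ)
  rw [finrank_V, tor_fx (dgV_apply μ)] at h1
  simp only [Finset.card_filter, Fintype.sum_sum_type, wV, Sum.elim_inl, Sum.elim_inr, inv_eq_one, Fin.sum_univ_three,
    Finset.univ_unique, Finset.sum_singleton, if_true, ite_not] at h1 ⊢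
  by_cases a : μ 0 = 1 <;> by_cases b : μ 1 = 1 <;> by_cases c : μ 2 = 1 <;>
    simp only [a, b, c, if_true, if_false] at h1 ⊢ <;> omega

theorem chi_dgV (μ : Fin 3 → Kˣ) : chi (dgV μ) = 1 + ∑ i, ((μ i : K) + (μ i : K)⁻¹) := by
  rw [chi, tor_trace (d := fun i => (wV μ i : K)) (dgV_apply μ)]
  simp [Fintype.sum_sum_type, wV, Finset.sum_add_distrib]

/-- `mk_mul`: if `l 0 * l 1 * l 2 * l 3 = 1`, the diagonal map `wW l` lies over `dgV (l 0 * l i)`. -/
theorem exists_tor {l : Fin 4 → Kˣ} (h : l 0 * l 1 * l 2 * l 3 = 1) : ∃ s : Spin K,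
    phi s = dgV (fun i => l 0 * l i.succ) ∧ ∀ w i, (act s).1 w i = wW l i * w i := by
  have h0 := (l 0).ne_zero
  have h1 := (l 1).ne_zero
  have h2 := (l 2).ne_zero
  have h3 : (l 3 : K) = ((l 0 : K) * l 1 * l 2)⁻¹ := by
    rw [← Units.val_mul, ← Units.val_mul, ← Units.val_inv_eq_inv_val, eq_inv_of_mul_eq_one_right h]
  have h3' := (l 3).ne_zero
  have m : torDg (wW l) ∈ O (N K) := fun v => by
    simp only [N_apply, nm, torDg_apply, wW]
    simp
    field_simp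
  refine ⟨⟨(⟨_, m⟩, dgV fun i => l 0 * l i.succ), fun v w => ?_⟩, rfl, fun _ _ => rfl⟩
  change torDg (wW l) (gam v w) = gam _ (torDg (wW l) w)
  ext i
  rw [torDg_apply, gam_apply, gam_apply, mul_eq, mul_eq]
  fin_cases i <;> simp [jv_apply, Oct.mk, torDg_apply, dgV_apply, wW, wV, h3] <;> field_simp

open Classical in
theorem finrank_eigen {n : Type} [Fintype n] {f : Module.End K (n → K)} {d : n → K}
    (h : ∀ w i, f w i = d i * w i) (c : K) :
    finrank K (f.eigenspace c) = (Finset.univ.filter fun i => d i = c).card := tor_finrank_eigen h c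

theorem tor_pm {x : Kˣ} (h : x * x = 1) : x = 1 ∨ x = -1 :=
  (mul_self_eq_one_iff.1 (show (x : K) * x = 1 by rw [← Units.val_mul, h, Units.val_one])).imp Units.ext Units.ext

section Wt

variable {U : Type*} [AddCommGroup U] [Module K U] {q : QuadraticForm K U} {A : Subgroup (O q)}

/-- A weight vector. -/
def TorWt (A : Subgroup (O q)) (χ : A →* Kˣ) (v : U) : Prop := ∀ a : A, a.1.1 v = (χ a : K) • v

theorem tor_hom {v : U} (h0 : v ≠ 0) (h : ∀ a ∈ A, ∃ c : K, a.1 v = c • v) : ∃ χ : A →* Kˣ, TorWt A χ v := by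
  choose c hc using h
  have inj : ∀ {x y : K}, x • v = y • v → x = y := fun e => smul_left_injective K h0 e
  have ne : ∀ a : A, c a.1 a.2 ≠ 0 := fun a e => O.apply_ne_zero a.1 h0 (by rw [hc a.1 a.2, e, zero_smul])
  refine ⟨MonoidHom.mk' (fun a => Units.mk0 _ (ne a)) fun a b => Units.ext (inj ?_), fun a => hc a.1 a.2⟩
  simp only [Units.val_mul, Units.val_mk0]
  rw [← hc, mul_comm, mul_smul, ← hc, ← map_smul, ← hc]
  rfl

theorem TorWt.sq {χ : A →* Kˣ} {v : U} (h : TorWt A χ v) (hv : q v ≠ 0) (a : A) : χ a * χ a = 1 := by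
  have := a.1.2 v
  rw [h a, Q_smul] at this
  ext
  apply mul_right_cancel₀ hv
  rw [Units.val_mul, ← pow_two, this, Units.val_one, one_mul]

variable [FiniteDimensional K U] [IsAlgClosed K]

theorem tor_eig (hc : ∀ a ∈ A, ∀ b ∈ A, a * b = b * a) (Y : Submodule K U) (h0 : Y ≠ ⊥) (hY : A ≤ stabS Y) :
    ∃ v ∈ Y, v ≠ 0 ∧ ∃ χ : A →* Kˣ, TorWt A χ v := by
  induction hn : finrank K Y using Nat.strong_induction_on generalizing Y with
  | _ n ih =>
  by_cases hs : ∀ a ∈ A, ∃ c : K, ∀ v ∈ Y, a.1 v = c • v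
  · obtain ⟨v, hv, v0⟩ := Submodule.exists_mem_ne_zero_of_ne_bot h0
    exact ⟨v, hv, v0, tor_hom v0 fun a ha => (hs a ha).imp fun c h => h v hv⟩
  push Not at hs
  obtain ⟨a, ha, hs⟩ := hs
  have : Nontrivial Y := Submodule.nontrivial_iff_ne_bot.2 h0
  obtain ⟨c, hc'⟩ := Module.End.exists_eigenvalue ((a.1 : U →ₗ[K] U).restrict (p := Y) (q := Y) (hY ha))
  obtain ⟨w, hw⟩ := hc'.exists_hasEigenvector
  have e : a.1 w = c • (w : U) := congrArg Subtype.val hw.apply_eq_smul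
  let Y' : Submodule K U := Y ⊓ Module.End.eigenspace (a.1 : U →ₗ[K] U) c
  have mem : ∀ v, v ∈ Y' ↔ v ∈ Y ∧ a.1 v = c • v := fun v => by
    rw [Submodule.mem_inf, End.mem_eigenspace_iff]; rfl
  have lt : Y' < Y := by
    refine lt_of_le_of_ne inf_le_left fun e' => ?_
    obtain ⟨v, hv, n⟩ := hs c
    exact n ((mem v).1 (e'.ge hv)).2
  obtain ⟨v, hv, h⟩ := ih _ (hn ▸ Submodule.finrank_lt_finrank_of_lt lt) Y'
    (fun e' => hw.2 (Subtype.ext ((Submodule.mem_bot K).1 (e' ▸ (mem _).2 ⟨w.2, e⟩))))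
    (fun b hb v hv => (mem _).2 ⟨hY hb v ((mem v).1 hv).1, by
      rw [← O.mul_apply, hc a ha b hb, O.mul_apply, ((mem v).1 hv).2, map_smul]⟩) rfl
  exact ⟨v, hv.1, h⟩

omit [IsAlgClosed K] in
theorem tor_stab_perp {χ : A →* Kˣ} {v : U} (h : TorWt A χ v) : A ≤ stabS (perp q (K ∙ v)) := fun a ha w hw => by
  rw [mem_perp_singleton] at hw ⊢
  have := h ⟨a⁻¹, inv_mem ha⟩
  rw [O.polar_right, this, polar_smul_left', hw, mul_zero]

omit [IsAlgClosed K] in
theorem tor_stab_inf {X Y : Submodule K U} (hX : A ≤ stabS X) (hY : A ≤ stabS Y) : A ≤ stabS (X ⊓ Y) :=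
  fun _ ha v hv => ⟨hX ha v hv.1, hY ha v hv.2⟩

omit [IsAlgClosed K] in
theorem tor_dim (X : Submodule K U) (v : U) : finrank K X ≤ finrank K ↥(X ⊓ perp q (K ∙ v)) + 1 := by
  let f : X →ₗ[K] K := (polarBilin q v).comp X.subtype
  have h1 := LinearMap.finrank_range_add_finrank_ker f
  have h2 : finrank K (LinearMap.range f) ≤ 1 := (Submodule.finrank_le _).trans (finrank_self K).le
  have h3 : (LinearMap.ker f).map X.subtype = X ⊓ perp q (K ∙ v) := by
    ext w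
    simp only [Submodule.mem_map, LinearMap.mem_ker, Submodule.mem_inf, mem_perp_singleton]
    constructor
    · rintro ⟨y, hy, rfl⟩
      exact ⟨y.2, hy⟩
    · rintro ⟨h, h'⟩
      exact ⟨⟨w, h⟩, h', rfl⟩
  rw [← h3, Submodule.finrank_map_subtype_eq]
  omega

omit [FiniteDimensional K U] in
/-- two orthogonal non-singular vectors of the same weight -/
theorem tor_two (h2 : (2 : K) ≠ 0) {χ : A →* Kˣ} {X : Submodule K U} {u v : U} (hu : u ∈ X) (hv : v ∈ X) (qu : q u ≠ 0)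
    (qv : q v ≠ 0) (p : polar q u v = 0) (wu : TorWt A χ u) (wv : TorWt A χ v) :
    ∃ e ∈ X, e ≠ 0 ∧ q e = 0 ∧ ∃ χ : A →* Kˣ, TorWt A χ e := by
  obtain ⟨c, hc⟩ := IsAlgClosed.exists_pow_nat_eq (-(q u / q v)) two_pos
  refine ⟨u + c • v, add_mem hu (Submodule.smul_mem _ _ hv), fun e => ?_, ?_, χ, fun a => ?_⟩
  · have := congrArg (polar q u) e
    rw [polar_add_right, polar_smul_right', p, polar_self', polar_zero_right, mul_zero, add_zero] at this
    exact mul_ne_zero h2 qu this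
  · rw [Q_add, Q_smul, polar_smul_right', p, hc]
    field_simp
    ring
  · rw [map_add, map_smul, wu, wv, smul_add, smul_comm]

theorem tor_sing (h2 : (2 : K) ≠ 0) (hc : ∀ a ∈ A, ∀ b ∈ A, a * b = b * a)
    (hS : ∀ χ₁ χ₂ χ₃ : A →* Kˣ, (∀ a, χ₁ a * χ₁ a = 1) → (∀ a, χ₂ a * χ₂ a = 1) → (∀ a, χ₃ a * χ₃ a = 1) →
      χ₁ = χ₂ ∨ χ₁ = χ₃ ∨ χ₂ = χ₃) {X : Submodule K U} (h3 : 3 ≤ finrank K X) (hX : A ≤ stabS X) :
    ∃ e ∈ X, e ≠ 0 ∧ q e = 0 ∧ ∃ χ : A →* Kˣ, TorWt A χ e := by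
  have ne : ∀ Y : Submodule K U, 1 ≤ finrank K Y → Y ≠ ⊥ := fun Y h e => by
    rw [e, finrank_bot] at h; omega
  obtain ⟨u, hu, u0, χ₁, wu⟩ := tor_eig hc X (ne _ (by omega)) hX
  by_cases qu : q u = 0
  · exact ⟨u, hu, u0, qu, χ₁, wu⟩
  have d1 := tor_dim (q := q) X u
  have s1 := tor_stab_inf hX (tor_stab_perp wu)
  obtain ⟨v, hv, v0, χ₂, wv⟩ := tor_eig hc _ (ne _ (by omega)) s1
  by_cases qv : q v = 0
  · exact ⟨v, hv.1, v0, qv, χ₂, wv⟩
  have d2 := tor_dim (q := q) (X ⊓ perp q (K ∙ u)) v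
  obtain ⟨w, hw, w0, χ₃, ww⟩ := tor_eig hc _ (ne _ (by omega)) (tor_stab_inf s1 (tor_stab_perp wv))
  by_cases qw : q w = 0
  · exact ⟨w, hw.1.1, w0, qw, χ₃, ww⟩
  rcases hS χ₁ χ₂ χ₃ (wu.sq qu) (wv.sq qv) (ww.sq qw) with rfl | rfl | rfl
  · exact tor_two h2 hu hv.1 qu qv (mem_perp_singleton.1 hv.2) wu wv
  · exact tor_two h2 hu hw.1.1 qu qw (mem_perp_singleton.1 hw.1.2) wu ww
  · exact tor_two h2 hv.1 hw.1.1 qv qw (mem_perp_singleton.1 hw.2) wv ww

omit [IsAlgClosed K] in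
theorem tor_pair [Finite A] (hp : (Nat.card A : K) ≠ 0) {X : Submodule K U} (hX : A ≤ stabS X) (nd : ND (q.restrict X))
    {e : U} (he : e ∈ X) (e0 : e ≠ 0) (qe : q e = 0) {χ : A →* Kˣ} (we : TorWt A χ e) :
    ∃ f ∈ X, IsHyp q e f ∧ TorWt A χ⁻¹ f := by
  classical
  have := Fintype.ofFinite A
  obtain ⟨y, hy, py⟩ : ∃ y ∈ X, polar q e y ≠ 0 := by
    by_contra hn
    push Not at hn
    exact e0 (nd_restrict_iff.1 nd e he hn)
  let f : U := ((Nat.card A : K) * polar q e y)⁻¹ • ∑ a : A, (χ a : K) • a.1.1 y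
  have hf : f ∈ X := Submodule.smul_mem _ _ (Submodule.sum_mem _ fun a _ => Submodule.smul_mem _ _ (hX a.2 y hy))
  have pf : polar q e f = 1 := by
    have : ∀ a : A, polarBilin q e ((χ a : K) • a.1.1 y) = polar q e y := fun a => by
      have := we a⁻¹
      rw [polarBilin_apply_apply, polar_smul_right', O.polar_right, ← Subgroup.coe_inv, this, polar_smul_left', map_inv,
        ← mul_assoc, Units.mul_inv, one_mul]
    rw [polar_smul_right', ← polarBilin_apply_apply q e (∑ a : A, _), map_sum, Finset.sum_congr rfl fun a _ => this a,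
      Finset.sum_const, Finset.card_univ, ← Nat.card_eq_fintype_card, nsmul_eq_mul, inv_mul_cancel₀ (mul_ne_zero hp py)]
  have wf : TorWt A χ⁻¹ f := fun b => by
    rw [map_smul, smul_comm ((χ⁻¹ b : Kˣ) : K), map_sum, Finset.smul_sum (r := ((χ⁻¹ b : Kˣ) : K))]
    congr 1
    refine Fintype.sum_equiv (Equiv.mulLeft b) _ _ fun a => ?_
    rw [map_smul, Equiv.coe_mulLeft, smul_smul, map_mul, MonoidHom.inv_apply, Units.val_mul, Units.inv_mul_cancel_left]
    rfl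
  clear_value f
  refine ⟨f - q f • e, sub_mem hf (Submodule.smul_mem _ _ he), isHyp_of_polar_eq_one qe pf, fun a => ?_⟩
  rw [map_sub, map_smul, wf, we, smul_sub, smul_smul, smul_smul]
  congr 2
  by_cases qf : q f = 0
  · rw [qf, zero_mul, mul_zero]
  · rw [mul_comm, eq_inv_of_mul_eq_one_right (wf.sq qf a), MonoidHom.inv_apply, inv_inv]

theorem tor_step (h2 : (2 : K) ≠ 0) (hc : ∀ a ∈ A, ∀ b ∈ A, a * b = b * a) [Finite A] (hp : (Nat.card A : K) ≠ 0)
    (hS : ∀ χ₁ χ₂ χ₃ : A →* Kˣ, (∀ a, χ₁ a * χ₁ a = 1) → (∀ a, χ₂ a * χ₂ a = 1) → (∀ a, χ₃ a * χ₃ a = 1) →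
      χ₁ = χ₂ ∨ χ₁ = χ₃ ∨ χ₂ = χ₃) {X : Submodule K U} {n : ℕ} (h3 : finrank K X = n + 3) (hX : A ≤ stabS X)
    (nd : ND (q.restrict X)) : ∃ e ∈ X, ∃ f ∈ X, ∃ χ : A →* Kˣ, IsHyp q e f ∧ TorWt A χ e ∧ TorWt A χ⁻¹ f ∧
      ∃ Y ≤ X, finrank K Y = n + 1 ∧ A ≤ stabS Y ∧ ND (q.restrict Y) ∧ ∀ y ∈ Y, polar q e y = 0 ∧ polar q f y = 0 := by
  obtain ⟨e, he, e0, qe, χ, we⟩ := tor_sing h2 hc hS (by omega) hX
  obtain ⟨f, hf, H, wf⟩ := tor_pair hp hX nd he e0 qe we
  have mem : ∀ y, y ∈ X ⊓ perp q (K ∙ e) ⊓ perp q (K ∙ f) ↔ y ∈ X ∧ polar q e y = 0 ∧ polar q f y = 0 := fun y => by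
    simp only [Submodule.mem_inf, mem_perp_singleton, and_assoc]
  refine ⟨e, he, f, hf, χ, H, we, wf, X ⊓ perp q (K ∙ e) ⊓ perp q (K ∙ f), inf_le_left.trans inf_le_left, ?_,
    tor_stab_inf (tor_stab_inf hX (tor_stab_perp we)) (tor_stab_perp wf), ?_, fun y hy => ((mem y).1 hy).2⟩
  · have d1 := tor_dim (q := q) X e
    have d2 := tor_dim (q := q) (X ⊓ perp q (K ∙ e)) f
    have l1 : X ⊓ perp q (K ∙ e) < X := lt_of_le_of_ne inf_le_left fun h => by
      have := mem_perp_singleton.1 (h.ge hf).2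
      rw [H.polar_eq] at this
      exact one_ne_zero this
    have l2 : X ⊓ perp q (K ∙ e) ⊓ perp q (K ∙ f) < X ⊓ perp q (K ∙ e) := lt_of_le_of_ne inf_le_left fun h => by
      have := mem_perp_singleton.1 (h.ge ⟨he, mem_perp_singleton.2 H.polar_left⟩).2
      rw [H.polar_eq'] at this
      exact one_ne_zero this
    have := Submodule.finrank_lt_finrank_of_lt l1
    have := Submodule.finrank_lt_finrank_of_lt l2
    omega
  · rw [nd_restrict_iff]
    intro x hx hy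
    obtain ⟨h1, h2, h3⟩ := (mem x).1 hx
    refine nd_restrict_iff.1 nd x h1 fun v hv => ?_
    obtain ⟨a, b, w, hw, rfl⟩ := H.exists_decomp v
    have hw' : w ∈ X := by
      have := sub_mem hv (add_mem (Submodule.smul_mem _ a he) (Submodule.smul_mem _ b hf))
      rwa [add_sub_cancel_left] at this
    rw [polar_add_right, polar_add_right, polar_smul_right', polar_smul_right', polar_comm q x e, polar_comm q x f, h2, h3,
      hy w ((mem w).2 ⟨hw', mem_hperp.1 hw⟩)]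
    simp

end Wt

theorem tor_main [IsAlgClosed K] (h2 : (2 : K) ≠ 0) {A : Subgroup (O (Q K))} [Finite A]
    (hc : ∀ a ∈ A, ∀ b ∈ A, a * b = b * a) (hp : (Nat.card A : K) ≠ 0)
    (hS : ∀ χ₁ χ₂ χ₃ : A →* Kˣ, (∀ a, χ₁ a * χ₁ a = 1) → (∀ a, χ₂ a * χ₂ a = 1) → (∀ a, χ₃ a * χ₃ a = 1) →
      χ₁ = χ₂ ∨ χ₁ = χ₃ ∨ χ₂ = χ₃)
    (hd : ∀ ε : A →* Kˣ, (∀ a, ε a * ε a = 1) → (∀ a, ε a = O.det _ a.1) → ∀ a, ε a = 1) :
    ∃ (k : O (Q K)) (μ : A →* Fin 3 → Kˣ), O.det _ k = 1 ∧ ∀ a : A, k * a.1 * k⁻¹ = dgV (μ a) := by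
  obtain ⟨e₀, -, f₀, -, χ₀, H₀, we₀, wf₀, X₁, -, d₁, s₁, n₁, p₁⟩ := tor_step (n := 4) (X := ⊤) h2 hc hp hS
    (by rw [finrank_top, finrank_V]) (fun _ _ _ _ => trivial)
    (nd_restrict_iff.2 fun x _ hx => (nd_Q h2).eq_zero fun y => hx y trivial)
  obtain ⟨e₁, he₁, f₁, hf₁, χ₁, H₁, we₁, wf₁, X₂, l₂, d₂, s₂, n₂, p₂⟩ := tor_step (n := 2) h2 hc hp hS d₁ s₁ n₁
  obtain ⟨e₂, he₂, f₂, hf₂, χ₂, H₂, we₂, wf₂, X₃, l₃, d₃, s₃, n₃, p₃⟩ := tor_step (n := 0) h2 hc hp hS d₂ s₂ n₂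
  obtain ⟨u, hu, u0, ε, wu⟩ := tor_eig hc X₃ (fun e => by rw [e, finrank_bot] at d₃; omega) s₃
  have qu : Q K u ≠ 0 := fun e => u0 (nd_restrict_iff.1 n₃ u hu fun y hy => by
    obtain ⟨c, hc⟩ := (finrank_eq_one_iff_of_nonzero' (⟨u, hu⟩ : X₃) (fun e => u0 (congrArg Subtype.val e))).1 d₃ ⟨y, hy⟩
    have : y = c • u := (congrArg Subtype.val hc).symm
    rw [this, polar_smul_right', polar_self', e, mul_zero, mul_zero])
  obtain ⟨c, hc'⟩ := IsAlgClosed.exists_pow_nat_eq (Q K u)⁻¹ two_pos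
  have hv : c • u ∈ X₃ := Submodule.smul_mem _ _ hu
  have qv : Q K (c • u) = 1 := by rw [Q_smul, hc', inv_mul_cancel₀ qu]
  have wv : TorWt A ε (c • u) := fun a => by rw [map_smul, wu, smul_comm]
  generalize c • u = v at hv qv wv
  let b : I7 → V K := Sum.elim (fun _ => v) (Sum.elim ![e₀, e₁, e₂] ![f₀, f₁, f₂])
  let T : V K →ₗ[K] V K := Fintype.linearCombination K b
  obtain ⟨a1, a2⟩ := p₁ _ he₁
  obtain ⟨a3, a4⟩ := p₁ _ hf₁
  obtain ⟨a5, a6⟩ := p₁ _ (l₂ he₂)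
  obtain ⟨a7, a8⟩ := p₁ _ (l₂ hf₂)
  obtain ⟨a9, a10⟩ := p₁ _ (l₂ (l₃ hv))
  obtain ⟨b1, b2⟩ := p₂ _ he₂
  obtain ⟨b3, b4⟩ := p₂ _ hf₂
  obtain ⟨b5, b6⟩ := p₂ _ (l₃ hv)
  obtain ⟨c1, c2⟩ := p₃ _ hv
  have hT : ∀ x, Q K (T x) = Q K x := fun x => by
    have : T x = x (.inl ()) • v + (x (.inr (.inl 2)) • e₂ + x (.inr (.inr 2)) • f₂) +
        (x (.inr (.inl 1)) • e₁ + x (.inr (.inr 1)) • f₁) + (x (.inr (.inl 0)) • e₀ + x (.inr (.inr 0)) • f₀) := by
      simp only [T, b, Fintype.linearCombination_apply, Fintype.sum_sum_type, Fin.sum_univ_three, Finset.univ_unique,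
        Finset.sum_singleton, Sum.elim_inl, Sum.elim_inr, cons_val_zero, cons_val_one, cons_val]
      abel
    rw [this, Q_add, Q_add, Q_add, H₀.Q_comb, H₁.Q_comb, H₂.Q_comb, Q_smul, qv, polar_comm, polar_comm _ _ (_ • e₁ + _),
      polar_comm _ _ (_ • e₀ + _), qOdd_apply 3 x, Fin.sum_univ_three]
    simp only [polar_add_left, polar_add_right, polar_smul_left', polar_smul_right', a1, a2, a3, a4, a5, a6, a7, a8, a9, a10,
      b1, b2, b3, b4, b5, b6, c1, c2]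
    ring
  let k₀ : O (Q K) := O.ofLinear (nd_Q h2) T hT
  have hk : ∀ x, k₀.1 x = T x := fun _ => rfl
  let μ : A →* Fin 3 → Kˣ := MonoidHom.pi ![χ₀, χ₁, χ₂]
  let d : A → I7 → Kˣ := fun a => Sum.elim (fun _ => ε a) (Sum.elim (μ a) fun i => (μ a i)⁻¹)
  have hb : ∀ (a : A) i, a.1.1 (b i) = (d a i : K) • b i := by
    rintro a (_ | i | i)
    · exact wv a
    · fin_cases i
      exacts [we₀ a, we₁ a, we₂ a]
    · fin_cases i
      exacts [wf₀ a, wf₁ a, wf₂ a]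
  have hdg : ∀ (a : A) x i, (k₀⁻¹ * a.1 * k₀).1 x i = d a i * x i := fun a x i => by
    have : (k₀⁻¹ * a.1 * k₀).1 x = fun i => d a i * x i := by
      rw [O.mul_apply, O.mul_apply, O.inv_apply_eq, hk, hk]
      simp only [T, Fintype.linearCombination_apply, map_sum, map_smul, hb, smul_smul, mul_comm]
    rw [this]
  have he : ∀ a, ε a = 1 := hd ε (wv.sq (by rw [qv]; exact one_ne_zero)) fun a => by
    have : O.det _ (k₀⁻¹ * a.1 * k₀) = O.det _ a.1 := by
      rw [map_mul, map_mul, map_inv, mul_comm, mul_inv_cancel_left]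
    rw [← this]
    ext
    rw [O.coe_det, tor_det (d := fun i => (d a i : K)) (hdg a)]
    have : (∏ i, (μ a i : K)) ≠ 0 := Finset.prod_ne_zero_iff.2 fun i _ => (μ a i).ne_zero
    simp [d, Fintype.prod_sum_type, Finset.prod_inv_distrib, this]
  have fin : ∀ a : A, k₀⁻¹ * a.1 * k₀ = dgV (μ a) := fun a => O.ext fun x => by
    ext i
    rw [hdg, dgV_apply]
    simp only [d, he]
    rfl
  have dk : O.det _ k₀ = 1 ∨ O.det _ k₀ = -1 := by
    have := det_eq_dickson (nd_Q h2) k₀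
    rcases Int.units_eq_one_or (dickson (nd_Q h2) k₀) with e | e <;> rw [e] at this
    · exact .inl (Units.ext (by simpa using this))
    · exact .inr (Units.ext (by simpa using this))
  rcases dk with e | e
  · exact ⟨k₀⁻¹, μ, by rw [map_inv, e, inv_one], fun a => by rw [inv_inv, fin]⟩
  · refine ⟨k₀⁻¹ * O.neg _, μ, by rw [map_mul, map_inv, e, Orth.det_neg, finrank_V]; norm_num, fun a => ?_⟩
    rw [← fin]
    refine O.ext fun x => ?_
    rw [_root_.mul_inv_rev, inv_inv, inv_eq_of_mul_eq_one_right (O.ext fun v => neg_neg v : O.neg (Q K) * O.neg _ = 1)]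
    simp only [O.mul_apply, O.neg_apply, map_neg, neg_neg]

theorem tor_pow {n : Type} {q : QuadraticForm K (n → K)} {g : O q} {d : n → Kˣ} (h : ∀ w i, g.1 w i = d i * w i) (m : ℕ)
    (w : n → K) (i : n) : (g ^ m).1 w i = (d i ^ m : Kˣ) * w i := by
  induction m with
  | zero => simp
  | succ m ih => rw [pow_succ', O.mul_apply, h, ih, pow_succ', Units.val_mul, mul_assoc]

theorem tor_one {n : Type} {q : QuadraticForm K (n → K)} {g : O q} {d : n → Kˣ} (h : ∀ w i, g.1 w i = d i * w i)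
    (e : g = 1) (i : n) : d i = 1 := by
  have := h (fun _ => 1) i
  rw [e, O.one_apply, mul_one] at this
  exact Units.ext this.symm

theorem tor_cube {a b : Kˣ} (ha : a ^ 3 = 1) (hb : b ^ 3 = 1) (a1 : a ≠ 1) : b = 1 ∨ b = a ∨ a * b = 1 := by
  have h1 : (a : K) ^ 3 = 1 := by rw [← Units.val_pow_eq_pow_val, ha, Units.val_one]
  have h2 : (b : K) ^ 3 = 1 := by rw [← Units.val_pow_eq_pow_val, hb, Units.val_one]
  have h3 : (a : K) ^ 2 + a + 1 = 0 := by
    have : ((a : K) - 1) * (a ^ 2 + a + 1) = 0 := by linear_combination h1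
    exact (mul_eq_zero.1 this).resolve_left fun e => a1 (Units.ext (sub_eq_zero.1 e))
  have : ((b : K) - 1) * ((b - a) * (a * b - 1)) = 0 := by
    linear_combination (a : K) * h2 + ((b : K) - b ^ 2) * h3
  rcases mul_eq_zero.1 this with e | e
  · exact .inl (Units.ext (sub_eq_zero.1 e))
  · exact .inr ((mul_eq_zero.1 e).imp (fun e => Units.ext (sub_eq_zero.1 e)) fun e => Units.ext (sub_eq_zero.1 e))

theorem tor_cube' {a b c d : Kˣ} (ha : a ^ 3 = 1) (hb : b ^ 3 = 1) (e : a * b * c * d = 1) (h1 : a * b ≠ 1) (h2 : a * c ≠ 1)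
    (h3 : a * d = 1) : (a = 1 ∧ b ≠ 1 ∧ c ≠ 1 ∧ d = 1) ∨ (a ≠ 1 ∧ b = 1 ∧ c = 1 ∧ d ≠ 1) := by
  have bc : b * c = 1 := by rw [← e, ← mul_one (b * c), ← h3]; ac_rfl
  by_cases a1 : a = 1
  · subst a1
    rw [one_mul] at h1 h2 h3
    exact .inl ⟨rfl, h1, h2, h3⟩
  · rcases tor_cube ha hb a1 with e | e | e
    · exact .inr ⟨a1, e, by rwa [e, one_mul] at bc, fun d1 => a1 (by rwa [d1, mul_one] at h3)⟩
    · exact (h2 (e ▸ bc)).elim
    · exact (h1 e).elim

theorem tor_nine {G : Type*} [CommGroup G] {r m : ℕ} (h3 : Nat.Coprime 3 r) (hm : r ∣ m ^ 2 + m + 1) {x y z : G}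
    (hx : x ^ r = 1) (x1 : x ≠ 1) {P : G → Prop} (hP : ∀ u, P u → u = 1 ∨ u = x ∨ u = y ∨ u = z ∨ u = x⁻¹ ∨ u = y⁻¹ ∨ u = z⁻¹)
    (h0 : P x) (h1 : ∀ u, P u → P (u ^ m)) :
    x * y * z = 1 ∨ x * y * z⁻¹ = 1 ∨ x * y⁻¹ * z = 1 ∨ x * y⁻¹ * z⁻¹ = 1 := by
  have k : ∀ u : G, u ^ r = 1 → u * u ^ m * (u ^ m) ^ m = 1 := fun u hu => by
    obtain ⟨c, hc⟩ := hm
    rw [← pow_mul, ← pow_succ', ← pow_add, show m + 1 + m * m = r * c by rw [← hc]; ring, pow_mul, hu, one_pow]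
  have k3 : ∀ u : G, u ^ r = 1 → u ^ 3 = 1 → u = 1 := fun u hu h => (pow_eq_one_iff_of_coprime h3).1 ⟨h, hu⟩
  have n : ∀ u : G, u ^ r = 1 → u ≠ 1 → u ^ m ≠ 1 ∧ u ^ m ≠ u ∧ u ^ m ≠ u⁻¹ := fun u hu u1 => by
    have := k u hu
    refine ⟨fun e => u1 ?_, fun e => u1 (k3 u hu ?_), fun e => u1 ?_⟩
    · simpa [e] using this
    · rw [e, e] at this
      rw [pow_three, ← mul_assoc, this]
    · rw [e, inv_pow, e] at this
      simpa using this
  have ha : (x ^ m) ^ r = 1 := by rw [← pow_mul, mul_comm, pow_mul, hx, one_pow]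
  obtain ⟨n1, n2, n3⟩ := n x hx x1
  obtain ⟨n4, n5, n6⟩ := n _ ha n1
  have e := k x hx
  have n7 : (x ^ m) ^ m ≠ x := fun e' => by
    have := k _ ha
    rw [e'] at e this
    exact n2 (mul_left_cancel (a := x ^ m * x) (by rw [this, ← e]; ac_rfl))
  have n8 : (x ^ m) ^ m ≠ x⁻¹ := fun e' => n1 (by rwa [e', mul_right_comm, mul_inv_cancel, one_mul] at e)
  have p1 := hP _ (h1 _ h0)
  have p2 := hP _ (h1 _ (h1 _ h0))
  generalize (x ^ m) ^ m = b at *
  generalize x ^ m = a at *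
  rcases p1 with rfl | rfl | rfl | rfl | rfl | rfl | rfl <;> try contradiction
  all_goals rcases p2 with rfl | rfl | rfl | rfl | rfl | rfl | rfl <;> try contradiction
  all_goals first
    | simp only [e, true_or, or_true]
    | exact absurd (inv_inv _).symm n6
    | (rw [mul_right_comm] at e; simp only [e, true_or, or_true])

section Kl

variable {U : Type*} [AddCommGroup U] [Module K U] {q : QuadraticForm K U} [FiniteDimensional K U] {a b r : O q}

theorem tor_four (h2 : (2 : K) ≠ 0) (ha : a * a = 1) (hb : b * b = 1) (c : a * b = b * a) (f1 : fx a = 4)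
    (f2 : fx b = 4) (f3 : fx (a * b) = 4) (f8 : finrank K U = 8) :
    finrank K ↥(O.fix a ⊓ O.fix b) = 2 ∧ finrank K ↥(O.fix a ⊓ O.comm b) = 2 := by
  have cm : ∀ v, a.1 (b.1 v) = b.1 (a.1 v) := fun v => by rw [← O.mul_apply, c, O.mul_apply]
  have aa : ∀ v, a.1 (a.1 v) = v := fun v => by rw [← O.mul_apply, ha, O.one_apply]
  have h1 := T3.split h2 hb (X := O.fix a) fun v hv => by rw [O.mem_fix] at hv ⊢; rw [cm, hv]
  have h3 := T3.split h2 ha (X := O.fix b) fun v hv => by rw [O.mem_fix] at hv ⊢; rw [← cm, hv]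
  have h4 := T3.split h2 ha (X := O.fix (a * b)) fun v hv => by
    rw [O.mem_fix, O.mul_apply] at hv ⊢; rw [← cm, hv]
  have h5 := T3.split h2 hb (X := O.comm a) fun v hv => by
    rw [mem_comm_inv h2 ha] at hv ⊢; rw [cm, hv, map_neg]
  have e1 : O.fix (a * b) ⊓ O.comm a = O.comm a ⊓ O.comm b := by
    ext v
    simp only [Submodule.mem_inf, O.mem_fix, O.mul_apply, mem_comm_inv h2 ha, mem_comm_inv h2 hb]
    constructor
    · rintro ⟨e, e'⟩
      exact ⟨e', by rw [← e', ← aa (b.1 v), e]⟩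
    · rintro ⟨e, e'⟩
      exact ⟨by rw [e', map_neg, e, neg_neg], e⟩
  have e2 : O.fix (a * b) ⊓ O.fix a = O.fix a ⊓ O.fix b := by
    ext v
    simp only [Submodule.mem_inf, O.mem_fix, O.mul_apply]
    constructor
    · rintro ⟨e, e'⟩
      exact ⟨e', by rw [← aa (b.1 v), e, e']⟩
    · rintro ⟨e, e'⟩
      exact ⟨by rw [e', e], e⟩
  rw [e1, e2] at h4
  rw [inf_comm _ (O.comm a), inf_comm _ (O.fix a)] at h3
  have h6 := dm_add_fx a
  simp only [dm, fx] at *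
  omega

omit [FiniteDimensional K U] in
theorem tor_nd (hq : ND q) (h2 : (2 : K) ≠ 0) (ha : a * a = 1) (hb : b * b = 1) (c : a * b = b * a) :
    ND (q.restrict (O.fix a ⊓ O.fix b)) := by
  have cm : ∀ v, a.1 (b.1 v) = b.1 (a.1 v) := fun v => by rw [← O.mul_apply, c, O.mul_apply]
  have aa : ∀ v, a.1 (a.1 v) = v := fun v => by rw [← O.mul_apply, ha, O.one_apply]
  have bb : ∀ v, b.1 (b.1 v) = v := fun v => by rw [← O.mul_apply, hb, O.one_apply]
  rw [nd_restrict_iff]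
  intro x hx hy
  have e1 := O.mem_fix.1 hx.1
  have e2 := O.mem_fix.1 hx.2
  have p1 : ∀ y, polar q x (a.1 y) = polar q x y := fun y => by rw [← O.map_polar a x y, e1]
  have p2 : ∀ y, polar q x (b.1 y) = polar q x y := fun y => by rw [← O.map_polar b x y, e2]
  refine hq.eq_zero fun y => ?_
  have := hy (y + a.1 y + b.1 y + a.1 (b.1 y)) ⟨O.mem_fix.2 (by simp only [map_add, aa]; abel),
    O.mem_fix.2 (by simp only [map_add, ← cm, bb]; abel)⟩
  simp only [polar_add_right, p1, p2] at this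
  exact mul_left_cancel₀ (mul_ne_zero h2 h2) (by linear_combination this)

theorem tor_rho (h2 : (2 : K) ≠ 0) (ha : a * a = 1) (hb : b * b = 1) (c : a * b = b * a) (e : r * a * r⁻¹ = b)
    (e' : r * b * r⁻¹ = a * b) :
    fx r ≤ finrank K ↥(O.fix a ⊓ O.comm b) + finrank K ↥(O.fix r ⊓ (O.fix a ⊓ O.fix b)) := by
  have cm : ∀ v, a.1 (b.1 v) = b.1 (a.1 v) := fun v => by rw [← O.mul_apply, c, O.mul_apply]
  have aa : ∀ v, a.1 (a.1 v) = v := fun v => by rw [← O.mul_apply, ha, O.one_apply]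
  have bb : ∀ v, b.1 (b.1 v) = v := fun v => by rw [← O.mul_apply, hb, O.one_apply]
  have ra : ∀ v, r.1 (a.1 v) = b.1 (r.1 v) := fun v => by rw [← O.mul_apply, ← O.mul_apply, ← e, inv_mul_cancel_right]
  have rb : ∀ v, r.1 (b.1 v) = a.1 (b.1 (r.1 v)) := fun v => by
    rw [← O.mul_apply, ← O.mul_apply, ← O.mul_apply, ← e', inv_mul_cancel_right]
  let f : U →ₗ[K] U := LinearMap.id + T3.lin q a - T3.lin q b - T3.lin q (a * b)
  have hf : ∀ v, f v = v + a.1 v - b.1 v - a.1 (b.1 v) := fun _ => rfl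
  rw [fx, ← LinearMap.finrank_range_add_finrank_ker (f.domRestrict (O.fix r)), LinearMap.range_domRestrict,
    LinearMap.ker_domRestrict, ← Submodule.finrank_map_subtype_eq, Submodule.map_comap_subtype]
  refine Nat.add_le_add (Submodule.finrank_mono ?_) (Submodule.finrank_mono ?_)
  · rintro _ ⟨v, -, rfl⟩
    refine ⟨O.mem_fix.2 ?_, (mem_comm_inv h2 hb).2 ?_⟩
    · simp only [hf, map_sub, map_add, aa]; abel
    · simp only [hf, map_sub, map_add, ← cm, bb]; abel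
  · rintro v ⟨h1, h3⟩
    have h1' := O.mem_fix.1 h1
    have h4 : v + a.1 v - b.1 v - a.1 (b.1 v) = 0 := h3
    have h5 := congrArg r.1 h4
    simp only [map_sub, map_add, ra, rb, h1', ← cm, bb, map_zero] at h5
    have h6 : a.1 v = b.1 v := by
      rw [← sub_eq_zero]
      refine T3.eq_zero h2 ?_
      rw [← sub_eq_zero, ← sub_zero 0]
      conv_rhs => rw [← h4]; congr; rfl; rw [h4, ← h5]
      abel
    have h7 := congrArg r.1 h6
    rw [ra, rb, h1'] at h7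
    have h8 : b.1 v = v := by rw [h7, ← h6, aa]
    exact ⟨h1, O.mem_fix.2 (h6.trans h8), O.mem_fix.2 h8⟩

theorem tor_stab (e : r * a * r⁻¹ = b) (e' : r * b * r⁻¹ = a * b) : r ∈ stabS (O.fix a ⊓ O.fix b) := fun v hv => by
  have w2 : b.1 (r.1 v) = r.1 v := by
    rw [← e, O.mul_apply, O.mul_apply, O.inv_apply_apply, O.mem_fix.1 hv.1]
  have w1 : (a * b).1 (r.1 v) = r.1 v := by
    rw [← e', O.mul_apply, O.mul_apply, O.inv_apply_apply, O.mem_fix.1 hv.2]
  rw [O.mul_apply, w2] at w1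
  exact ⟨O.mem_fix.2 w1, O.mem_fix.2 w2⟩

end Kl

theorem tor_map {G H : Type*} [Group G] [Group H] (f : G →* H) {r s t : G} (e : r * s * r⁻¹ = t) :
    f r * f s * (f r)⁻¹ = f t := by rw [← e, map_mul, map_mul, map_inv]

theorem tor_act {s s' : Spin K} (c : s * s' = s' * s) : act s * act s' = act s' * act s :=
  (map_mul act s s').symm.trans ((congrArg act c).trans (map_mul act s' s))

variable [IsAlgClosed K] (h2 : (2 : K) ≠ 0)
include h2

theorem exists_wt {A : Subgroup (O (Q K))} [Finite A] (hc : ∀ a ∈ A, ∀ b ∈ A, a * b = b * a)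
    (ho : Odd (Nat.card A)) (hp : (Nat.card A : K) ≠ 0) :
    ∃ (k : O (Q K)) (μ : A →* Fin 3 → Kˣ), O.det _ k = 1 ∧ ∀ a : A, k * a.1 * k⁻¹ = dgV (μ a) := by
  have key : ∀ ε : A →* Kˣ, (∀ a, ε a * ε a = 1) → ∀ a, ε a = 1 := fun ε h a => by
    obtain ⟨m, hm⟩ := ho
    have : ε a ^ Nat.card A = 1 := by rw [← map_pow, pow_card_eq_one', map_one]
    rwa [hm, pow_succ, pow_mul, pow_two, h, one_pow, one_mul] at this
  exact tor_main h2 hc hp (fun χ₁ χ₂ _ h₁ h₂ _ => .inl (MonoidHom.ext fun a => (key _ h₁ a).trans (key _ h₂ a).symm))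
    fun ε h _ => key ε h

theorem exists_conj_dgV {g : O (Q K)} (hd : O.det _ g = 1) {n : ℕ} (hg : g ^ n = 1) (hn : (n : K) ≠ 0) :
    ∃ (k : O (Q K)) (μ : Fin 3 → Kˣ), O.det _ k = 1 ∧ k * g * k⁻¹ = dgV μ := by
  have n0 : n ≠ 0 := fun e => hn (by rw [e, Nat.cast_zero])
  have fo : IsOfFinOrder g := isOfFinOrder_iff_pow_eq_one.2 ⟨n, Nat.pos_of_ne_zero n0, hg⟩
  have : Finite (Subgroup.zpowers g) := fo.finite_zpowers
  let g' : Subgroup.zpowers g := ⟨g, Subgroup.mem_zpowers g⟩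
  have ext : ∀ χ χ' : Subgroup.zpowers g →* Kˣ, χ g' = χ' g' → χ = χ' := fun χ χ' e => by
    ext1 ⟨_, k, rfl⟩
    have : (⟨g ^ k, k, rfl⟩ : Subgroup.zpowers g) = g' ^ k := rfl
    rw [this, map_zpow, map_zpow, e]
  obtain ⟨k, μ, hk, h⟩ := tor_main h2 (A := Subgroup.zpowers g)
    (by rintro _ ⟨i, rfl⟩ _ ⟨j, rfl⟩; exact zpow_mul_comm g i j)
    (by
      rw [Nat.card_zpowers]
      obtain ⟨m, rfl⟩ := orderOf_dvd_of_pow_eq_one hg
      exact left_ne_zero_of_mul (Nat.cast_mul (α := K) _ _ ▸ hn))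
    (fun χ₁ χ₂ χ₃ h₁ h₂ h₃ => by
      rcases tor_pm (h₁ g') with e₁ | e₁ <;>
        rcases tor_pm (h₂ g') with e₂ | e₂ <;>
        rcases tor_pm (h₃ g') with e₃ | e₃ <;>
        first
          | exact .inl (ext _ _ (e₁.trans e₂.symm))
          | exact .inr (.inl (ext _ _ (e₁.trans e₃.symm)))
          | exact .inr (.inr (ext _ _ (e₂.trans e₃.symm))))
    (fun ε _ h a => by rw [ext ε 1 ((h g').trans hd), MonoidHom.one_apply])
  exact ⟨k, μ g', hk, h g'⟩

theorem exists_conj_tor {s : Spin K} {n : ℕ} (hs : s ^ n = 1) (hn : (n : K) ≠ 0) :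
    ∃ (k : Spin K) (l : Fin 4 → Kˣ), l 0 * l 1 * l 2 * l 3 = 1 ∧
      phi (k * s * k⁻¹) = dgV (fun i => l 0 * l i.succ) ∧
      ∀ w i, (act (k * s * k⁻¹)).1 w i = wW l i * w i := by
  obtain ⟨k₀, μ, hk, e⟩ := exists_conj_dgV h2 (det_phi h2 s) (n := n) (by rw [← map_pow, hs, map_one]) hn
  obtain ⟨k, rfl⟩ := exists_lift h2 hk
  obtain ⟨c, hc⟩ := IsAlgClosed.exists_pow_nat_eq ((μ 0 * μ 1 * μ 2 : Kˣ) : K) two_pos
  have c0 : c ≠ 0 := fun e => (μ 0 * μ 1 * μ 2).ne_zero (by rw [← hc, e, zero_pow two_ne_zero])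
  have key : ∀ u : Kˣ, u * u = μ 0 * μ 1 * μ 2 → ∃ l : Fin 4 → Kˣ, l 0 * l 1 * l 2 * l 3 = 1 ∧
      (fun i : Fin 3 => l 0 * l i.succ) = μ := fun u hu => by
    refine ⟨![u, u⁻¹ * μ 0, u⁻¹ * μ 1, u⁻¹ * μ 2], ?_, ?_⟩
    · simp only [cons_val_zero, cons_val_one, cons_val]
      calc u * (u⁻¹ * μ 0) * (u⁻¹ * μ 1) * (u⁻¹ * μ 2) = (u * u⁻¹) * (u⁻¹ * u⁻¹) * (μ 0 * μ 1 * μ 2) := by ac_rfl
        _ = 1 := by rw [← hu]; group
    · ext1 i
      fin_cases i <;> simp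
  obtain ⟨l, h1, h3⟩ := key (Units.mk0 c c0) (Units.ext (by rw [← hc, pow_two]; rfl))
  obtain ⟨t, t1, t2⟩ := exists_tor h1
  have e' : phi (k * s * k⁻¹) = phi t := by rw [t1, h3, ← e, map_mul, map_mul, map_inv]
  rcases phi_eq_iff.1 e' with e'' | e''
  · exact ⟨k, l, h1, e'.trans t1, e'' ▸ t2⟩
  · refine ⟨k, -l, by simpa using h1, by simpa using e'.trans t1, fun w i => ?_⟩
    rw [e'', map_mul, O.mul_apply, act_ng_apply, Pi.neg_apply, t2]
    fin_cases i <;> simp [wW]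

open Classical in
theorem tor_data {s : Spin K} {n : ℕ} (hs : s ^ n = 1) (hn : (n : K) ≠ 0) : ∃ a b c d : Kˣ, a * b * c * d = 1 ∧
    (a ^ n = 1 ∧ b ^ n = 1 ∧ c ^ n = 1 ∧ d ^ n = 1) ∧
    (dm (phi s) = 2 * ((if a * b = 1 then 0 else 1) + (if a * c = 1 then 0 else 1) + if a * d = 1 then 0 else 1)) ∧
    (fx (act s) = 2 * ((if a = 1 then 1 else 0) + (if b = 1 then 1 else 0) + (if c = 1 then 1 else 0) +
      if d = 1 then 1 else 0)) ∧ IsConj (phi s) (dgV ![a * b, a * c, a * d]) ∧ (s * s = 1 → a * a = 1) ∧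
    (s * s = ng K → a * a = -1) := by
  obtain ⟨k, l, h1, h3, h4⟩ := exists_conj_tor h2 hs hn
  have p := tor_one (tor_pow h4 n) (by rw [← map_pow, conj_pow, hs, mul_one, mul_inv_cancel, map_one])
  have sq : ∀ w i, (act (k * (s * s) * k⁻¹)).1 w i = wW l i * (wW l i * w i) := fun w i => by
    rw [← conj_mul, map_mul, O.mul_apply, h4, h4]
  refine ⟨l 0, l 1, l 2, l 3, h1, ⟨p 0, p 1, p 2, p 3⟩, ?_, ?_, isConj_iff.2 ⟨phi k, ?_⟩, fun e => ?_, fun e => ?_⟩
  · rw [← dm_conj _ (phi k), ← map_inv, ← map_mul, ← map_mul, h3, dm_dgV, Finset.card_filter, Fin.sum_univ_three]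
    simp only [ite_not]
    rfl
  · rw [← fx_conj _ (act k), ← map_inv, ← map_mul, ← map_mul, tor_fx h4, Fin.sum_univ_eight]
    simp only [wW, cons_val_zero, cons_val_one, cons_val, inv_eq_one]
    by_cases a : l 0 = 1 <;> by_cases b : l 1 = 1 <;> by_cases c : l 2 = 1 <;> by_cases d : l 3 = 1 <;>
      simp only [a, b, c, d, if_true, if_false]
  · rw [← map_inv, ← map_mul, ← map_mul, h3]
    congr 1
    ext1 i
    fin_cases i <;> rfl
  · have := sq (fun _ => 1) 0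
    rw [e, mul_one, mul_inv_cancel, map_one, O.one_apply, mul_one] at this
    exact Units.ext this.symm
  · have := sq (fun _ => 1) 0
    rw [e, ng_comm, mul_inv_cancel_right, act_ng_apply, mul_one] at this
    exact Units.ext this.symm

omit [IsAlgClosed K] in
theorem tor_neg_ne : (-1 : Kˣ) ≠ 1 := fun e => h2 (by
  have := congrArg Units.val e
  rw [Units.val_neg, Units.val_one] at this
  linear_combination -this)

theorem tor_inv {s : Spin K} (ht : phi s * phi s = 1) : (dm (phi s) = 4 → s * s = 1 ∧ fx (act s) = 4) ∧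
    (dm (phi s) = 2 → s * s = ng K) := by
  have h1 : s * s = 1 ∨ s * s = ng K := phi_eq_one.1 (by rw [map_mul, ht])
  have h4 : s ^ 4 = 1 := by
    rw [show s ^ 4 = s * s * (s * s) by simp only [pow_succ, pow_zero, one_mul, mul_assoc]]
    rcases h1 with e | e <;> rw [e]
    exacts [mul_one _, ng_mul_self]
  obtain ⟨a, b, c, d, e, -, h5, h6, h7, h8, h9⟩ := tor_data h2 h4
    (by rw [show ((4 : ℕ) : K) = 2 * 2 by norm_num]; exact mul_ne_zero h2 h2)
  obtain ⟨k, hk⟩ := isConj_iff.1 h7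
  have h10 : (![a * b, a * c, a * d] * ![a * b, a * c, a * d] : Fin 3 → Kˣ) = 1 :=
    dgV_injective (by rw [map_mul, ← hk, conj_mul, ht, mul_one, mul_inv_cancel, map_one])
  have e0 : a * a = a * b * (a * c) * (a * d) := by rw [← mul_one (a * a), ← e]; ac_rfl
  have n := tor_neg_ne h2
  have hb : b = a⁻¹ * (a * b) := (inv_mul_cancel_left _ _).symm
  have hc : c = a⁻¹ * (a * c) := (inv_mul_cancel_left _ _).symm
  have hd : d = a⁻¹ * (a * d) := (inv_mul_cancel_left _ _).symm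
  rcases tor_pm (x := a * b) (congrFun h10 0) with e1 | e1 <;>
    rcases tor_pm (x := a * c) (congrFun h10 1) with e2 | e2 <;>
    rcases tor_pm (x := a * d) (congrFun h10 2) with e3 | e3 <;>
    rw [e1] at hb <;> rw [e2] at hc <;> rw [e3] at hd <;>
    simp only [e1, e2, e3, n, if_true, if_false, mul_one, mul_neg, neg_neg] at h5 e0 <;>
    refine ⟨fun h => ?_, fun h => ?_⟩ <;> (try omega) <;>
    first
      | exact h1.resolve_left fun e => n (e0.symm.trans (h8 e))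
      | (refine ⟨h1.resolve_right fun e => n ((h9 e).symm.trans e0), ?_⟩
         rw [h6, hb, hc, hd]
         rcases tor_pm e0 with rfl | rfl <;> simp [n])

theorem lift_four {s : Spin K} (ht : phi s * phi s = 1) (h4 : dm (phi s) = 4) :
    s * s = 1 ∧ fx (act s) = 4 := (tor_inv h2 ht).1 h4

theorem lift_two {s : Spin K} (ht : phi s * phi s = 1) (h : dm (phi s) = 2) : s * s = ng K := (tor_inv h2 ht).2 h

set_option linter.unusedSectionVars false in
theorem even_fx (s : Spin K) : Even (fx (act s)) := by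
  have h1 := dm_add_fx (act s)
  obtain ⟨m, hm⟩ := even_dm nd_N h2 (det_act h2 s)
  rw [finrank_W] at h1
  exact ⟨4 - m, by omega⟩

theorem tor_three {s : Spin K} (hs : s ^ 3 = 1) (h3 : (3 : K) ≠ 0) (h : dm (phi s) = 4) : fx (act s) = 4 := by
  obtain ⟨a, b, c, d, e, ⟨p1, p2, p3, p4⟩, h5, h6, -⟩ := tor_data h2 hs (by exact_mod_cast h3)
  rw [h] at h5
  rw [h6]
  by_cases e1 : a * b = 1 <;> by_cases e2 : a * c = 1 <;> by_cases e3 : a * d = 1 <;>
    simp only [e1, e2, e3, if_true, if_false] at h5 <;> try omega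
  · rcases tor_cube' p1 p3 (c := d) (d := b) (by rw [← e]; ac_rfl) e2 e3 e1 with ⟨k1, k2, k3, k4⟩ | ⟨k1, k2, k3, k4⟩ <;>
      simp [k1, k2, k3, k4]
  · rcases tor_cube' p1 p2 (c := d) (d := c) (by rw [← e]; ac_rfl) e1 e3 e2 with ⟨k1, k2, k3, k4⟩ | ⟨k1, k2, k3, k4⟩ <;>
      simp [k1, k2, k3, k4]
  · rcases tor_cube' p1 p2 e e1 e2 e3 with ⟨k1, k2, k3, k4⟩ | ⟨k1, k2, k3, k4⟩ <;> simp [k1, k2, k3, k4]

omit [IsAlgClosed K] h2 in
theorem tor_char {s : Spin K} {r : ℕ} (hr : r.Prime) (hs : s ^ r = 1) (h : (r : K) = 0) : 8 ≤ r * fx (act s) := by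
  have := Fact.mk hr
  have := (CharP.charP_iff_prime_eq_zero hr).2 h
  have := le_mul_fx r (g := act s) (n := 1) (by rw [pow_one, ← map_pow, hs, map_one])
  rwa [finrank_W, pow_one] at this

theorem fx_three {s : Spin K} (hs : s ^ 3 = 1) (h : (3 : K) = 0 ∨ dm (phi s) = 4) : 4 ≤ fx (act s) := by
  by_cases h3 : (3 : K) = 0
  · have := tor_char Nat.prime_three hs (by exact_mod_cast h3)
    obtain ⟨m, hm⟩ := even_fx h2 s
    omega
  · exact (tor_three h2 hs h3 (h.resolve_left h3)).ge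

theorem fx_three' {s : Spin K} (hs : s ^ 3 = 1) (h3 : (3 : K) ≠ 0) (h : dm (phi s) = 4) : fx (act s) = 4 :=
  tor_three h2 hs h3 h

theorem fx_nine {s : Spin K} {r m : ℕ} (hr : r.Prime) (h5 : 5 ≤ r) (hs : s ^ r = 1)
    (h : (r : K) = 0 ∨ (r ∣ m ^ 2 + m + 1 ∧ IsConj (phi s) (phi s ^ m))) : 2 ≤ fx (act s) := by
  classical
  by_cases h0 : (r : K) = 0
  · have := tor_char hr hs h0
    obtain ⟨m, hm⟩ := even_fx h2 s
    rcases Nat.eq_zero_or_pos m with rfl | h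
    · rw [hm] at this; omega
    · omega
  obtain ⟨hm, cj⟩ := h.resolve_left h0
  obtain ⟨a, b, c, d, e, ⟨p1, p2, p3, p4⟩, -, h6, h7, -⟩ := tor_data h2 hs h0
  suffices a = 1 ∨ b = 1 ∨ c = 1 ∨ d = 1 by
    rw [h6]
    rcases this with k | k | k | k <;> rw [if_pos k] <;> omega
  have c2 : Nat.Coprime 2 r := (Nat.coprime_primes Nat.prime_two hr).2 (by omega)
  have c3 : Nat.Coprime 3 r := (Nat.coprime_primes Nat.prime_three hr).2 (by omega)
  have k2 : ∀ u : Kˣ, u ^ r = 1 → u * u = 1 → u = 1 := fun u hu h =>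
    (pow_eq_one_iff_of_coprime c2).1 ⟨by rw [pow_two, h], hu⟩
  suffices a * b * (a * c) * (a * d) = 1 ∨ a * b * (a * c) * (a * d)⁻¹ = 1 ∨ a * b * (a * c)⁻¹ * (a * d) = 1 ∨
      a * b * (a * c)⁻¹ * (a * d)⁻¹ = 1 by
    obtain rfl : d = (a * b * c)⁻¹ := eq_inv_of_mul_eq_one_right e
    rcases this with k | k | k | k
    · exact .inl (k2 _ p1 (by rw [← k]; ext; push_cast; field_simp))
    · exact .inr (.inr (.inr (k2 _ p4 (by rw [← inv_eq_one, ← k]; ext; push_cast; field_simp))))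
    · exact .inr (.inr (.inl (k2 _ p3 (by rw [← inv_eq_one, ← k]; ext; push_cast; field_simp))))
    · exact .inr (.inl (k2 _ p2 (by rw [← k]; ext; push_cast; field_simp)))
  have q1 : (a * b) ^ r = 1 := by rw [mul_pow, p1, p2, mul_one]
  have q2 : (a * c) ^ r = 1 := by rw [mul_pow, p1, p3, mul_one]
  have q3 : (a * d) ^ r = 1 := by rw [mul_pow, p1, p4, mul_one]
  generalize a * b = x at *
  generalize a * c = y at *
  generalize a * d = z at *
  obtain ⟨k, hk⟩ := isConj_iff.1 ((h7.symm.trans cj).trans (h7.pow m))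
  have cl : ∀ u, (∃ i, wV ![x, y, z] i = u) → ∃ i, wV ![x, y, z] i = u ^ m := by
    rintro _ ⟨i, rfl⟩
    have h1 : (dgV ![x, y, z]).1 ((k⁻¹).1 (Pi.single i 1)) = (wV ![x, y, z] i ^ m : Kˣ) • (k⁻¹).1 (Pi.single i 1) := by
      rw [Units.smul_def, ← map_smul, eq_comm, O.inv_apply_eq, ← O.mul_apply, ← O.mul_apply, hk]
      ext j
      rw [tor_pow (dgV_apply _), Pi.smul_apply, Pi.single_apply]
      split_ifs with h
      · rw [h]; rfl
      · simp
    obtain ⟨j, hj⟩ := Function.ne_iff.1 (O.apply_ne_zero k⁻¹ (v := Pi.single i 1) (by simp))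
    have := congrFun h1 j
    rw [dgV_apply, Units.smul_def, Pi.smul_apply, smul_eq_mul] at this
    exact ⟨j, Units.ext (mul_right_cancel₀ hj this)⟩
  have en : ∀ u, (∃ i, wV ![x, y, z] i = u) → u = 1 ∨ u = x ∨ u = y ∨ u = z ∨ u = x⁻¹ ∨ u = y⁻¹ ∨ u = z⁻¹ := by
    rintro _ ⟨_ | i | i, rfl⟩
    · exact .inl rfl
    · fin_cases i <;> simp [wV]
    · fin_cases i <;> simp [wV]
  by_cases x1 : x = 1
  swap
  · exact tor_nine c3 hm q1 x1 en ⟨.inr (.inl 0), rfl⟩ cl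
  by_cases y1 : y = 1
  swap
  · rcases tor_nine (y := x) (z := z) c3 hm q2 y1 (fun u hu => by have := en u hu; tauto) ⟨.inr (.inl 1), rfl⟩ cl with
      k | k | k | k <;> subst x1 <;> simp only [inv_one, mul_one, one_mul] at k ⊢ <;> simp only [k, true_or, or_true]
  by_cases z1 : z = 1
  swap
  · rcases tor_nine (y := x) (z := y) c3 hm q3 z1 (fun u hu => by have := en u hu; tauto) ⟨.inr (.inl 2), rfl⟩ cl with
      k | k | k | k <;> subst x1 y1 <;> simp only [inv_one, mul_one, one_mul] at k ⊢ <;> simp only [k, true_or, or_true]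
  · simp [x1, y1, z1]

theorem tor_lift {s s' : Spin K} (h : Four (phi s) (phi s')) : s * s = 1 ∧ s' * s' = 1 ∧ s * s' = s' * s ∧
    finrank K ↥(O.fix (act s) ⊓ O.fix (act s')) = 2 ∧ finrank K ↥(O.fix (act s) ⊓ O.comm (act s')) = 2 := by
  obtain ⟨a1, a2⟩ := lift_four h2 h.ha h.da
  obtain ⟨b1, b2⟩ := lift_four h2 h.hb h.db
  obtain ⟨c1, c2⟩ := lift_four h2 (s := s * s') (by
    rw [map_mul, mul_assoc, ← mul_assoc (phi s'), ← h.comm.eq, mul_assoc, h.hb, mul_one, h.ha]) (by rw [map_mul, h.dab])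
  have c : s * s' = s' * s := by
    rw [eq_inv_of_mul_eq_one_right c1, _root_.mul_inv_rev, inv_eq_of_mul_eq_one_right a1, inv_eq_of_mul_eq_one_right b1]
  exact ⟨a1, b1, c, tor_four h2 (by rw [← map_mul, a1, map_one]) (by rw [← map_mul, b1, map_one]) (tor_act c) a2 b2
    ((congrArg fx (map_mul act s s')).symm.trans c2) finrank_W⟩

theorem four_lift {s s' : Spin K} (h : Four (phi s) (phi s')) :
    Commute s s' ∧ finrank K ↥(O.fix (act s) ⊓ O.fix (act s')) = 2 ∧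
      ND ((N K).restrict (O.fix (act s) ⊓ O.fix (act s'))) := by
  obtain ⟨a1, b1, c, d, -⟩ := tor_lift h2 h
  exact ⟨c, d, tor_nd nd_N h2 (by rw [← map_mul, a1, map_one]) (by rw [← map_mul, b1, map_one])
    (tor_act c)⟩

theorem rho_lift {s s' ρ : Spin K} (h : Four (phi s) (phi s')) (h3 : ρ ^ 3 = 1) (e : ρ * s * ρ⁻¹ = s')
    (e' : ρ * s' * ρ⁻¹ = s * s') : ∀ w ∈ O.fix (act s) ⊓ O.fix (act s'), (act ρ).1 w = w := by
  obtain ⟨a1, b1, c, d, d'⟩ := tor_lift h2 h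
  have ha : act s * act s = 1 := by rw [← map_mul, a1, map_one]
  have hb : act s' * act s' = 1 := by rw [← map_mul, b1, map_one]
  have hc : act s * act s' = act s' * act s := tor_act c
  have ea : act ρ * act s * (act ρ)⁻¹ = act s' := tor_map act e
  have eb : act ρ * act s' * (act ρ)⁻¹ = act s * act s' := (tor_map act e').trans (map_mul act s s')
  by_cases k : (3 : K) = 0
  · have := Fact.mk Nat.prime_three
    have := (CharP.charP_iff_prime_eq_zero Nat.prime_three).2 (show ((3 : ℕ) : K) = 0 by exact_mod_cast k)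
    exact unip_plane h2 3 (four_lift h2 h).2.2 d (n := 1) (by rw [pow_one, ← map_pow, h3, map_one]) (tor_stab ea eb)
  · have h4 := tor_three h2 h3 k (h.dm_rho ⟨by rw [← map_pow, h3, map_one],
      tor_map phi e, (tor_map phi e').trans (map_mul phi s s')⟩)
    have h5 := tor_rho h2 ha hb hc ea eb
    have h6 := Submodule.eq_of_le_of_finrank_le (inf_le_right : O.fix (act ρ) ⊓ (O.fix (act s) ⊓ O.fix (act s')) ≤ _)
      (by omega)
    exact fun w hw => O.mem_fix.1 (h6.ge hw).1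

end Cfsg.Lib.O7
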