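import Cfsg.Agent.Lib.O7.TriA
import Cfsg.Agent.Lib.O7.Hur

/-!
# Abstract configurations which exclude the groups of Lie type (`docs/O7.md`)
-/

set_option autoImplicit false

namespace Cfsg.Lib.O7

open QuadraticMap Module Matrix Cfsg.Lib.Orth Cfsg.Lib.Oct Cfsg.Lib.PSL2
open scoped MatrixGroups

variable {K E : Type*} [Field K] [Field E] {M : Subgroup (O (Q K))}

/-- The spin cover of `M` splits. -/
def Split (M : Subgroup (O (Q K))) : Prop := ∃ σ : M →* Spin K, ∀ x, phi (σ x) = x.1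

/-- `exists_split` for `emb e`. -/
theorem split_of [IsAlgClosed K] (h : Pre M) {X : Type*} [Group X] (e : M ≃* X) (hX : commutator X = ⊤) {n : ℕ}
    (hA : HasCyclicSchurMultiplier X n) (ho : Odd n) : Split M := by
  obtain ⟨Γ, _, _, π, hπ, ⟨e'⟩⟩ := hA.1
  haveI := h.fin
  haveI : Finite X := Finite.of_equiv _ e.toEquiv
  obtain ⟨σ, hσ⟩ := exists_split h.two hX hA (by rwa [Nat.card_congr Multiplicative.toAdd, Nat.card_zmod]) (emb e)
  exact ⟨σ.comp e.toMonoidHom, fun x => (hσ _).trans (by simp [emb])⟩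

/-- The commutators of `r` with the centraliser of `a` and `b` in `M`. -/
def Cm (M : Subgroup (O (Q K))) (a b r : O (Q K)) : Subgroup (O (Q K)) :=
  Subgroup.closure {y | ∃ x ∈ M, Commute x a ∧ Commute x b ∧ y = x * r * x⁻¹ * r⁻¹}

/-- An `SL₂` with centre `t`, and `r` of order three permuting `t`, `t' = r t r⁻¹`, `t t'`. -/
structure Tri (M : Subgroup (O (Q K))) (f : SL(2, E) →* O (Q K)) (r : O (Q K)) : Prop where
  mem : ∀ g, f g ∈ M
  rmem : r ∈ M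
  ne : f (-1) ≠ 1
  comm : Commute (f (-1)) (r * f (-1) * r⁻¹)
  rho : Rho (f (-1)) (r * f (-1) * r⁻¹) r

/-- The traces of `H` generate the field and `H` is not central. -/
structure Big (H : Set SL(2, E)) : Prop where
  gen : ∀ k : Subfield E, (∀ h ∈ H, h.1.trace ∈ k) → k = ⊤
  nc : ∃ h ∈ H, h ≠ 1 ∧ h ≠ -1

/-- `core3` transported to `W` -/
theorem tri_core {σ τ : E →+* K} {a b : SL(2, E) →* SL(2, K)} (ha : Tw σ a) (hb : Tw τ b) {G : SL(2, E) → O (N K)}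
    {Z : Submodule K (W K)} (hZ : finrank K Z = 2) (ι : Matrix (Fin 2) (Fin 2) K →ₗ[K] W K) (hι : Function.Injective ι)
    (le : Z ≤ LinearMap.range ι) (e : ∀ g X, (G g).1 (ι X) = ι ((a g).1 * X * ((b g)⁻¹).1)) {H : Set SL(2, E)}
    (hH : Big H) (hF : ∀ g ∈ H, ∀ w ∈ Z, (G g).1 w = w) : ∃ w ∈ Z, w ≠ 0 ∧ ∀ g, (G g).1 w = w := by
  have d : finrank K (Z.comap ι) = 2 := by
    rw [(Submodule.equivMapOfInjective ι hι _).finrank_eq, Submodule.map_comap_eq_self le, hZ]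
  obtain ⟨X, hX, h0, H⟩ := core3 ha hb d (fun g hg X hX => hι (by rw [← e, hF g hg _ hX])) hH.gen hH.nc
  exact ⟨ι X, hX, fun e0 => h0 (hι (by rw [e0, map_zero])), fun g => by rw [e, H]⟩

theorem tri_coreX (h2 : (2 : K) ≠ 0) {σ τ : E →+* K} {a b : SL(2, E) →* SL(2, K)} (ha : Tw σ a) (hb : Tw τ b)
    {c : SL(2, E) → SL(2, K)} {G : SL(2, E) → Spin K} {k s : Spin K} (hs : k * s * k⁻¹ = z0 K)
    (e : ∀ g, k * G g * k⁻¹ = psi3 (a g, b g, c g)) {Z : Submodule K (W K)} (hZ : finrank K Z = 2)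
    (le : Z ≤ O.fix (act s)) {H : Set SL(2, E)} (hH : Big H) (hF : ∀ g ∈ H, ∀ w ∈ Z, (act (G g)).1 w = w) :
    ∃ w ∈ Z, w ≠ 0 ∧ ∀ g, (act (G g)).1 w = w := by
  refine tri_core ha hb hZ (((act k⁻¹).1 : W K →ₗ[K] W K) ∘ₗ tri_iX)
    (fun X X' e => (cd_inj.1 ((act k⁻¹).1.injective e)).1) (fun w hw => ⟨cX ((act k).1 w), ?_⟩) (fun g X => ?_) hH hF
  · have m : (act k).1 w ∈ O.fix (act (z0 K)) := by
      rw [O.mem_fix, ← hs, map_mul, map_mul, map_inv, tri_conj, O.mem_fix.1 (le hw)]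
    change (act k⁻¹).1 (cd _ 0) = w
    rw [← (mem_fix_z0 h2).1 m, cd_eta, map_inv, O.inv_apply_apply]
  · change (act (G g)).1 ((act k⁻¹).1 (cd X 0)) = (act k⁻¹).1 (cd _ 0)
    rw [show G g = k⁻¹ * psi3 (a g, b g, c g) * k by rw [← e]; group, tri_act, act_psi3, mul_zero, zero_mul]

theorem tri_coreY (h2 : (2 : K) ≠ 0) {σ τ : E →+* K} {a c : SL(2, E) →* SL(2, K)} (ha : Tw τ a) (hc : Tw σ c)
    {b : SL(2, E) → SL(2, K)} {G : SL(2, E) → Spin K} {k s : Spin K} (hs : k * s * k⁻¹ = ng K * z0 K)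
    (e : ∀ g, k * G g * k⁻¹ = psi3 (a g, b g, c g)) {Z : Submodule K (W K)} (hZ : finrank K Z = 2)
    (le : Z ≤ O.fix (act s)) {H : Set SL(2, E)} (hH : Big H) (hF : ∀ g ∈ H, ∀ w ∈ Z, (act (G g)).1 w = w) :
    ∃ w ∈ Z, w ≠ 0 ∧ ∀ g, (act (G g)).1 w = w := by
  refine tri_core hc ha hZ (((act k⁻¹).1 : W K →ₗ[K] W K) ∘ₗ tri_iY)
    (fun X X' e => (cd_inj.1 ((act k⁻¹).1.injective e)).2) (fun w hw => ⟨cY ((act k).1 w), ?_⟩) (fun g X => ?_) hH hF
  · have m : (act k).1 w ∈ O.fix (act (ng K * z0 K)) := by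
      rw [O.mem_fix, ← hs, map_mul, map_mul, map_inv, tri_conj, O.mem_fix.1 (le hw)]
    change (act k⁻¹).1 (cd 0 _) = w
    rw [← (mem_fix_ng_z0 h2).1 m, cd_eta, map_inv, O.inv_apply_apply]
  · change (act (G g)).1 ((act k⁻¹).1 (cd 0 X)) = (act k⁻¹).1 (cd 0 _)
    rw [show G g = k⁻¹ * psi3 (a g, b g, c g) * k by rw [← e]; group, tri_act, act_psi3, mul_zero, zero_mul]

/-- The diagonal matrices (`gen_tr'`). -/
theorem big_dS [Finite E] (h2 : (2 : E) ≠ 0) (h3 : 3 < Nat.card E) : Big (Set.range (dS (K := E))) := by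
  have inj : Function.Injective (tri_dH (E := E)) := fun a b e => Units.ext (congrArg (fun s : SL(2, E) => s.1 0 0) e)
  refine ⟨fun k hk => gen_tr' h2 (H := (tri_dH (E := E)).range) ?_ ?_ ?_ k hk, ?_⟩
  · rintro _ ⟨a, rfl⟩ _ ⟨b, rfl⟩
    rw [← map_mul, ← map_mul, mul_comm]
  · rintro _ ⟨a, rfl⟩ e
    change (dS a).1.trace ^ 2 = 4 at e
    rw [tri_tr] at e
    have i := mul_inv_cancel₀ a.ne_zero
    have e1 : (a.1 - a.1⁻¹) ^ 2 = 0 := by linear_combination e - 4 * i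
    have e2 : a.1⁻¹ = a.1 := (sub_eq_zero.1 (pow_eq_zero_iff two_ne_zero |>.1 e1)).symm
    rw [e2] at i
    change dS a = 1 ∨ dS a = -1
    rcases mul_self_eq_one_iff.1 i with e3 | e3
    · left; apply sl_ext <;> simp [e3]
    · right; apply sl_ext <;> simp [e3]
  · rw [← Nat.card_congr (MonoidHom.ofInjective inj).toEquiv, Nat.card_units]
  · obtain ⟨x, h0, hx⟩ := Linear.exists_ne_zero_sq_ne_one (F := E) h3
    refine ⟨_, ⟨Units.mk0 x h0, rfl⟩, fun e => hx ?_, fun e => hx ?_⟩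
    · have e1 : x = 1 := by simpa using congrArg (fun s : SL(2, E) => s.1 0 0) e
      rw [e1, one_pow]
    · have e1 : x = -1 := by simpa using congrArg (fun s : SL(2, E) => s.1 0 0) e
      rw [e1, neg_one_sq]

variable [IsAlgClosed K]

theorem tri_rho {σ : M →* Spin K} (hσ : ∀ x, phi (σ x) = x.1) {a b r : M} (h : Four a.1 b.1) (hr : Rho a.1 b.1 r.1) :
    finrank K ↥(O.fix (act (σ a)) ⊓ O.fix (act (σ b))) = 2 ∧
      ∀ w ∈ O.fix (act (σ a)) ⊓ O.fix (act (σ b)), (act (σ r)).1 w = w := by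
  have F : Four (phi (σ a)) (phi (σ b)) := by rwa [hσ, hσ]
  refine ⟨(four_lift h.two F).2.1, rho_lift h.two F ?_ ?_ ?_⟩
  · rw [← map_pow, show r ^ 3 = 1 from Subtype.ext hr.cube, map_one]
  · rw [← map_inv, ← map_mul, ← map_mul, show r * a * r⁻¹ = b from Subtype.ext hr.ea]
  · rw [← map_inv, ← map_mul, ← map_mul, ← map_mul, show r * b * r⁻¹ = a * b from Subtype.ext hr.eb]

/-- The plane `Z` fixed by `σ a`, `σ b` is fixed pointwise by `σ r` (`rho_lift`) and by the lifts of `Cm`. -/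
theorem fix_Cm {σ : M →* Spin K} (hσ : ∀ x, phi (σ x) = x.1) {a b r y : M} (h : Four a.1 b.1) (hr : Rho a.1 b.1 r.1)
    (hy : y.1 ∈ Cm M a.1 b.1 r.1) : ∀ w ∈ O.fix (act (σ a)) ⊓ O.fix (act (σ b)), (act (σ y)).1 w = w := by
  intro w hw
  refine tri_mem.1 ((Subgroup.closure_le (tri_St σ w)).2 ?_ hy)
  rintro _ ⟨x, hx, ca, cb, rfl⟩
  have R := (tri_rho hσ h hr).2
  refine (tri_mem (x := ⟨x, hx⟩ * r * ⟨x, hx⟩⁻¹ * r⁻¹)).2 ?_
  have c : ∀ a : M, Commute x a.1 → Commute (act (σ ⟨x, hx⟩⁻¹)) (act (σ a)) := fun a c =>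
    ((Commute.inv_left (Subtype.ext c.eq : Commute ⟨x, hx⟩ a)).map σ).map act
  have e : (act (σ r⁻¹)).1 w = w := by rw [map_inv, map_inv, O.inv_apply_eq, R w hw]
  rw [map_mul, map_mul, map_mul, map_mul, map_mul, map_mul, O.mul_apply, e, O.mul_apply, O.mul_apply,
    R _ ⟨tri_cm (c a ca) hw.1, tri_cm (c b cb) hw.2⟩, map_inv, map_inv, O.apply_inv_apply]

section Def

variable [Finite E] (p : ℕ) [Fact p.Prime] [CharP K p] [CharP E p] (h3 : 3 < Nat.card E)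
  {f f' : SL(2, E) →* O (Q K)} {r : O (Q K)} {H : Set SL(2, E)}

omit [IsAlgClosed K] in
include h3 in
/-- `SL₂(E)` is perfect: `Pre.dm_of_meta`, `Rho.four`.  (Any characteristic of `K`.) -/
theorem Tri.four (T : Tri M f r) (h : Pre M) : Four (f (-1)) (r * f (-1) * r⁻¹) := by
  refine T.rho.four h.two (tri_sq f) T.comm (h.dm_of_meta (T.mem _) (tri_sq f) T.ne (C := f.range) ?_ ?_)
  · rintro _ ⟨g, rfl⟩
    exact tri_cen f g
  · rw [tri_range h3, tri_range h3]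
    exact ⟨_, rfl⟩

include p h3

/-- `L₃^ε(q)`, `3 ∤ q - ε`.  `exists_ac`.  If `a = 1` then `V₀` is fixed by `f` (`fix_iff`) and `r` (`Four.rho_fix`).  Otherwise
`k σ (f g) k⁻¹ = psi3 (a g, 1, c g)` (`lift_unique`); `σ t` becomes `psi3 (-1, 1, -1) = ng * z0` with fixed space `{cd 0 Y}`
(`mem_fix_ng_z0`), on which `g` acts by `Y ↦ c g Y (a g)⁻¹`.  `four_lift`, `fix_Cm`, `core3` give `w ≠ 0` in `Z` fixed by all `σ (f g)`,
and by `σ r` (`rho_lift`): `Rep.not_fixW`. -/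
theorem Rep.tri (h : Rep M) (T : Tri M f r) (gen : M ≤ Subgroup.closure (Set.range f ∪ {r})) (hs : Split M)
    (hH : Big H) (c : ∀ g ∈ H, f g ∈ Cm M (f (-1)) (r * f (-1) * r⁻¹) r) : False := by
  have F := T.four h3 h.toPre
  obtain ⟨k, a, c', σ, ha, hc, e⟩ := exists_ac p h.two h3 F.da
  rcases ha with rfl | ⟨τ, ha⟩
  · refine tri_notV h F gen ?_
    rintro _ (⟨g, rfl⟩ | rfl) v hv
    · exact (tri_fixV h.two (by rw [e, hc.neg]; rfl) (e g)).2 (.inl rfl) v hv.1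
    · exact F.rho_fix T.rho v hv
  obtain ⟨s, hs⟩ := hs
  have e' := tri_lift h3 hs T.mem (b := 1) e
  have m' := mul_mem (mul_mem T.rmem (T.mem (-1))) (inv_mem T.rmem)
  obtain ⟨d, R⟩ := tri_rho hs (a := ⟨_, T.mem (-1)⟩) (b := ⟨_, m'⟩) (r := ⟨r, T.rmem⟩) F T.rho
  obtain ⟨w, hw, h0, H⟩ := tri_coreY h.two ha hc (s := s ⟨_, T.mem (-1)⟩) (by
    rw [e', ha.neg, hc.neg, ← psi3_ng, z0, ← map_mul]; simp) e' d inf_le_left hH fun g hg =>
      fix_Cm hs (r := ⟨r, T.rmem⟩) F T.rho (c g hg)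
  refine tri_notW h hs h0 gen ?_
  rintro _ (⟨g, rfl⟩ | rfl)
  · exact (tri_mem (x := ⟨_, T.mem g⟩)).2 (H g)
  · exact (tri_mem (x := ⟨_, T.rmem⟩)).2 (R w hw)

/-- `L₃^ε(q)`, `3 ∣ q - ε`.  `chi_sl2`: in the first case `V₀` is fixed by `M`; in the second `chi (f d) = -2`, `chi r = 1`. -/
theorem Rep.tri3 (h : Rep M) (T : Tri M f r) (gen : M ≤ Subgroup.closure (Set.range f ∪ {r})) (n3 : (3 : K) ≠ 0)
    {d : SL(2, E)} (hd : d.1.trace = -1) (e : IsConj (f d) r) : False := by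
  have F := T.four h3 h.toPre
  obtain ⟨σ, ⟨H, -⟩ | ⟨τ, H⟩⟩ := chi_sl2 p h.two h3 F.da
  · refine tri_notV h F gen ?_
    rintro _ (⟨g, rfl⟩ | rfl) v hv
    · exact H hv.1 _ ⟨g, rfl⟩
    · exact F.rho_fix T.rho v hv
  · have e1 := chi_of_isConj e
    rw [H, F.chi_rho T.rho, hd, map_neg, map_neg, map_one, map_one] at e1
    exact n3 (by linear_combination -e1)

theorem tri_two (h : Rep M) (T : Tri M f r) (T' : Tri M f' r) (e : f (-1) = f' (-1))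
    (gen : M ≤ Subgroup.closure (Set.range f ∪ Set.range f' ∪ {r})) (hs : Split M) (hH : Big H)
    (c1 : ∀ g ∈ H, f' g ∈ Subgroup.closure (Set.range f ∪ {r})) (l : O.fix (f (-1)) ≤ Fix f.range) : False := by
  have F := T.four h3 h.toPre
  have n1 := sl_neg_one_ne_one h.two
  obtain ⟨s, hs⟩ := hs
  obtain ⟨k, hk⟩ := exists_conj_z0 h.two (s := s ⟨_, T.mem (-1)⟩) (by rw [hs]; exact F.ha) (by rw [hs]; exact F.da)
  have ht : phi k * f (-1) * (phi k)⁻¹ = t0 K := by rw [t0, ← hk, map_mul, map_mul, map_inv, hs]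
  obtain ⟨a, b, c, ha, hb, -, e1⟩ := exists_abc p h.two h3 (f := (MulAut.conj (phi k)).toMonoidHom.comp f) fun g => by
    rw [← ht]; exact tri_cen ((MulAut.conj (phi k)).toMonoidHom.comp f) g
  obtain ⟨a', b', c', ha', hb', -, e2⟩ := exists_abc p h.two h3 (f := (MulAut.conj (phi k)).toMonoidHom.comp f')
    fun g => by rw [← ht, e]; exact tri_cen ((MulAut.conj (phi k)).toMonoidHom.comp f') g
  rcases ha' with rfl | ⟨σ, ha'⟩
  · refine tri_notV h F gen ?_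
    rintro _ ((⟨g, rfl⟩ | ⟨g, rfl⟩) | rfl) v hv
    · exact l hv.1 _ ⟨g, rfl⟩
    · exact (tri_fixV h.two ht (e2 g)).2 (.inl rfl) v hv.1
    · exact F.rho_fix T.rho v hv
  have l1 := tri_lift h3 hs T.mem e1
  have l2 := tri_lift h3 hs T'.mem e2
  obtain rfl : a = 1 := ha.resolve_right fun ⟨τ, ha⟩ => by
    obtain ⟨g, -, g1, g2⟩ := hH.nc
    rcases (tri_fixV h.two ht (e1 g)).1 fun v hv => l hv _ ⟨g, rfl⟩ with e3 | e3
    · exact g1 (ha.injective (e3.trans a.map_one.symm))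
    · exact g2 (ha.injective (e3.trans ha.neg.symm))
  obtain rfl : b = 1 := hb.resolve_right fun ⟨τ, hb⟩ => by
    rcases tri_psi ((l1 (-1)).symm.trans hk) with e3 | e3
    · exact n1 (hb.neg.symm.trans (congrArg (·.2.1) e3))
    · exact n1 ((congrArg (·.1) e3).trans (mul_one _)).symm
  have hk' : k * s ⟨_, T'.mem (-1)⟩ * k⁻¹ = z0 K := by rw [← hk]; congr 3; exact Subtype.ext e.symm
  obtain ⟨τ, hb'⟩ := hb'.resolve_left fun e0 => by
    rcases tri_psi ((l2 (-1)).symm.trans hk') with e3 | e3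
    · exact n1 (ha'.neg.symm.trans (congrArg (·.1) e3))
    · rw [e0] at e3
      exact n1 ((congrArg (·.2.1) e3).trans (mul_one _)).symm
  have m' := mul_mem (mul_mem T.rmem (T.mem (-1))) (inv_mem T.rmem)
  obtain ⟨d, R⟩ := tri_rho hs (a := ⟨_, T.mem (-1)⟩) (b := ⟨_, m'⟩) (r := ⟨r, T.rmem⟩) F T.rho
  have fx : ∀ w ∈ O.fix (act (s ⟨_, T.mem (-1)⟩)) ⊓ O.fix (act (s ⟨_, m'⟩)), Set.range f ∪ {r} ⊆ tri_St s w := by
    rintro w hw _ (⟨g, rfl⟩ | rfl)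
    · exact (tri_mem (x := ⟨_, T.mem g⟩)).2 (tri_z0 h.two hk (l1 g) hw.1)
    · exact (tri_mem (x := ⟨_, T.rmem⟩)).2 (R w hw)
  obtain ⟨w, hw, h0, H⟩ := tri_coreX h.two ha' hb' hk l2 d inf_le_left hH fun g hg w hw =>
    (tri_mem (x := ⟨_, T'.mem g⟩)).1 ((Subgroup.closure_le _).2 (fx w hw) (c1 g hg))
  refine tri_notW h hs h0 gen ?_
  rintro _ ((m | ⟨g, rfl⟩) | m)
  · exact fx w hw (.inl m)
  · exact (tri_mem (x := ⟨_, T'.mem g⟩)).2 (H g)
  · exact fx w hw (.inr m)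

/-- `G₂(q)`.  By `pair_fix` and symmetry `f` is trivial on `V₊(t)`; if `f'` is too, `V₀` is fixed by `M`.  Conjugate `σ t` to `z0`
(`exists_conj_z0`); `exists_abc` for `f` and `f'` (and `lift_unique`): `a = 1`, `a'` is a twist; `psi3 (1, b (-1), c (-1)) = z0` gives `b = 1`,
`c` a twist; `psi3 (-1, b' (-1), c' (-1)) = z0` gives `b'` a twist, `c' = 1`.  So `σ (f g)` fixes `fix z0 = {cd X 0} ⊇ Z`, `σ r` fixes `Z`, hence so does
`σ (f' g)`, `g ∈ H`, acting by `X ↦ a' g X (b' g)⁻¹`: `core3`, `Rep.not_fixW`. -/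
theorem Rep.tri2 (h : Rep M) (T : Tri M f r) (T' : Tri M f' r) (e : f (-1) = f' (-1)) (c : ∀ g g', Commute (f g) (f' g'))
    (gen : M ≤ Subgroup.closure (Set.range f ∪ Set.range f' ∪ {r})) (hs : Split M) (hH : Big H)
    (c1 : ∀ g ∈ H, f' g ∈ Subgroup.closure (Set.range f ∪ {r}))
    (c2 : ∀ g ∈ H, f g ∈ Subgroup.closure (Set.range f' ∪ {r})) : False := by
  have F := T.four h3 h.toPre
  rcases pair_fix h.two F.ha F.da (tri_range h3 f) (tri_range h3 f') (by rintro _ ⟨g, rfl⟩; exact tri_cen f g)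
    (by rintro _ ⟨g, rfl⟩; rw [e]; exact tri_cen f' g) (by rintro _ ⟨g, rfl⟩ _ ⟨g', rfl⟩; exact c g g') with l | l
  · exact tri_two p h3 h T T' e gen hs hH c1 l
  · exact tri_two p h3 h T' T e.symm (by rwa [Set.union_comm (Set.range f')]) hs hH c2 (e ▸ l)

/-- Ree groups: `f` induces `L₂(q) ≤ C(t)`.  Conjugate `σ t` to `z0`; `exists_abc`; the involution `f wS ≠ t` has type four, so
all three factors are twists (`F3.ne_one_of_four`, or directly).  `σ (f g) = psi3 (a g, b g, c g)` acts on `fix z0 ⊇ Z` by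
`X ↦ a g X (b g)⁻¹`; `fix_Cm`, `core3`, `rho_lift`, `Rep.not_fixW`. -/
theorem Rep.ree (h : Rep M) {t s : O (Q K)} (ht : t ∈ M) (hr : r ∈ M) (F : Four t s) (R : Rho t s r)
    (mem : ∀ g, f g ∈ M) (c : ∀ g, Commute (f g) t) (e : f (-1) = 1) (h4 : dm (f (wS E)) = 4) (ne : f (wS E) ≠ t)
    (gen : M ≤ Subgroup.closure (Set.range f ∪ {r})) (hs : Split M) (hH : Big H)
    (c1 : ∀ g ∈ H, f g ∈ Cm M t s r) : False := by
  obtain ⟨σ, hσ⟩ := hs
  obtain ⟨k, hk⟩ := exists_conj_z0 h.two (s := σ ⟨t, ht⟩) (by rw [hσ]; exact F.ha) (by rw [hσ]; exact F.da)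
  have ht0 : phi k * t * (phi k)⁻¹ = t0 K := by rw [t0, ← hk, map_mul, map_mul, map_inv, hσ]
  obtain ⟨a, b, c', ha, hb, -, e1⟩ := exists_abc p h.two h3 (f := (MulAut.conj (phi k)).toMonoidHom.comp f) fun g => by
    rw [← ht0]; exact (c g).map (MulAut.conj (phi k))
  obtain ⟨fA, fB, fC, F3⟩ := exists_F3 h.two
  let x : Cz K := ⟨phi k * f (wS E) * (phi k)⁻¹, _, (e1 _).symm⟩
  obtain ⟨nA, nB, -⟩ := F3.ne_one_of_four h.two (x := x) (Subtype.ext (by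
    change phi k * f (wS E) * (phi k)⁻¹ * (phi k * f (wS E) * (phi k)⁻¹) = 1
    rw [conj_mul, ← map_mul, wS_sq, e, mul_one, mul_inv_cancel])) ((dm_conj _ _).trans h4)
    fun e2 => ne (by rw [← ht0] at e2; exact mul_left_cancel (mul_right_cancel e2))
  obtain ⟨eA, eB, -⟩ := F3 _ x (e1 _)
  obtain ⟨σ₁, ha⟩ := ha.resolve_left fun e0 => nA (by rw [eA, e0]; rfl)
  obtain ⟨σ₂, hb⟩ := hb.resolve_left fun e0 => nB (by rw [eB, e0]; rfl)
  have m' : s ∈ M := R.ea ▸ mul_mem (mul_mem hr ht) (inv_mem hr)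
  obtain ⟨d, R'⟩ := tri_rho hσ (a := ⟨t, ht⟩) (b := ⟨s, m'⟩) (r := ⟨r, hr⟩) F R
  obtain ⟨w, hw, h0, H⟩ := tri_coreX h.two ha hb hk (tri_lift h3 hσ mem e1) d inf_le_left hH fun g hg =>
    fix_Cm hσ (r := ⟨r, hr⟩) F R (c1 g hg)
  refine tri_notW h hσ h0 gen ?_
  rintro _ (⟨g, rfl⟩ | rfl)
  · exact (tri_mem (x := ⟨_, mem g⟩)).2 (H g)
  · exact (tri_mem (x := ⟨_, hr⟩)).2 (R' w hw)

/-- `³D₄(q)`.  `x = f (dS l)` centralises the four-group; `Four.sum_chi'`, `Four.odd_fix`, and `chi (x t') = chi (x t t') = chi (x t)`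
(conjugate by `r`), `x t = f (-dS l)`.  `chi_sl2` with `T = l + l⁻¹`: `12 - 4 σ T = 4` forces `l = 1`; otherwise
`σ T = τ (T² - 2)`, so `σ l = τ l ^ (± 2)`.  Two embeddings `E → K` differ by a power of the Frobenius map. -/
theorem Pre.d4 (h : Pre M) (T : Tri M f r) {l : Eˣ} {n : ℕ} (hn : Odd n) (hl : l ^ n = 1) (h1 : l ≠ 1)
    (c : Commute (f (dS l)) r) : ∃ k, p ^ k < Nat.card E ∧ (l ^ p ^ k = l ^ 2 ∨ l ^ p ^ k * l ^ 2 = 1) := by
  have F := T.four h3 h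
  have h4 : (4 : K) ≠ 0 := by rw [show (4 : K) = 2 * 2 by norm_num]; exact mul_ne_zero h.two h.two
  have c1 := tri_cen f (dS l)
  have c2 : Commute (f (dS l)) (r * f (-1) * r⁻¹) := (c.mul_right c1).mul_right c.inv_right
  have xn : f (dS l) ^ n = 1 := by
    rw [← map_pow, show dS l ^ n = 1 from (map_pow tri_dH l n).symm.trans (by rw [hl, map_one]), map_one]
  have S := F.sum_chi' (F.odd_fix hn xn c1 c2)
  have k : ∀ y, chi (f (dS l) * (r * y * r⁻¹)) = chi (f (dS l) * y) := fun y => by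
    rw [← chi_conj (f (dS l) * y) r, ← mul_assoc, ← mul_assoc, ← mul_assoc, c.eq]
  rw [← T.rho.eb, k (r * f (-1) * r⁻¹), k, ← map_mul] at S
  have t1 : (dS l * -1).1.trace = -(l.1 + l.1⁻¹) := by rw [mul_neg, mul_one, ← tri_tr]; exact trace_neg _
  have i := mul_inv_cancel₀ l.ne_zero
  obtain ⟨σ, ⟨-, H⟩ | ⟨τ, H⟩⟩ := chi_sl2 p h.two h3 F.da <;> rw [H, H, t1, tri_tr] at S
  · have e : σ (l.1 + l.1⁻¹) = σ 2 := by
      rw [map_neg] at S
      rw [map_ofNat]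
      exact mul_left_cancel₀ h4 (by linear_combination -S)
    have e1 : (l.1 - 1) ^ 2 = 0 := by linear_combination l.1 * σ.injective e - i
    exact (h1 (Units.ext (sub_eq_zero.1 (pow_eq_zero_iff two_ne_zero |>.1 e1)))).elim
  · obtain ⟨m, hm, e⟩ := tri_frob p σ τ
    rw [map_neg, map_neg] at S
    have e1 : τ ((l.1 + l.1⁻¹) ^ p ^ m) = τ ((l.1 + l.1⁻¹) ^ 2 - 2) := by
      rw [← e, map_sub, map_pow, map_ofNat]
      exact mul_left_cancel₀ h4 (by linear_combination -S)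
    have e2 := τ.injective e1
    rw [add_pow_char_pow, inv_pow] at e2
    have i2 := mul_inv_cancel₀ (pow_ne_zero (p ^ m) l.ne_zero)
    have e3 : (l.1 ^ p ^ m - l.1 ^ 2) * (l.1 ^ p ^ m * l.1 ^ 2 - 1) = 0 := by
      linear_combination l.1 ^ p ^ m * l.1 ^ 2 * e2 - l.1 ^ 2 * i2 +
        l.1 ^ p ^ m * (l.1 * l.1⁻¹ + 1 + 2 * l.1 ^ 2) * i
    refine ⟨m, hm, (mul_eq_zero.1 e3).imp (fun e4 => Units.ext ?_) fun e4 => Units.ext ?_⟩
    · simpa using sub_eq_zero.1 e4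
    · simpa using sub_eq_zero.1 e4

end Def

/-- `PSp₄(q)`, `L₄^ε(q)`, `q > 3`, any characteristic: two commuting perfect groups with `t ∈ L₁`, interchanged by `n ∈ C(t)`,
are both trivial on `V₊(t)` (`Pre.dm_of_meta`, `pair_fix`). -/
theorem Pre.swap_fix (h : Pre M) {t n : O (Q K)} (ht : t ∈ M) (h2 : t * t = 1) (h1 : t ≠ 1)
    {L₁ L₂ : Subgroup (O (Q K))} (h₁ : ⁅L₁, L₁⁆ = L₁) (m : t ∈ L₁) (c₁ : ∀ x ∈ L₁, Commute x t) (cn : Commute n t)
    (e : L₂ = L₁.map (MulAut.conj n).toMonoidHom) (e' : L₁ = L₂.map (MulAut.conj n).toMonoidHom)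
    (c : ∀ x ∈ L₁, ∀ y ∈ L₂, Commute x y) : dm t = 4 ∧ O.fix t ≤ Fix L₁ ∧ O.fix t ≤ Fix L₂ := by
  have d := h.dm_of_meta ht h2 h1 c₁ (by rwa [h₁, h₁])
  have key : ∀ L : Subgroup (O (Q K)), O.fix t ≤ Fix L → O.fix t ≤ Fix (L.map (MulAut.conj n).toMonoidHom) := by
    rintro L l v hv _ ⟨x, hx, rfl⟩
    change (n * x * n⁻¹).1 v = v
    rw [O.mul_apply, O.mul_apply, l (tri_cm cn.inv_left hv) x hx, O.apply_inv_apply]
  refine ⟨d, ?_⟩
  rcases pair_fix h.two h2 d h₁ (L₂ := L₂) (by rw [e, ← Subgroup.map_commutator, h₁]) c₁ (by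
    rw [e]
    rintro _ ⟨x, hx, rfl⟩
    exact (cn.mul_left (c₁ x hx)).mul_left cn.inv_left) c with l | l
  · exact ⟨l, e ▸ key _ l⟩
  · exact ⟨e' ▸ key _ l, l⟩

/-- `U₃(3)`, any characteristic: `⟨a, y⟩ = SL₂(3)` with centre `t`, `z` centralises it.  `dm t = 4` (`Pre.dm_of_q8`), `t = t0`; `y`, `a`
(`= y`-commutators: `a⁻¹ (y a y⁻¹) = ± a b`..., or `mul_mem_Cz` for `a, b, a b`, which are conjugate under `y ∈ Cz`) lie in `Cz`, and so does `z` (`z a` is trivial on `V₀`, `-1` on the plane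
`V₊(t) ∩ V₀^⊥`; or: otherwise `z` interchanges `fB`, `fC` on `a`, against `F3.sq_t0`).  Say `fB a = 1 ≠ fC a`; then `fC z = 1` (`eq_one_of_a4`).
If `fA a = 1`: `V₀ = fix t ⊓ fix z` is fixed by `a`, `y`, `r`.  Otherwise `fA z = 1`, `σ z` is a scalar `η = ± 1` on `W₋ = fix (σ t)`, where
`⟨σ a, σ b⟩` acts as a four-group with traces zero (`fx`: `X ↦ C X A⁻¹`, `A² = C² = -1`), so fixes a non-singular line `K w`, fixed by `σ y` (`fix_of_line`).
`Z = W₋ ⊓ fix (σ z σ a)` is fixed by `σ r`.  `η = 1`: `w ∈ Z`, `Rep.not_fixW`.  `η = -1`: `σ a` and its conjugates under `σ r` are `-1` on `Z`, their product is `1`. -/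
theorem Rep.u33 (h : Rep M) (hs : Split M) {t a b y z r : O (Q K)} (gen : M = Subgroup.closure {a, y, r}) (hz : z ∈ M)
    (h1 : t ≠ 1) (h2 : t * t = 1) (ea : a * a = t) (eab : a * b * (a * b) = t) (ey : y ^ 3 = 1) (ya : y * a * y⁻¹ = b)
    (yb : y * b * y⁻¹ = a * b) (ez : z * z = t) (za : Commute z a) (zy : Commute z y) (R : Rho t (z * a) r)
    (e3 : a * (r * a * r⁻¹) * (r * (r * a * r⁻¹) * r⁻¹) = 1) : False := by
  obtain ⟨σ, hσ⟩ := hs
  have ha : a ∈ M := gen ▸ Subgroup.subset_closure (by simp)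
  have hy : y ∈ M := gen ▸ Subgroup.subset_closure (by simp)
  have hr : r ∈ M := gen ▸ Subgroup.subset_closure (by simp)
  have ht : t ∈ M := ez ▸ mul_mem hz hz
  have cy : Commute y t := ez ▸ zy.symm.mul_right zy.symm
  have d := h.dm_of_q8 ht h2 h1 ea (by rw [← ya, conj_mul, ea, cy.eq, mul_inv_cancel_right]) eab
  obtain ⟨k, hk⟩ := exists_conj_z0 h.two (s := σ ⟨t, ht⟩) (by rwa [hσ]) (by rwa [hσ])
  let τ : M →* Spin K := (MulAut.conj k).toMonoidHom.comp σ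
  have hτ : ∀ x, phi (τ x) = MulAut.conj (phi k) x.1 := fun x => by
    change phi (k * σ x * k⁻¹) = _
    rw [map_mul, map_mul, map_inv, hσ]; rfl
  replace hk : z0 K = τ ⟨t, ht⟩ := hk.symm
  subst ya
  refine tri_u33 (h.conj k) (A := τ ⟨a, ha⟩) (Y := τ ⟨y, hy⟩) (Z := τ ⟨z, hz⟩) (R := τ ⟨r, hr⟩) ?_ ?_ ?_ ?_ ?_
    (Commute.map (Subtype.ext za.eq) τ) (Commute.map (Subtype.ext zy.eq) τ) ?_ ?_ ?_ ?_
  · conv_lhs => rw [gen, MonoidHom.map_closure]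
    simp only [Set.image_insert_eq, Set.image_singleton, hτ]
    exact le_rfl
  all_goals simp only [hk, ← map_inv, ← map_mul, ← map_pow, ← map_one τ]
  exacts [congrArg τ (Subtype.ext ea), congrArg τ (Subtype.ext ey), congrArg τ (Subtype.ext yb),
    congrArg τ (Subtype.ext ez), congrArg τ (Subtype.ext R.cube), congrArg τ (Subtype.ext R.ea),
    congrArg τ (Subtype.ext R.eb), congrArg τ (Subtype.ext e3)]

end Cfsg.Lib.O7
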