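import Cfsg.Agent.Lib.O7.S2
import Cfsg.Agent.Lib.O7.Tor

/-!
# Helpers for `O7/Tri` (helper12)
-/

set_option autoImplicit false

namespace Cfsg.Lib.O7

open QuadraticMap Module Matrix Cfsg.Lib.Orth Cfsg.Lib.Oct Cfsg.Lib.PSL2
open scoped MatrixGroups

variable {K E : Type*} [Field K] [Field E] {M : Subgroup (O (Q K))}

/-- `dS` as a homomorphism -/
def tri_dH : Eˣ →* SL(2, E) := MonoidHom.mk' dS fun a b => (dS_mul a b).symm

theorem tri_tr (a : Eˣ) : (dS a).1.trace = a.1 + a.1⁻¹ := by simp [trace_fin_two]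

theorem tri_perf (h3 : 3 < Nat.card E) : commutator SL(2, E) = ⊤ :=
  Linear.commutator_SL_eq_top (.inr (Linear.exists_ne_zero_sq_ne_one h3))

theorem tri_range {X : Type*} [Group X] (h3 : 3 < Nat.card E) (f : SL(2, E) →* X) : ⁅f.range, f.range⁆ = f.range := by
  rw [f.range_eq_map, ← Subgroup.map_commutator, ← commutator_def, tri_perf h3]

theorem tri_cen {X : Type*} [Group X] (f : SL(2, E) →* X) (g : SL(2, E)) : Commute (f g) (f (-1)) :=
  (Commute.neg_one_right g).map f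

theorem tri_sq {X : Type*} [Group X] (f : SL(2, E) →* X) : f (-1) * f (-1) = 1 := by
  rw [← map_mul, neg_one_mul, neg_neg, map_one]

theorem tri_frob [Finite E] (p : ℕ) [Fact p.Prime] [CharP E p] (σ τ : E →+* K) :
    ∃ k, p ^ k < Nat.card E ∧ ∀ x, σ x = τ (x ^ p ^ k) := by
  letI : Algebra (ZMod p) E := ZMod.algebra E p
  letI : Algebra E K := τ.toAlgebra
  letI : Algebra (ZMod p) K := (τ.comp (algebraMap (ZMod p) E)).toAlgebra
  haveI : IsScalarTower (ZMod p) E K := IsScalarTower.of_algebraMap_eq' rfl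
  let φ : E →ₐ[ZMod p] K :=
    { σ with commutes' := fun c => RingHom.congr_fun (RingHom.ext_zmod (σ.comp (algebraMap _ E)) (algebraMap _ K)) c }
  obtain ⟨n, hn⟩ := (FiniteField.bijective_frobeniusAlgHom_pow (ZMod p) E).2 (φ.restrictNormal E)
  refine ⟨n, ?_, fun x => ?_⟩
  · rw [Module.natCard_eq_pow_finrank (K := ZMod p), Nat.card_zmod]
    exact Nat.pow_lt_pow_right (Fact.out : p.Prime).one_lt n.2
  · have e := φ.restrictNormal_commutes E x
    rw [← hn] at e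
    simp only [AlgHom.coe_pow, FiniteField.coe_frobeniusAlgHom, pow_iterate, ZMod.card] at e
    exact e.symm

/-- `(k x k⁻¹) (k v) = k (x v)` -/
theorem tri_conj {U : Type*} [AddCommGroup U] [Module K U] {q : QuadraticForm K U} (k x : O q) (v : U) :
    (k * x * k⁻¹).1 (k.1 v) = k.1 (x.1 v) := by
  rw [O.mul_apply, O.inv_apply_apply, O.mul_apply]

theorem tri_cm {U : Type*} [AddCommGroup U] [Module K U] {q : QuadraticForm K U} {x a : O q} (c : Commute x a) {v : U}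
    (hv : v ∈ O.fix a) : x.1 v ∈ O.fix a := by
  rw [O.mem_fix] at hv ⊢
  rw [← O.mul_apply, ← c.eq, O.mul_apply, hv]

/-- the elements of `M` whose lifts fix `w` -/
def tri_St (σ : M →* Spin K) (w : W K) : Subgroup (O (Q K)) := ((stabV w).comap (act.comp σ)).map M.subtype

theorem tri_mem {σ : M →* Spin K} {w : W K} {x : M} : x.1 ∈ tri_St σ w ↔ (act (σ x)).1 w = w :=
  Subgroup.mem_map_iff_mem M.subtype_injective

theorem tri_notW (h : Rep M) {σ : M →* Spin K} (hσ : ∀ x, phi (σ x) = x.1) {w : W K} (h0 : w ≠ 0) {T : Set (O (Q K))}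
    (gen : M ≤ Subgroup.closure T) (hT : T ⊆ tri_St σ w) : False :=
  h.not_fixW h0 (T := {s | (act s).1 w = w}) (fun x hx => Subgroup.subset_closure
    ⟨σ ⟨x, hx⟩, tri_mem.1 ((Subgroup.closure_le _).2 hT (gen hx)), hσ _⟩) fun _ hs => hs

theorem tri_notV (h : Rep M) {a b : O (Q K)} (F : Four a b) {T : Set (O (Q K))} (gen : M ≤ Subgroup.closure T)
    (hT : ∀ x ∈ T, ∀ v ∈ O.fix a ⊓ O.fix b, x.1 v = v) : False := by
  obtain ⟨v, hv, e⟩ := F.exists_v0
  exact h.irrV.not_fix (by rw [finrank_V]; norm_num) (v := v) (fun e0 => hv (by rw [e0, map_zero]))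
    (gen.trans ((Subgroup.closure_le _).2 fun x hx => hT x hx v (e ▸ Submodule.mem_span_singleton_self v)))

/-- `X ↦ cd X 0` -/
def tri_iX : Matrix (Fin 2) (Fin 2) K →ₗ[K] W K where
  toFun X := cd X 0
  map_add' X X' := by rw [cd_add, add_zero]
  map_smul' c X := by rw [RingHom.id_apply, cd_smul, smul_zero]

/-- `Y ↦ cd 0 Y` -/
def tri_iY : Matrix (Fin 2) (Fin 2) K →ₗ[K] W K where
  toFun Y := cd 0 Y
  map_add' X X' := by rw [cd_add, add_zero]
  map_smul' c X := by rw [RingHom.id_apply, cd_smul, smul_zero]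

theorem tri_act (k s : Spin K) (w : W K) : (act (k⁻¹ * s * k)).1 ((act k⁻¹).1 w) = (act k⁻¹).1 ((act s).1 w) := by
  rw [map_mul, map_mul, O.mul_apply, O.mul_apply, map_inv, O.apply_inv_apply]

theorem tri_z0 (h2 : (2 : K) ≠ 0) {k s x : Spin K} {c : SL(2, K)} (hs : k * s * k⁻¹ = z0 K)
    (e : k * x * k⁻¹ = psi3 (1, 1, c)) {w : W K} (hw : w ∈ O.fix (act s)) : (act x).1 w = w := by
  have m : (act k).1 w ∈ O.fix (act (z0 K)) := by
    rw [O.mem_fix, ← hs, map_mul, map_mul, map_inv, tri_conj, O.mem_fix.1 hw]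
  refine (act k).1.injective ?_
  rw [← tri_conj, ← map_inv, ← map_mul, ← map_mul, e, ← cd_eta ((act k).1 w), (mem_fix_z0 h2).1 m, act_psi3]
  simp

/-- `lift_unique` for conjugated lifts -/
theorem tri_lift (h3 : 3 < Nat.card E) {σ : M →* Spin K} (hσ : ∀ x, phi (σ x) = x.1) {f : SL(2, E) →* O (Q K)}
    (mem : ∀ g, f g ∈ M) {k : Spin K} {a b c : SL(2, E) →* SL(2, K)}
    (e : ∀ g, phi k * f g * (phi k)⁻¹ = phi (psi3 (a g, b g, c g))) (g : SL(2, E)) :
    k * σ ⟨f g, mem g⟩ * k⁻¹ = psi3 (a g, b g, c g) :=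
  DFunLike.congr_fun (lift_unique (tri_perf h3) (σ := (MulAut.conj k).toMonoidHom.comp (σ.comp (f.codRestrict M mem)))
    (σ' := psi3.comp (a.prod (b.prod c))) fun g => by
      change phi (k * σ ⟨f g, mem g⟩ * k⁻¹) = phi (psi3 (a g, b g, c g))
      rw [map_mul, map_mul, map_inv, hσ, e]) g

theorem tri_psi {a b : S3 K} (e : psi3 a = psi3 b) : a = b ∨ a = (-1, -1, -1) * b := by
  rw [← mul_inv_eq_one, ← map_inv, ← map_mul, psi3_eq_one, mul_inv_eq_one, mul_inv_eq_iff_eq_mul] at e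
  exact e

/-- `f g` fixes `fix t` iff the first component is central -/
theorem tri_fixV (h2 : (2 : K) ≠ 0) {k t x : O (Q K)} {a : S3 K} (ht : k * t * k⁻¹ = t0 K)
    (e : k * x * k⁻¹ = phi (psi3 a)) : (∀ v ∈ O.fix t, x.1 v = v) ↔ a.1 = 1 ∨ a.1 = -1 := by
  rw [← fix_iff h2, ← e, ← ht, O.fix_conj]
  refine ⟨?_, fun H v hv => k.1.injective ?_⟩
  · rintro H _ ⟨v, hv, rfl⟩
    exact (tri_conj k x v).trans (congrArg k.1 (H v hv))
  · exact (tri_conj k x v).symm.trans (H _ ⟨v, hv, rfl⟩)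

theorem tri_a4 (h2 : (2 : K) ≠ 0) (π : S3 K →* SL(2, K)) (hπ : π (-1, -1, -1) = -1) {α η ζ : S3 K} (ea : π α * π α = -1)
    (yb : psi3 η * (psi3 η * psi3 α * (psi3 η)⁻¹) * (psi3 η)⁻¹ = psi3 α * (psi3 η * psi3 α * (psi3 η)⁻¹))
    (za : Commute (psi3 ζ) (psi3 α)) (zy : Commute (psi3 ζ) (psi3 η)) : π ζ = 1 ∨ π ζ = -1 := by
  have k : ∀ {a b : S3 K}, psi3 a = psi3 b → toL.comp π a = toL.comp π b := fun e => by
    rcases tri_psi e with e | e
    · rw [e]
    · rw [e, map_mul, MonoidHom.comp_apply, hπ, toL_neg, map_one, one_mul]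
  have e1 : toL.comp π α * toL.comp π α = 1 := by
    rw [MonoidHom.comp_apply, ← map_mul, ea, toL_neg, map_one]
  have e2 := k (a := η * (η * α * η⁻¹) * η⁻¹) (b := α * (η * α * η⁻¹)) (by simpa only [map_mul, map_inv] using yb)
  have c1 := k (a := ζ * α) (b := α * ζ) (by simpa only [map_mul] using za.eq)
  have c2 := k (a := ζ * η) (b := η * ζ) (by simpa only [map_mul] using zy.eq)
  simp only [map_mul, map_inv] at e2 c1 c2
  refine toL_eq_one_iff.1 (eq_one_of_a4 h2 e1 (fun e => ?_) ?_ e2 c1 c2)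
  · rcases toL_eq_one_iff.1 e with e | e <;> rw [e] at ea <;> exact sl_neg_one_ne_one h2 (by simpa using ea.symm)
  · have e3 : ∀ x r : PSL(2, K), x * x = 1 → r * x * r⁻¹ * (r * x * r⁻¹) = 1 := fun x r e => by
      rw [conj_mul, e, mul_one, mul_inv_cancel]
    have e4 := e3 _ (toL.comp π η) e1
    have e5 := e3 _ (toL.comp π η) e4
    rw [e2] at e5
    change _ = _
    rw [← inv_eq_of_mul_eq_one_right e5, _root_.mul_inv_rev, inv_eq_of_mul_eq_one_right e1,
      inv_eq_of_mul_eq_one_right e4]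

theorem tri_neg (h2 : (2 : K) ≠ 0) {u : W K} (e : -u = u) : u = 0 :=
  (smul_eq_zero.1 (by rw [two_smul]; exact add_eq_zero_iff_neg_eq.2 e : (2 : K) • u = 0)).resolve_left h2

theorem tri_ex {P : Submodule K (W K)} (d : finrank K P = 2) : ∃ u ∈ P, u ≠ 0 :=
  P.exists_mem_ne_zero_of_ne_bot fun e => by rw [e, finrank_bot] at d; exact two_ne_zero d.symm

/-- an involution `B` of a non-degenerate plane which anticommutes with `D` fixes exactly a non-singular line -/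
theorem tri_line (h2 : (2 : K) ≠ 0) {P : Submodule K (W K)} (d : finrank K P = 2) (nd : ND ((N K).restrict P))
    {B D : O (N K)} (pB : ∀ u ∈ P, B.1 u ∈ P) (bb : ∀ u ∈ P, B.1 (B.1 u) = u) (pD : ∀ u ∈ P, D.1 u ∈ P)
    (bd : ∀ u, B.1 (D.1 u) = -D.1 (B.1 u)) : ∃ w, N K w ≠ 0 ∧ P ⊓ O.fix B = K ∙ w := by
  obtain ⟨w, hw, h0, e⟩ : ∃ w ∈ P, w ≠ 0 ∧ B.1 w = w := by
    obtain ⟨u, hu, h0⟩ := tri_ex d
    by_cases e : u + B.1 u = 0
    · exact ⟨_, pD u hu, O.apply_ne_zero D h0, by rw [bd, eq_neg_of_add_eq_zero_right e, map_neg, neg_neg]⟩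
    · exact ⟨_, add_mem hu (pB u hu), e, by rw [map_add, bb u hu, add_comm]⟩
  have lt : P ⊓ O.fix B < P := inf_le_left.lt_of_ne fun e1 => O.apply_ne_zero D h0 (tri_neg h2 (by
    have m := O.mem_fix.1 (e1.ge (pD w hw)).2
    rwa [bd, e] at m))
  have e1 : K ∙ w = P ⊓ O.fix B := Submodule.eq_of_le_of_finrank_le
    ((Submodule.span_singleton_le_iff_mem _ _).2 ⟨hw, O.mem_fix.2 e⟩) (by
      have := Submodule.finrank_lt_finrank_of_lt lt
      rw [finrank_span_singleton h0]; omega)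
  refine ⟨w, fun n0 => h0 (nd_restrict_iff.1 nd w hw fun u hu => ?_), e1.symm⟩
  obtain ⟨c, hc⟩ := Submodule.mem_span_singleton.1 (e1.ge
    ⟨add_mem hu (pB u hu), O.mem_fix.2 (by rw [map_add, bb u hu, add_comm])⟩)
  have e2 : polar (N K) w (B.1 u) = polar (N K) w u := by conv_lhs => rw [← e, O.map_polar]
  have e3 := congrArg (polar (N K) w) hc
  rw [polar_smul_right', polar_self', n0, polar_add_right, e2] at e3
  exact mul_left_cancel₀ h2 (by linear_combination -e3)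

/-- `U₃(3)`, the case that `a` is trivial on `V₊` -/
theorem tri_uV (h : Rep M) {t a y z r : O (Q K)} (gen : M ≤ Subgroup.closure {a, y, r}) (F : Four t (z * a))
    (R : Rho t (z * a) r) (ey : y ^ 3 = 1) (cy : Commute y t) (zy : Commute z y) (HA : ∀ v ∈ O.fix t, a.1 v = v) :
    False := by
  obtain ⟨v, hv, e1⟩ := F.exists_v0
  refine tri_notV h F gen ?_
  rintro _ (rfl | rfl | rfl) u hu
  · exact HA u hu.1
  · have m := e1.ge (Submodule.mem_span_singleton_self v)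
    have m1 := tri_cm cy m.1
    have m2 := O.mem_fix.1 m.2
    rw [O.mul_apply, HA v m.1] at m2
    have e2 := fix_of_line (n := 3) (by decide) ey hv (e1.le ⟨m1, O.mem_fix.2 (by
      rw [O.mul_apply, HA _ m1]; exact O.mem_fix.1 (tri_cm zy.symm (O.mem_fix.2 m2)))⟩)
    obtain ⟨c, rfl⟩ := Submodule.mem_span_singleton.1 (e1.le hu)
    rw [map_smul, e2]
  · exact F.rho_fix R u hu

theorem tri_sc (h2 : (2 : K) ≠ 0) {ζ : S3 K} (z1 : ζ.1 = 1 ∨ ζ.1 = -1) (z2 : ζ.2.1 = 1 ∨ ζ.2.1 = -1) :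
    (∀ w ∈ O.fix (act (z0 K)), (act (psi3 ζ)).1 w = w) ∨ ∀ w ∈ O.fix (act (z0 K)), (act (psi3 ζ)).1 w = -w := by
  have n : ∀ X : Matrix (Fin 2) (Fin 2) K, -cd X 0 = cd (-X) 0 := fun X => (map_neg tri_iX X).symm
  rcases z1 with z1 | z1 <;> rcases z2 with z2 | z2 <;> [left; right; right; left] <;> intro w hw <;>
    rw [← cd_eta w, (mem_fix_z0 h2).1 hw, act_psi3, z1, z2] <;> simp [n]

theorem tri_D {α η : S3 K} (a1 : α.1 * α.1 = -1)
    (yb : psi3 η * (psi3 η * psi3 α * (psi3 η)⁻¹) * (psi3 η)⁻¹ = psi3 α * (psi3 η * psi3 α * (psi3 η)⁻¹)) :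
    ∃ D, Commute D (psi3 α) ∧ Commute D (z0 K) ∧
      psi3 η * psi3 α * (psi3 η)⁻¹ * D = ng K * D * (psi3 η * psi3 α * (psi3 η)⁻¹) := by
  have b1 : (η * α * η⁻¹).1 * α.1 = -1 * (α.1 * (η * α * η⁻¹).1) := by
    have k : ∀ x r : SL(2, K), x * x = -1 → r * x * r⁻¹ * (r * x * r⁻¹) = -1 := fun x r e => by
      rw [conj_mul, e]; simp
    have k1 : (η * α * η⁻¹).1 * (η * α * η⁻¹).1 = -1 := k _ η.1 a1
    have k2 : (η * (η * α * η⁻¹) * η⁻¹).1 * (η * (η * α * η⁻¹) * η⁻¹).1 = -1 := k _ η.1 k1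
    have k3 : α.1 * (η * α * η⁻¹).1 * (α.1 * (η * α * η⁻¹).1) = -1 := by
      rcases tri_psi (a := η * (η * α * η⁻¹) * η⁻¹) (b := α * (η * α * η⁻¹))
        (by simpa only [map_mul, map_inv] using yb) with e | e <;> rw [e] at k2 <;> simpa using k2
    generalize (η * α * η⁻¹).1 = b at k1 k3
    calc b * α.1 = -(α.1 * α.1) * (b * α.1) * -(b * b) := by rw [a1, k1]; simp
      _ = α.1 * (α.1 * b * (α.1 * b)) * b := by simp only [neg_mul, mul_neg, neg_neg, mul_assoc]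
      _ = _ := by rw [k3]; simp
  have c1 : Commute ((α.1, 1, 1) : S3 K) α := Prod.ext rfl ((one_mul α.2).trans (mul_one α.2).symm)
  have c2 : Commute ((α.1, 1, 1) : S3 K) (1, 1, -1) :=
    Prod.ext ((mul_one _).trans (one_mul _).symm) ((one_mul ((1, -1) : SL(2, K) × SL(2, K))).trans (mul_one _).symm)
  have c3 : η * α * η⁻¹ * (α.1, 1, 1) = (-1, 1, 1) * (α.1, 1, 1) * (η * α * η⁻¹) := by
    generalize η * α * η⁻¹ = β at b1
    exact Prod.ext (b1.trans (mul_assoc _ _ _).symm) (Prod.ext (by simp) (by simp))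
  exact ⟨psi3 (α.1, 1, 1), c1.map psi3, c2.map psi3, by simpa only [map_mul, map_inv, psi3_ng] using congrArg psi3 c3⟩

/-- `U₃(3)`, the case that `Z` is trivial on `fix z` -/
theorem tri_uP (h2 : (2 : K) ≠ 0) {A B D Y z : O (N K)} {P : Submodule K (W K)} (d : finrank K P = 2)
    (nd : ND ((N K).restrict P)) (mP : ∀ w, w ∈ P ↔ w ∈ O.fix z ∧ A.1 w = w) (ea : A * A = z) (zz : z * z = 1)
    (ey : Y ^ 3 = 1) (ya : Y * A * Y⁻¹ = B) (yb : Y * B * Y⁻¹ = A * B) (cY : Commute Y z) (DA : Commute D A)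
    (Dz : Commute D z) (BD : B * D = O.neg _ * D * B) : ∃ w ∈ P, w ≠ 0 ∧ A.1 w = w ∧ Y.1 w = w := by
  have cA : Commute A z := ea ▸ (Commute.refl A).mul_right (.refl A)
  have cB : Commute B z := ya ▸ (cY.mul_left cA).mul_left cY.inv_left
  have eb : B * B = z := by rw [← ya, conj_mul, ea, cY.eq, mul_inv_cancel_right]
  have eab : A * B * (A * B) = z := by rw [← yb, conj_mul, eb, cY.eq, mul_inv_cancel_right]
  have yA : A * Y = Y * (A * B) := by
    calc A * Y = Y ^ 3 * A * (Y ^ 3)⁻¹ * Y := by rw [ey]; group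
      _ = _ := by rw [← yb, ← ya, pow_succ, pow_two]; group
  have ba : B * A = A * B * z := by
    calc B * A = A⁻¹ * (A * B * (A * B)) * B⁻¹ := by group
      _ = A * B * (B * B)⁻¹ := by rw [eab, ← ea]; group
      _ = _ := by rw [eb, inv_eq_of_mul_eq_one_right zz]
  obtain ⟨w, hw, e1⟩ := tri_line h2 d nd (B := B) (D := D) (fun u hu => by
    rw [mP] at hu ⊢
    refine ⟨tri_cm cB hu.1, ?_⟩
    have e1 : (B * A).1 u = (A * B * z).1 u := by rw [ba]
    rw [O.mul_apply, O.mul_apply, O.mul_apply, hu.2, O.mem_fix.1 hu.1] at e1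
    exact e1.symm) (fun u hu => by rw [← O.mul_apply, eb, O.mem_fix.1 ((mP u).1 hu).1])
    (fun u hu => by
      rw [mP] at hu ⊢
      exact ⟨tri_cm Dz hu.1, O.mem_fix.1 (tri_cm DA (O.mem_fix.2 hu.2))⟩)
    fun u => by rw [← O.mul_apply, BD]; rfl
  have m := e1.ge (Submodule.mem_span_singleton_self w)
  have m1 := (mP w).1 m.1
  refine ⟨w, m.1, fun e0 => hw (by rw [e0, map_zero]), m1.2, fix_of_line (n := 3) (by decide) ey hw (e1.le
    ⟨(mP _).2 ⟨tri_cm cY m1.1, ?_⟩, O.mem_fix.2 ?_⟩)⟩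
  · rw [← O.mul_apply, yA, O.mul_apply, O.mul_apply, O.mem_fix.1 m.2, m1.2]
  · rw [← O.mul_apply, ← ya, inv_mul_cancel_right, O.mul_apply, m1.2]

theorem tri_uM (h2 : (2 : K) ≠ 0) {A R : O (N K)} {w : W K} (e1 : A.1 w = -w) (HR : R.1 w = w)
    (e3 : A * (R * A * R⁻¹) * (R * (R * A * R⁻¹) * R⁻¹) = 1) : w = 0 := by
  have k : ∀ X : O (N K), X.1 w = -w → (R * X * R⁻¹).1 w = -w := fun X e => by
    conv_lhs => rw [← HR, tri_conj, e, map_neg, HR]
  have e4 : (A * (R * A * R⁻¹) * (R * (R * A * R⁻¹) * R⁻¹)).1 w = w := by rw [e3]; rfl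
  rw [O.mul_apply, k _ (k _ e1), map_neg, O.mul_apply, k _ e1, map_neg, e1, neg_neg] at e4
  exact tri_neg h2 e4

theorem tri_u33 [IsAlgClosed K] (h : Rep M) {A Y Z R : Spin K} (gen : M ≤ Subgroup.closure (phi '' {A, Y, R}))
    (ea : A * A = z0 K) (ey : Y ^ 3 = 1) (yb : Y * (Y * A * Y⁻¹) * Y⁻¹ = A * (Y * A * Y⁻¹)) (ez : Z * Z = z0 K)
    (za : Commute Z A) (zy : Commute Z Y) (r3 : R ^ 3 = 1) (r1 : R * z0 K * R⁻¹ = Z * A)
    (r2 : R * (Z * A) * R⁻¹ = z0 K * (Z * A)) (e3 : A * (R * A * R⁻¹) * (R * (R * A * R⁻¹) * R⁻¹) = 1) : False := by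
  have h2 := h.two
  have cA : Commute A (z0 K) := ea ▸ (Commute.refl A).mul_right (.refl A)
  have cZ : Commute Z (z0 K) := ez ▸ (Commute.refl Z).mul_right (.refl Z)
  have cY : Commute Y (z0 K) := ez ▸ zy.symm.mul_right zy.symm
  have Rh : Rho (phi (z0 K)) (phi (Z * A)) (phi R) := ⟨by rw [← map_pow, r3, map_one],
    by rw [← map_inv, ← map_mul, ← map_mul, r1], by rw [← map_inv, ← map_mul, ← map_mul, r2, map_mul]⟩
  have F := Rh.four h2 t0_mul_self ((cZ.mul_left cA).symm.map phi) (dm_t0 h2)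
  obtain ⟨α, rfl⟩ := exists_psi3_of_commute h2 cA
  obtain ⟨η, rfl⟩ := exists_psi3_of_commute h2 cY
  obtain ⟨ζ, rfl⟩ := exists_psi3_of_commute h2 cZ
  rcases tri_psi ((map_mul _ α α).trans ea) with e | e
  · rw [map_mul] at F Rh
    rw [Set.image_insert_eq, Set.image_pair] at gen
    exact tri_uV h gen F Rh (by rw [← map_pow, ey, map_one]) (cY.map phi) (zy.map phi)
      ((fix_iff h2).2 (eq_one_or_neg_one_of_mul_self h2 (congrArg (·.1) e)))
  have a1 : α.1 * α.1 = -1 := (congrArg (·.1) e).trans (mul_one _)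
  obtain ⟨-, d, nd⟩ := four_lift h2 F
  have HR := rho_lift h2 F r3 r1 r2
  rcases tri_sc h2 (tri_a4 h2 (.fst _ _) rfl a1 yb za zy) (tri_a4 h2 ((MonoidHom.fst _ _).comp (.snd _ _)) rfl
    ((congrArg (·.2.1) e).trans (mul_one _)) yb za zy) with hZ | hZ
  · obtain ⟨D, DA, Dz, BD⟩ := tri_D a1 yb
    obtain ⟨w, hw, h0, e1, e2⟩ := tri_uP h2 (A := act (psi3 α)) (Y := act (psi3 η)) (D := act D) d nd
      (fun w => and_congr_right fun hw => by
        rw [SetLike.mem_coe, O.mem_fix, map_mul, O.mul_apply, hZ _ (tri_cm (cA.map act) hw)])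
      (by rw [← map_mul, ea]) (by rw [← map_mul, z0_mul_self, map_one]) (by rw [← map_pow, ey, map_one]) rfl
      (by simpa only [map_mul, map_inv] using congrArg act yb) (cY.map act) (DA.map act) (Dz.map act)
      (by simpa only [map_mul, map_inv, act_ng] using congrArg act BD)
    refine h.not_fixW h0 gen ?_
    rintro _ (rfl | rfl | rfl)
    exacts [e1, e2, HR w hw]
  · obtain ⟨w, hw, h0⟩ := tri_ex d
    have e1 := O.mem_fix.1 hw.2
    rw [map_mul, O.mul_apply, hZ _ (tri_cm (cA.map act) hw.1), neg_eq_iff_eq_neg] at e1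
    exact h0 (tri_uM h2 e1 (HR w hw) (by simpa only [map_mul, map_inv, map_one] using congrArg act e3))

end Cfsg.Lib.O7
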