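import Cfsg.Agent.Lib.O7.U31

/-!
# `SU₂(3) = ⟨a, y⟩` and relations in `SU₃` (helper12, for `O7/U3`)
-/

set_option autoImplicit false

namespace Cfsg.Lib.O7.U3

open Matrix Cfsg.Lib.Unitary Cfsg.Lib.PSL2
open scoped MatrixGroups

variable {E : Type*} [Field E] {σ : E →+* E} {q : ℕ} (b : IsBar q σ)

theorem su_mem {S : Subgroup (SU 2 E q)} {x y x' y' u v : E} {h h' h''} (m : su b x y h ∈ S) (m' : su b x' y' h' ∈ S)
    (e1 : u = x * x' - y * σ y') (e2 : v = x * y' + y * σ x') : su b u v h'' ∈ S := by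
  convert mul_mem m m' using 1
  refine sux ?_
  ext i j
  fin_cases i <;> fin_cases j <;> simp [mul_val, su_val, mul_apply, e1, e2, b.invol] <;> ring

theorem gen3 (b : IsBar 3 σ) {i : E} (hi : i ^ 2 = -1) (si : σ i = -i) {S : Subgroup (SU 2 E 3)} {h h'}
    (ha : su b i 0 h ∈ S) (hy : su b (1 + i) (1 + i) h' ∈ S) (g : SU 2 E 3) : g ∈ S := by
  have h3 : (3 : E) = 0 := b.cast_q
  have nm : ∀ x : E, x * σ x = x ^ 4 := b.norm_eq
  have a2 : su b (-1) 0 (by simp) ∈ S := su_mem b ha ha (by simp [← hi, pow_two]) (by simp)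
  have A : ∀ x h, su b x 0 h ∈ S := fun x h => by
    have e : (x - 1) * (x + 1) * (x - i) * (x + i) = 0 := by
      rw [nm, nm] at h; linear_combination h - (x ^ 2 - 1) * hi
    simp only [mul_eq_zero, sub_eq_zero, add_eq_zero_iff_eq_neg] at e
    rcases e with ((rfl | rfl) | rfl) | rfl
    exacts [su_mem b a2 a2 (by simp) (by simp), a2, ha, su_mem b a2 ha (by simp) (by simp)]
  have N : ∀ x y : E, x ^ 4 + y ^ 4 = 1 → x * σ x + y * σ y = 1 := fun x y e => by rw [nm, nm, e]
  have y2 : su b (1 - i) (-1 - i) (N _ _ (by grind)) ∈ S := su_mem b hy hy (by simp [si]; grind) (by simp [si]; grind)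
  have C : ∀ x y h h', su b x y h ∈ S → su b x (-y) h' ∈ S := fun x y h h' m =>
    su_mem b (su_mem b (h'' := by simp only [map_mul, si]; linear_combination h - (x * σ x + y * σ y) * hi) ha m
      (u := i * x) (v := i * y) (by simp) (by simp)) (A (-i) (by simp [si, ← pow_two, hi]))
      (by simp; linear_combination x * hi) (by simp [si]; linear_combination -y * hi)
  have y3 : su b (1 + i) (1 - i) (N _ _ (by grind)) ∈ S := su_mem b ha y2 (by simp; grind) (by simp; grind)
  have W : ∀ y h, su b (1 + i) y h ∈ S := fun y h => by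
    have e : (y - (1 + i)) * (y + (1 + i)) * (y - (1 - i)) * (y + (1 - i)) = 0 := by
      rw [nm, nm] at h; grind
    simp only [mul_eq_zero, sub_eq_zero, add_eq_zero_iff_eq_neg] at e
    rcases e with ((rfl | rfl) | rfl) | rfl
    exacts [hy, C _ _ _ _ hy, y3, C _ _ _ _ y3]
  have B : su b 0 1 (by simp) ∈ S := su_mem b (su_mem b (h'' := N _ _ (by grind)) hy ha (u := (1 + i) * i)
    (v := -(1 + i) * i) (by simp) (by simp [si]; ring)) y2 (by simp [si]; grind) (by simp [si]; grind)
  obtain ⟨x, y, h, rfl⟩ := exists_su b g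
  have e : x * σ x * (x * σ x - 1) * (x * σ x + 1) = 0 := by
    have e1 : σ (x * σ x) = x * σ x := by rw [map_mul, b.invol, mul_comm]
    rw [b.eq] at e1
    linear_combination e1
  simp only [mul_eq_zero, sub_eq_zero, add_eq_zero_iff_eq_neg, map_eq_zero, or_self] at e
  rcases e with (rfl | e) | e
  · exact su_mem b (A y (by simpa using h)) B (by simp) (by simp)
  · obtain rfl : y = 0 := by simpa [e] using h
    exact A x h
  · have e1 : -x * (1 - i) * σ (-x * (1 - i)) + 0 * σ 0 = 1 := by simp [si]; grind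
    have e2 : (1 + i) * σ (1 + i) + σ (-x * (1 - i)) * y * σ (σ (-x * (1 - i)) * y) = 1 := by
      simp [si, b.invol]; grind
    exact su_mem b (A _ e1) (W _ e2) (by simp; grind) (by simp [si]; grind)

theorem up_su (x : E) (h : x * σ x + 0 * σ 0 = 1) (h' : 1 * x * σ x = 1 ∧ 1 * σ 1 = 1 ∧ x * σ x = 1) :
    up b (su b x 0 h) = dg b 1 x (σ x) h' := sux (by
  ext i j
  fin_cases i <;> fin_cases j <;> simp [up_val, su_val, dg_val])

theorem dg_mul {x y z x' y' z' u v w : E} {h h' h''} (e1 : u = x * x') (e2 : v = y * y') (e3 : w = z * z') :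
    dg b x y z h * dg b x' y' z' h' = dg b u v w h'' := sux (by
  ext i j
  fin_cases i <;> fin_cases j <;> simp [mul_val, dg_val, mul_apply, Fin.sum_univ_three, e1, e2, e3])

theorem dg_comm {x y z x' y' z' : E} {h h'} : Commute (dg b x y z h) (dg b x' y' z' h') := sux (by
  ext i j
  fin_cases i <;> fin_cases j <;> simp [mul_val, dg_val, mul_apply, Fin.sum_univ_three, mul_comm])

theorem dg_one {h} : dg b 1 1 1 h = 1 := sux (by
  ext i j
  fin_cases i <;> fin_cases j <;> simp [one_val, dg_val])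

include b in
theorem dg_rot {x y z : E} (h : x * y * z = 1 ∧ x * σ x = 1 ∧ y * σ y = 1) :
    y * z * x = 1 ∧ y * σ y = 1 ∧ z * σ z = 1 :=
  ⟨by rw [← h.1]; ring, h.2.2, by simpa [dg_val, Fin.sum_univ_three, mul_comm] using uni b (dg b x y z h) 2 2⟩

theorem rr_dg {x y z : E} {h} : rr b * dg b x y z h * (rr b)⁻¹ = dg b y z x (dg_rot b h) :=
  mul_inv_eq_iff_eq_mul.2 (sux (by
    ext i j
    fin_cases i <;> fin_cases j <;> simp [mul_val, dg_val, rr_val, mul_apply, Fin.sum_univ_three]))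

theorem dg_up {x y : E} {h} (g : SU 2 E q) : Commute (dg b x y y h) (up b g) := sux (by
  ext i j
  fin_cases i <;> fin_cases j <;> simp [mul_val, dg_val, up_val, mul_apply, Fin.sum_univ_three, mul_comm])

theorem dg_cen [Fintype E] {x y z : E} {h} (m : dg b x y z h ∈ Subgroup.center (SU 3 E q)) : x = y := by
  obtain ⟨a, e⟩ := (mem_center_SU (by rw [← b.card, Nat.card_eq_fintype_card]) (by norm_num)).1 m
  have e0 := congrFun (congrFun e 0) 0
  have e1 := congrFun (congrFun e 1) 1
  simp [dg_val] at e0 e1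
  rw [e0, e1]

theorem su_eq {x y x' y' u v : E} {h h' h''} (e1 : u = x * x' - y * σ y') (e2 : v = x * y' + y * σ x') :
    su b x y h * su b x' y' h' = su b u v h'' := sux (by
  ext i j
  fin_cases i <;> fin_cases j <;> simp [mul_val, su_val, mul_apply, e1, e2, b.invol] <;> ring)

theorem su_one {h} : su b 1 0 h = 1 := sux (by
  ext i j
  fin_cases i <;> fin_cases j <;> simp [one_val, su_val])

/-- the diagonal torus of `SU₂` -/
def dU : normOne σ →* SU 2 E q := MonoidHom.mk' (fun a => su b a.1 0 (by simpa using mem_normOne.1 a.2))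
  fun _ _ => (su_eq b (by simp) (by simp)).symm

theorem dU_injective : Function.Injective (dU b) := fun _ _ e =>
  Subtype.ext (Units.ext (congrArg (fun g : SU 2 E q => g.1.1 0 0) e))

theorem psi_neg (h2 : (2 : E) ≠ 0) {X : Type*} [Field X] (x2 : (2 : X) ≠ 0) (ψ : SL(2, X) ≃* SU 2 E q) :
    ψ (-1) = su b (-1) 0 (by simp) := by
  have e : (ψ (-1)).1 * (ψ (-1)).1 = 1 := by
    rw [← Subgroup.coe_mul, ← map_mul, neg_one_mul, neg_neg, map_one]; rfl
  rcases eq_one_or_neg_one_of_mul_self h2 e with e | e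
  · exact (sl_neg_one_ne_one x2 (ψ.injective ((Subtype.ext e).trans ψ.map_one.symm))).elim
  · refine Subtype.ext (e.trans (sl_ext ?_ ?_ ?_ ?_)) <;> simp [su, mkU]

theorem rel3 [Fintype E] (b : IsBar 3 σ) : ∃ t a c y z r : SU 3 E 3,
    (∀ S : Subgroup (SU 3 E 3), a ∈ S → y ∈ S → r ∈ S → ∀ g, g ∈ S) ∧
    t ∉ Subgroup.center _ ∧ t * t = 1 ∧ a * a = t ∧ a * c * (a * c) = t ∧ y ^ 3 = 1 ∧ y * a * y⁻¹ = c ∧
    y * c * y⁻¹ = a * c ∧ z * z = t ∧ Commute z a ∧ Commute z y ∧ r ^ 3 = 1 ∧ r * t * r⁻¹ = z * a ∧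
    r * (z * a) * r⁻¹ = t * (z * a) ∧ a * (r * a * r⁻¹) * (r * (r * a * r⁻¹) * r⁻¹) = 1 := by
  have h3 : (3 : E) = 0 := b.cast_q
  obtain ⟨i, i0, si⟩ := b.exists_skew
  have hi : i ^ 2 = -1 := mul_left_cancel₀ i0 (by rw [b.eq] at si; linear_combination si)
  have ha : i * σ i + 0 * σ 0 = 1 := by simp [si, ← pow_two, hi]
  have hc : 0 * σ 0 + i * σ i = 1 := by simp [si, ← pow_two, hi]
  have hy : (1 + i) * σ (1 + i) + (1 + i) * σ (1 + i) = 1 := by
    rw [map_add, map_one, si]; linear_combination -2 * hi + h3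
  have ht : (1 : E) * -1 * -1 = 1 ∧ 1 * σ 1 = 1 ∧ -1 * σ (-1) = 1 := by simp
  have hz : -1 * i * i = 1 ∧ -1 * σ (-1) = 1 ∧ i * σ i = 1 := by simp [si, ← pow_two, hi]
  have hd : 1 * i * σ i = 1 ∧ 1 * σ 1 = 1 ∧ i * σ i = 1 := by simp [si, ← pow_two, hi]
  have ea := up_su b i ha hd
  have ya : su b _ _ hy * su b _ _ ha = su b 0 1 (by simp) * su b _ _ hy :=
    (su_eq b (h'' := by rw [map_sub, map_sub, map_one, si]; linear_combination -2 * hi + h3) (u := i - 1) (v := 1 - i)
      (by rw [map_zero]; linear_combination -hi) (by rw [si]; linear_combination hi)).trans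
      (su_eq b (by rw [map_add, map_one, si]; ring) (by rw [map_add, map_one, si]; ring)).symm
  have ab : su b _ _ ha * su b 0 1 (by simp) = su b 0 i hc := su_eq b (by simp) (by simp)
  have yb : su b _ _ hy * su b 0 1 (by simp) = su b 0 i hc * su b _ _ hy :=
    (su_eq b (h'' := by rw [map_sub, map_add, map_neg, map_one, si]; linear_combination -2 * hi + h3) (u := -1 - i)
      (v := 1 + i) (by rw [map_one]; ring) (by rw [map_zero]; ring)).trans
      (su_eq b (by rw [map_add, map_one, si]; linear_combination -hi)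
        (by rw [map_add, map_one, si]; linear_combination hi)).symm
  have za : dg b _ _ _ hz * dg b _ _ _ hd = dg b _ _ _ (dg_rot b ht) :=
    dg_mul b (by simp) (by simp [← pow_two, hi]) (by simp [si, ← pow_two, hi])
  have m1 : up b (su b (-1) 0 (by simp)) = dg b _ _ _ ht := by
    simpa using up_su b (-1) (by simp) (by simp)
  refine ⟨dg b _ _ _ ht, up b (su b _ _ ha), up b (su b 0 1 (by simp)), up b (su b _ _ hy), dg b _ _ _ hz, rr b,
    fun S h1 h2 h3 => gen b (by norm_num) (by rintro _ ⟨g, rfl⟩; exact gen3 b hi si (S := S.comap (up b)) h1 h2 g) h3,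
    fun m => one_ne_zero (α := E) (by linear_combination h3 - dg_cen b m),
    (dg_mul b (h'' := by simp) (one_mul 1).symm (by simp) (by simp)).trans (dg_one b), ?_, ?_, ?_, ?_, ?_,
    dg_mul b (by simp) (by simp [← pow_two, hi]) (by simp [← pow_two, hi]), dg_up b _, dg_up b _, rr_cube b, ?_, ?_, ?_⟩
  · rw [← map_mul, su_eq b (h'' := by simp) (u := -1) (v := 0) (by simp [← pow_two, hi]) (by simp), m1]
  · rw [← map_mul, ← map_mul, ab, su_eq b (h'' := by simp) (u := -1) (v := 0) (by simp [si, ← pow_two, hi]) (by simp), m1]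
  · rw [← map_pow, pow_succ, pow_two, su_eq b (u := 1 - i) (v := -1 - i)
      (h'' := by rw [map_sub, map_sub, map_neg, map_one, si]; linear_combination -2 * hi + h3)
      (by rw [map_add, map_one, si]; linear_combination -2 * hi + (1 - i) * h3)
      (by rw [map_add, map_one, si]; linear_combination -(1 + i) * h3),
      su_eq b (h'' := by simp) (u := 1) (v := 0) (by rw [map_add, map_one, si]; linear_combination 2 * hi - h3)
        (by rw [map_add, map_one, si]; ring), su_one, map_one]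
  · rw [← map_inv, ← map_mul, ← map_mul, ya, mul_inv_cancel_right]
  · rw [← map_inv, ← map_mul, ← map_mul, ← map_mul, yb, mul_inv_cancel_right, ab]
  · rw [ea, za, rr_dg]
  · rw [ea, za, rr_dg]
    exact (dg_mul b (by simp) (by simp) (by simp)).symm
  · rw [ea, rr_dg, rr_dg, dg_mul b (h'' := by simp [si, ← pow_two, hi]) rfl rfl rfl]
    exact (dg_mul b (h'' := by simp) (by simp [si, ← pow_two, hi]) (by simp [si, ← pow_two, hi])
      (by simp [si, ← pow_two, hi])).trans (dg_one b)

end Cfsg.Lib.O7.U3
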