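import Cfsg.Agent.Lib.O7.Tri
import Cfsg.Agent.Lib.O7.X3
import Cfsg.Agent.Lib.O7.U32
import Cfsg.Agent.Lib.U3.Model
import Cfsg.Agent.S2089

/-!
# `U₃(q)`, `q` odd (BRANCH STUB of `docs/O7.md`; the filler may add files `O7/U31 ...` and imports)
-/

set_option autoImplicit false

namespace Cfsg.Lib.O7

open QuadraticMap Module Matrix Cfsg.Lib.Orth
open scoped MatrixGroups

variable {K : Type*} [Field K] [IsAlgClosed K] {M : Subgroup (O (Q K))} (p : ℕ) [Fact p.Prime] [CharP K p]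
  {E : Type*} [Field E] [Fintype E]

namespace U3

open Cfsg.Lib.Unitary Cfsg.Lib.PSL2

variable {σ : E →+* E} {q : ℕ}

omit [IsAlgClosed K] [Fintype E] in
theorem gen_F (b : IsBar q σ) (hq : q ≠ 2) {F : SU 3 E q →* O (Q K)} (hF : F.range = M) {T : Set (O (Q K))}
    (h1 : ∀ g, F (up b g) ∈ Subgroup.closure T) (h2 : F (rr b) ∈ T) : M ≤ Subgroup.closure T := by
  rw [← hF]
  rintro _ ⟨g, rfl⟩
  exact gen b hq (M := (Subgroup.closure T).comap F) (by rintro _ ⟨g, rfl⟩; exact h1 g) (Subgroup.subset_closure h2) g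

theorem three (h : Rep M) (b : IsBar 3 σ) {F : SU 3 E 3 →* O (Q K)} (hF : F.range = M)
    (k : F.ker ≤ Subgroup.center _) (hs : Split M) : False := by
  obtain ⟨t, a, c, y, z, r, H, h1, h2, h3, h4, h5, h6, h7, h8, h9, h10, h11, h12, h13, h14⟩ := rel3 b
  refine h.u33 hs (t := F t) (a := F a) (b := F c) (y := F y) (z := F z) (r := F r) (le_antisymm ?_ ?_)
    (hF ▸ ⟨_, rfl⟩) (fun e => h1 (k e)) ?_ ?_ ?_ ?_ ?_ ?_ ?_ (h9.map F) (h10.map F) ⟨?_, ?_, ?_⟩ ?_
  · rw [← hF]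
    rintro _ ⟨g, rfl⟩
    exact H ((Subgroup.closure _).comap F) (Subgroup.subset_closure (by simp)) (Subgroup.subset_closure (by simp))
      (Subgroup.subset_closure (by simp)) g
  · rw [Subgroup.closure_le, ← hF]
    rintro _ (rfl | rfl | rfl) <;> exact ⟨_, rfl⟩
  all_goals simp only [← map_mul, ← map_inv, ← map_pow, ← map_one F]
  exacts [congrArg F h2, congrArg F h3, congrArg F h4, congrArg F h5, congrArg F h6, congrArg F h7, congrArg F h8,
    congrArg F h11, congrArg F h12, congrArg F h13, congrArg F h14]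

theorem cross (h : Pre M) (b : IsBar q σ) (ho : Odd q) (h3 : 3 < q) (e : M ≃* PSU 3 E q) {r f : ℕ} (hr : r.Prime)
    (hq : q = r ^ f) (n : (r : K) ≠ 0) : False := by
  haveI : Fact (Function.Involutive σ) := ⟨b.invol⟩
  haveI : Fact r.Prime := ⟨hr⟩
  haveI := h.fin
  obtain ⟨N, -⟩ := Lib.U3.exists_model_PSU b
  have fin : ∀ S : Subgroup (O (Q K)), S ≤ N.U.map (emb e) → Finite S := fun S l =>
    .of_injective _ (Subgroup.inclusion_injective (l.trans (by rintro _ ⟨g, -, rfl⟩; exact emb_mem e g)))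
  have pU : IsPGroup r (N.U.map (emb e)) := (IsPGroup.of_card (n := f * 3) (by rw [N.card_U, hq, pow_mul])).map _
  by_cases h5 : 5 ≤ r
  · haveI := fin _ le_rfl
    obtain ⟨x, hx⟩ := b.exists_ne
    obtain ⟨y, hy⟩ := Lib.U3.exists_hs' b x
    obtain ⟨y', hy'⟩ := Lib.U3.exists_hs' b 1
    have c := t1_ab h.two hr h5 n pU _ ⟨_, N.u_mem_U hy, rfl⟩ _ ⟨_, N.u_mem_U hy', rfl⟩
    rw [← map_mul, ← map_mul, (emb_injective e).eq_iff, N.u_mul hy hy', N.u_mul hy' hy,
      N.u_inj (hy.mul hy') (hy'.mul hy), map_one] at c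
    exact hx (by linear_combination -c.2)
  have r3 : r = 3 := by
    have := hr.two_le
    interval_cases r
    · rcases f with _ | f
      · omega
      · exact absurd ho (by rw [hq, pow_succ]; simp)
    · rfl
    · exact absurd hr (by decide)
  have q9 : 9 ≤ q := by
    rw [hq, r3] at h3 ⊢
    rcases f with _ | _ | f
    · omega
    · omega
    · have := Nat.one_le_pow f 3 (by norm_num)
      rw [pow_succ, pow_succ]; omega
  let A : Subgroup (O (Q K)) :=
    { carrier := {x | ∃ d, Lib.U3.Hs σ 0 d ∧ x = emb e (N.u 0 d)}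
      mul_mem' := by
        rintro _ _ ⟨d, hd, rfl⟩ ⟨d', hd', rfl⟩
        exact ⟨_, by simpa using hd.mul hd', by rw [← map_mul, N.u_mul hd hd']; simp⟩
      one_mem' := ⟨0, .zero, by rw [N.u_zero, map_one]⟩
      inv_mem' := by
        rintro _ ⟨d, hd, rfl⟩
        exact ⟨_, by simpa using hd.inv, by rw [← map_inv, N.u_inv hd, neg_zero]⟩ }
  have lA : A ≤ N.U.map (emb e) := by
    rintro _ ⟨d, hd, rfl⟩
    exact ⟨_, N.u_mem_U hd, rfl⟩
  haveI := fin A lA
  obtain ⟨m, hm⟩ := (pU.to_le lA).exists_card_eq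
  obtain ⟨g, hg⟩ := IsCyclic.exists_generator (α := (fixedField σ)ˣ)
  have og : orderOf g = q - 1 := by
    rw [orderOf_eq_card_of_forall_mem_zpowers hg, Nat.card_units, b.card_fixedField]
  obtain ⟨a, ha⟩ := b.exists_norm_eq (μ := g.1.1) g.1.2
  have a0 : a ≠ 0 := fun e0 => g.ne_zero (Subtype.ext (by rw [← ha, e0, zero_mul]; rfl))
  obtain ⟨d, d0, hd⟩ := b.exists_skew
  have hd' : Lib.U3.Hs σ 0 d := by simp [Lib.U3.Hs, hd]
  have key : ∀ j, j ≠ 0 → (∀ x ∈ A, Commute (emb e (N.h a) ^ j) x) → q - 1 ≤ j := fun j j0 c => by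
    have c1 := (c _ ⟨d, hd', rfl⟩).eq
    have e1 : N.h a ^ j = N.h (a ^ j) := (map_pow N.hHom (Units.mk0 a a0) j).symm
    rw [← map_pow, ← map_mul, ← map_mul, (emb_injective e).eq_iff, e1, ← mul_inv_eq_iff_eq_mul,
      N.h_conj_u (pow_ne_zero j a0) hd', N.u_inj (hd'.tor (pow_ne_zero j a0)) hd', map_pow, ← mul_pow, ha] at c1
    refine og ▸ Nat.le_of_dvd (Nat.pos_of_ne_zero j0) (orderOf_dvd_of_pow_eq_one (Units.ext (Subtype.ext ?_)))
    simpa using mul_right_cancel₀ d0 (c1.2.trans (one_mul d).symm)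
  rcases t1_pow h.two (A := A) (by
      rintro _ ⟨d, hd, rfl⟩ _ ⟨d', hd', rfl⟩
      rw [← map_mul, ← map_mul, N.u_mul hd hd', N.u_mul hd' hd, add_comm d])
    (by rw [hm, r3]; exact Odd.pow (by decide)) (by rw [hm, Nat.cast_pow]; exact pow_ne_zero _ n)
    (x := emb e (N.h a)) (by
      rintro _ ⟨d, hd, rfl⟩
      exact ⟨_, by simpa using hd.tor a0, by rw [← map_inv, ← map_mul, ← map_mul, N.h_conj_u a0 hd, mul_zero]⟩)
    with c | c <;> have := key _ (by norm_num) c <;> omega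

theorem defn [CharP E p] (h : Rep M) (b : IsBar q σ) (h3 : 3 < q) {F : SU 3 E q →* O (Q K)} (hF : F.range = M)
    (k : F.ker ≤ Subgroup.center _) (hs : Split M) : False := by
  have cp : ∀ n : ℕ, (n : E) = 0 ↔ (n : K) = 0 := fun n => by rw [CharP.cast_eq_zero_iff E p, CharP.cast_eq_zero_iff K p]
  have h2 : (2 : E) ≠ 0 := fun e => h.two ((cp 2).1 e)
  have x2 : (2 : fixedField σ) ≠ 0 := fun e => h2 (congrArg Subtype.val e)
  have c3 : 3 < Nat.card (fixedField σ) := by rwa [b.card_fixedField]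
  obtain ⟨ψ, hψ⟩ := exists_psi b h2
  have ht : (1 : E) * -1 * -1 = 1 ∧ 1 * σ 1 = 1 ∧ -1 * σ (-1) = 1 := by simp
  set f := F.comp ((up b).comp ψ.toMonoidHom)
  have fs : ∀ x, f (ψ.symm x) = F (up b x) := fun x => by simp [f]
  have e1 : f (-1) = F (dg b _ _ _ ht) := by
    change F (up b (ψ (-1))) = _
    simpa [psi_neg b h2 x2 ψ] using congrArg F (up_su b (-1) (by simp) (by simp))
  have e2 : F (rr b) * f (-1) * (F (rr b))⁻¹ = F (dg b _ _ _ (dg_rot b ht)) := by
    rw [e1, ← map_inv, ← map_mul, ← map_mul, rr_dg]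
  have T : Tri M f (F (rr b)) := ⟨fun g => hF ▸ ⟨_, rfl⟩, hF ▸ ⟨_, rfl⟩,
    fun e => h2 (by linear_combination dg_cen b (k (e1.symm.trans e))), by rw [e2, e1]; exact (dg_comm b).map F,
    by rw [← map_pow, rr_cube, map_one], rfl, by
      rw [e2, e1, ← map_inv, ← map_mul, ← map_mul, ← map_mul, rr_dg,
        dg_mul b (h'' := dg_rot b (dg_rot b ht)) (by simp) (by simp) (by simp)]⟩
  have gn := gen_F b (by omega) hF (T := Set.range f ∪ {F (rr b)})
    (fun g => Subgroup.subset_closure (.inl ⟨_, fs g⟩)) (.inr rfl)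
  obtain ⟨ζ, hζ⟩ := b.exists_primitive_norm_one
  by_cases d3 : 3 ∣ q + 1
  · obtain ⟨m, hm⟩ := d3
    have n3 : (3 : E) ≠ 0 := fun e => by
      have e3 := congrArg (Nat.cast : ℕ → E) hm
      push_cast at e3
      rw [b.cast_q, e, zero_mul, zero_add] at e3
      exact one_ne_zero e3
    have hw := hζ.pow (by omega) (hm.trans (mul_comm _ _))
    set w := ζ ^ m
    have w3 := hw.pow_eq_one
    have w1 : w ^ 2 + w + 1 = 0 := mul_left_cancel₀ (sub_ne_zero.2 (hw.ne_one (by norm_num))) (by linear_combination w3)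
    have wn : w * σ w = 1 := by rw [b.norm_eq, hm, pow_mul, w3, one_pow]
    have ws : σ w = w ^ 2 := by linear_combination w ^ 2 * wn - σ w * w3
    refine h.tri3 p c3 T gn (fun e => n3 ((cp 3).2 e)) (d := ψ.symm (su b w 0 (by simpa using wn))) (Subtype.ext ?_) ?_
    · rw [← hψ, ψ.apply_symm_apply, su_val, trace_fin_two_of, ws]
      simpa [add_comm, eq_neg_iff_add_eq_zero] using w1
    · rw [fs, up_su b w _ (by simp [wn])]
      simpa only [ws] using F.map_isConj (conj_rr b w1 ws n3 (by simp [wn, ← pow_succ', w3]))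
  have sy : ∀ {x y}, ψ x = y → ψ.symm y = x := fun e => by rw [← e, ψ.symm_apply_apply]
  refine h.tri p c3 T gn hs (H := (ψ.symm.toMonoidHom.comp (dU b)).range) ⟨fun L hL => gen_tr' x2 ?_ ?_ ?_ L hL, ?_⟩ ?_
  · rintro _ ⟨a, rfl⟩ _ ⟨c, rfl⟩
    rw [← map_mul, ← map_mul, mul_comm]
  · rintro _ ⟨a, rfl⟩ e
    have e3 := congrArg Subtype.val e
    rw [SubmonoidClass.coe_pow, ← hψ] at e3
    change (ψ (ψ.symm (dU b a))).1.1.trace ^ 2 = 4 at e3
    rw [ψ.apply_symm_apply, show (dU b a).1.1 = !![a.1.1, 0; -σ 0, σ a.1] from rfl, trace_fin_two_of] at e3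
    have i := mem_normOne.1 a.2
    have e4 : (a.1.1 - σ a.1) ^ 2 = 0 := by linear_combination e3 - 4 * i
    rw [← sub_eq_zero.1 (pow_eq_zero_iff two_ne_zero |>.1 e4)] at i
    refine (mul_self_eq_one_iff.1 i).imp (fun e5 => sy ?_) fun e5 => sy ?_
    · rw [map_one, show a = 1 from Subtype.ext (Units.ext e5), map_one]
    · rw [psi_neg b h2 x2]
      exact sux (by change _ = !![a.1.1, 0; -σ 0, σ a.1]; rw [e5, su_val])
  · rw [← Nat.card_congr (MonoidHom.ofInjective (f := ψ.symm.toMonoidHom.comp (dU b))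
      (ψ.symm.injective.comp (dU_injective b))).toEquiv, b.card_normOne, b.card_fixedField]
    omega
  · have z0 : ζ ≠ 0 := hζ.ne_zero (by omega)
    have z2 : ζ ^ 2 ≠ 1 := hζ.pow_ne_one_of_pos_of_lt (by norm_num) (by omega)
    refine ⟨_, ⟨⟨Units.mk0 ζ z0, mem_normOne.2 (by simpa [b.norm_eq] using hζ.pow_eq_one)⟩, rfl⟩, fun e => z2 ?_,
      fun e => z2 ?_⟩
    · have e3 : ζ = 1 := congrArg (fun g : SU 2 E q => g.1.1 0 0) (ψ.symm_apply_eq.1 e |>.trans ψ.map_one)
      rw [e3, one_pow]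
    · have e3 : ζ = -1 := congrArg (fun g : SU 2 E q => g.1.1 0 0) (ψ.symm_apply_eq.1 e |>.trans (psi_neg b h2 x2 ψ))
      rw [e3, neg_one_sq]
  · rintro _ ⟨l, rfl⟩
    obtain ⟨m, hm⟩ := exists_pow_eq_self_of_coprime (x := l) (n := 3) (((Nat.Prime.coprime_iff_not_dvd Nat.prime_three).2
      d3).coprime_dvd_right (b.card_normOne ▸ orderOf_dvd_natCard l))
    obtain ⟨a, rfl⟩ : ∃ a, l = a ^ 3 := ⟨l ^ m, by rw [← pow_mul, mul_comm, pow_mul, hm]⟩
    have i := mem_normOne.1 a.2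
    have hx : a.1.1 * a.1 * σ a.1 ^ 2 = 1 ∧ a.1.1 * σ a.1 = 1 ∧ a.1.1 * σ a.1 = 1 := ⟨by grind, i, i⟩
    refine Subgroup.subset_closure ⟨F (dg b _ _ _ hx), hF ▸ ⟨_, rfl⟩, by rw [e1]; exact (dg_comm b).map F,
      by rw [e2]; exact (dg_comm b).map F, (fs _).trans ?_⟩
    rw [← map_inv, ← map_inv, ← map_mul, ← map_mul, ← map_mul, eq_comm]
    refine congrArg F (mul_inv_eq_iff_eq_mul.2 (mul_inv_eq_iff_eq_mul.2 (sux ?_)))
    ext i j
    fin_cases i <;> fin_cases j <;>
      simp [mul_val, dg_val, rr_val, up_val, dU, su_val, mul_apply, Fin.sum_univ_three] <;> grind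

end U3

include p in
/-- `PSU 3 E q` uses an orthonormal basis (see `Cfsg.SU`); Lib.Unitary, Lib.U3.Model, Lib.Q5A.U3 have local data.
`q = 3` (any `p`): `Rep.u33` with `i² = -1` in `E = F₉`, `t = diag (1, -1, -1)`, `a = diag (1, i, -i)`, `z = diag (-1, i, i)`, `y ∈ 1 ⊕ SU₂(3)` of order three
normalising `Q₈ = ⟨a, 1 ⊕ [[0,1],[-1,0]]⟩`, `r` a permutation matrix; `split_of` (S2089); `⟨a, y, r⟩` contains the three `SU₂`.
`q > 3`, cross characteristic `r₀ ∣ q`: `r₀ ≥ 5`: `t1_ab` (Sylow subgroups are not abelian); `r₀ = 3`: `t1_pow` for the centre `A ≅ F_q⁺` of a Sylow subgroup, on which a torus acts as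
`F_qˣ`: `q - 1 ∣ 4` or `6`, false for `q ≥ 9`.  (This also gives `q ∈ {5, 7}` for `r₀ ≥ 5`.)
`q > 3`, defining characteristic: `E₀ = F_q` the fixed field, `SU₂ ≅ SL(2, E₀)`, `f : SL(2, E₀) → 1 ⊕ SU₂`, `r` a permutation matrix; the three `SU₂` generate `SU₃`
(library, or: they contain all transvections with centre in the coordinate planes; an irreducible group generated by transvection subgroups; or count the
orbit of `e₁` on the vectors of norm one, whose stabiliser `SU₂` is contained in the subgroup).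
`H` = preimage of `{diag (1, λ, λ⁻¹) | λ^(q+1) = 1}`, cyclic of order `q + 1`: `Big H` by `gen_tr'`.  `3 ∣ q + 1`: `Rep.tri3` (`diag (1, ω, ω²)` is conjugate to `r` in `SU₃`:
the eigenvectors `(1, ω^j, ω^2j)` are orthogonal of norm `3 ∈ F_qˣ`, a norm).  Otherwise `Rep.tri` as for `L₃(q)`. -/
theorem Rep.no_U3 (h : Rep M) {q : ℕ} (hq : Fintype.card E = q ^ 2) (ho : Odd q) (e : M ≃* PSU 3 E q) : False := by
  obtain ⟨σ, b⟩ := Unitary.exists_isBar hq
  have q2 : q ≠ 2 := fun e => by rw [e] at ho; exact absurd ho (by decide)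
  have hF : ((emb e).comp (QuotientGroup.mk' _)).range = M := by
    rw [MonoidHom.range_comp, QuotientGroup.range_mk', ← MonoidHom.range_eq_map, range_emb]
  have k : ((emb e).comp (QuotientGroup.mk' _)).ker ≤ Subgroup.center (SU 3 E q) := fun g hg =>
    (QuotientGroup.eq_one_iff g).1 (emb_injective e (hg.trans (map_one _).symm))
  have hs : Split M := split_of h.toPre e (by
      rw [commutator_def, ← QuotientGroup.range_mk', MonoidHom.range_eq_map, ← Subgroup.map_commutator, ← commutator_def,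
        Unitary.commutator_SU hq le_rfl fun h => q2 h.2])
    (Agent.S2089.result 3 q hq le_rfl (fun h => q2 h.2) (by simp))
    (Odd.of_dvd_nat (by decide) (Nat.gcd_dvd_left _ _))
  by_cases q3 : q = 3
  · subst q3
    exact U3.three h b hF k hs
  have h3 : 3 < q := by have := b.two_le; omega
  obtain ⟨r, f, hr, hc, -, e1⟩ := Unitary.exists_prime_pow_of_card hq
  by_cases n : (r : K) = 0
  · obtain rfl : p = r := (Nat.prime_dvd_prime_iff_eq Fact.out hr).1 ((CharP.cast_eq_zero_iff K p r).1 n)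
    exact U3.defn p h b h3 hF k hs
  · exact U3.cross h.toPre b ho h3 e hr e1 n

end Cfsg.Lib.O7
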