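import Cfsg.Agent.Lib.Pres.PhanBlk
import Cfsg.Agent.Lib.Unitary.Gram
import Cfsg.Agent.Lib.Unitary.Simple
import Cfsg.Agent.Lib.PSL2.SL

/-!
# Matrices in `SU₂` and `SU₃` (helper12, for `O7/U3`)
-/

set_option autoImplicit false

namespace Cfsg.Lib.O7.U3

open Matrix Cfsg.Lib.Unitary Cfsg.Lib.PSL2
open scoped MatrixGroups

variable {E : Type*} [Field E] {σ : E →+* E} {q n : ℕ}

theorem sux {x y : SU n E q} (h : x.1.1 = y.1.1) : x = y := Subtype.ext (Subtype.ext h)

theorem mul_val (x y : SU n E q) : (x * y).1.1 = x.1.1 * y.1.1 := rfl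

theorem one_val : (1 : SU n E q).1.1 = 1 := rfl

variable (b : IsBar q σ)

/-- an element of `SU` -/
def mkU (A : Matrix (Fin n) (Fin n) E) (hd : A.det = 1) (hu : (A.map σ)ᵀ * A = 1) : SU n E q :=
  ⟨⟨A, hd⟩, b.mem_SU_iff.2 hu⟩

include b in
theorem uni (g : SU n E q) (i j : Fin n) : ∑ k, σ (g.1.1 k i) * g.1.1 k j = if i = j then 1 else 0 := by
  have := congrFun (congrFun (b.mem_SU_iff.1 g.2) i) j
  simpa [mul_apply, one_apply] using this

/-- `B ↦ 1 ⊕ B` -/
def up : SU 2 E q →* SU 3 E q := MonoidHom.mk'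
  (fun x => mkU b !![1, 0, 0; 0, x.1.1 0 0, x.1.1 0 1; 0, x.1.1 1 0, x.1.1 1 1]
    (by simpa [det_fin_three] using sl_det x.1) (by
      have h := uni b x
      simp only [Fin.sum_univ_two] at h
      ext i j
      fin_cases i <;> fin_cases j <;> simp [mul_apply, Fin.sum_univ_three, h]))
  fun x y => sux (by
    refine Eq.trans ?_ (mul_val _ _).symm
    ext i j
    fin_cases i <;> fin_cases j <;> simp [mkU, mul_val, mul_apply, Fin.sum_univ_three])

theorem up_val (x : SU 2 E q) :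
    (up b x).1.1 = !![1, 0, 0; 0, x.1.1 0 0, x.1.1 0 1; 0, x.1.1 1 0, x.1.1 1 1] := rfl

/-- the permutation matrix -/
def rr : SU 3 E q := mkU b !![0, 1, 0; 0, 0, 1; 1, 0, 0] (by simp [det_fin_three]) (by
  ext i j
  fin_cases i <;> fin_cases j <;> simp [mul_apply, Fin.sum_univ_three])

theorem rr_val : (rr b).1.1 = !![0, 1, 0; 0, 0, 1; 1, 0, 0] := rfl

theorem rr_cube : rr b ^ 3 = 1 := sux (by
  rw [pow_succ, pow_two]
  ext i j
  fin_cases i <;> fin_cases j <;> simp [mul_val, one_val, rr_val, mul_apply, Fin.sum_univ_three])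

/-- diagonal elements -/
def dg (x y z : E) (h : x * y * z = 1 ∧ x * σ x = 1 ∧ y * σ y = 1) : SU 3 E q :=
  mkU b !![x, 0, 0; 0, y, 0; 0, 0, z] (by simp [det_fin_three, h.1]) (by
    have h4 : σ z * z = 1 := by
      have := congrArg σ h.1
      rw [map_mul, map_mul, map_one] at this
      linear_combination (-σ z * z * y * σ y) * h.2.1 - σ z * z * h.2.2 + σ x * σ y * σ z * h.1 + this
    ext i j
    fin_cases i <;> fin_cases j <;> simp [mul_apply, Fin.sum_univ_three, h4, mul_comm (σ x), mul_comm (σ y), h.2])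

theorem dg_val (x y z : E) (h : x * y * z = 1 ∧ x * σ x = 1 ∧ y * σ y = 1) :
    (dg b x y z h).1.1 = !![x, 0, 0; 0, y, 0; 0, 0, z] := rfl

/-- `[[x, y], [-ȳ, x̄]]` -/
def su (x y : E) (h : x * σ x + y * σ y = 1) : SU 2 E q :=
  mkU b !![x, y; -σ y, σ x] (by rw [det_fin_two_of]; linear_combination h) (by
    ext i j
    fin_cases i <;> fin_cases j <;> simp [mul_apply, b.invol] <;> first | ring1 | linear_combination h)

theorem su_val (x y : E) (h : x * σ x + y * σ y = 1) : (su b x y h).1.1 = !![x, y; -σ y, σ x] := rfl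

theorem exists_su (g : SU 2 E q) : ∃ x y h, g = su b x y h := by
  have h := uni b g
  simp only [Fin.sum_univ_two] at h
  have d := sl_det g.1
  have h0 := h 0 0
  have h1 := h 0 1
  have h2 := h 1 0
  have h3 := h 1 1
  simp only [if_true, zero_ne_one, one_ne_zero, if_false] at h0 h1 h2 h3
  have e1 : g.1.1 1 1 = σ (g.1.1 0 0) := by linear_combination -g.1.1 1 1 * h0 + g.1.1 1 0 * h1 + σ (g.1.1 0 0) * d
  have e2 : g.1.1 1 0 = -σ (g.1.1 0 1) := by linear_combination g.1.1 1 1 * h2 - g.1.1 1 0 * h3 - σ (g.1.1 0 1) * d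
  refine ⟨g.1.1 0 0, g.1.1 0 1, by linear_combination d - g.1.1 0 0 * e1 + g.1.1 0 1 * e2, sux ?_⟩
  ext i j
  fin_cases i <;> fin_cases j <;> simp [su_val, e1, e2]

theorem mem_up {g : SU 3 E q} (h : g.1.1 *ᵥ Pi.single 0 1 = Pi.single 0 1) : g ∈ (up b).range := by
  have c : ∀ i, g.1.1 i 0 = (Pi.single 0 1 : Fin 3 → E) i := fun i => by simpa using congrFun h i
  have c0 : g.1.1 0 0 = 1 := c 0
  have c1 : g.1.1 1 0 = 0 := c 1
  have c2 : g.1.1 2 0 = 0 := c 2
  have u := uni b g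
  simp only [Fin.sum_univ_three] at u
  have r1 : g.1.1 0 1 = 0 := by simpa [c0, c1, c2] using u 0 1
  have r2 : g.1.1 0 2 = 0 := by simpa [c0, c1, c2] using u 0 2
  refine ⟨mkU b !![g.1.1 1 1, g.1.1 1 2; g.1.1 2 1, g.1.1 2 2] ?_ ?_, sux ?_⟩
  · have d : g.1.1.det = 1 := g.1.2
    rw [det_fin_three] at d
    simpa [c0, c1, c2, r1, r2] using d
  · ext i j
    fin_cases i <;> fin_cases j
    · simpa [mul_apply, r1] using u 1 1
    · simpa [mul_apply, r1] using u 1 2
    · simpa [mul_apply, r2] using u 2 1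
    · simpa [mul_apply, r2] using u 2 2
  · ext i j
    fin_cases i <;> fin_cases j <;> simp [up_val, mkU, c0, c1, c2, r1, r2]

theorem gen (hq : q ≠ 2) {M : Subgroup (SU 3 E q)} (h1 : (up b).range ≤ M) (h2 : rr b ∈ M) (g : SU 3 E q) : g ∈ M := by
  have := Pres.gen_core b.isHerm b (V := Fin 3 → E) (by simp) (fun h => hq h.2) (o := Pi.single 0 1) (w := Pi.single 1 1)
    (fun i j => by fin_cases i <;> fin_cases j <;> simp [stdForm_single_left])
    (M := M.comap (b.suEquiv 3).symm.toMonoidHom) (fun g hg => h1 (mem_up b ((b.suEquiv_symm_mulVec g _).trans hg)))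
    (fun u hu => ?_) (b.suEquiv 3 g)
  · simpa using this
  have e := (b.suEquiv_symm_mulVec u _).trans (hu (Pi.single 2 1) (by simp [stdForm_single_left])
    (by simp [stdForm_single_left]))
  have r0 : (rr b).1.1 *ᵥ Pi.single 0 1 = Pi.single 2 1 := by
    ext i; fin_cases i <;> simp [rr_val]
  have r1 : ((rr b)⁻¹ * rr b).1.1 = 1 := by rw [inv_mul_cancel]; rfl
  have m : (rr b)⁻¹ * (b.suEquiv 3).symm u * rr b ∈ M := h1 (mem_up b (by
    rw [mul_val, mul_val, ← mulVec_mulVec, ← mulVec_mulVec, r0, e, ← r0, mulVec_mulVec, ← mul_val, r1, one_mulVec]))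
  exact (M.mul_mem_cancel_left (inv_mem h2)).1 ((M.mul_mem_cancel_right h2).1 m)

include b in
theorem exists_psi [Fintype E] (h2 : (2 : E) ≠ 0) :
    ∃ ψ : SL(2, fixedField σ) ≃* SU 2 E q, ∀ s, (ψ s).1.1.trace = (s.1.trace : fixedField σ) := by
  obtain ⟨δ, d0, hd⟩ := b.exists_skew
  obtain ⟨l, hl⟩ := b.exists_norm_eq (μ := -1) (by simp)
  have l0 : l ≠ 0 := fun e => by simp [e] at hl
  have hP : (!![1, δ / 2; l, -l * δ / 2] : Matrix (Fin 2) (Fin 2) E).det ≠ 0 := by
    rw [det_fin_two_of, show 1 * (-l * δ / 2) - δ / 2 * l = -(l * δ) by field_simp; ring]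
    exact neg_ne_zero.2 (mul_ne_zero l0 d0)
  set P := GeneralLinearGroup.mkOfDetNeZero _ hP
  have hJ : (P.1.map σ)ᵀ * P.1 = !![0, δ; -δ, 0] := by
    have s2 : σ 2 = 2 := map_ofNat σ 2
    ext i j
    fin_cases i <;> fin_cases j <;> simp [P, mul_apply, hd, s2] <;> field_simp
    · linear_combination hl
    · linear_combination -hl
    · linear_combination hl
    · linear_combination -δ ^ 2 * hl
  have uP : IsUnit (P.1.map σ)ᵀ := by
    rw [isUnit_iff_isUnit_det, det_transpose, ← RingHom.mapMatrix_apply, ← RingHom.map_det]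
    exact ((map_ne_zero σ).2 hP).isUnit
  have mem : ∀ s, slConj (fixedField σ).subtype P s ∈ SU 2 E q := fun s => by
    have h1 := mem_mSU.1 ((mem_mSU_two (σ := σ) d0 (g := SpecialLinearGroup.map (fixedField σ).subtype s)).2
      fun i j => (s i j).2)
    rw [b.mem_SU_iff]
    have e : (slConj (fixedField σ).subtype P s).1 * P.1 = P.1 * (SpecialLinearGroup.map (fixedField σ).subtype s).1 :=
      Units.inv_mul_cancel_right _ _
    refine uP.mul_left_cancel (P.isUnit.mul_right_cancel ?_)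
    rw [← mul_assoc, mul_assoc, e, ← transpose_mul, ← Matrix.map_mul, e, Matrix.map_mul, transpose_mul, mul_one, hJ,
      ← mul_assoc, mul_assoc _ _ P.1, hJ, h1]
  obtain ⟨e⟩ := nonempty_SU_two_equiv (F := E) (by rw [← b.card, Nat.card_eq_fintype_card]) b.card_fixedField
  exact ⟨MulEquiv.ofBijective ((slConj (fixedField σ).subtype P).codRestrict _ mem)
    (Function.Injective.bijective_of_nat_card_le
      (fun s t h => slConj_injective _ P (congrArg Subtype.val h)) (Nat.card_congr e.toEquiv).le),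
    fun s => trace_slConj _ P s⟩

/-- `diag (1, ω, ω²)` is conjugate to the permutation matrix -/
theorem conj_rr {w : E} (hw : w ^ 2 + w + 1 = 0) (hs : σ w = w ^ 2) (h3 : (3 : E) ≠ 0)
    (h : 1 * w * w ^ 2 = 1 ∧ 1 * σ 1 = 1 ∧ w * σ w = 1) : IsConj (dg b 1 w (w ^ 2) h) (rr b) := by
  obtain ⟨c, hc⟩ := b.exists_norm_eq (μ := 3⁻¹) (by rw [map_inv₀, map_ofNat])
  have hc' : 3 * (c * σ c) = 1 := by rw [hc, mul_inv_cancel₀ h3]
  have w3 : w ^ 3 = 1 := by linear_combination (w - 1) * hw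
  set C : Matrix (Fin 3) (Fin 3) E := !![c, c, c; c, c * w, c * w ^ 2; c, c * w ^ 2, c * w] with hC
  have u : (C.map σ)ᵀ * C = 1 := by
    ext i j
    fin_cases i <;> fin_cases j <;> simp [hC, mul_apply, Fin.sum_univ_three, hs] <;> grind
  have d : C.det * σ C.det = 1 := by
    have := congrArg det u
    rwa [det_mul, det_transpose, ← RingHom.mapMatrix_apply, ← RingHom.map_det, det_one, mul_comm] at this
  set D : Matrix (Fin 3) (Fin 3) E := !![σ C.det, 0, 0; 0, 1, 0; 0, 0, 1] with hD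
  refine isConj_iff.2 ⟨mkU b (C * D) (by rw [det_mul, hD]; simp [det_fin_three (A := !![_, _, _; _, _, _; _, _, _]), d])
    ?_, mul_inv_eq_iff_eq_mul.2 (sux ?_)⟩
  · rw [Matrix.map_mul, transpose_mul, mul_assoc, ← mul_assoc _ C, u, one_mul]
    ext i j
    fin_cases i <;> fin_cases j <;> simp [hD, mul_apply, Fin.sum_univ_three, b.invol, d]
  · change C * D * _ = _ * (C * D)
    generalize σ C.det = s at hD
    ext i j
    fin_cases i <;> fin_cases j <;> simp [hD, hC, dg_val, rr_val, mul_apply, Fin.sum_univ_three] <;> grind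

end Cfsg.Lib.O7.U3
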