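import Cfsg.Agent.Lib.O7.Tri
import Cfsg.Agent.Lib.Pres.PhanBlk
import Cfsg.Agent.Lib.Unitary.SmallField
import Cfsg.Agent.Lib.Unitary.Gram

/-!
# `U₄(q)`, `U₅(q)`, `q` odd (`docs/O7.md`)
-/

set_option autoImplicit false

namespace Cfsg.Lib.O7

open QuadraticMap Module Matrix Cfsg.Lib.Orth
open scoped MatrixGroups

namespace U4

open Cfsg.Lib.Unitary Cfsg.Lib.Pres

variable {K : Type*} [Field K] {M : Subgroup (O (Q K))}

/-- A matrix over `F₉` from its code. -/
def mx (n : ℕ) : Matrix (Fin 4) (Fin 4) K9 := of fun i j => TF.of (n / 9 ^ (4 * i.1 + j.1))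

/-- An element of `SU₄(3)` from its code. -/
def su (n : ℕ) (h : (mx n).det = 1 ∧ ((mx n).map (· ^ 3))ᵀ * mx n = 1) : SU 4 K9 3 := ⟨⟨mx n, h.1⟩, by
  obtain ⟨σ, hσ⟩ := exists_isBar (q := 3) (F := K9) card_K9
  exact hσ.mem_SU_iff.2 (by rw [show ⇑σ = (· ^ 3) from funext hσ.eq]; exact h.2)⟩

/-- The real Pauli matrices. -/
def cL : Fin 16 → ℕ := ![205894618938100, 22908173521140, 411785751091798, 22939554580758, 2541913658100, 282817489140,
  5083784269398, 283204910358, 411789237817150, 45816347035710, 205898105781550, 45784965976110, 2541918441150, 282818021310,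
  5083779486510, 283205441070]

/-- Conjugating elements. -/
def gL : Fin 16 → ℕ := ![205894618938100, 205894618938100, 1313404548730926, 1047263046677702, 1388907392496900,
  1667478294500120, 463103345248278, 5094201575802, 21645978819118, 1235357252980147, 1830296815199288, 1235350279529443,
  473703196399318, 1049815358510326, 462940827493686, 7636086536007]

/-- The Pauli matrices as elements of `SU₄(3)`. -/
def ψ (i : Fin 16) : SU 4 K9 3 := su (cL i) (by revert i; decide +kernel)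

/-- The conjugating elements as elements of `SU₄(3)`. -/
def χ (i : Fin 16) : SU 4 K9 3 := su (gL i) (by revert i; decide +kernel)

theorem eq_iff {E X : Type*} [Field E] [Fintype E] [Group X] {q : ℕ} (hq : Fintype.card E = q ^ 2) {F : SU 4 E q →* X}
    (k : F.ker = Subgroup.center _) {a b : SU 4 E q} : F a = F b ↔ ∃ s : E, a.1.1 = s • b.1.1 := by
  rw [← mul_inv_eq_one, ← map_inv, ← map_mul, ← MonoidHom.mem_ker, k, mem_center_SU hq (by norm_num)]
  have e : a.1.1 = (a * b⁻¹).1.1 * b.1.1 := congrArg (fun x : SU 4 E q => x.1.1) (inv_mul_cancel_right a b).symm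
  have e' : b.1.1 * (b⁻¹).1.1 = 1 := congrArg (fun x : SU 4 E q => x.1.1) (mul_inv_cancel b)
  exact exists_congr fun s => ⟨fun c => by rw [e, c, Matrix.smul_mul, one_mul],
    fun c => show a.1.1 * (b⁻¹).1.1 = _ by rw [c, Matrix.smul_mul, e']⟩

theorem no3 (h : Pre M) (F : SU 4 K9 3 →* O (Q K)) (hF : ∀ g, F g ∈ M) (k : F.ker = Subgroup.center _) : False := by
  have k1 : ∀ {a b}, F a = F b ↔ _ := eq_iff card_K9 k
  have z : F (ψ 0) = 1 := by rw [show ψ 0 = 1 from Subtype.ext (Subtype.ext (show mx _ = 1 by decide +kernel)), map_one]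
  have sq : ∀ i, F (ψ i) * F (ψ i) = 1 := fun i => by
    rw [← map_mul, ← z, k1]
    exact ((by decide +kernel : ∀ i, mx (cL i) * mx (cL i) = (1 : K9) • mx (cL 0) ∨
      mx (cL i) * mx (cL i) = (-1 : K9) • mx (cL 0)) i).elim (fun e => ⟨_, e⟩) fun e => ⟨_, e⟩
  let A : Subgroup (O (Q K)) :=
    { carrier := Set.range fun i => F (ψ i)
      one_mem' := ⟨0, z⟩
      mul_mem' := by
        rintro _ _ ⟨i, rfl⟩ ⟨j, rfl⟩
        refine ((by decide +kernel : ∀ i j : Fin 16, ∃ l, l.1 = i.1 ^^^ j.1 ∧ (mx (cL l) = (1 : K9) • (mx (cL i) * mx (cL j)) ∨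
          mx (cL l) = (-1 : K9) • (mx (cL i) * mx (cL j)))) i j).imp fun l e => ?_
        rw [← map_mul]
        exact k1.2 (e.2.elim (fun e => ⟨_, e⟩) fun e => ⟨_, e⟩)
      inv_mem' := by
        rintro _ ⟨i, rfl⟩
        exact ⟨i, (inv_eq_of_mul_eq_one_left (sq i)).symm⟩ }
  let e : Fin 16 ≃ A := Equiv.ofInjective _ fun i j e =>
    (by decide +kernel : ∀ i j, (∃ s : K9, mx (cL i) = s • mx (cL j)) → i = j) i j (k1.1 e)
  have c : ∀ i, F (ψ i) ≠ 1 → dm (F (ψ i)) = dm (F (ψ 1)) := fun i n => (dm_of_isConj (isConj_iff.2 ⟨F (χ i), by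
    rw [mul_inv_eq_iff_eq_mul, ← map_mul, ← map_mul, k1]
    exact (by decide +kernel : ∀ i, i ≠ 0 → ∃ s : K9, mx (gL i) * mx (cL 1) = s • (mx (cL i) * mx (gL i))) i
      fun e => n (e ▸ z)⟩)).symm
  refine h.no16 (E := A) ?_ ?_ (by rw [← Nat.card_congr e, Nat.card_fin]) ?_
  · rintro _ ⟨i, rfl⟩; exact hF _
  · rintro _ ⟨i, rfl⟩; exact sq i
  · rintro _ ⟨i, rfl⟩ _ ⟨j, rfl⟩ a b
    exact (c i a).trans (c j b).symm

variable {E V : Type*} [Field E] [Fintype E] [AddCommGroup V] [Module E V] [FiniteDimensional E V] {σ : E →+* E}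
  {B : V →ₛₗ[σ] V →ₗ[E] E} {q : ℕ} {e : Fin 4 → V} {S T : Set (Fin 4)} {t t' n : SUG B}

omit [Fintype E] in
theorem conj_eq (hB : IsHerm σ B) (he : Pres.IsON B e) (hd : finrank E V = Fintype.card (Fin 4)) (F : SUG B →* O (Q K)) (nn : n * n = 1)
    (n1 : ∀ i ∈ S, ∃ j ∈ T, n • e i = e j) (n2 : ∀ i ∈ T, ∃ j ∈ S, n • e i = e j) :
    (Blk B e T).map F = ((Blk B e S).map F).map (MulAut.conj (F n)).toMonoidHom := by
  have c : ∀ {S T : Set (Fin 4)}, (∀ i ∈ S, ∃ j ∈ T, n • e i = e j) → ∀ g ∈ Blk B e S, n * g * n⁻¹ ∈ Blk B e T := fun hb g hg i hi => by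
    rw [mul_smul, mul_smul, Blk_fix hB he hd hg fun l hl => ?_, smul_inv_smul]
    obtain ⟨j, hj, k⟩ := hb l hl
    rw [← sug_map n, k, smul_inv_smul, he, if_neg (by rintro rfl; exact hi hj)]
  apply le_antisymm
  · rintro _ ⟨g, m, rfl⟩
    refine ⟨_, ⟨_, c n2 g m, rfl⟩, ?_⟩
    change F n * _ * (F n)⁻¹ = _
    rw [← map_inv, ← map_mul, ← map_mul, inv_eq_of_mul_eq_one_left nn, ← mul_assoc, ← mul_assoc, nn, one_mul, mul_assoc, nn, mul_one]
  · rintro _ ⟨_, ⟨g, m, rfl⟩, rfl⟩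
    exact ⟨_, c n1 g m, by simp⟩

theorem swap [IsAlgClosed K] (h : Pre M) (hσ : IsBar q σ) (hq : Fintype.card E = q ^ 2) (h3 : 3 < q) (hB : IsHerm σ B) (he : Pres.IsON B e)
    (hd : finrank E V = Fintype.card (Fin 4)) (F : SUG B →* O (Q K)) (hF : ∀ g, F g ∈ M) (hS : S.ncard = 2) (ht : t ∈ Blk B e S)
    (ht' : t' ∈ Blk B e Sᶜ) (tt : F t = F t') (t1 : F t ≠ 1) (t2 : F t * F t = 1) (nn : n * n = 1) (nt : n * t = t' * n)
    (n1 : ∀ i ∈ S, ∃ j ∈ Sᶜ, n • e i = e j) (n2 : ∀ i ∈ Sᶜ, ∃ j ∈ S, n • e i = e j) :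
    dm (F t) = 4 ∧ O.fix (F t) ≤ Fix ((Blk B e S).map F) ∧ O.fix (F t) ≤ Fix ((Blk B e Sᶜ).map F) := by
  obtain ⟨f⟩ := nonempty_Blk_equiv hB he hd hσ hS
  obtain ⟨g⟩ := nonempty_SU_two_equiv hq hσ.card_fixedField
  have p := tri_range (hσ.card_fixedField.symm ▸ h3) (F.comp ((Blk B e S).subtype.comp (f.trans g).symm.toMonoidHom))
  rw [MonoidHom.range_comp, MonoidHom.range_comp, MonoidHom.range_eq_top.2 (f.trans g).symm.surjective, ← MonoidHom.range_eq_map,
    Subgroup.range_subtype] at p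
  refine h.swap_fix (n := F n) (hF t) t2 t1 p ⟨t, ht, rfl⟩ ?_ ?_ (conj_eq hB he hd F nn n1 n2) (conj_eq hB he hd F nn n2 n1) ?_
  · rintro _ ⟨x, m, rfl⟩
    exact tt ▸ (Blk_commute hB he hd disjoint_compl_right m ht').map F
  · rw [Commute, SemiconjBy, ← map_mul, nt, map_mul, tt]
  · rintro _ ⟨x, m, rfl⟩ _ ⟨y, m', rfl⟩
    exact (Blk_commute hB he hd disjoint_compl_right m m').map F

omit [Fintype E] in
theorem ex (hσ : IsBar q σ) (A : Matrix (Fin 4) (Fin 4) ℤ) (h : Aᵀ * A = 1 ∧ A.det = 1) :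
    ∃ g : SU 4 E q, g.1.1 = A.map (Int.castRingHom E) :=
  ⟨⟨⟨A.map (Int.castRingHom E), by rw [← RingHom.mapMatrix_apply, ← RingHom.map_det, h.2, map_one]⟩, hσ.mem_SU_iff.2 (by
    change ((A.map _).map σ)ᵀ * A.map _ = 1
    rw [Matrix.map_map, show ⇑σ ∘ ⇑(Int.castRingHom E) = Int.castRingHom E from funext fun x => by simp, ← transpose_map,
      ← Matrix.map_mul, h.1, Matrix.map_one _ (map_zero _) (map_one _)])⟩, rfl⟩

omit [Fintype E] in
theorem ex5 (hσ : IsBar q σ) (A : Matrix (Fin 5) (Fin 5) ℤ) (h : Aᵀ * A = 1 ∧ A.det = 1) :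
    ∃ g : SU 5 E q, g.1.1 = A.map (Int.castRingHom E) :=
  ⟨⟨⟨A.map (Int.castRingHom E), by rw [← RingHom.mapMatrix_apply, ← RingHom.map_det, h.2, map_one]⟩, hσ.mem_SU_iff.2 (by
    change ((A.map _).map σ)ᵀ * A.map _ = 1
    rw [Matrix.map_map, show ⇑σ ∘ ⇑(Int.castRingHom E) = Int.castRingHom E from funext fun x => by simp, ← transpose_map,
      ← Matrix.map_mul, h.1, Matrix.map_one _ (map_zero _) (map_one _)])⟩, rfl⟩

theorem q8 {k : Type*} [Field k] [Finite k] : ∃ a b : SL(2, k), a * a = -1 ∧ b * b = -1 ∧ a * b * (a * b) = -1 := by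
  obtain ⟨p, hp⟩ := CharP.exists k
  have := Fintype.ofFinite k
  have : NeZero p := ⟨(CharP.char_is_prime k p).ne_zero⟩
  obtain ⟨x, y, e⟩ := CharP.sq_add_sq k p (-1)
  push_cast at e
  refine ⟨wS k, ⟨!![x, y; y, -x], by rw [det_fin_two_of]; linear_combination -e⟩, wS_sq, Subtype.ext ?_, Subtype.ext ?_⟩
  · change !![(x : k), y; y, -x] * !![(x : k), y; y, -x] = -1
    ext i j
    fin_cases i <;> fin_cases j <;> simp <;> first | linear_combination e | ring
  · change !![(0 : k), 1; -1, 0] * !![(x : k), y; y, -x] * (!![(0 : k), 1; -1, 0] * !![(x : k), y; y, -x]) = -1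
    ext i j
    fin_cases i <;> fin_cases j <;> simp <;> first | linear_combination e | ring

/-- The even subsets. -/
abbrev Ev5 : Type := {S : Finset (Fin 5) // Even S.card}

/-- The diagonal matrix of a subset. -/
def dg (S : Finset (Fin 5)) : Matrix (Fin 5) (Fin 5) ℤ := diagonal fun i => if i ∈ S then -1 else 1

theorem no5 (h : Pre M) {G : Type*} [Group G] (F : G →* O (Q K)) (hF : ∀ g, F g ∈ M) (d : Ev5 → G)
    (mul : ∀ S T U : Ev5, dg U.1 = dg S.1 * dg T.1 → d U = d S * d T) (inj : ∀ S, F (d S) = 1 → S.1 = ∅)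
    (q : ∀ S : Ev5, S.1.card = 2 → ∃ a b, a * a = d S ∧ b * b = d S ∧ a * b * (a * b) = d S)
    (c : ∀ S T : Ev5, S.1.card = 4 → T.1.card = 4 → IsConj (d S) (d T)) : False := by
  let o : Ev5 := ⟨∅, by decide⟩
  have z : d o = 1 := left_eq_mul.1 (mul o o o (by decide +kernel)) 
  have sq : ∀ S, F (d S) * F (d S) = 1 := fun S => by
    rw [← map_mul, ← mul S S o (by revert S; decide +kernel), z, map_one]
  have ex := (by decide +kernel : ∀ S T : Ev5, ∃ U : Ev5, dg U.1 = dg S.1 * dg T.1 ∧ (U.1 = ∅ → S = T))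
  let A : Subgroup (O (Q K)) :=
    { carrier := Set.range fun i => F (d i)
      one_mem' := ⟨o, by simp [z]⟩
      mul_mem' := by
        rintro _ _ ⟨i, rfl⟩ ⟨j, rfl⟩
        exact (ex i j).imp fun l e => by rw [← map_mul, ← mul _ _ _ e.1]
      inv_mem' := by
        rintro _ ⟨i, rfl⟩
        exact ⟨i, (inv_eq_of_mul_eq_one_left (sq i)).symm⟩ }
  have hi : Function.Injective fun i => F (d i) := fun i j e => (ex i j).elim fun l k => k.2 (inj _ (by
    rw [mul _ _ _ k.1, map_mul, show F (d i) = F (d j) from e, sq]))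
  have ne : ∀ S : Ev5, S.1 ≠ ∅ → F (d S) ≠ 1 := fun S n e => n (inj S e)
  let T : Ev5 := ⟨{0, 1, 2, 3}, by decide⟩
  have := h.count16 (E := A) (by rintro _ ⟨i, rfl⟩; exact hF _) (by rintro _ ⟨i, rfl⟩; exact sq i)
    ((Nat.card_congr (Equiv.ofInjective _ hi)).symm.trans (by rw [Nat.card_eq_fintype_card]; decide +kernel))
    (S := (fun i => F (d i)) '' (Finset.univ.filter fun S : Ev5 => S.1.card = 2 :)) (Set.image_subset_range ..) (by
      rintro ⟨S, m, e⟩
      simp [inj S e] at m) (n := 10) (a := 4) (b := dm (F (d T)))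
    (by rw [Set.ncard_image_of_injective _ hi, Set.ncard_coe_finset]; decide +kernel) (by
      rintro _ ⟨S, m, rfl⟩
      replace m : S.1.card = 2 := by simpa using m
      obtain ⟨a, b, e₁, e₂, e₃⟩ := q S m
      exact h.dm_of_q8 (a := F a) (b := F b) (hF _) (sq S) (ne S fun e => by simp [e] at m) (by rw [← map_mul, e₁])
        (by rw [← map_mul, e₂]) (by rw [← map_mul, ← map_mul, e₃])) (by
      rintro _ ⟨S, rfl⟩ n m
      exact dm_of_isConj (F.map_isConj (c S T ((by decide +kernel : ∀ S : Ev5, S = o ∨ S.1.card = 2 ∨ S.1.card = 4) S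
        |>.resolve_left (fun e => n (by simp [e, z])) |>.resolve_left fun e => m ⟨S, by simpa using e, rfl⟩) rfl)))
  have := h.dm_inv (hF _) (sq T) (ne T (by decide))
  omega

end U4

open U4 Cfsg.Lib.Unitary Cfsg.Lib.Pres

variable {K : Type*} [Field K] [IsAlgClosed K] {M : Subgroup (O (Q K))}
  {E : Type*} [Field E] [Fintype E]

/-- `q > 3`: as `Rep.no_L4` with the groups `SU₂ ≅ SL₂(q)` (perfect) on pairs of orthonormal basis vectors; `SU₁₂, SU₃₄, SU₁₃, SU₂₄` generate `SU₄(q)`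
(`SU₁₂, SU₁₃` generate `SU₃` on `e₁, e₂, e₃` as in `no_U3`; then orbits on vectors of norm one).
`q ≡ 3` mod 4, in particular `q = 3`: `i ∈ E` has norm one; the Pauli group `4 ∘ 2^{1+4}` (tensor products of `X`, `Z`, `i X Z`) lies in `GU₄(q)`, its image is an `E₁₆ ≤ U₄(q)` (all `P ⊗ P'` have determinant one), each of whose involutions is the centre of a `Q₈`
or conjugate to `diag (-1,-1,1,1)` (eigenspaces non-degenerate of dimension two; or S-statements on the classes of `U₄(3)`; Lib.Q5H has such data): `Pre.no16`. -/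
theorem Rep.no_U4 (h : Rep M) {q : ℕ} (hq : Fintype.card E = q ^ 2) (ho : Odd q) (e : M ≃* PSU 4 E q) : False := by
  have k : ((emb e).comp (QuotientGroup.mk' _)).ker = Subgroup.center _ := by
    rw [← MonoidHom.comap_ker, (MonoidHom.ker_eq_bot_iff _).2 (emb_injective e), MonoidHom.comap_bot, QuotientGroup.ker_mk']
  obtain ⟨σ, hσ⟩ := exists_isBar hq
  by_cases h3 : q = 3
  · subst h3
    obtain ⟨c⟩ := nonempty_psu_congr hq card_K9 4
    exact no3 h.toPre ((emb (e.trans c)).comp (QuotientGroup.mk' _)) (fun _ => emb_mem _ _) (by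
      rw [← MonoidHom.comap_ker, (MonoidHom.ker_eq_bot_iff _).2 (emb_injective _), MonoidHom.comap_bot, QuotientGroup.ker_mk'])
  replace h3 : 3 < q := by
    have := hσ.two_le
    obtain ⟨n, hn⟩ := ho
    omega
  have h2 : (2 : E) ≠ 0 := fun z => by
    obtain ⟨n, hn⟩ := ho
    have := hσ.cast_q
    rw [hn] at this
    push_cast at this
    exact one_ne_zero (α := E) (by linear_combination this - n * z)
  set G := (emb e).comp (QuotientGroup.mk' (Subgroup.center (SU 4 E q)))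
  have hG : ∀ g, G g ∈ M := fun _ => emb_mem e _
  have k1 : ∀ {a b}, G a = G b ↔ _ := eq_iff hq k
  let φ := hσ.suEquiv 4
  let F := G.comp φ.symm.toMonoidHom
  have eF : ∀ g, F (φ g) = G g := fun g => congrArg G (φ.symm_apply_apply g)
  have he : Pres.IsON (stdForm σ (Fin 4)) fun i => Pi.single i 1 := fun i j => by simp [stdForm_single_left, Pi.single_apply]
  have hd : finrank E (Fin 4 → E) = Fintype.card (Fin 4) := by simp
  have ap : ∀ g i, φ g • (Pi.single i 1 : Fin 4 → E) = g.1.1 *ᵥ Pi.single i 1 := fun g i => hσ.suEquiv_apply g _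
  obtain ⟨n, en⟩ := ex hσ !![0, 0, 0, 1; 0, 0, 1, 0; 0, 1, 0, 0; 1, 0, 0, 0] (by decide +kernel)
  have ni : ∀ i, φ n • (Pi.single i 1 : Fin 4 → E) = Pi.single i.rev 1 := fun i => by
    rw [ap, en]
    ext j
    fin_cases i <;> fin_cases j <;> simp
  have key : ∀ (S : Finset (Fin 4)), S.card = 2 → (∀ i, i ∈ S ↔ i.rev ∉ S) → 0 ∈ S → ∃ t : SU 4 E q,
      t.1.1 = (diagonal fun i => if i ∈ S then (-1 : ℤ) else 1).map (Int.castRingHom E) ∧ G t * G t = 1 ∧ dm (G t) = 4 ∧
      O.fix (G t) ≤ Fix ((Blk _ (fun i => Pi.single i 1) (S : Set (Fin 4))).map F) ∧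
      O.fix (G t) ≤ Fix ((Blk _ (fun i => Pi.single i 1) (S : Set (Fin 4))ᶜ).map F) := fun S c r z => by
    obtain ⟨t, et⟩ := ex hσ (diagonal fun i => if i ∈ S then (-1 : ℤ) else 1) (by revert S; decide +kernel)
    obtain ⟨t', et'⟩ := ex hσ (diagonal fun i => if i ∈ S then (1 : ℤ) else -1) (by clear et; revert S; decide +kernel)
    have t2 : G t * G t = 1 := by
      rw [← map_mul, ← map_one G, k1]
      refine ⟨1, show t.1.1 * t.1.1 = (1 : E) • 1 from ?_⟩
      rw [et, ← Matrix.map_mul, diagonal_mul_diagonal, one_smul, ← Matrix.map_one (Int.castRingHom E) (map_zero _) (map_one _)]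
      congr 2
      ext i
      split_ifs <;> rfl
    refine ⟨t, et, t2, ?_⟩
    rw [← eF]
    refine swap (t' := φ t') (n := φ n) h.toPre hσ hq h3 hσ.isHerm he hd F (fun _ => hG _) (by simpa using c) (fun i hi => ?_)
      (fun i hi => ?_) ?_ (fun a => ?_) (by rwa [eF]) ?_ ?_ (fun i hi => ⟨i.rev, by simpa using (r i).1 hi, ni i⟩)
      fun i hi => ⟨i.rev, by simpa [r i] using hi, ni i⟩
    · rw [ap, et, diagonal_map (map_zero _), diagonal_mulVec_single, if_neg (by simpa using hi), map_one, mul_one]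
    · rw [ap, et', diagonal_map (map_zero _), diagonal_mulVec_single, if_pos (by simpa using hi), map_one, mul_one]
    · rw [eF, eF, k1]
      refine ⟨-1, ?_⟩
      rw [et, et']
      ext i j
      by_cases a : i = j <;> by_cases b : j ∈ S <;> simp [a, b]
    · rw [eF, ← map_one G, k1] at a
      obtain ⟨s, a⟩ := a
      have a0 := congrFun₂ (et.symm.trans a) 0 0
      have a3 := congrFun₂ (et.symm.trans a) 3 3
      simp [z, show 3 ∉ S from (r 0).1 z] at a0 a3
      exact h2 (by linear_combination a3 - a0)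
    · rw [← map_mul, ← map_one φ]
      refine congrArg φ (Subtype.ext (Subtype.ext (show n.1.1 * n.1.1 = 1 from ?_)))
      rw [en, ← Matrix.map_mul, ← Matrix.map_one (Int.castRingHom E) (map_zero _) (map_one _)]
      exact congrArg (Matrix.map · _) (by decide +kernel)
    · rw [← map_mul, ← map_mul]
      refine congrArg φ (Subtype.ext (Subtype.ext (show n.1.1 * t.1.1 = t'.1.1 * n.1.1 from ?_)))
      rw [en, et, et', ← Matrix.map_mul, ← Matrix.map_mul]
      exact congrArg (Matrix.map · _) (by clear et et'; revert S; decide +kernel)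
  obtain ⟨a, ea, a2, da, a01, a23⟩ := key {0, 1} (by decide) (by decide) (by decide)
  obtain ⟨b, eb, b2, db, b02, -⟩ := key {0, 2} (by decide) (by decide) (by decide)
  obtain ⟨v, v0, va, vb⟩ := h.toPre.exists_fix (hG a) (hG b) a2 b2 ((show Commute a b from Subtype.ext (Subtype.ext
    (show a.1.1 * b.1.1 = b.1.1 * a.1.1 by
      rw [ea, eb, ← Matrix.map_mul, ← Matrix.map_mul]; exact congrArg (Matrix.map · _) (by decide +kernel)))).map G) da db
  have l : ∀ {S : Set (Fin 4)} {x : O (Q K)}, O.fix x ≤ Fix ((Blk _ (fun i => Pi.single i 1) S).map F) → x.1 v = v → ∀ {T : Set (Fin 4)}, T ⊆ S →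
      Blk _ (fun i => Pi.single i 1) T ≤ (stabV v).comap F := fun l e T s g m => l (O.mem_fix.2 e) _ ⟨g, Blk_mono s m, rfl⟩
  have top : Blk _ (fun i => Pi.single i 1) Set.univ ≤ (stabV v).comap F :=
    gen_Blk hσ.isHerm he hd hσ (by simp [Set.ncard_univ]) (by omega) (o := 3) (w := 2) (Set.mem_univ _) (Set.mem_univ _) (by decide)
      (gen_Blk hσ.isHerm he hd hσ (by rw [Set.ncard_sdiff_singleton_of_mem (Set.mem_univ _)]; simp [Set.ncard_univ]) (by omega) (o := 1) (w := 0)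
        (by simp) (by simp) (by decide) (l b02 vb fun i => by fin_cases i <;> simp) (l a01 va fun i => by fin_cases i <;> simp))
      (l a23 va fun i => by fin_cases i <;> simp)
  refine h.irrV.not_fix (by rw [finrank_V]; norm_num) v0 fun x m => ?_
  obtain ⟨y, rfl⟩ := (range_emb e).ge m
  obtain ⟨y, rfl⟩ := QuotientGroup.mk'_surjective _ y
  exact eF y ▸ Subgroup.mem_comap.1 (top (Blk_univ.ge (Subgroup.mem_top (φ y))))

omit [IsAlgClosed K] in
/-- As `Pre.no_L5`; `Q₈ ≤ SU₂(q)`: `a = [[0,1],[-1,0]]`, `b = [[x,y],[-ȳ,x̄]]` of trace zero anticommuting with `a`: `x̄ = -x`, `ȳ = -y`, `-x² - y² = 1`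
(or transport from `SL₂(q)`). -/
theorem Pre.no_U5 (h : Pre M) {q : ℕ} (hq : Fintype.card E = q ^ 2) (ho : Odd q) (e : M ≃* PSU 5 E q) : False := by
  obtain ⟨σ, hσ⟩ := exists_isBar hq
  have h2 : (2 : E) ≠ 0 := fun z => by
    obtain ⟨n, hn⟩ := ho
    have := hσ.cast_q
    rw [hn] at this
    push_cast at this
    exact one_ne_zero (α := E) (by linear_combination this - n * z)
  choose d hd using fun S : Ev5 => ex5 hσ (dg S.1) (by revert S; decide +kernel)
  have ent : ∀ (S : Ev5) i, (d S).1.1 i i = if i ∈ S.1 then -1 else 1 := fun S i => by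
    rw [hd]; by_cases a : i ∈ S.1 <;> simp [dg, a]
  have mul : ∀ S T U : Ev5, dg U.1 = dg S.1 * dg T.1 → d U = d S * d T := fun S T U k => Subtype.ext (Subtype.ext
    (show (d U).1.1 = (d S).1.1 * (d T).1.1 by rw [hd, hd, hd, k, Matrix.map_mul]))
  refine no5 h ((emb e).comp (QuotientGroup.mk' _)) (fun _ => emb_mem e _) d mul (fun S k => ?_) (fun S c => ?_) fun S T c c' => ?_
  · obtain ⟨a, k⟩ := (mem_center_SU hq (by norm_num)).1 ((QuotientGroup.eq_one_iff _).1 ((map_eq_one_iff _ (emb_injective e)).1 k))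
    by_contra n
    obtain ⟨i, j, hi, hj⟩ := (by decide +kernel : ∀ S : Ev5, S.1 ≠ ∅ → ∃ i j, i ∈ S.1 ∧ j ∉ S.1) S n
    have a0 := ent S i
    have a1 := ent S j
    simp [k, hi, hj] at a0 a1
    exact h2 (by linear_combination a0 - a1)
  · let φ := hσ.suEquiv 5
    have he : Pres.IsON (stdForm σ (Fin 5)) fun i => Pi.single i 1 := fun i j => by simp [stdForm_single_left, Pi.single_apply]
    obtain ⟨f⟩ := nonempty_Blk_equiv hσ.isHerm he (by simp) hσ (S := (S.1 : Set (Fin 5))) (m := 2) (by simpa using c)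
    obtain ⟨g⟩ := nonempty_SU_two_equiv hq hσ.card_fixedField
    have m : φ (d S) ∈ Blk _ (fun i => Pi.single i 1) (S.1 : Set (Fin 5)) := fun i hi =>
      (hσ.suEquiv_apply _ _).trans (by rw [hd, dg, diagonal_map (map_zero _), diagonal_mulVec_single, if_neg (by simpa using hi), map_one, mul_one])
    have z : d S * d S = 1 := Subtype.ext (Subtype.ext (show (d S).1.1 * (d S).1.1 = 1 by
      rw [hd, ← Matrix.map_mul, (by decide +kernel : ∀ S : Ev5, dg S.1 * dg S.1 = 1), Matrix.map_one _ (map_zero _) (map_one _)]))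
    let ρ := φ.symm.toMonoidHom.comp ((Subgroup.subtype _).comp (f.trans g).symm.toMonoidHom)
    have r : ρ ((f.trans g) ⟨_, m⟩) = d S := by simp [ρ]
    have : (f.trans g) ⟨_, m⟩ = -1 := (PSL2.eq_one_or_neg_one_of_mul_self (fun e => h2 ((map_ofNat (fixedField σ).subtype 2).symm.trans (by rw [e, map_zero]))) (by
      rw [← map_mul, ← map_one (f.trans g)]
      exact congrArg _ (Subtype.ext (show φ _ * φ _ = 1 by rw [← map_mul, z, map_one])))).resolve_left fun k => by
        obtain ⟨i, hi⟩ := Finset.card_pos.1 (c.symm ▸ two_pos)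
        have a0 := ent S i
        rw [← r, k, map_one, if_pos hi] at a0
        replace a0 : (1 : E) = -1 := by simpa using a0
        exact h2 (by linear_combination a0)
    rw [this] at r
    obtain ⟨a, b, e₁, e₂, e₃⟩ := q8 (k := fixedField σ)
    exact ⟨ρ a, ρ b, by rw [← map_mul, e₁, r], by rw [← map_mul, e₂, r], by rw [← map_mul, ← map_mul, e₃, r]⟩
  · obtain ⟨n, k⟩ := (by decide +kernel : ∀ S T : Ev5, S.1.card = 4 → T.1.card = 4 → ∃ n : Fin 5,
      (of fun i j => if i = j + n then (1 : ℤ) else 0) * dg S.1 = dg T.1 * of fun i j => if i = j + n then (1 : ℤ) else 0) S T c c'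
    obtain ⟨g, eg⟩ := ex5 hσ (of fun i j => if i = j + n then (1 : ℤ) else 0) (by clear k; revert n; decide +kernel)
    exact isConj_iff.2 ⟨g, mul_inv_eq_iff_eq_mul.2 (Subtype.ext (Subtype.ext (show g.1.1 * (d S).1.1 = (d T).1.1 * g.1.1 by
      rw [eg, hd, hd, ← Matrix.map_mul, k, Matrix.map_mul])))⟩

end Cfsg.Lib.O7
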