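import Cfsg.Agent.Lib.O7.T2
import Cfsg.Agent.Lib.Unitary.Center

/-!
# `U₅(q)`, `q` odd: every involution of the diagonal `E₁₆` is the centre of a `Q₈` (`docs/O7.md`)
-/

set_option autoImplicit false

namespace Cfsg.Lib.O7

open QuadraticMap Module Matrix Cfsg.Lib.Orth Cfsg.Lib.Unitary
open scoped MatrixGroups

namespace U5

/-- the positions of the entries `-1` -/
def ng (s : Fin 16) (i : ℕ) : Bool := (s.1 + 16 * ((s.1 + s.1 / 2 + s.1 / 4 + s.1 / 8) % 2)).testBit i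

/-- the number of earlier positions -/
def ct (s : Fin 16) (i : ℕ) : ℕ := ((List.range i).filter (ng s)).length

/-- the involutions -/
def mT (s : Fin 16) : Matrix (Fin 5) (Fin 5) ℤ := diagonal fun i => if ng s i then -1 else 1

/-- the projection on the fixed space -/
def mP (s : Fin 16) : Matrix (Fin 5) (Fin 5) ℤ := diagonal fun i => if ng s i then 0 else 1

/-- alternating signs -/
def mD (s : Fin 16) : Matrix (Fin 5) (Fin 5) ℤ := diagonal fun i => if ng s i then (-1) ^ ct s i else 0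

/-- the pairing -/
def mS (s : Fin 16) : Matrix (Fin 5) (Fin 5) ℤ :=
  of fun i j => if ng s i ∧ ng s j ∧ ct s i / 2 = ct s j / 2 ∧ i ≠ j then 1 else 0

theorem rel (s : Fin 16) : mP s * mP s = mP s ∧ mP s * mD s = 0 ∧ mD s * mP s = 0 ∧ mP s * mS s = 0 ∧ mS s * mP s = 0 ∧
    mD s * mD s = 1 - mP s ∧ mS s * mS s = 1 - mP s ∧ mS s * mD s = -(mD s * mS s) ∧ mT s = mP s - (1 - mP s) ∧
    (mP s)ᵀ = mP s ∧ (mD s)ᵀ = mD s ∧ (mS s)ᵀ = mS s ∧ (mT s)ᵀ = mT s ∧ mT s * mT s = 1 ∧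
    (mP s + mD s * mS s) * mP s = mP s ∧ (mP s + mD s * mS s) * mD s = -mS s ∧ (mP s + mD s * mS s) * mS s = mD s ∧
    (mP s + mD s * mS s)ᵀ * (mP s + mD s * mS s) = 1 ∧ (mP s + mD s * mS s) * (mP s + mD s * mS s) = mT s := by
  revert s; decide +kernel

theorem det_mT (s : Fin 16) : (mT s).det = 1 := by
  rw [mT, det_diagonal]; revert s; decide +kernel

variable {E : Type*} [Field E] {σ : E →+* E} {q : ℕ}

/-- reduction of integral matrices -/
abbrev cz (E : Type*) [Field E] : Matrix (Fin 5) (Fin 5) ℤ →+* Matrix (Fin 5) (Fin 5) E := (Int.castRingHom E).mapMatrix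

theorem cz_star (A : Matrix (Fin 5) (Fin 5) ℤ) : ((cz E A).map σ)ᵀ = cz E Aᵀ := by
  ext i j; simp

theorem det_cz (s : Fin 16) : (cz E (mT s)).det = 1 := by rw [← RingHom.map_det, det_mT, map_one]

/-- the general element of order four -/
def mB (s : Fin 16) (u v : E) : Matrix (Fin 5) (Fin 5) E := cz E (mP s) + u • cz E (mD s) + v • cz E (mS s)

theorem mB_mul (s : Fin 16) (u v u' v' : E) : mB s u v * mB s u' v' =
    cz E (mP s) + (u * u' + v * v') • cz E (1 - mP s) + (u * v' - v * u') • cz E (mD s * mS s) := by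
  obtain ⟨h1, h2, h3, h4, h5, h6, h7, h8, -⟩ := rel s
  simp only [mB, add_mul, mul_add, Matrix.smul_mul, Matrix.mul_smul, ← map_mul, h1, h2, h3, h4, h5, h6, h7, h8, map_zero, map_neg]
  module

theorem mB_sq (s : Fin 16) {u v : E} (h : u * u + v * v = -1) : mB s u v * mB s u v = cz E (mT s) := by
  rw [mB_mul, h, (rel s).2.2.2.2.2.2.2.2.1, map_sub (cz E) (mP s)]
  module

theorem mB_star (s : Fin 16) {u v : E} (h : u * u + v * v = -1) (hu : σ u = -u) (hv : σ v = -v) :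
    ((mB s u v).map σ)ᵀ * mB s u v = 1 := by
  obtain ⟨-, -, -, -, -, -, -, -, -, h1, h2, h3, -⟩ := rel s
  have e : ((mB s u v).map σ)ᵀ = mB s (-u) (-v) := by
    ext i j
    have a1 : mP s j i = mP s i j := congrFun (congrFun h1 i) j
    have a2 : mD s j i = mD s i j := congrFun (congrFun h2 i) j
    have a3 : mS s j i = mS s i j := congrFun (congrFun h3 i) j
    simp [mB, hu, hv, a1, a2, a3]
  rw [e, mB_mul, show -u * u + -v * v = 1 by linear_combination -h, map_sub, map_one]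
  module

theorem mA_mul (s : Fin 16) (u v : E) : cz E (mP s + mD s * mS s) * mB s u v = mB s v (-u) := by
  obtain ⟨-, -, -, -, -, -, -, -, -, -, -, -, -, -, h1, h2, h3, -⟩ := rel s
  simp only [mB, mul_add, Matrix.mul_smul, ← map_mul, h1, h2, h3, map_neg]
  module

theorem mk (hσ : IsBar q σ) {A : Matrix (Fin 5) (Fin 5) E} (h : (A.map σ)ᵀ * A = 1) (d : (A * A).det = 1) :
    ∃ (g : SU 5 E q) (c : E), c * c = 1 ∧ g.1.1 = c • A := by
  rw [det_mul] at d
  refine ⟨⟨⟨A.det • A, by rw [det_smul, Fintype.card_fin]; linear_combination (A.det ^ 4 + A.det ^ 2 + 1) * d⟩,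
    hσ.mem_SU_iff.2 ?_⟩, _, d, rfl⟩
  rcases mul_self_eq_one_iff.1 d with e | e <;> simp only [e, one_smul, neg_smul]
  · exact h
  · rw [Matrix.map_neg _ (map_neg σ), transpose_neg, _root_.neg_mul_neg, h]

theorem skew (hσ : IsBar q σ) (ho : Odd q) : ∃ u v : E, u * u + v * v = -1 ∧ σ u = -u ∧ σ v = -v := by
  obtain ⟨δ, h0, hδ⟩ := hσ.exists_skew
  have := hσ.finite
  have := Fintype.ofFinite (fixedField σ)
  have m : (δ * δ)⁻¹ ∈ fixedField σ := by rw [mem_fixedField, map_inv₀, map_mul, hδ, _root_.neg_mul_neg]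
  obtain ⟨a, b, e⟩ := FiniteField.exists_root_sum_quadratic (R := fixedField σ) (f := Polynomial.X ^ 2)
    (g := Polynomial.X ^ 2 + Polynomial.C ⟨_, m⟩) (Polynomial.degree_X_pow 2) (Polynomial.degree_X_pow_add_C (by norm_num) _)
    (by rw [← Nat.card_eq_fintype_card, hσ.card_fixedField]; exact Nat.odd_iff.1 ho)
  have e' : (a : E) ^ 2 + ((b : E) ^ 2 + (δ * δ)⁻¹) = 0 := by simpa using congrArg Subtype.val e
  refine ⟨δ * a, δ * b, ?_, by rw [map_mul, hδ, mem_fixedField.1 a.2, neg_mul], by rw [map_mul, hδ, mem_fixedField.1 b.2, neg_mul]⟩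
  linear_combination δ * δ * e' - mul_inv_cancel₀ (mul_ne_zero h0 h0)

/-- the diagonal involutions -/
def tS (hσ : IsBar q σ) (s : Fin 16) : SU 5 E q := ⟨⟨cz E (mT s), det_cz s⟩, hσ.mem_SU_iff.2 (by
  obtain ⟨-, -, -, -, -, -, -, -, -, -, -, -, h1, h2, -⟩ := rel s
  rw [cz_star, h1, ← map_mul, h2, map_one])⟩

theorem tS_mul (hσ : IsBar q σ) {i j l : Fin 16} (h : mT i * mT j = mT l) : tS hσ i * tS hσ j = tS hσ l :=
  Subtype.ext (Subtype.ext (show cz E _ * cz E _ = cz E _ by rw [← map_mul, h]))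

theorem q8 (hσ : IsBar q σ) (ho : Odd q) (s : Fin 16) :
    ∃ a b : SU 5 E q, a * a = tS hσ s ∧ b * b = tS hσ s ∧ a * b * (a * b) = tS hσ s := by
  obtain ⟨u, v, h, hu, hv⟩ := skew hσ ho
  obtain ⟨-, -, -, -, -, -, -, -, -, -, -, -, -, -, -, -, -, h1, h2⟩ := rel s
  have e : cz E (mP s + mD s * mS s) * cz E (mP s + mD s * mS s) = cz E (mT s) := by rw [← map_mul, h2]
  obtain ⟨a, c, hc, ea⟩ := mk hσ (A := cz E (mP s + mD s * mS s)) (by rw [cz_star, ← map_mul, h1, map_one])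
    (by rw [e, det_cz])
  obtain ⟨b, d, hd, eb⟩ := mk hσ (mB_star s h hu hv) (by rw [mB_sq s h, det_cz])
  refine ⟨a, b, Subtype.ext (Subtype.ext ?_), Subtype.ext (Subtype.ext ?_), Subtype.ext (Subtype.ext ?_)⟩
  · change a.1.1 * a.1.1 = cz E _
    rw [ea, Matrix.smul_mul, Matrix.mul_smul, smul_smul, hc, one_smul, e]
  · change b.1.1 * b.1.1 = cz E _
    rw [eb, Matrix.smul_mul, Matrix.mul_smul, smul_smul, hd, one_smul, mB_sq s h]
  · change a.1.1 * b.1.1 * (a.1.1 * b.1.1) = cz E _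
    have e2 : a.1.1 * b.1.1 = (c * d) • mB s v (-u) := by rw [ea, eb, Matrix.smul_mul, Matrix.mul_smul, smul_smul, mA_mul]
    rw [e2, Matrix.smul_mul, Matrix.mul_smul, smul_smul,
      mB_sq s (by linear_combination h), show c * d * (c * d) = 1 by linear_combination d * d * hc + hd, one_smul]

end U5

open U5 in
theorem Pre.no_U5' {K : Type*} [Field K] {M : Subgroup (O (Q K))} {E : Type*} [Field E] [Fintype E] (h : Pre M) {q : ℕ}
    (hq : Fintype.card E = q ^ 2) (ho : Odd q) (e : M ≃* PSU 5 E q) : False := by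
  obtain ⟨σ, hσ⟩ := exists_isBar hq
  let F : SU 5 E q →* O (Q K) := (emb e).comp (QuotientGroup.mk' _)
  have h2 : (-1 : E) ≠ 1 := fun c => by
    obtain ⟨k, rfl⟩ := ho
    have := hσ.cast_q
    push_cast at this
    exact one_ne_zero (α := E) (by linear_combination this + k * c)
  have z : F (tS hσ 0) = 1 := by
    rw [show tS hσ 0 = 1 from Subtype.ext (Subtype.ext (show cz E _ = 1 by
      rw [show mT 0 = 1 by decide +kernel, map_one])), map_one]
  have k1 : ∀ i, F (tS hσ i) = 1 → i = 0 := fun i c => by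
    by_contra n
    obtain ⟨a, ha⟩ := (mem_center_SU hq (by norm_num)).1
      ((QuotientGroup.eq_one_iff _).1 (emb_injective e (c.trans (map_one _).symm)))
    obtain ⟨x, y, hx, hy⟩ := (by decide +kernel : ∀ i : Fin 16, i ≠ 0 → ∃ x y, mT i x x = -1 ∧ mT i y y = 1) i n
    have e1 : ∀ x, ((mT i x x : ℤ) : E) = a := fun x => (congrFun (congrFun ha x) x).trans (by simp)
    exact h2 (by simpa [hx, hy] using (e1 x).trans (e1 y).symm)
  have sq : ∀ i, F (tS hσ i) * F (tS hσ i) = 1 := fun i => by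
    rw [← map_mul, tS_mul hσ (l := 0) (by revert i; decide +kernel), z]
  have ml : ∀ i j : Fin 16, ∃ l, (l = 0 → i = j) ∧ mT i * mT j = mT l := by decide +kernel
  let A : Subgroup (O (Q K)) :=
    { carrier := Set.range fun i => F (tS hσ i)
      one_mem' := ⟨0, z⟩
      mul_mem' := by
        rintro _ _ ⟨i, rfl⟩ ⟨j, rfl⟩
        exact (ml i j).imp fun l e => by rw [← map_mul, tS_mul hσ e.2]
      inv_mem' := by
        rintro _ ⟨i, rfl⟩
        exact ⟨i, (inv_eq_of_mul_eq_one_left (sq i)).symm⟩ }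
  let f : Fin 16 ≃ A := Equiv.ofInjective _ fun i j c => by
    obtain ⟨l, h1, h2⟩ := ml i j
    exact h1 (k1 l (by rw [← tS_mul hσ h2, map_mul, show F (tS hσ i) = F (tS hσ j) from c, sq]))
  have c : ∀ i, F (tS hσ i) ≠ 1 → dm (F (tS hσ i)) = 4 := fun i n => by
    obtain ⟨a, b, e1, e2, e3⟩ := q8 hσ ho i
    exact h.dm_of_q8 (a := F a) (b := F b) (emb_mem e _) (sq i) n (by rw [← map_mul, e1]) (by rw [← map_mul, e2])
      (by rw [← map_mul, ← map_mul, e3])
  refine h.no16 (E := A) ?_ ?_ (by rw [← Nat.card_congr f, Nat.card_fin]) ?_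
  · rintro _ ⟨i, rfl⟩; exact emb_mem e _
  · rintro _ ⟨i, rfl⟩; exact sq i
  · rintro _ ⟨i, rfl⟩ _ ⟨j, rfl⟩ a b
    exact (c i a).trans (c j b).symm

end Cfsg.Lib.O7
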